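import Mathlib
import Cfsg.Agent.Lib.RootMax.NDCases
import Cfsg.Agent.Lib.ClMax.SLSub
import Cfsg.Agent.Lib.SUMax.Dec

/-!
Eichler transformations in a subgroup `X` of an orthogonal group: the additive groups `A(x)`,
the power trick for a long root element, irreducibility under root maps, and the bridge to
maximality in `Ω`.
-/

set_option autoImplicit false

namespace CfsgLib.OMax

open CfsgLib.Forms CfsgLib.ClMax CfsgLib.RootMax CfsgLib.OrthE Module QuadraticMap

variable {F V : Type*} [Field F] [AddCommGroup V] [Module F V] {Q : QuadraticForm F V}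

/-- The orthogonal complement for the polar form. -/
abbrev perp (Q : QuadraticForm F V) (W : Submodule F V) : Submodule F V := (ofQuad Q).perp W

/-- The polar form is non-degenerate on `W`. -/
abbrev ND (Q : QuadraticForm F V) (W : Submodule F V) : Prop := Disjoint W (perp Q W)

theorem mem_perp {W : Submodule F V} {v : V} : v ∈ perp Q W ↔ ∀ w ∈ W, polar Q w v = 0 :=
  Iff.rfl

theorem mem_perp' {W : Submodule F V} {v : V} : v ∈ perp Q W ↔ ∀ w ∈ W, polar Q v w = 0 :=
  (ofQuad Q).mem_perp'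

theorem mem_perp_span {s : Set V} {v : V} :
    v ∈ perp Q (Submodule.span F s) ↔ ∀ w ∈ s, polar Q w v = 0 := (ofQuad Q).mem_perp_span

theorem nd_iff {W : Submodule F V} : ND Q W ↔ ∀ x ∈ W, (∀ y ∈ W, polar Q x y = 0) → x = 0 :=
  (ofQuad Q).disjoint_perp_iff

theorem pc {x y : V} (h : polar Q x y = 0) : polar Q y x = 0 := by rwa [polar_comm]

theorem pself {x : V} (h : Q x = 0) : polar Q x x = 0 := by rw [polar_self', h, mul_zero]

theorem ne_zero_of_polar {x y : V} (h : polar Q x y ≠ 0) : x ≠ 0 := by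
  rintro rfl; exact h (polar_zero_left Q y)

theorem ne_zero_of_Q {x : V} (h : Q x ≠ 0) : x ≠ 0 := by
  rintro rfl; exact h Q.map_zero

theorem eich_ap {x a : V} (hx : Q x = 0) (ha : polar Q x a = 0) (v : V) :
    (eich Q x a).1 v = v + (polar Q a v - Q a * polar Q x v) • x - polar Q x v • a := by
  rw [eich_apply hx ha, polar_comm Q v a, polar_comm Q v x]; module

theorem refl_ap (u v : V) : (refl Q u).1 v = v - ((Q u)⁻¹ * polar Q u v) • u := by
  rw [refl_apply, polar_comm Q v u]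

/-- `a ∈ A(x)`: the Eichler transformation with centre `x` and direction `a` lies in `X`. -/
structure EA (X : Subgroup (O Q)) (x a : V) : Prop where
  sing : Q x = 0
  orth : polar Q x a = 0
  mem : eich Q x a ∈ X

/-- All Eichler transformations with centre `x` lie in `X`. -/
def EFull (X : Subgroup (O Q)) (x : V) : Prop := ∀ a, polar Q x a = 0 → EA X x a

/-- All Eichler transformations with centre and direction in `Z` lie in `X`. -/
def EIn (X : Subgroup (O Q)) (Z : Submodule F V) : Prop :=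
  ∀ y ∈ Z, Q y = 0 → ∀ b ∈ Z, polar Q y b = 0 → EA X y b

variable {X : Subgroup (O Q)}

namespace EA

variable {x a a' : V}

theorem mono {Y : Subgroup (O Q)} (h : EA X x a) (hXY : X ≤ Y) : EA Y x a :=
  ⟨h.sing, h.orth, hXY h.mem⟩

theorem add (h : EA X x a) (h' : EA X x a') : EA X x (a + a') :=
  ⟨h.sing, by rw [polar_add_right, h.orth, h'.orth, add_zero],
    eich_mul h.sing h.orth h'.orth ▸ X.mul_mem h.mem h'.mem⟩

theorem neg (h : EA X x a) : EA X x (-a) :=
  ⟨h.sing, by rw [polar_neg_right, h.orth, neg_zero], by rw [eich_neg]; exact X.inv_mem h.mem⟩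

theorem sub (h : EA X x a) (h' : EA X x a') : EA X x (a - a') := by
  rw [sub_eq_add_neg]; exact h.add h'.neg

theorem of_neg (h : EA X x (-a)) : EA X x a := by simpa using h.neg

theorem congr (h : EA X x a) (e : a = a') : EA X x a' := e ▸ h

theorem conj (h : EA X x a) {g : O Q} (hg : g ∈ X) : EA X (g.1 x) (g.1 a) :=
  ⟨by rw [O_map, h.sing], by rw [O_polar, h.orth],
    conj_eich g x a ▸ X.mul_mem (X.mul_mem hg h.mem) (X.inv_mem hg)⟩

theorem conj_fix (h : EA X x a) {g : O Q} (hg : g ∈ X) (hx : g.1 x = x) : EA X x (g.1 a) := by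
  have := h.conj hg
  rwa [hx] at this

theorem conj_sub (h : EA X x a) {g : O Q} (hg : g ∈ X) (hx : g.1 x = x) :
    EA X x (g.1 a - a) := (h.conj_fix hg hx).sub h

theorem of_smul_left {t : F} (ht : t ≠ 0) (h : EA X (t • x) a) : EA X x (t • a) := by
  have h1 : Q x = 0 := by simpa [Q_smul, ht] using h.sing
  have h2 : polar Q x a = 0 := by simpa [ht] using h.orth
  exact ⟨h1, by simp [h2], eich_smul_left t h1 h2 ▸ h.mem⟩

theorem smul_left {t : F} (h : EA X x (t • a)) (ha : polar Q x a = 0) : EA X (t • x) a :=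
  ⟨by simp [Q_smul, h.sing], by simp [ha], (eich_smul_left t h.sing ha).symm ▸ h.mem⟩

theorem swap (h : EA X x a) (ha : Q a = 0) : EA X a x :=
  ⟨ha, pc h.orth, eich_swap h.sing ha h.orth ▸ X.inv_mem h.mem⟩

/-- Multiples of a singular direction, seen from the other side. -/
theorem swap_smul {t : F} (h : EA X x (t • a)) (ha : Q a = 0) (hxa : polar Q x a = 0) :
    EA X a (t • x) := (h.smul_left hxa).swap ha

theorem add_self (h : EA X x a) (t : F) : EA X x (a + t • x) :=
  ⟨h.sing, by simp [h.orth, pself h.sing], (eich_add_smul_self t h.sing h.orth).symm ▸ h.mem⟩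

theorem sub_self (h : EA X x a) (t : F) : EA X x (a - t • x) :=
  (h.add_self (-t)).congr (by module)

theorem zero (hx : Q x = 0) : EA X x 0 :=
  ⟨hx, polar_zero_right Q x, by rw [eich_zero_right]; exact X.one_mem⟩

theorem self (hx : Q x = 0) (t : F) : EA X x (t • x) := by
  simpa using (zero (X := X) hx).add_self t

theorem sum {κ : Type*} (hx : Q x = 0) (s : Finset κ) {f : κ → V} (h : ∀ i ∈ s, EA X x (f i)) :
    EA X x (∑ i ∈ s, f i) :=
  Finset.sum_induction f (EA X x) (fun _ _ => add) (zero hx) h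

/-- Conjugating by an Eichler transformation fixing the centre. -/
theorem move {y b : V} (h : EA X x a) (hy : EA X y b) (h1 : polar Q y x = 0)
    (h2 : polar Q b x = 0) :
    EA X x ((polar Q b a - Q b * polar Q y a) • y - polar Q y a • b) :=
  (h.conj_sub hy.mem (eich_apply_of_orth (pc h1) (pc h2))).congr (by
    rw [eich_ap hy.sing hy.orth]; module)

end EA

theorem EIn.mono {Y : Subgroup (O Q)} {Z : Submodule F V} (h : EIn X Z) (hXY : X ≤ Y) : EIn Y Z :=
  fun y hy h1 b hb h2 => (h y hy h1 b hb h2).mono hXY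

theorem EIn.map {Z : Submodule F V} (h : EIn X Z) {g : O Q} (hg : g ∈ X) :
    EIn X (Z.map (g.1 : V →ₗ[F] V)) := by
  rintro _ ⟨y, hy, rfl⟩ h1 _ ⟨b, hb, rfl⟩ h2
  exact (h y hy ((O_map g y).symm.trans h1) b hb ((O_polar g y b).symm.trans h2)).conj hg

theorem EFull.conj {x : V} (h : EFull X x) {g : O Q} (hg : g ∈ X) : EFull X (g.1 x) := by
  intro a ha
  obtain ⟨b, rfl⟩ := g.1.surjective a
  exact (h b ((O_polar g x b).symm.trans ha)).conj hg

theorem EFull.smul {x : V} (h : EFull X x) {t : F} (ht : t ≠ 0) : EFull X (t • x) := by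
  intro a ha
  have h1 : polar Q x a = 0 := by simpa [ht] using ha
  exact (h _ (by simp [h1])).smul_left h1

theorem eich_pow {x a : V} (hx : Q x = 0) (ha : polar Q x a = 0) (n : ℕ) :
    eich Q x a ^ n = eich Q x ((n : F) • a) := by
  induction n with
  | zero => simp [eich_zero_right]
  | succ n ih => rw [pow_succ, ih, eich_mul hx (by simp [ha]) ha, Nat.cast_succ, add_smul, one_smul]

theorem O_pow_apply (g : O Q) (n : ℕ) (v : V) : (g ^ n).1 v = (g.1 ^ n) v := rfl

/-- Two opposite long root elements: their product has order dividing `q² - 1` unless the trace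
is `± 2`. -/
theorem pow_eq_one_of_opposite [Fintype F] {x z a b : V} (hx : Q x = 0) (hz : Q z = 0)
    (ha : Q a = 0) (hb : Q b = 0) (hxa : polar Q x a = 0) (hzb : polar Q z b = 0)
    (hxb : polar Q x b = 0) (hza : polar Q z a = 0) (h0 : polar Q x z * polar Q a b ≠ 0)
    (h4 : polar Q x z * polar Q a b ≠ 4) :
    (eich Q z b * eich Q x a) ^ (Fintype.card F ^ 2 - 1) = 1 := by
  have h1 : polar Q x z ≠ 0 := left_ne_zero_of_mul h0
  have h2 : polar Q a b ≠ 0 := right_ne_zero_of_mul h0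
  set α := polar Q x z with hα
  set β := polar Q a b with hβ
  have hτ : (2 - α * β) ^ 2 ≠ 4 := fun h =>
    mul_ne_zero h0 (sub_ne_zero.2 h4) (by linear_combination h)
  have hα' : polar Q z x = α := polar_comm Q z x
  have hβ' : polar Q b a = β := polar_comm Q b a
  have e : ∀ v, (eich Q z b * eich Q x a).1 v = v + polar Q a v • x - polar Q x v • a +
      (polar Q b v - polar Q x v * β) • z - (polar Q z v + polar Q a v * α) • b := fun v => by
    rw [O_mul_apply, eich_ap hz hzb, eich_ap hx hxa]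
    simp only [ha, hb, polar_add_right, polar_sub_right, polar_smul_right, smul_eq_mul, pc hxb, hza,
      hα', hβ']
    module
  have key : ∀ v, (v = x ∨ v = z ∨ v = a ∨ v = b) →
      ((eich Q z b * eich Q x a).1 ^ (Fintype.card F ^ 2 - 1)) v = v := by
    intro v hv
    refine pow_card_sq_sub_one_apply _ hτ ?_
    rcases hv with rfl | rfl | rfl | rfl <;>
    · simp only [e, polar_add_right, polar_sub_right, polar_smul_right, smul_eq_mul, pself hx,
        pself hz, pself ha, pself hb, hxa, pc hxa, hzb, pc hzb, hxb, pc hxb, hza, pc hza,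
        hα', hβ', ← hα, ← hβ]
      module
  refine O_ext fun v => ?_
  rw [O_pow_apply, O_one_apply]
  set w := v - (polar Q z v / α) • x - (polar Q x v / α) • z - (polar Q b v / β) • a -
    (polar Q a v / β) • b with hw
  have hfix : (eich Q z b * eich Q x a).1 w = w := by
    have k : ∀ u, (u = x ∨ u = z ∨ u = a ∨ u = b) → polar Q u w = 0 := by
      rintro u (rfl | rfl | rfl | rfl) <;>
      · simp only [hw, polar_sub_right, polar_smul_right, smul_eq_mul, pself hx,
          pself hz, pself ha, pself hb, hxa, pc hxa, hzb, pc hzb, hxb, pc hxb, hza, pc hza,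
          hα', hβ', ← hα, ← hβ]
        field_simp
        ring
    rw [e, k x (by simp), k z (by simp), k a (by simp), k b (by simp)]
    simp
  have hfix' : ∀ n : ℕ, ((eich Q z b * eich Q x a).1 ^ n) w = w := fun n => by
    induction n with
    | zero => rfl
    | succ n ih => rw [pow_succ, LinearEquiv.mul_apply, hfix, ih]
  have hv : v = w + (polar Q z v / α) • x + (polar Q x v / α) • z + (polar Q b v / β) • a +
      (polar Q a v / β) • b := by rw [hw]; module
  conv_lhs => rw [hv]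
  simp only [map_add, map_smul, hfix', key x (by simp), key z (by simp), key a (by simp),
    key b (by simp)]
  exact hv.symm

/-- The power trick: a long root element `E(z, b)` opposite to `x` gives a multiple of `b` in
`A(x)`. -/
theorem EA.power [Finite F] {x z a b : V} (h1 : EA X x a) (h2 : EA X z b) (hb : Q b = 0)
    (hxb : polar Q x b = 0) (hxz : polar Q x z ≠ 0) (hab : polar Q a b ≠ 0) :
    EA X x ((Q a / polar Q a b) • b) := by
  have := Fintype.ofFinite F
  have key : ∀ a, EA X x a → polar Q a b ≠ 0 → polar Q z a = 0 →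
      polar Q x z * polar Q a b ≠ 4 → EA X x ((Q a / polar Q a b) • b) := by
    intro a h1 hab hza h4
    set l := Q a / polar Q a b with hl
    have hzb := h2.orth
    have e1 : polar Q (a - l • b) b = polar Q a b := by simp [pself hb]
    have k := pow_eq_one_of_opposite h1.sing h2.sing (a := a - l • b) (b := b)
      (by rw [Q_sub, Q_smul, hb, polar_smul_right, hl]; simp [hab]) hb
      (by simp [h1.orth, hxb]) hzb hxb (by simp [hza, hzb]) (by rw [e1]; exact mul_ne_zero hxz hab)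
      (by rwa [e1])
    have hlb : polar Q x (l • b) = 0 := by simp [hxb]
    have c1 : Commute (eich Q x (a - l • b)) (eich Q x (l • b)) :=
      eich_comm h1.sing (by simp [h1.orth, hxb]) hlb
    have c2 : Commute (eich Q z b) (eich Q x (l • b)) := by
      rw [← eich_smul_left l h1.sing hxb, eich_swap hb h2.sing (pc hzb),
        eich_swap hb (by simp [Q_smul, h1.sing]) (by simp [pc hxb])]
      exact (Commute.inv_inv (eich_comm hb (pc hzb) (by simp [pc hxb])))
    have e2 : eich Q z b * eich Q x a = eich Q z b * eich Q x (a - l • b) * eich Q x (l • b) := by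
      rw [mul_assoc, eich_mul h1.sing (by simp [h1.orth, hxb]) hlb, sub_add_cancel]
    have h3 := X.pow_mem (X.mul_mem h2.mem h1.mem) (Fintype.card F ^ 2 - 1)
    rw [e2, (c2.mul_left c1).mul_pow, k, one_mul, eich_pow h1.sing hlb,
      Nat.cast_sub (Nat.one_le_pow _ _ Fintype.card_pos), Nat.cast_pow,
      FiniteField.cast_card_eq_zero] at h3
    refine EA.of_neg ⟨h1.sing, by simp [hxb], ?_⟩
    simpa using h3
  have hzx : polar Q z x ≠ 0 := by rwa [polar_comm]
  set a' := a - (polar Q z a / polar Q z x) • x with ha'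
  have e1 : polar Q a' b = polar Q a b := by simp [ha', hxb]
  have e2 : Q a' = Q a := by simp [ha', Q_sub, Q_smul, h1.sing, pc h1.orth]
  have e3 : polar Q z a' = 0 := by simp [ha', hzx]
  have h3 : EA X x a' := h1.sub_self _
  rw [← e1, ← e2]
  rw [← e1] at hab
  by_cases h4 : polar Q x z * polar Q a' b = 4
  · refine EA.of_neg ((key (-a') h3.neg (by simpa using hab) (by simp [e3]) fun h => ?_).congr ?_)
    · rw [polar_neg_left] at h
      have h8 : (2 : F) ^ 3 = 0 := by linear_combination -h - h4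
      have h9 : (2 : F) = 0 := pow_eq_zero_iff (by norm_num) |>.1 h8
      exact mul_ne_zero hxz hab (by linear_combination h4 + 2 * h9)
    · rw [Q_neg, polar_neg_left, div_neg, neg_smul]
  · exact key a' h3 hab e3 h4

section fin

variable [FiniteDimensional F V]

theorem E_le_of_two (hQ : Nondeg Q) (h3 : 3 ≤ finrank F V) {x y : V} (hx : Q x = 0) (hy : Q y = 0)
    (h1 : EFull X x) (h2 : EFull X y) (hxy : polar Q x y ≠ 0) : E Q ≤ X := by
  have hh : Hyp Q x ((polar Q x y)⁻¹ • y) := ⟨hx, by simp [Q_smul, hy], by simp [hxy]⟩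
  exact hh.E_le hQ (hh.exists_nonsingular hQ h3) X (fun w h _ => (h1 w (pc h)).mem)
    fun w _ h => (h2.smul (inv_ne_zero hxy) w (pc h)).mem

theorem decomp (hQ : Nondeg Q) {U : Submodule F V} (hU : ND Q U) (v : V) :
    ∃ a ∈ perp Q U, ∃ b ∈ U, v = a + b := exists_decomp (P := ofQuad Q) hQ hU v

omit [FiniteDimensional F V] in
theorem exists_polar_eq {U : Submodule F V} (hU : ND Q U) {x : V} (hx : x ∈ U) (hx0 : x ≠ 0)
    (c : F) : ∃ u ∈ U, polar Q x u = c := by
  obtain ⟨u, hu, h⟩ := exists_B_eq_one_mem hU hx hx0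
  rw [ofQuad_B] at h
  exact ⟨c • u, U.smul_mem _ hu, by simp [h]⟩

omit [FiniteDimensional F V] in
theorem exists_partner {U : Submodule F V} (hU : ND Q U) {x : V} (hx : x ∈ U) (hx0 : x ≠ 0)
    (hxs : Q x = 0) : ∃ y ∈ U, Q y = 0 ∧ polar Q x y = 1 := by
  obtain ⟨y, hy, h1, h2⟩ := exists_partner_mem hU hx hx0 ((ofQuad_sing Q x).2 hxs)
  exact ⟨y, hy, (ofQuad_sing Q y).1 h1, by rwa [polar_comm]⟩

omit [FiniteDimensional F V] in
/-- Singular vectors span a non-degenerate subspace containing one. -/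
theorem exists_sing_not_orth {Z : Submodule F V} (hZ : ND Q Z) {e : V} (he : e ∈ Z) (he0 : e ≠ 0)
    (hes : Q e = 0) {w : V} (hw : w ∉ perp Q Z) : ∃ y ∈ Z, Q y = 0 ∧ polar Q y w ≠ 0 := by
  obtain ⟨y, hy, h1, h2, -⟩ := exists_sing_not_mem hZ he he0 ((ofQuad_sing Q e).2 hes)
    (U₁ := perp Q (Submodule.span F {w})) (U₂ := ⊥) bot_le
    (fun h => hw fun z hz => pc (h hz w (Submodule.mem_span_singleton_self w)))
    (fun h => he0 (h he))
  exact ⟨y, hy, (ofQuad_sing Q y).1 h1, fun h => h2 (mem_perp_span.2 (by simpa using pc h))⟩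

theorem finrank_inf_perp (hQ : Nondeg Q) (U : Submodule F V) (s : Finset V) :
    finrank F U ≤ finrank F ↥(U ⊓ perp Q (Submodule.span F (s : Set V))) + s.card :=
  (finrank_inf_perp_ge (P := ofQuad Q) hQ U _).trans
    (Nat.add_le_add_left (finrank_span_finset_le_card s) _)

/-- A singular vector of `U` orthogonal to a short list of vectors. -/
theorem exists_sing_orth [Finite F] (hQ : Nondeg Q) (U : Submodule F V) (l : List V)
    (h : l.length + 3 ≤ finrank F U) : ∃ x ∈ U, x ≠ 0 ∧ Q x = 0 ∧ ∀ w ∈ l, polar Q w x = 0 := by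
  classical
  have h1 := finrank_inf_perp hQ U l.toFinset
  have h2 := l.toFinset_card_le
  obtain ⟨x, hx, h3, h4⟩ := quad_exists_sing Q
    (Z := U ⊓ perp Q (Submodule.span F (l.toFinset : Set V))) (by omega)
  exact ⟨x, hx.1, h3, h4, fun w hw => hx.2 w (Submodule.subset_span (by simpa using hw))⟩

/-- A vector of `U` orthogonal to a short list of vectors, outside a small subspace. -/
theorem exists_orth_not_mem (hQ : Nondeg Q) (U W : Submodule F V) (l : List V)
    (h : l.length + finrank F W < finrank F U) : ∃ x ∈ U, x ∉ W ∧ ∀ w ∈ l, polar Q w x = 0 := by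
  classical
  have h1 := finrank_inf_perp hQ U l.toFinset
  have h2 := l.toFinset_card_le
  obtain ⟨x, hx, h3⟩ := SetLike.not_le_iff_exists.1
    (show ¬ U ⊓ perp Q (Submodule.span F (l.toFinset : Set V)) ≤ W from fun h => by
      have := Submodule.finrank_mono h
      omega)
  exact ⟨x, hx.1, h3, fun w hw => hx.2 w (Submodule.subset_span (by simpa using hw))⟩

/-- A vector with prescribed product one with `u` and orthogonal to a subspace avoiding `u`. -/
theorem exists_dual (hQ : Nondeg Q) (H : Submodule F V) {u : V} (hu : u ∉ H) :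
    ∃ a, polar Q a u = 1 ∧ ∀ h ∈ H, polar Q a h = 0 := (ofQuad Q).exists_dual_vec hQ H hu

/-- The same inside a non-degenerate subspace. -/
theorem exists_dual_mem (hQ : Nondeg Q) {U : Submodule F V} (hU : ND Q U) {H : Submodule F V}
    (hH : H ≤ U) {u : V} (huU : u ∈ U) (hu : u ∉ H) :
    ∃ a ∈ U, polar Q a u = 1 ∧ ∀ h ∈ H, polar Q a h = 0 := by
  obtain ⟨a, h1, h2⟩ := exists_dual hQ H hu
  obtain ⟨c, hc, b, hb, rfl⟩ := decomp hQ hU a
  refine ⟨b, hb, ?_, fun h hh => ?_⟩
  · rwa [polar_add_left, mem_perp'.1 hc u huU, zero_add] at h1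
  · have := h2 h hh
    rwa [polar_add_left, mem_perp'.1 hc h (hH hh), zero_add] at this

theorem nd_inf_perp_pair {U : Submodule F V} (hU : ND Q U) {x y : V} (hx : x ∈ U) (hy : y ∈ U)
    (hxs : Q x = 0) (hys : Q y = 0) (hxy : polar Q x y = 1) :
    ND Q (U ⊓ perp Q (Submodule.span F {x, y})) :=
  disjoint_inf_perp_pair hU hx hy ((ofQuad_sing Q x).2 hxs) ((ofQuad_sing Q y).2 hys)
    (by rwa [ofQuad_B, polar_comm])

/-- Two non-orthogonal vectors orthogonal to a singular vector of `Z`. -/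
theorem exists_pair_orth (hQ : Nondeg Q) {Z : Submodule F V} (hZ : ND Q Z) (h3 : 3 ≤ finrank F Z)
    {y : V} (hy : y ∈ Z) (hy0 : y ≠ 0) (hys : Q y = 0) :
    ∃ b ∈ Z, ∃ b' ∈ Z, polar Q y b = 0 ∧ polar Q y b' = 0 ∧ polar Q b b' = 1 := by
  obtain ⟨y', hy', h1, h2⟩ := exists_partner hZ hy hy0 hys
  obtain ⟨b, hb, hb0, h4⟩ := exists_orth_not_mem hQ Z ⊥ [y, y'] (by simp; omega)
  have hb' : b ∈ Z ⊓ perp Q (Submodule.span F {y, y'}) := ⟨hb, mem_perp_span.2 (by simpa using h4)⟩
  obtain ⟨b', hb'', h5⟩ := exists_polar_eq (nd_inf_perp_pair hZ hy hy' hys h1 h2) hb'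
    (by simpa using hb0) 1
  exact ⟨b, hb, b', hb''.1, h4 y (by simp), hb''.2 y (Submodule.subset_span (by simp)), h5⟩

/-- Irreducibility under the root maps of `Z`, for an additively closed predicate. -/
theorem irr_of_roots [Finite F] (hQ : Nondeg Q) {Z : Submodule F V} (hZ : ND Q Z)
    (h3 : 3 ≤ finrank F Z) {p : V → Prop} (hsub : ∀ u v, p u → p v → p (u - v))
    (hR : ∀ y ∈ Z, Q y = 0 → ∀ b ∈ Z, polar Q y b = 0 → ∀ w, p w →
      p ((polar Q b w - Q b * polar Q y w) • y - polar Q y w • b))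
    {w : V} (hw : p w) (hwZ : w ∉ perp Q Z) (z : V) (hz : z ∈ Z) : p z := by
  have hadd : ∀ u v, p u → p v → p (u + v) := fun u v hu hv => by
    simpa using hsub _ _ hu (hsub _ _ (hsub _ _ hv hv) hv)
  have key : ∀ y ∈ Z, Q y = 0 → ∀ w, p w → polar Q y w ≠ 0 →
      (∀ c : F, p (c • y)) ∧ ∀ b ∈ Z, polar Q y b = 0 → p b := by
    intro y hy hys w hw hyw
    have f := fun b hb h => hR y hy hys b hb h w hw
    have k1 : ∀ c : F, p (c • y) := fun c => by
      obtain ⟨b, hb, b', hb', h1, h2, h4⟩ := exists_pair_orth hQ hZ h3 hy (ne_zero_of_polar hyw) hys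
      have hc := Z.smul_mem (c / polar Q y w) hb'
      convert hsub _ _ (hadd _ _ (f b hb h1) (f _ hc (by simp [h2]))) (f _ (Z.add_mem hb hc)
        (by simp [h1, h2])) using 1
      rw [Q_add, polar_add_left, polar_smul_right, h4]
      match_scalars
      · simp only [smul_eq_mul]; field_simp; ring
      · ring
      · ring
    refine ⟨k1, fun b hb h => ?_⟩
    have h1 := f _ (Z.smul_mem (polar Q y w)⁻¹ hb) (by simp [h])
    generalize polar Q _ w - _ = c at h1
    have := hsub _ _ (k1 c) h1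
    rwa [sub_sub_cancel, smul_smul, mul_inv_cancel₀ hyw, one_smul] at this
  obtain ⟨e, he, he0, hes⟩ := quad_exists_sing Q h3
  obtain ⟨y, hy, hys, hyw⟩ := exists_sing_not_orth hZ he he0 hes hwZ
  obtain ⟨k1, k2⟩ := key y hy hys w hw hyw
  obtain ⟨y', hy', h1, h2⟩ := exists_partner hZ hy (ne_zero_of_polar hyw) hys
  obtain ⟨k3, -⟩ := key y' hy' h1 y (by simpa using k1 1) (by rw [polar_comm, h2]; simp)
  simpa using hadd _ _ (k2 (z - polar Q y z • y') (Z.sub_mem hz (Z.smul_mem _ hy')) (by simp [h2]))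
    (k3 (polar Q y z))

theorem EA.of_irr [Finite F] (hQ : Nondeg Q) {Z : Submodule F V} (hZ : ND Q Z)
    (h3 : 3 ≤ finrank F Z) (hR : EIn X Z) {x w : V} (hx : x ∈ perp Q Z) (hw : EA X x w)
    (hwZ : w ∉ perp Q Z) (z : V) (hz : z ∈ Z) : EA X x z :=
  irr_of_roots hQ hZ h3 (p := EA X x) (fun _ _ => EA.sub)
    (fun y hy hys b hb h _ hw => hw.move (hR y hy hys b hb h) (hx y hy) (hx b hb)) hw hwZ z hz

theorem sing_add_sing [Finite F] {Z : Submodule F V} (hZ : ND Q Z) (h3 : 3 ≤ finrank F Z) {a : V}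
    (ha : a ∈ Z) : ∃ u ∈ Z, ∃ v ∈ Z, Q u = 0 ∧ Q v = 0 ∧ a = u + v := by
  by_cases h : a ∈ perp Q Z
  · exact ⟨0, Z.zero_mem, 0, Z.zero_mem, by simp, by simp,
      by simpa using Submodule.disjoint_def.1 hZ a ha h⟩
  obtain ⟨e, he, he0, hes⟩ := quad_exists_sing Q h3
  obtain ⟨y, hy, hys, hya⟩ := exists_sing_not_orth hZ he he0 hes h
  refine ⟨a - (Q a / polar Q y a) • y, Z.sub_mem ha (Z.smul_mem _ hy), _, Z.smul_mem _ hy, ?_,
    by simp [Q_smul, hys], (sub_add_cancel _ _).symm⟩
  rw [Q_sub, Q_smul, hys, polar_smul_right, polar_comm Q a y]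
  simp [hya]

omit [FiniteDimensional F V] in
theorem nd_top (hQ : Nondeg Q) : ND Q ⊤ := nd_iff.2 fun x _ h => hQ x fun y => h y trivial

theorem nd_perp (hQ : Nondeg Q) {U : Submodule F V} (hU : ND Q U) : ND Q (perp Q U) :=
  (ofQuad Q).disjoint_perp_perp hQ hU

theorem perp_perp (hQ : Nondeg Q) (U : Submodule F V) : perp Q (perp Q U) = U :=
  (ofQuad Q).perp_perp hQ U

theorem finrank_perp (hQ : Nondeg Q) (U : Submodule F V) :
    finrank F U + finrank F (perp Q U) = finrank F V := (ofQuad Q).finrank_perp hQ U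

omit [FiniteDimensional F V] in
theorem nd_pair {x y : V} (hx : Q x = 0) (hy : Q y = 0) (hxy : polar Q x y = 1) :
    ND Q (Submodule.span F {x, y}) :=
  (ofQuad Q).disjoint_perp_pair (pself hx) (pself hy) (by rwa [ofQuad_B, polar_comm])

omit [FiniteDimensional F V] in
theorem mem_perp_pair {x y v : V} :
    v ∈ perp Q (Submodule.span F {x, y}) ↔ polar Q x v = 0 ∧ polar Q y v = 0 := by
  simp [mem_perp_span]

omit [FiniteDimensional F V] in
theorem mem_perp_one {x v : V} : v ∈ perp Q (Submodule.span F {x}) ↔ polar Q x v = 0 := by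
  simp [mem_perp_span]

theorem finrank_perp_pair (hQ : Nondeg Q) (x y : V) :
    finrank F V ≤ finrank F (perp Q (Submodule.span F {x, y})) + 2 := by
  have := finrank_perp hQ (Submodule.span F {x, y})
  have := RootMax.finrank_span_pair_le (F := F) x y
  omega

/-- A vector orthogonal to a singular vector is a sum of two singular such vectors. -/
theorem sing_add_sing_orth [Finite F] (hQ : Nondeg Q) (h5 : 5 ≤ finrank F V) {x a : V}
    (hx : Q x = 0) (hx0 : x ≠ 0) (ha : polar Q x a = 0) :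
    ∃ u v, Q u = 0 ∧ Q v = 0 ∧ polar Q x u = 0 ∧ polar Q x v = 0 ∧ a = u + v := by
  obtain ⟨y, -, hy, hxy⟩ := exists_partner (nd_top hQ) trivial hx0 hx
  have h1 := finrank_perp_pair hQ x y
  obtain ⟨u, hu, v, hv, h2, h3, h4⟩ := sing_add_sing (nd_perp hQ (nd_pair hx hy hxy)) (by omega)
    (a := a - polar Q y a • x) (mem_perp_pair.2 ⟨by simp [ha, pself hx], by
      simp [polar_comm Q y x, hxy]⟩)
  have h5 := (mem_perp_pair.1 hu).1
  refine ⟨u + polar Q y a • x, v, by simp [Q_add, Q_smul, h2, hx, pc h5], h3,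
    by simp [h5, pself hx], (mem_perp_pair.1 hv).1, ?_⟩
  linear_combination (norm := module) h4

/-- A singular vector orthogonal to and outside a small subspace. -/
theorem exists_sing_out [Finite F] (hQ : Nondeg Q) (T : Submodule F V)
    (h : 2 * finrank F T + 3 ≤ finrank F V) : ∃ z ∈ perp Q T, z ∉ T ∧ Q z = 0 := by
  obtain ⟨W, hW⟩ := (perp Q T).exists_isCompl
  have h1 := finrank_perp hQ T
  have h2 := Submodule.finrank_add_eq_of_isCompl hW
  have h3 := finrank_inf_perp_ge (P := ofQuad Q) hQ (perp Q T) W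
  obtain ⟨z, hz, hz0, hzs⟩ := quad_exists_sing Q (Z := perp Q T ⊓ perp Q W) (by
    change finrank F (perp Q T) ≤ finrank F ↥(perp Q T ⊓ perp Q W) + _ at h3
    omega)
  refine ⟨z, hz.1, fun hT => hz0 (hQ z fun v => ?_), hzs⟩
  obtain ⟨a, ha, b, hb, rfl⟩ := Submodule.mem_sup.1 (hW.sup_eq_top ▸ Submodule.mem_top (x := v))
  rw [polar_add_right, mem_perp.1 ha z hT, pc (mem_perp.1 hz.2 b hb), add_zero]

theorem exists_sing_out_pair [Finite F] (hQ : Nondeg Q) (h7 : 7 ≤ finrank F V) (x a : V) :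
    ∃ z, Q z = 0 ∧ polar Q x z = 0 ∧ polar Q a z = 0 ∧ z ∉ Submodule.span F {x, a} := by
  have := RootMax.finrank_span_pair_le (F := F) x a
  obtain ⟨z, h1, h2, h3⟩ := exists_sing_out hQ (Submodule.span F {x, a}) (by omega)
  exact ⟨z, h3, (mem_perp_pair.1 h1).1, (mem_perp_pair.1 h1).2, h2⟩

theorem exists_dual_pair (hQ : Nondeg Q) {x a z : V} (h : z ∉ Submodule.span F {x, a}) :
    ∃ b, polar Q z b = 1 ∧ polar Q x b = 0 ∧ polar Q a b = 0 := by
  obtain ⟨b, h1, h2⟩ := exists_dual hQ _ h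
  exact ⟨b, by rwa [polar_comm], pc (h2 x (Submodule.subset_span (by simp))),
    pc (h2 a (Submodule.subset_span (by simp)))⟩

theorem exists_dual_one (hQ : Nondeg Q) {x z : V} (h : z ∉ Submodule.span F {x}) :
    ∃ b, polar Q z b = 1 ∧ polar Q x b = 0 := by
  obtain ⟨b, h1, h2⟩ := exists_dual hQ _ h
  exact ⟨b, by rwa [polar_comm], pc (h2 x (Submodule.mem_span_singleton_self x))⟩

theorem exists_nonsing (hQ : Nondeg Q) {S : Submodule F V} (h : finrank F V < 2 * finrank F S) :
    ∃ w ∈ S, Q w ≠ 0 := by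
  by_contra hh
  push Not at hh
  have := PQ.TS.two_mul_finrank_le (P := ofQuad Q) hQ
    (ts_of_forall_sing rfl fun a ha => (ofQuad_sing Q a).2 (hh a ha))
  omega

omit [FiniteDimensional F V] in
theorem not_mem_span_symm {x y : V} (hx : x ≠ 0) (h : y ∉ Submodule.span F {x}) :
    x ∉ Submodule.span F {y} := fun h' => by
  obtain ⟨c, rfl⟩ := Submodule.mem_span_singleton.1 h'
  refine h (Submodule.mem_span_singleton.2 ⟨c⁻¹, ?_⟩)
  rw [smul_smul, inv_mul_cancel₀ (left_ne_zero_of_smul hx), one_smul]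

omit [FiniteDimensional F V] in
theorem not_mem_left {x y z : V} (h : z ∉ Submodule.span F {x, y}) : z ∉ Submodule.span F {x} :=
  fun h' => h (Submodule.span_mono (by simp) h')

omit [FiniteDimensional F V] in
theorem not_mem_right {x y z : V} (h : z ∉ Submodule.span F {x, y}) : z ∉ Submodule.span F {y} :=
  fun h' => h (Submodule.span_mono (by simp) h')

/-- A vector orthogonal to the perp of `x` is a multiple of `x`. -/
theorem mem_span_of_orth (hQ : Nondeg Q) {x w : V} (h : ∀ a, polar Q x a = 0 → polar Q w a = 0) :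
    w ∈ Submodule.span F {x} := by
  by_contra h'
  obtain ⟨b, h1, h2⟩ := exists_dual_one hQ h'
  exact one_ne_zero (h1.symm.trans (h b h2))

theorem refl_mul_refl_mem (hQ : Nondeg Q) {a b : V} (ha : Q a ≠ 0) {t : F} (ht : t ≠ 0)
    (hab : Q b = t * t * Q a) : refl Q a * refl Q b ∈ commutator (O Q) := by
  rw [← refl_smul ht a]
  exact (mem_Om_iff _).1 (refl_mul_refl_mem_Om hQ (by simp [Q_smul, ht, ha]) (by rw [hab, Q_smul]))

theorem refl_mul_refl_mem' (hQ : Nondeg Q) {a b : V} (ha : Q a ≠ 0) (hab : Q b = Q a) :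
    refl Q a * refl Q b ∈ commutator (O Q) :=
  refl_mul_refl_mem hQ ha one_ne_zero (by simp [hab])

theorem E_eq [Finite F] (hQ : Nondeg Q) (h5 : 5 ≤ finrank F V) : E Q = commutator (O Q) :=
  hQ.E_eq_commutator_of_finite h5

theorem eich_mem [Finite F] (hQ : Nondeg Q) (h5 : 5 ≤ finrank F V) (x a : V) :
    eich Q x a ∈ commutator (O Q) := E_eq hQ h5 ▸ eich_mem_E x a

/-- Every isometry can be moved into `Ω` by reflections in vectors of a non-degenerate subspace of
dimension at least two. -/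
theorem exists_adjust [Finite F] (hQ : Nondeg Q) (h5 : 5 ≤ finrank F V) {Z : Submodule F V}
    (hZ : ND Q Z) (h2 : 2 ≤ finrank F Z) (g : O Q) :
    ∃ r : O Q, r * g ∈ commutator (O Q) ∧ (∀ v ∈ perp Q Z, r.1 v = v) ∧ ∀ v ∈ Z, r.1 v ∈ Z := by
  let R : Subgroup (O Q) :=
    { carrier := {r | (∀ v ∈ perp Q Z, r.1 v = v) ∧ ∀ v, r.1 v - v ∈ Z}
      mul_mem' := fun {a b} ha hb => ⟨fun v hv => by rw [O_mul_apply, hb.1 v hv, ha.1 v hv],
        fun v => by simpa [O_mul_apply] using Z.add_mem (ha.2 (b.1 v)) (hb.2 v)⟩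
      one_mem' := ⟨fun _ _ => rfl, fun v => by simp [O_one_apply]⟩
      inv_mem' := fun {a} ha => ⟨fun v hv => O_inv_apply_eq a (ha.1 v hv), fun v => by
        simpa [O_apply_inv_apply] using Z.neg_mem (ha.2 (a⁻¹.1 v))⟩ }
  have h : R ⊔ commutator (O Q) = ⊤ := eq_top_of_refl_of_siegel hQ _ (fun v hv => by
      obtain ⟨u, hu, e⟩ := quad_exists_eq hZ h2 (Q v)
      have h1 : refl Q u ∈ R := ⟨fun w hw => refl_apply_of_orth (pc (hw u hu)), fun w => by
        rw [refl_apply]; simpa using Z.smul_mem _ hu⟩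
      have h3 := Subgroup.mul_mem_sup h1 (refl_mul_refl_mem' hQ (e ▸ hv) e.symm)
      rwa [← mul_assoc, refl_mul_self, one_mul] at h3)
    fun u v _ _ _ => Subgroup.mem_sup_right (eich_mem hQ h5 u v)
  obtain ⟨r, hr, k, hk, e⟩ := Subgroup.mem_sup_of_normal_right.1 (h ▸ Subgroup.mem_top g)
  have hr' := R.inv_mem hr
  exact ⟨r⁻¹, by rwa [← e, inv_mul_cancel_left], hr'.1,
    fun v hv => by simpa using Z.add_mem (hr'.2 v) hv⟩

end fin

/-- The bridge to maximality in `Ω`. -/
theorem isMaximalIn_omega [Finite F] {ι : Type} [Fintype ι] [DecidableEq ι]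
    {Q : QuadraticForm F (ι → F)} (hQ : Nondeg Q) (h5 : 5 ≤ Fintype.card ι)
    (H : Subgroup (GL ι F)) (Y : O Q → Prop)
    (hHY : ∀ (g : GL ι F) (k : O Q), toEquiv g = k.1 → (g ∈ H ↔ Y k))
    (hne : ∃ x a, Q x = 0 ∧ polar Q x a = 0 ∧ ¬ Y (eich Q x a))
    (h : ∀ X : Subgroup (O Q), X ≤ commutator (O Q) → (∀ g ∈ commutator (O Q), Y g → g ∈ X) →
      ∀ g ∈ X, ¬ Y g → E Q ≤ X) :
    Cfsg.Geo.IsMaximalIn (Cfsg.Geo.omegaGL (⇑Q)) (H ⊓ Cfsg.Geo.omegaGL (⇑Q)) := by
  have h5' : 5 ≤ finrank F (ι → F) := by rwa [finrank_fintype_fun_eq_card]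
  let φ : O Q →* GL ι F := (toEquiv (ι := ι) (F := F)).symm.toMonoidHom.comp (O Q).subtype
  have hφ : ∀ k : O Q, toEquiv (φ k) = k.1 := fun k => toEquiv.apply_symm_apply _
  have hΩ : ∀ k : O Q, φ k ∈ Cfsg.Geo.omegaGL (⇑Q) ↔ k ∈ commutator (O Q) := fun k => by
    rw [omegaGL_eq_Om, ← mem_Om_iff, ← hφ]; rfl
  have hs : ∀ g ∈ Cfsg.Geo.omegaGL (⇑Q), ∃ k : O Q, φ k = g := fun g hg => by
    rw [omegaGL_eq_Om] at hg
    exact ⟨⟨toEquiv g, Om_le Q hg⟩, toEquiv.symm_apply_apply g⟩
  refine isMaximalIn_of inf_le_right ?_ fun X hHX hX g hg hgH => ?_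
  · obtain ⟨x, a, -, -, hY⟩ := hne
    exact ⟨φ _, (hΩ _).2 (eich_mem hQ h5' x a), fun hh => hY ((hHY _ _ (hφ _)).1 hh.1)⟩
  obtain ⟨g, rfl⟩ := hs g (hX hg)
  have := h (X.comap φ) (fun k hk => (hΩ k).1 (hX hk))
    (fun k hk hY => hHX ⟨(hHY _ _ (hφ k)).2 hY, (hΩ k).2 hk⟩) g hg
    fun hY => hgH ⟨(hHY _ _ (hφ g)).2 hY, hX hg⟩
  intro k hk
  obtain ⟨k, rfl⟩ := hs k hk
  exact this (by rw [E_eq hQ h5']; exact (hΩ k).1 hk)

end CfsgLib.OMax
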