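import Mathlib
import Cfsg.Agent.Lib.OMax.Basic
import Cfsg.Agent.Lib.Orth.Omega

/-!
Reflections in overgroups of decomposition stabilisers: the extension of a subgroup of `Ω` by a
reflection, orthogonal decompositions, their projections and swaps.
-/

set_option autoImplicit false

namespace CfsgLib.OMax

open CfsgLib.Forms CfsgLib.ClMax CfsgLib.RootMax CfsgLib.OrthE Module QuadraticMap

variable {F V : Type*} [Field F] [AddCommGroup V] [Module F V] {Q : QuadraticForm F V}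
  {X N : Subgroup (O Q)}

/-- The reflection in the non-singular vector `v` lies in `N`. -/
def RC (N : Subgroup (O Q)) (v : V) : Prop := Q v ≠ 0 ∧ refl Q v ∈ N

namespace RC

variable {u v : V}

theorem conj (h : RC N v) {g : O Q} (hg : g ∈ N) : RC N (g.1 v) :=
  ⟨by rw [O_map]; exact h.1, conj_refl g v ▸ N.mul_mem (N.mul_mem hg h.2) (N.inv_mem hg)⟩

theorem congr (h : RC N v) (e : v = u) : RC N u := e ▸ h

theorem smul (h : RC N v) {c : F} (hc : c ≠ 0) : RC N (c • v) :=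
  ⟨by simp [Q_smul, hc, h.1], by rw [refl_smul hc]; exact h.2⟩

theorem of_smul {c : F} (h : RC N (c • v)) : RC N v := by
  have hc : c ≠ 0 := by rintro rfl; simpa using h.1
  simpa [hc] using h.smul (inv_ne_zero hc)

theorem rf (hu : RC N u) (hv : RC N v) : RC N (v - ((Q u)⁻¹ * polar Q u v) • u) :=
  (hv.conj hu.2).congr (refl_ap u v)

theorem of_mul (hu : RC N u) (hv : Q v ≠ 0) (h : refl Q u * refl Q v ∈ N) : RC N v :=
  ⟨hv, (N.mul_mem_cancel_left hu.2).1 h⟩

theorem ea {x : V} (hv : RC N v) (hx : Q x = 0) (hxv : polar Q x v = 0) (h : RC N (v + x)) :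
    EA N x ((Q v)⁻¹ • v) := by
  have h1 := inv_ne_zero hv.1
  refine EA.of_neg ⟨hx, by simp [hxv], ?_⟩
  rw [eich_eq_refl_mul_refl hx (by simp [hxv]) (by simp [Q_smul, hv.1])]
  refine N.mul_mem (by rw [refl_neg, refl_smul h1]; exact hv.2) ((h.smul (neg_ne_zero.2 h1)).congr ?_).2
  rw [Q_neg, Q_smul]
  match_scalars
  · ring
  · field_simp [hv.1]

end RC

theorem EA.rc {x a : V} (h : EA N x a) (ha : RC N a) : RC N (a - Q a • x) :=
  ha.of_mul (by simp [Q_sub, Q_smul, h.sing, pc h.orth, ha.1])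
    (eich_eq_refl_mul_refl h.sing h.orth ha.1 ▸ h.mem)

theorem refl_mul_mem_of_sq [FiniteDimensional F V] (hQ : Nondeg Q) {a b : V} (ha : Q a ≠ 0) (hb : Q b ≠ 0)
    (h : IsSquare (Q a * Q b)) : refl Q a * refl Q b ∈ commutator (O Q) := by
  obtain ⟨r, hr⟩ := h
  refine refl_mul_refl_mem hQ ha (t := r / Q a) (div_ne_zero ?_ ha) ?_
  · rintro rfl
    exact mul_ne_zero ha hb (by simpa using hr)
  · field_simp
    linear_combination hr

section fin

variable [FiniteDimensional F V]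

theorem refl_not_mem (hQ : Nondeg Q) (h5 : 5 ≤ finrank F V) {v : V} (hv : Q v ≠ 0) :
    refl Q v ∉ commutator (O Q) := fun h => by
  let d : O Q →* ℤˣ := Orth.dickson ((nondeg_iff Q).1 hQ) (Or.inr (by omega))
  have h1 : d (refl Q v) = -1 := by
    rw [← Orth.dickson_refl ((nondeg_iff Q).1 hQ) (Or.inr (by omega)) hv]
    exact congrArg _ (O_ext fun x => (refl_ap v x).trans (Orth.refl_apply v x).symm)
  have h2 : d (refl Q v) = 1 := Abelianization.commutator_subset_ker d h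
  exact absurd (h1.symm.trans h2) (by decide)

/-- Extending a subgroup of `Ω` by a reflection. -/
theorem exists_hat (hQ : Nondeg Q) (h5 : 5 ≤ finrank F V) (hX : X ≤ commutator (O Q)) {u : V}
    (hu : Q u ≠ 0) : ∃ N : Subgroup (O Q), RC N u ∧
      (∀ g ∈ X, refl Q u * refl Q (g.1 u) ∈ X → g ∈ N) ∧
      (∀ v, Q v ≠ 0 → refl Q u * refl Q v ∈ X → RC N v) ∧
      ∀ g ∈ N, g ∈ commutator (O Q) → g ∈ X := by
  set r := refl Q u with hr
  have rr : r * r = 1 := refl_mul_self u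
  have ri : r⁻¹ = r := refl_inv u
  have e : ∀ a b : O Q, a * b = a * r * (r * b) := fun a b => by
    rw [mul_assoc, ← mul_assoc r, rr, one_mul]
  let N : Subgroup (O Q) :=
    { carrier := {y | (y ∈ X ∧ r * y * r ∈ X) ∨ (y * r ∈ X ∧ r * y ∈ X)}
      mul_mem' := by
        rintro a b (⟨a1, a2⟩ | ⟨a1, a2⟩) (⟨b1, b2⟩ | ⟨b1, b2⟩)
        · exact Or.inl ⟨X.mul_mem a1 b1, by
            simpa only [mul_assoc, ← e] using X.mul_mem a2 b2⟩
        · exact Or.inr ⟨by simpa only [mul_assoc] using X.mul_mem a1 b1, by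
            simpa only [mul_assoc, ← e] using X.mul_mem a2 b2⟩
        · exact Or.inr ⟨by simpa only [mul_assoc, ← e] using X.mul_mem a1 b2, by
            simpa only [mul_assoc] using X.mul_mem a2 b1⟩
        · exact Or.inl ⟨by simpa only [mul_assoc, ← e] using X.mul_mem a1 b2, by
            simpa only [mul_assoc] using X.mul_mem a2 b1⟩
      one_mem' := Or.inl ⟨X.one_mem, by simp [rr]⟩
      inv_mem' := by
        rintro a (⟨a1, a2⟩ | ⟨a1, a2⟩)
        · exact Or.inl ⟨X.inv_mem a1, by simpa [ri, mul_assoc] using X.inv_mem a2⟩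
        · exact Or.inr ⟨by simpa [ri] using X.inv_mem a2, by simpa [ri] using X.inv_mem a1⟩ }
  refine ⟨N, ⟨hu, Or.inr (by simp [← hr, rr])⟩, fun g hg h => Or.inl ⟨hg, ?_⟩,
    fun v hv h => ⟨hv, Or.inr ⟨by simpa [ri, refl_inv] using X.inv_mem h, h⟩⟩, ?_⟩
  · rw [← conj_refl] at h
    simpa [mul_assoc] using X.mul_mem h hg
  · rintro g (h | h) hg
    · exact h.1
    · exact absurd (((commutator _).mul_mem_cancel_left hg).1 (hX h.1)) (refl_not_mem hQ h5 hu)

/-- All elements of `Ω` acting trivially on the complement of `Z` lie in `N`. -/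
def Supp (N : Subgroup (O Q)) (Z : Submodule F V) : Prop :=
  ∀ g ∈ commutator (O Q), (∀ w ∈ perp Q Z, g.1 w = w) → g ∈ N

theorem Supp.ein [Finite F] (hQ : Nondeg Q) (h5 : 5 ≤ finrank F V) {Z : Submodule F V}
    (h : Supp N Z) : EIn N Z := fun y hy hys b hb hyb =>
  ⟨hys, hyb, h _ (eich_mem hQ h5 _ _) fun w hw => eich_apply_of_orth (pc (hw y hy)) (pc (hw b hb))⟩

theorem mem_of_fix (hQ : Nondeg Q) {Z : Submodule F V} {g : O Q}
    (h : ∀ w ∈ perp Q Z, g.1 w = w) {v : V} (hv : v ∈ Z) : g.1 v ∈ Z := by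
  rw [← perp_perp hQ Z]
  intro w hw
  rw [ofQuad_B, ← h w hw, O_polar]
  exact pc (hw v hv)

omit [FiniteDimensional F V] in
theorem nd_inf_perp_one {Z : Submodule F V} (hZ : ND Q Z) {a : V} (ha : a ∈ Z)
    (haa : polar Q a a ≠ 0) : ND Q (Z ⊓ perp Q (Submodule.span F {a})) := by
  refine nd_iff.2 fun x hx h => nd_iff.1 hZ x hx.1 fun y hy => ?_
  have h1 := pc (mem_perp_one.1 hx.2)
  simpa [h1] using h (y - (polar Q a y / polar Q a a) • a)
    ⟨Z.sub_mem hy (Z.smul_mem _ ha), mem_perp_one.2 (by simp [haa, -polar_self])⟩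

theorem finrank_inf_one (hQ : Nondeg Q) (Z : Submodule F V) (a : V) :
    finrank F Z ≤ finrank F ↥(Z ⊓ perp Q (Submodule.span F {a})) + 1 := by
  have := finrank_inf_perp hQ Z {a}
  rwa [Finset.coe_singleton] at this

omit [FiniteDimensional F V] in
theorem polar_self_ne (h2 : (2 : F) ≠ 0) {a : V} (ha : Q a ≠ 0) : polar Q a a ≠ 0 := by
  rw [polar_self']; exact mul_ne_zero h2 ha

/-- Transitivity of `Ω(Z)` on vectors of a given non-zero norm, in odd characteristic. -/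
theorem exists_omega_move [Finite F] (hQ : Nondeg Q) (h5 : 5 ≤ finrank F V) (h2 : (2 : F) ≠ 0)
    {Z : Submodule F V} (hZ : ND Q Z) (h3 : 3 ≤ finrank F Z) {a b : V} (ha : a ∈ Z) (hb : b ∈ Z)
    (hs : Q a ≠ 0) (hab : Q b = Q a) :
    ∃ g ∈ commutator (O Q), (∀ w ∈ perp Q Z, g.1 w = w) ∧ g.1 a = b := by
  obtain ⟨g, hg, g1, g2⟩ := (ofQuad Q).witt_step hQ (perp Q Z) (u := a) (u' := b)
    (fun h => hs (by rw [Submodule.disjoint_def.1 hZ a ha h, Q.map_zero]))
    (fun h => hs (by rw [← hab, Submodule.disjoint_def.1 hZ b hb h, Q.map_zero]))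
    (fun w hw => (pc (hw b hb)).trans (pc (hw a ha)).symm) (by simp [ofQuad_N, hab])
  have h4 := finrank_inf_one hQ Z b
  obtain ⟨r, r1, r2, -⟩ := exists_adjust hQ h5 (nd_inf_perp_one hZ hb (polar_self_ne h2 (hab ▸ hs)))
    (by omega) ⟨g, by rw [← ofQuad_isom]; exact hg⟩
  refine ⟨_, r1, fun w hw => ?_, ?_⟩
  · rw [O_mul_apply, g1 w hw, r2 w fun z hz => hw z hz.1]
  · rw [O_mul_apply, g2, r2 b fun z hz => pc (mem_perp_one.1 hz.2)]

/-- A vector of `Z` with the norm of `a` and prescribed product with `a`. -/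
theorem exists_norm_polar [Finite F] (hQ : Nondeg Q) (h2 : (2 : F) ≠ 0) {Z : Submodule F V}
    (hZ : ND Q Z) (h3 : 3 ≤ finrank F Z) {a : V} (ha : a ∈ Z) (hs : Q a ≠ 0) (c t : F) :
    ∃ b ∈ Z, Q b = c ∧ polar Q a b = t := by
  have h4 := finrank_inf_one hQ Z a
  obtain ⟨p, hp, e⟩ := quad_exists_eq (nd_inf_perp_one hZ ha (polar_self_ne h2 hs)) (by omega)
    (c - t ^ 2 / (4 * Q a))
  have h5 := mem_perp_one.1 hp.2
  have h6 : (4 : F) ≠ 0 := fun h => h2 (pow_eq_zero_iff two_ne_zero |>.1 (by linear_combination h))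
  refine ⟨(t / (2 * Q a)) • a + p, Z.add_mem (Z.smul_mem _ ha) hp.1, ?_, ?_⟩
  · rw [Q_add, Q_smul, e, polar_smul_left, h5]
    field_simp
    simp only [smul_zero]
    ring
  · rw [polar_add_right, polar_smul_right, polar_self', h5]
    simp only [smul_eq_mul]
    field_simp
    ring

/-- An isometry exchanging two orthogonal isometric subspaces. -/
theorem exists_swap (hQ : Nondeg Q) {W W' : Submodule F V} (hW : ND Q W) (hW' : ND Q W')
    (hO : W' ≤ perp Q W) (e : W ≃ₗ[F] W') (he : ∀ w : W, Q (e w : V) = Q w) :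
    ∃ g : O Q, (∀ w : W, g.1 w = e w) ∧ (∀ w : W', g.1 w = e.symm w) ∧
      ∀ v ∈ perp Q W, v ∈ perp Q W' → g.1 v = v := by
  have c1 := (ofQuad Q).isCompl_perp hQ hW
  have c2 := (ofQuad Q).isCompl_perp hQ hW'
  have hO' : W ≤ perp Q W' := fun v hv w hw => pc (hO hw v hv)
  let p := W.projectionOnto _ c1
  let p' := W'.projectionOnto _ c2
  let f : V →ₗ[F] V := LinearMap.id + (W'.subtype ∘ₗ e.toLinearMap - W.subtype) ∘ₗ p +
    (W.subtype ∘ₗ e.symm.toLinearMap - W'.subtype) ∘ₗ p'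
  have f1 : ∀ w : W, f w = e w := fun w => by
    simp [f, p, p', Submodule.projectionOnto_apply_of_mem_right c2 (hO' w.2)]
  have f2 : ∀ w : W', f w = e.symm w := fun w => by
    simp [f, p, p', Submodule.projectionOnto_apply_of_mem_right c1 (hO w.2)]
  have f3 : ∀ v ∈ perp Q W, v ∈ perp Q W' → f v = v := fun v h1 h2 => by
    simp [f, p, p', Submodule.projectionOnto_apply_of_mem_right c1 h1,
      Submodule.projectionOnto_apply_of_mem_right c2 h2]
  have d : ∀ v, ∃ (a : W) (b : W') (c : V), c ∈ perp Q W ∧ c ∈ perp Q W' ∧ v = (a : V) + b + c := by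
    intro v
    obtain ⟨c, hc, a, ha, rfl⟩ := decomp hQ hW v
    obtain ⟨c', hc', b, hb, rfl⟩ := decomp hQ hW' c
    exact ⟨⟨a, ha⟩, ⟨b, hb⟩, c', by simpa using Submodule.sub_mem _ hc (hO hb), hc', by abel⟩
  have ff : ∀ v, f (f v) = v := fun v => by
    obtain ⟨a, b, c, h1, h2, rfl⟩ := d v
    simp only [map_add, f1, f2, f3 c h1 h2, e.symm_apply_apply, e.apply_symm_apply]
  refine ⟨mkO f f ff ff fun v => ?_, f1, f2, f3⟩
  obtain ⟨a, b, c, h1, h2, rfl⟩ := d v
  have h3 := he (e.symm b)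
  rw [e.apply_symm_apply] at h3
  simp only [map_add f, f1, f2, f3 c h1 h2, Q_add, polar_add_left, he, ← h3, mem_perp.1 h1 _ a.2,
    mem_perp.1 h2 _ b.2, mem_perp.1 h1 _ (e.symm b).2, mem_perp.1 h2 _ (e a).2,
    mem_perp.1 (hO b.2) _ a.2, mem_perp'.1 (hO (e a).2) _ (e.symm b).2]

end fin

/-- An orthogonal decomposition into non-zero non-degenerate subspaces. -/
structure OrD (Q : QuadraticForm F V) {ι : Type*} (D : ι → Submodule F V) : Prop where
  hQ : Nondeg Q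
  nd : ∀ i, ND Q (D i)
  orth : ∀ i j, i ≠ j → D j ≤ perp Q (D i)
  top : iSup D = ⊤
  ne : ∀ i, D i ≠ ⊥

/-- `g` maps every member of `D` into a member of `D`. -/
def PD {ι : Type*} (D : ι → Submodule F V) (g : O Q) : Prop :=
  ∀ i, ∃ j, ∀ v ∈ D i, g.1 v ∈ D j

/-- `v` lies in a member of `D`. -/
def InD {ι : Type*} (D : ι → Submodule F V) (v : V) : Prop := ∃ i, v ∈ D i

variable {ι : Type*} {D : ι → Submodule F V}

theorem PD.mul {g k : O Q} (hg : PD D g) (hk : PD D k) : PD D (g * k) := fun i => by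
  obtain ⟨j, hj⟩ := hk i
  obtain ⟨l, hl⟩ := hg j
  exact ⟨l, fun v hv => hl _ (hj v hv)⟩

theorem PD.inD {g : O Q} (hg : PD D g) {v : V} (hv : InD D v) : InD D (g.1 v) := by
  obtain ⟨i, hi⟩ := hv
  obtain ⟨j, hj⟩ := hg i
  exact ⟨j, hj v hi⟩

theorem InD.smul {v : V} (hv : InD D v) (c : F) : InD D (c • v) :=
  hv.imp fun _ h => Submodule.smul_mem _ _ h

theorem InD.of_smul {v : V} {c : F} (hc : c ≠ 0) (hv : InD D (c • v)) : InD D v := by
  simpa [hc] using hv.smul c⁻¹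

namespace OrD

variable (h : OrD Q D)
include h

theorem polar_eq {i j : ι} (hij : i ≠ j) {a b : V} (ha : a ∈ D i) (hb : b ∈ D j) :
    polar Q a b = 0 := h.orth i j hij hb a ha

theorem eq_zero {v : V} (hv : ∀ i, v ∈ perp Q (D i)) : v = 0 :=
  h.hQ v fun u => by
    have hu : u ∈ iSup D := h.top ▸ Submodule.mem_top
    induction hu using Submodule.iSup_induction' with
    | mem j x hx => exact pc (hv j x hx)
    | zero => simp
    | add x y _ _ hx hy => simp [hx, hy]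

theorem eq_zero_of_mem {i j : ι} (hij : i ≠ j) {v : V} (hi : v ∈ D i) (hj : v ∈ D j) : v = 0 :=
  Submodule.disjoint_def.1 (h.nd i) v hi (h.orth i j hij hj)

theorem eq_of_polar {i j : ι} {a b : V} (ha : a ∈ D i) (hb : b ∈ D j) (hab : polar Q a b ≠ 0) :
    i = j := by
  by_contra hij
  exact hab (h.polar_eq hij ha hb)

theorem refl_mem {i : ι} {a : V} (ha : a ∈ D i) (l : ι) (v : V) (hv : v ∈ D l) :
    (refl Q a).1 v ∈ D l := by
  by_cases hl : l = i
  · subst hl; rw [refl_ap]; exact (D l).sub_mem hv ((D l).smul_mem _ ha)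
  · rwa [refl_apply_of_orth (h.polar_eq hl hv ha)]

theorem pd_refl {a : V} (ha : InD D a) : PD D (refl Q a) :=
  fun l => ⟨l, h.refl_mem ha.choose_spec l⟩

variable [FiniteDimensional F V]

/-- The component in `D i`. -/
noncomputable def pr (i : ι) : V →ₗ[F] V :=
  (D i).projection _ ((ofQuad Q).isCompl_perp h.hQ (h.nd i))

theorem pr_mem (i : ι) (v : V) : h.pr i v ∈ D i := Submodule.projection_apply_mem _ v

theorem pr_of_mem {i : ι} {v : V} (hv : v ∈ D i) : h.pr i v = v :=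
  Submodule.projection_apply_of_mem_left _ hv

theorem pr_eq_zero {i : ι} {v : V} : h.pr i v = 0 ↔ v ∈ perp Q (D i) :=
  Submodule.projection_apply_eq_zero_iff _

theorem pr_of_ne {i j : ι} (hij : i ≠ j) {v : V} (hv : v ∈ D j) : h.pr i v = 0 :=
  h.pr_eq_zero.2 (h.orth i j hij hv)

theorem sub_pr (i : ι) (v : V) : v - h.pr i v ∈ perp Q (D i) :=
  h.pr_eq_zero.1 (by rw [map_sub, h.pr_of_mem (h.pr_mem i v), sub_self])

theorem polar_pr {i : ι} {a : V} (ha : a ∈ D i) (v : V) : polar Q a (h.pr i v) = polar Q a v := by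
  have := mem_perp.1 (h.sub_pr i v) a ha
  rw [polar_sub_right] at this
  exact (sub_eq_zero.1 this).symm

theorem mem_of_perp {i : ι} {v : V} (hv : ∀ j, j ≠ i → v ∈ perp Q (D j)) : v ∈ D i := by
  have : v - h.pr i v = 0 := h.eq_zero fun j => by
    by_cases hj : j = i
    · exact hj ▸ h.sub_pr i v
    · exact Submodule.sub_mem _ (hv j hj) (h.orth j i hj (h.pr_mem i v))
  exact sub_eq_zero.1 this ▸ h.pr_mem i v

theorem exists_pr_ne {i : ι} {v : V} (hv : v ∉ D i) : ∃ j, j ≠ i ∧ h.pr j v ≠ 0 := by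
  by_contra hc
  push Not at hc
  exact hv (h.mem_of_perp fun j hj => h.pr_eq_zero.1 (hc j hj))

theorem not_inD {i j : ι} (hij : i ≠ j) {v : V} (hi : h.pr i v ≠ 0) (hj : h.pr j v ≠ 0) :
    ¬ InD D v := by
  rintro ⟨l, hl⟩
  by_cases h1 : i = l
  · exact hj (h.pr_of_ne (h1 ▸ hij.symm) hl)
  · exact hi (h.pr_of_ne h1 hl)

theorem sum_pr [Fintype ι] (v : V) : ∑ i, h.pr i v = v := by
  refine (sub_eq_zero.1 (h.eq_zero fun j => h.pr_eq_zero.1 ?_)).symm
  rw [map_sub, map_sum, Finset.sum_eq_single j (fun l _ hl => h.pr_of_ne hl.symm (h.pr_mem l v))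
    (by simp), h.pr_of_mem (h.pr_mem j v), sub_self]

theorem Q_sum_pr (s : Finset ι) (v : V) : Q (∑ i ∈ s, h.pr i v) = ∑ i ∈ s, Q (h.pr i v) := by
  classical
  induction s using Finset.induction_on with
  | empty => simp
  | insert i s hi ih =>
    rw [Finset.sum_insert hi, Finset.sum_insert hi, Q_add, ih, mem_perp.1 (Submodule.sum_mem _
      fun l hl => h.orth i l (fun e => hi (e ▸ hl)) (h.pr_mem l v)) _ (h.pr_mem i v), add_zero]

theorem exists_Q_pr [Finite ι] {v : V} (hv : Q v ≠ 0) : ∃ j, Q (h.pr j v) ≠ 0 := by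
  have := Fintype.ofFinite ι
  by_contra hc
  push Not at hc
  exact hv (by rw [← h.sum_pr v, h.Q_sum_pr]; simp [hc])

theorem exists_perm [Finite ι] {g : O Q} (hg : PD D g) :
    ∃ π : Equiv.Perm ι, ∀ i, (D i).map (g.1 : V →ₗ[F] V) = D (π i) := by
  choose π hπ using hg
  have key : ∀ j v, v ∈ D j → ∀ i, π i ≠ j → g⁻¹.1 v ∈ perp Q (D i) := fun j v hv i hi w hw => by
    rw [ofQuad_B, ← O_polar_left]; exact h.polar_eq hi (hπ i w hw) hv
  have h1 : Function.Surjective π := fun j => by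
    by_contra hj
    push Not at hj
    refine h.ne j (eq_bot_iff.2 fun v hv => ?_)
    by_contra h0
    exact O_apply_ne_zero g⁻¹ h0 (h.eq_zero fun i => key j v hv i (hj i))
  have h2 := Finite.injective_iff_surjective.2 h1
  refine ⟨Equiv.ofBijective π ⟨h2, h1⟩, fun i => le_antisymm ?_ fun v hv => ?_⟩
  · rintro _ ⟨v, hv, rfl⟩
    exact hπ i v hv
  · exact ⟨_, h.mem_of_perp fun j hj => key _ v hv j (h2.ne hj), O_apply_inv_apply g v⟩

theorem pd_inv [Finite ι] {g : O Q} (hg : PD D g) : PD D g⁻¹ := fun j => by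
  obtain ⟨π, hπ⟩ := h.exists_perm hg
  refine ⟨π.symm j, fun v hv => ?_⟩
  obtain ⟨w, hw, rfl⟩ : v ∈ (D (π.symm j)).map (g.1 : V →ₗ[F] V) := by simpa [hπ] using hv
  exact (O_inv_apply_apply g w).symm ▸ hw

theorem mem_of_fix {i : ι} {g : O Q} (hg : ∀ w ∈ perp Q (D i), g.1 w = w) (l : ι) (v : V)
    (hv : v ∈ D l) : g.1 v ∈ D l := by
  by_cases hl : l = i
  · subst hl; exact OMax.mem_of_fix h.hQ hg hv
  · rwa [hg v (h.orth i l (Ne.symm hl) hv)]

theorem supp (hN : ∀ g ∈ commutator (O Q), PD D g → g ∈ N) (i : ι) : Supp N (D i) :=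
  fun g hg h1 => hN g hg fun l => ⟨l, h.mem_of_fix h1 l⟩

/-- An element of `Ω` exchanging two isometric members and fixing the others. -/
theorem exists_swap_omega [Finite F] (h5 : 5 ≤ finrank F V) {i j m : ι} (hij : i ≠ j)
    (hm : 2 ≤ finrank F (D m)) (e : D i ≃ₗ[F] D j) (he : ∀ w : D i, Q (e w : V) = Q w) :
    ∃ s ∈ commutator (O Q), PD D s ∧ ∃ r : O Q, (∀ v ∈ perp Q (D m), r.1 v = v) ∧
      (∀ w : D i, s.1 w = r.1 (e w)) ∧ (∀ w : D j, s.1 w = r.1 (e.symm w)) ∧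
      ∀ v ∈ perp Q (D i), v ∈ perp Q (D j) → s.1 v = r.1 v := by
  obtain ⟨g, g1, g2, g3⟩ := exists_swap h.hQ (h.nd i) (h.nd j) (h.orth i j hij) e he
  obtain ⟨r, r1, r2, -⟩ := exists_adjust h.hQ h5 (h.nd m) hm g
  refine ⟨_, r1, PD.mul (fun l => ⟨l, h.mem_of_fix r2 l⟩) fun l => ?_, r, r2,
    fun w => congrArg _ (g1 w), fun w => congrArg _ (g2 w), fun v h1 h2 => congrArg _ (g3 v h1 h2)⟩
  by_cases hi : l = i
  · subst hi; exact ⟨j, fun v hv => (g1 ⟨v, hv⟩).symm ▸ (e ⟨v, hv⟩).2⟩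
  by_cases hj : l = j
  · subst hj; exact ⟨i, fun v hv => (g2 ⟨v, hv⟩).symm ▸ (e.symm ⟨v, hv⟩).2⟩
  · exact ⟨l, fun v hv => by rwa [g3 v (h.orth i l (Ne.symm hi) hv) (h.orth j l (Ne.symm hj) hv)]⟩

/-- If all other members lie in `A(x)`, then `A(x)` is everything. -/
theorem efull {j : ι} {x : V} (hx : Q x = 0) (h1 : ∀ a ∈ D j, polar Q x a = 0 → EA N x a)
    (h2 : ∀ l, l ≠ j → ∀ a ∈ D l, EA N x a) : EFull N x := by
  intro v hv
  have : ∃ a ∈ D j, EA N x (v - a) := by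
    have hu : v ∈ iSup D := h.top ▸ Submodule.mem_top
    clear hv
    induction hu using Submodule.iSup_induction' with
    | mem l a ha =>
      by_cases hl : l = j
      · exact ⟨a, hl ▸ ha, by simpa using EA.zero hx⟩
      · exact ⟨0, (D j).zero_mem, by simpa using h2 l hl a ha⟩
    | zero => exact ⟨0, (D j).zero_mem, by simpa using EA.zero hx⟩
    | add a b _ _ ha hb =>
      obtain ⟨a', h3, h4⟩ := ha
      obtain ⟨b', h5, h6⟩ := hb
      exact ⟨a' + b', (D j).add_mem h3 h5, (h4.add h6).congr (by abel)⟩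
  obtain ⟨a, ha, h3⟩ := this
  simpa using h3.add (h1 a ha (by simpa [hv] using h3.orth))

end OrD

/-- The bridge for stabilisers of orthogonal decompositions. -/
theorem isMaximalIn_omega_dec [Finite F] {ι : Type} [Fintype ι] [DecidableEq ι]
    {Q : QuadraticForm F (ι → F)} (h5 : 5 ≤ Fintype.card ι) {t : ℕ}
    {D : Fin t → Submodule F (ι → F)} (hD : OrD Q D) (hne : ∃ x a, Q x = 0 ∧ polar Q x a = 0 ∧
      ¬ PD D (eich Q x a))
    (h : ∀ X : Subgroup (O Q), X ≤ commutator (O Q) → (∀ g ∈ commutator (O Q), PD D g → g ∈ X) →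
      ∀ g ∈ X, ¬ PD D g → E Q ≤ X) :
    Cfsg.Geo.IsMaximalIn (Cfsg.Geo.omegaGL (⇑Q))
      (Cfsg.Geo.decompositionStabilizer D ⊓ Cfsg.Geo.omegaGL (⇑Q)) := by
  refine isMaximalIn_omega hD.hQ h5 _ (PD D) (fun g s e => ⟨?_, fun hs => ?_⟩) hne h
  · rintro ⟨τ, hτ⟩ i
    exact ⟨τ i, fun v hv => e ▸ hτ i ▸ ⟨v, hv, rfl⟩⟩
  · obtain ⟨π, hπ⟩ := hD.exists_perm hs
    exact ⟨π, fun i => by rw [← toEquiv_coe, e, hπ]⟩

theorem od_of {ι : Type} [Fintype ι] [DecidableEq ι] {Q : QuadraticForm F (ι → F)}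
    (hQ : Nondeg Q) {t k : ℕ} {D : Fin t → Submodule F (ι → F)}
    (hD : Cfsg.Geo.IsNondegenerateMDecomposition (polar Q) k D) : OrD Q D :=
  ⟨hQ, fun i => disjoint_perp_ofQuad (hD.nondegenerate i),
    fun i j hij v hv w hw => hD.orthogonal i j hij w hw v hv, hD.decomp.iSup_eq_top, fun i h0 => by
      have := hD.decomp.finrank_eq i
      rw [h0, finrank_bot] at this
      exact hD.decomp.pos.ne this⟩

end CfsgLib.OMax
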