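import Mathlib
import Cfsg.Agent.Lib.OMax.Refl

/-!
Stabilisers in `Ω` of orthogonal decompositions into members of dimension at least three.
-/

set_option autoImplicit false

namespace CfsgLib.OMax

open CfsgLib.Forms CfsgLib.ClMax CfsgLib.RootMax CfsgLib.OrthE Module QuadraticMap

variable {F V : Type*} [Field F] [AddCommGroup V] [Module F V] {Q : QuadraticForm F V}
  {X N : Subgroup (O Q)} {ι : Type*} {D : ι → Submodule F V}

/-- The field has an element other than `0, 1, -1`. -/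
def BigS (F : Type*) [Field F] : Prop := ∃ t : F, t ≠ 0 ∧ t * t ≠ 1

theorem big_of_card [Finite F] (h : 4 ≤ Nat.card F) : BigS F := by
  classical
  have := Fintype.ofFinite F
  obtain ⟨t, -, ht⟩ := Finset.exists_mem_notMem_of_card_lt_card (s := {0, 1, -1})
    (t := (Finset.univ : Finset F)) (lt_of_le_of_lt Finset.card_le_three (by
      rw [Finset.card_univ, ← Nat.card_eq_fintype_card]; omega))
  simp only [Finset.mem_insert, Finset.mem_singleton, not_or] at ht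
  exact ⟨t, ht.1, fun h => (mul_self_eq_one_iff.1 h).elim ht.2.1 ht.2.2⟩

theorem BigS.exists_ne (h : BigS F) (A : F) {B : F} (hB : B ≠ 0) : ∃ l, l ≠ 0 ∧ A + l * l * B ≠ 0 := by
  obtain ⟨t, h0, h1⟩ := h
  by_cases h2 : A + 1 * 1 * B = 0
  · exact ⟨t, h0, fun h3 => mul_ne_zero (sub_ne_zero.2 h1) hB (by linear_combination h3 - h2)⟩
  · exact ⟨1, one_ne_zero, h2⟩

theorem card_cases [Finite F] : BigS F ∨ ((2 : F) = 0 ∧ Nat.card F = 2) ∨
    ((2 : F) ≠ 0 ∧ Nat.card F = 3) := by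
  have := Fintype.ofFinite F
  have h1 := Finite.one_lt_card (α := F)
  have h2 := FiniteField.cast_card_eq_zero F
  rw [← Nat.card_eq_fintype_card] at h2
  rcases (show 4 ≤ Nat.card F ∨ Nat.card F = 2 ∨ Nat.card F = 3 by omega) with h | h | h
  · exact Or.inl (big_of_card h)
  · exact Or.inr (Or.inl ⟨by rw [h] at h2; exact_mod_cast h2, h⟩)
  · rw [h] at h2
    exact Or.inr (Or.inr ⟨fun h3 => one_ne_zero (α := F) (by
      push_cast at h2; linear_combination h2 - h3), h⟩)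

section fin

variable [FiniteDimensional F V]

theorem two_mul_le_of_ts (hQ : Nondeg Q) {Z S : Submodule F V} (hZ : ND Q Z) (hS : S ≤ Z)
    (h : ∀ w ∈ S, Q w = 0) : 2 * finrank F S ≤ finrank F Z := by
  have h1 := finrank_perp hQ (S ⊔ perp Q Z)
  have h2 := finrank_perp hQ Z
  have h3 := Submodule.finrank_sup_add_finrank_inf_eq S (perp Q Z)
  have h4 : finrank F S ≤ finrank F (perp Q (S ⊔ perp Q Z)) := Submodule.finrank_mono fun v hv w hw => by
    obtain ⟨a, ha, b, hb, rfl⟩ := Submodule.mem_sup.1 hw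
    have := Q_add Q a v
    rw [h _ (S.add_mem ha hv), h a ha, h v hv] at this
    rw [ofQuad_B, polar_add_left, mem_perp'.1 hb v (hS hv)]
    linear_combination -this
  rw [(hZ.mono_left hS).eq_bot, finrank_bot] at h3
  omega

theorem exists_nonsing_mem (hQ : Nondeg Q) {Z S : Submodule F V} (hZ : ND Q Z) (hS : S ≤ Z)
    (h : finrank F Z < 2 * finrank F S) : ∃ w ∈ S, Q w ≠ 0 := by
  by_contra hh
  push Not at hh
  have := two_mul_le_of_ts hQ hZ hS hh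
  omega

theorem exists_nonsing_orth (hQ : Nondeg Q) {Z : Submodule F V} (hZ : ND Q Z)
    (h3 : 3 ≤ finrank F Z) (w : V) : ∃ b ∈ Z, Q b ≠ 0 ∧ polar Q w b = 0 := by
  have := finrank_inf_one hQ Z w
  obtain ⟨b, hb, h1⟩ := exists_nonsing_mem hQ hZ (S := Z ⊓ perp Q (Submodule.span F {w}))
    inf_le_left (by omega)
  exact ⟨b, hb.1, h1, mem_perp_one.1 hb.2⟩

theorem even_of_char_two (h2 : (2 : F) = 0) {Z : Submodule F V} (hZ : ND Q Z) :
    Even (finrank F Z) := by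
  refine even_finrank_of_alt (LinearMap.BilinForm.restrict (polarBilin Q) Z)
    (fun x => by simp [h2]) ?_
  have : ∀ x : Z, (∀ y : Z, polar Q x y = 0) → x = 0 := fun x hx =>
    Subtype.ext (nd_iff.1 hZ x x.2 fun y hy => hx ⟨y, hy⟩)
  exact ⟨this, fun x hx => this x fun y => pc (hx y)⟩

/-- A second vector of the same norm. -/
theorem exists_second [Finite F] (hQ : Nondeg Q) (h2 : (2 : F) ≠ 0) {Z : Submodule F V}
    (hZ : ND Q Z) (h : 3 ≤ finrank F Z ∨ (2 ≤ finrank F Z ∧ BigS F)) {a : V} (ha : a ∈ Z)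
    (hs : Q a ≠ 0) : ∃ a' ∈ Z, Q a' = Q a ∧ a' ∉ Submodule.span F {a} := by
  have key : ∀ p a' : V, polar Q p a = 0 → polar Q p a' ≠ 0 → a' ∉ Submodule.span F {a} :=
    fun p a' h1 h3 h4 => by
      obtain ⟨c, rfl⟩ := Submodule.mem_span_singleton.1 h4
      exact h3 (by simp [h1])
  rcases h with h | ⟨h, hB⟩
  · obtain ⟨b, hb, h1, h3⟩ := exists_norm_polar hQ h2 hZ h ha hs (Q a) 0
    exact ⟨b, hb, h1, key b b (pc h3) (polar_self_ne h2 (h1 ▸ hs))⟩
  have h1 := finrank_inf_one hQ Z a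
  obtain ⟨p, hp, h3⟩ := exists_nonsing_mem hQ (nd_inf_perp_one hZ ha (polar_self_ne h2 hs)) le_rfl
    (by omega)
  have h4 := mem_perp_one.1 hp.2
  obtain ⟨l, h5, h6⟩ := hB.exists_ne (Q a) h3
  have h7 : Q (a + l • p) ≠ 0 := by simpa [Q_add, Q_smul, h4] using h6
  refine ⟨(refl Q (a + l • p)).1 a, ?_, O_map _ _, key p _ (pc h4) ?_⟩
  · rw [refl_ap]; exact Z.sub_mem ha (Z.smul_mem _ (Z.add_mem ha (Z.smul_mem _ hp.1)))
  · simp [refl_ap, h4, pc h4, h7, h5, h3, hs, h2]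

/-- The vectors of `Z` in the norm class of `d`. -/
def Cl (Q : QuadraticForm F V) (Z : Submodule F V) (d : F) (c : V) : Prop :=
  c ∈ Z ∧ Q c ≠ 0 ∧ IsSquare (d * Q c)

/-- Any two vectors of a norm class are joined by a short path of non-orthogonal vectors. -/
def Diam (Q : QuadraticForm F V) (Z : Submodule F V) : Prop :=
  ∀ d c c', Cl Q Z d c → Cl Q Z d c' → c' ∉ Submodule.span F {c} → polar Q c c' = 0 →
    ∃ e, Cl Q Z d e ∧ polar Q c e ≠ 0 ∧ polar Q c' e ≠ 0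

theorem diam_odd [Finite F] (hQ : Nondeg Q) (h2 : (2 : F) ≠ 0) {Z : Submodule F V}
    (hZ : ND Q Z) (h : 4 ≤ finrank F Z ∨ (3 ≤ finrank F Z ∧ BigS F)) : Diam Q Z := by
  rintro d c c' ⟨c1, c2, c3⟩ ⟨d1, d2, -⟩ - hcc
  have h1 := finrank_inf_one hQ Z c
  have hP := nd_inf_perp_one hZ c1 (polar_self_ne h2 c2)
  have hc' : c' ∈ Z ⊓ perp Q (Submodule.span F {c}) := ⟨d1, mem_perp_one.2 hcc⟩
  have fin : ∀ (t : F), t ≠ 0 → ∀ p ∈ Z ⊓ perp Q (Submodule.span F {c}),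
      Q p = (1 - t * t) * Q c → polar Q c' p ≠ 0 →
      ∃ e, Cl Q Z d e ∧ polar Q c e ≠ 0 ∧ polar Q c' e ≠ 0 := fun t ht p hp h3 h4 => by
    have h5 := mem_perp_one.1 hp.2
    have h6 : Q (t • c + p) = Q c := by simp [Q_add, Q_smul, h3, h5]; ring
    exact ⟨t • c + p, ⟨Z.add_mem (Z.smul_mem _ c1) hp.1, h6 ▸ c2, h6 ▸ c3⟩,
      by simp [h5, ht, h2, c2], by simpa [pc hcc] using h4⟩
  rcases h with h | ⟨h, hB⟩
  · obtain ⟨p, hp, h3, h4⟩ := exists_norm_polar hQ h2 hP (by omega) hc' d2 0 1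
    exact fin 1 one_ne_zero p hp (by simp [h3]) (by simp [h4])
  obtain ⟨t, h0, h3⟩ := id hB
  obtain ⟨p, hp, h4⟩ := quad_exists_eq hP (by omega) ((1 - t * t) * Q c)
  by_cases h5 : polar Q c' p = 0
  swap
  · exact fin t h0 p hp h4 h5
  have h6 : Q p ≠ 0 := h4 ▸ mul_ne_zero (sub_ne_zero.2 h3.symm) c2
  obtain ⟨l, h7, h8⟩ := hB.exists_ne (Q p) d2
  have h9 : Q (p + l • c') ≠ 0 := by simpa [Q_add, Q_smul, pc h5] using h8
  refine fin t h0 ((refl Q (p + l • c')).1 p) ?_ (by rw [O_map, h4]) ?_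
  · rw [refl_ap]
    exact Submodule.sub_mem _ hp (Submodule.smul_mem _ _
      (Submodule.add_mem _ hp (Submodule.smul_mem _ _ hc')))
  · simp [refl_ap, h5, h9, h7, h6, d2, h2]

theorem diam_two [Finite F] (hQ : Nondeg Q) (h2 : (2 : F) = 0) {Z : Submodule F V}
    (hZ : ND Q Z) (h : BigS F ∨ ∀ U ≤ Z, (∀ w ∈ U, Q w = 0) → finrank F U + 2 < finrank F Z) :
    Diam Q Z := by
  rintro d c c' ⟨c1, c2, -⟩ ⟨d1, d2, -⟩ hc hcc
  obtain ⟨a, ha, a1, a2⟩ := exists_dual_mem hQ hZ ((Submodule.span_singleton_le_iff_mem _ _).2 c1)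
    d1 hc
  obtain ⟨b, hb, b1, b2⟩ := exists_dual_mem hQ hZ ((Submodule.span_singleton_le_iff_mem _ _).2 d1)
    c1 (not_mem_span_symm (ne_zero_of_Q c2) hc)
  have a3 := a2 c (Submodule.mem_span_singleton_self c)
  have b3 := b2 c' (Submodule.mem_span_singleton_self c')
  have fin : ∀ p ∈ Z, polar Q c p = 0 → polar Q c' p = 0 → Q (a + b + p) ≠ 0 →
      ∃ e, Cl Q Z d e ∧ polar Q c e ≠ 0 ∧ polar Q c' e ≠ 0 := fun p hp h3 h4 h5 =>
    ⟨_, ⟨Z.add_mem (Z.add_mem ha hb) hp, h5, Orth.isSquare_of_charTwo h2 _⟩,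
      by simp [pc h3, polar_comm Q c, a3, b1], by simp [pc h4, polar_comm Q c', a1, b3]⟩
  by_cases h0 : Q (a + b) = 0
  swap
  · exact fin 0 Z.zero_mem (by simp) (by simp) (by simpa using h0)
  rcases h with ⟨t, h3, h4⟩ | h
  · refine fin ((t / Q c) • c) (Z.smul_mem _ c1) (by simp [h2]) (by simp [pc hcc]) fun h5 => h4 ?_
    rw [Q_add, h0, Q_smul, polar_smul_right, polar_add_left, a3, b1] at h5
    simp only [smul_eq_mul] at h5
    field_simp at h5
    have : t = -1 := mul_left_cancel₀ h3 (by linear_combination h5)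
    simp [this]
  classical
  by_contra hh
  set T := Z ⊓ perp Q (Submodule.span F (({c, c', a + b} : Finset V) : Set V))
  have h3 : ∀ p ∈ T, polar Q c p = 0 ∧ polar Q c' p = 0 ∧ polar Q (a + b) p = 0 := fun p hp => by
    simpa [-polar_add_left] using mem_perp_span.1 hp.2
  have h4 : ∀ p ∈ T, Q p = 0 := fun p hp => by
    by_contra h5
    exact hh (fin p hp.1 (h3 p hp).1 (h3 p hp).2.1 (by
      rwa [Q_add, h0, (h3 p hp).2.2, zero_add, add_zero]))
  have h5 : a + b ∉ T := fun hh => by simpa [polar_comm Q c, a3, b1] using (h3 _ hh).1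
  have h6 := h (T ⊔ Submodule.span F {a + b}) (sup_le inf_le_left
    ((Submodule.span_singleton_le_iff_mem _ _).2 (Z.add_mem ha hb))) fun w hw => by
      obtain ⟨p, hp, _, ⟨s, rfl⟩, rfl⟩ : ∃ p ∈ T, ∃ z, (∃ s : F, s • (a + b) = z) ∧ p + z = w := by
        simpa only [Submodule.mem_span_singleton] using Submodule.mem_sup.1 hw
      rw [Q_add, Q_smul, h0, h4 p hp, polar_smul_right, pc (h3 p hp).2.2]; simp
  rw [Submodule.finrank_sup_span_singleton h5] at h6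
  have h7 := finrank_inf_perp hQ Z {c, c', a + b}
  have := Finset.card_le_three (a := c) (b := c') (c := a + b)
  change _ ≤ finrank F T + _ at h7
  omega

theorem exists_tor (hQ : Nondeg Q) {x y : V} (hx : Q x = 0) (hy : Q y = 0) (hxy : polar Q x y = 1)
    {t : F} (ht : t ≠ 0) : ∃ h ∈ commutator (O Q), h.1 x = (t * t) • x ∧
      ∀ v, polar Q x v = 0 → polar Q y v = 0 → h.1 v = v := by
  obtain ⟨h, h1, h2⟩ := exists_tor_Om hQ hx hy (by rwa [polar_comm]) ht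
  exact ⟨⟨h, Om_le Q h1⟩, (mem_Om_iff _).1 h1, h2⟩

end fin

/-- An isometry mapping a norm class of vectors in the members into the members permutes them. -/
def Conn (Q : QuadraticForm F V) (D : ι → Submodule F V) : Prop :=
  ∀ (y : O Q) (d : F), d ≠ 0 → (∀ i c, Cl Q (D i) d c → InD D (y.1 c)) → PD D y

/-- Three independent vectors of one norm class orthogonal to a given vector. -/
def Tri (Q : QuadraticForm F V) (D : ι → Submodule F V) (w : V) : Prop :=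
  ∃ l m, l ≠ m ∧ ∃ a a' b, Cl Q (D l) (Q a) a ∧ Cl Q (D l) (Q a) a' ∧ Cl Q (D m) (Q a) b ∧
    a' ∉ Submodule.span F {a} ∧ polar Q w a = 0 ∧ polar Q w a' = 0 ∧ polar Q w b = 0

/-- A root element with centre in a member and direction outside. -/
def Gd (N : Subgroup (O Q)) (D : ι → Submodule F V) : Prop :=
  ∃ j, ∃ x ∈ D j, x ≠ 0 ∧ ∃ w, w ∉ D j ∧ EA N x w

theorem gd_of {j : ι} {x v : V} (hx : x ∈ D j) (hx0 : x ≠ 0) (hxs : Q x = 0)
    (hxv : polar Q x v = 0) (hv : v ∉ D j) (h1 : RC N v) (h2 : RC N (v + x)) : Gd N D :=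
  ⟨j, x, hx, hx0, _, by rwa [Submodule.smul_mem_iff _ (inv_ne_zero h1.1)], h1.ea hxs hxv h2⟩

namespace OrD

variable [FiniteDimensional F V] (h : OrD Q D)
include h

theorem conn_part [Finite F] {y : O Q} {d : F} (hd : d ≠ 0) {i : ι} (h3 : 3 ≤ finrank F (D i))
    (hD : Diam Q (D i)) (hy : ∀ c, Cl Q (D i) d c → InD D (y.1 c)) :
    ∃ j, ∀ v ∈ D i, y.1 v ∈ D j := by
  obtain ⟨c, hc, e⟩ := quad_exists_eq (h.nd i) (by omega) d
  have h1 : Cl Q (D i) d c := ⟨hc, e ▸ hd, by rw [e]; exact IsSquare.mul_self d⟩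
  obtain ⟨j, hj⟩ := hy c h1
  have step : ∀ a b, y.1 a ∈ D j → Cl Q (D i) d b → polar Q a b ≠ 0 → y.1 b ∈ D j :=
    fun a b ha hb hab => by
      obtain ⟨l, hl⟩ := hy b hb
      rwa [h.eq_of_polar ha hl (by rwa [O_polar])]
  have all : ∀ b, Cl Q (D i) d b → y.1 b ∈ D j := fun b hb => by
    by_cases h4 : b ∈ Submodule.span F {c}
    · obtain ⟨s, rfl⟩ := Submodule.mem_span_singleton.1 h4
      simpa using (D j).smul_mem s hj
    by_cases h5 : polar Q c b = 0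
    · obtain ⟨e, h6, h7, h8⟩ := hD d c b h1 hb h4 h5
      exact step e b (step c e hj h6 h7) hb (by rwa [polar_comm])
    · exact step c b hj hb h5
  refine ⟨j, fun v hv => ?_⟩
  refine (Submodule.span_le (p := (D j).comap (y.1 : V →ₗ[F] V))).2 all
    (irr_of_roots h.hQ (h.nd i) h3 (p := (· ∈ Submodule.span F {b | Cl Q (D i) d b}))
      (fun _ _ => Submodule.sub_mem _) (fun z hz hzs b hb hzb w hw => ?_)
      (Submodule.subset_span h1) (fun hh => h1.2.1 ?_) v hv)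
  · have h4 : (eich Q z b).1 w ∈ Submodule.span F {b | Cl Q (D i) d b} := by
      refine (Submodule.span_le (p := Submodule.comap ((eich Q z b).1 : V →ₗ[F] V)
        (Submodule.span F {b | Cl Q (D i) d b}))).2 (fun a ha => Submodule.subset_span ⟨?_, ?_⟩) hw
      · rw [LinearEquiv.coe_coe, eich_ap hzs hzb]
        exact (D i).sub_mem ((D i).add_mem ha.1 ((D i).smul_mem _ hz)) ((D i).smul_mem _ hb)
      · simpa [O_map] using ha.2
    convert Submodule.sub_mem _ h4 hw using 1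
    rw [eich_ap hzs hzb]; module
  · rw [Submodule.disjoint_def.1 (h.nd i) c hc hh, Q.map_zero]

theorem tri_of [Finite F] {w : V} {l m : ι} (hlm : l ≠ m) (hw : Q (h.pr l w) ≠ 0)
    (hm : 3 ≤ finrank F (D m)) (hl : 4 ≤ finrank F (D l) ∨ (3 ≤ finrank F (D l) ∧ BigS F)) :
    Tri Q D w := by
  obtain ⟨b, hb, b1, b2⟩ := exists_nonsing_orth h.hQ (h.nd m) hm w
  have h1 := finrank_inf_one h.hQ (D l) (h.pr l w)
  have e : ∀ a ∈ D l, polar Q (h.pr l w) a = 0 → polar Q w a = 0 := fun a ha h0 =>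
    pc ((h.polar_pr ha w).symm.trans (pc h0))
  by_cases h2 : (2 : F) = 0
  · have sq := Orth.isSquare_of_charTwo h2
    have h3 : polar Q (h.pr l w) (h.pr l w) = 0 := by simp [h2]
    obtain ⟨p, hp, p1, p2⟩ := exists_orth_not_mem h.hQ (D l) (Submodule.span F {h.pr l w})
      [h.pr l w] (by
        have := SUMax.finrank_span_one_le (F := F) (h.pr l w)
        simp only [List.length_singleton]; omega)
    have p3 := p2 _ (List.mem_singleton_self _)
    by_cases p4 : Q p = 0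
    · exact ⟨l, m, hlm, _, p + h.pr l w, b, ⟨h.pr_mem l w, hw, sq _⟩,
        ⟨(D l).add_mem hp (h.pr_mem l w), by simpa [Q_add, p4, pc p3] using hw, sq _⟩,
        ⟨hb, b1, sq _⟩, fun hh => p1 (by
          simpa using Submodule.sub_mem _ hh (Submodule.mem_span_singleton_self _)),
        e _ (h.pr_mem l w) h3, e _ ((D l).add_mem hp (h.pr_mem l w)) (by
          rw [polar_add_right, p3, h3, add_zero]), b2⟩
    · exact ⟨l, m, hlm, _, p, b, ⟨h.pr_mem l w, hw, sq _⟩, ⟨hp, p4, sq _⟩, ⟨hb, b1, sq _⟩, p1,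
        e _ (h.pr_mem l w) h3, e _ hp p3, b2⟩
  have hP := nd_inf_perp_one (h.nd l) (h.pr_mem l w) (polar_self_ne h2 hw)
  obtain ⟨a, ha, a1⟩ := quad_exists_eq hP (by omega) (Q b)
  obtain ⟨a', ha', a2, a3⟩ := exists_second h.hQ h2 hP (hl.imp (by omega) (And.imp_left (by omega)))
    ha (a1 ▸ b1)
  exact ⟨l, m, hlm, a, a', b, ⟨ha.1, a1 ▸ b1, IsSquare.mul_self _⟩,
    ⟨ha'.1, a2 ▸ a1 ▸ b1, a2 ▸ IsSquare.mul_self _⟩, ⟨hb, b1, a1 ▸ IsSquare.mul_self _⟩, a3,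
    e _ ha.1 (mem_perp_one.1 ha.2), e _ ha'.1 (mem_perp_one.1 ha'.2), b2⟩

/-- An element of `X` mapping one non-singular vector of a member into a member permutes the
members, unless a reflection class grows. -/
theorem pd_of_inD (hC : Conn Q D) (hH : ∀ g ∈ commutator (O Q), PD D g → g ∈ X)
    (hr : ∀ u v, InD D u → Q u ≠ 0 → Q v ≠ 0 → refl Q u * refl Q v ∈ X → InD D v) {y : O Q}
    (hy : y ∈ X) {u : V} (hu : InD D u) (hu0 : Q u ≠ 0) (h1 : InD D (y.1 u)) : PD D y :=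
  hC y _ hu0 fun i c hc => hr _ _ h1 (by rwa [O_map]) (by rw [O_map]; exact hc.2.1) (by
    rw [← conj_refl, ← conj_refl, conj_mul]
    exact X.mul_mem (X.mul_mem hy (hH _ (refl_mul_mem_of_sq h.hQ hu0 hc.2.1 hc.2.2)
      ((h.pd_refl hu).mul (h.pd_refl ⟨i, hc.1⟩)))) (X.inv_mem hy))

theorem rigid [Finite F] (h3 : ∀ i, 3 ≤ finrank F (D i)) (hC : Conn Q D)
    (hT : ∀ w, Q w ≠ 0 → Tri Q D w) (hH : ∀ g ∈ commutator (O Q), PD D g → g ∈ X)
    (hr : ∀ u v, InD D u → Q u ≠ 0 → Q v ≠ 0 → refl Q u * refl Q v ∈ X → InD D v) {g : O Q}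
    (hg : g ∈ X) : PD D g := by
  intro i₀
  obtain ⟨u, hu, hu1⟩ := quad_exists_eq (h.nd i₀) (le_trans (by omega) (h3 i₀)) 1
  have hu0 : Q u ≠ 0 := hu1 ▸ one_ne_zero
  obtain ⟨l, m, hlm, a, a', b, ha, ha', hb, h1, h4, h5, h6⟩ := hT (g⁻¹.1 u) (by rwa [O_map])
  refine h.pd_of_inD hC hH hr hg ⟨l, ha.1⟩ ha.2.1 ?_ i₀
  by_contra hn
  have key : ∀ {k c}, Cl Q (D k) (Q a) c → polar Q (g⁻¹.1 u) c = 0 → ∀ j, h.pr j (g.1 a) ≠ 0 →
      ∃ s : F, g.1 c - s • g.1 a ∈ D j := by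
    intro k c hc hc0 j hj
    rw [O_polar_inv_left] at hc0 h4
    have h7 : PD D (refl Q (g.1 a) * refl Q (g.1 c)) := by
      refine h.pd_of_inD hC hH hr ?_ ⟨_, hu⟩ hu0 ⟨i₀, ?_⟩
      · rw [← conj_refl, ← conj_refl, conj_mul]
        exact X.mul_mem (X.mul_mem hg (hH _ (refl_mul_mem_of_sq h.hQ ha.2.1 hc.2.1 hc.2.2)
          ((h.pd_refl ⟨l, ha.1⟩).mul (h.pd_refl ⟨k, hc.1⟩)))) (X.inv_mem hg)
      · rwa [O_mul_apply, refl_apply_of_orth hc0, refl_apply_of_orth h4]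
    obtain ⟨j', h8⟩ := h7 j
    obtain ⟨z, hz, hz0, h9⟩ := exists_orth_not_mem h.hQ (D j) ⊥ [g.1 a, g.1 c] (by
      have := h3 j; simp; omega)
    obtain rfl : j = j' := by
      by_contra hjj
      refine hz0 (h.eq_zero_of_mem hjj hz ?_)
      have := h8 z hz
      rwa [O_mul_apply, refl_apply_of_orth (pc (h9 _ (by simp))),
        refl_apply_of_orth (pc (h9 _ (by simp)))] at this
    obtain ⟨d, hd, hd1⟩ := exists_polar_eq (h.nd j) (h.pr_mem j (g.1 a)) hj 1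
    rw [polar_comm, h.polar_pr hd, polar_comm] at hd1
    have h10 := (D j).sub_mem hd (h8 d hd)
    rw [O_mul_apply, refl_ap, refl_ap] at h10
    generalize (Q (g.1 c))⁻¹ * polar Q (g.1 c) d = β at h10
    by_cases hβ : β = 0
    · refine absurd ⟨j, ((D j).smul_mem_iff (inv_ne_zero ha.2.1)).1 ?_⟩ hn
      simpa [hβ, hd1, O_map] using h10
    · generalize (Q (g.1 a))⁻¹ * _ = α at h10
      refine ⟨-(α / β), ((D j).smul_mem_iff hβ).1 ?_⟩
      convert h10 using 1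
      match_scalars <;> field_simp <;> ring
  obtain ⟨j, -, hj⟩ := h.exists_pr_ne (fun hh => hn ⟨i₀, hh⟩)
  obtain ⟨j', hjj, hj'⟩ := h.exists_pr_ne (fun hh => hn ⟨j, hh⟩)
  obtain ⟨s, e1⟩ := key ha' h5 j hj
  obtain ⟨s', e2⟩ := key ha' h5 j' hj'
  obtain ⟨t, e3⟩ := key hb h6 j hj
  obtain ⟨t', e4⟩ := key hb h6 j' hj'
  have h7 : s' - s ≠ 0 := fun h0 => h1 (Submodule.mem_span_singleton.2 ⟨s, g.1.injective (by
    rw [sub_eq_zero.1 h0] at e2
    rw [map_smul, eq_comm, ← sub_eq_zero]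
    exact h.eq_zero_of_mem hjj e2 e1)⟩)
  have h8 := h.eq_zero_of_mem hjj (v := (t' - t) • (g.1 a' - s • g.1 a) -
    (s' - s) • (g.1 b - t • g.1 a)) (by
      convert (D j').sub_mem ((D j').smul_mem (t' - t) e2) ((D j').smul_mem (s' - s) e4) using 1
      module) ((D j).sub_mem ((D j).smul_mem _ e1) ((D j).smul_mem _ e3))
  refine ne_zero_of_Q hb.2.1 (h.eq_zero_of_mem hlm (((D l).smul_mem_iff h7).1 ?_) hb.1)
  have h9 : (s' - s) • b = (t' - t) • (a' - s • a) + ((s' - s) * t) • a := g.1.injective (by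
    simp only [map_add, map_sub, map_smul]
    linear_combination (norm := module) -h8)
  rw [h9]
  exact (D l).add_mem ((D l).smul_mem _ ((D l).sub_mem ha'.1 ((D l).smul_mem _ ha.1)))
    ((D l).smul_mem _ ha.1)

variable [Finite F] (h5 : 5 ≤ finrank F V) (hN : ∀ g ∈ commutator (O Q), PD D g → g ∈ N)
include h5 hN

theorem gd_four {j : ι} (h4 : 4 ≤ finrank F (D j)) {v : V} (hv : RC N v) (hj : v ∉ D j)
    (hs : Q (h.pr j v) ≠ 0) : Gd N D := by
  obtain ⟨x, hx, hx0, hxs, h1⟩ := exists_sing_orth h.hQ (D j) [v] (by simpa using h4)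
  have h2 := pc (h1 v (by simp))
  obtain ⟨a, ha, a1, a2⟩ := exists_dual_mem h.hQ (h.nd j)
    ((Submodule.span_singleton_le_iff_mem _ _).2 hx) (h.pr_mem j v) fun hh => by
      obtain ⟨c, hc⟩ := Submodule.mem_span_singleton.1 hh
      exact hs (by rw [← hc, Q_smul, hxs, mul_zero])
  have h3 := (h.supp hN j).ein h.hQ h5 x hx hxs a ha (pc (a2 x (Submodule.mem_span_singleton_self x)))
  refine gd_of hx hx0 hxs h2 hj hv ((hv.conj h3.mem).congr ?_)
  rw [h.polar_pr ha] at a1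
  simp [eich_ap hxs h3.orth, a1, h2]

omit [Finite F] h5 in
theorem gd_sing (hB : BigS F) {j : ι} {v : V} (hv : RC N v) (hj : v ∉ D j) (h0 : h.pr j v ≠ 0)
    (hs : Q (h.pr j v) = 0) : Gd N D := by
  obtain ⟨t, h1, h2⟩ := hB
  have hx := h.pr_mem j v
  obtain ⟨y, hy, hys, hxy⟩ := exists_partner (h.nd j) hx h0 hs
  obtain ⟨g, g1, g2, g3⟩ := exists_tor h.hQ hs hys hxy h1
  have g4 : ∀ w ∈ perp Q (D j), g.1 w = w := fun w hw => g3 w (hw _ hx) (hw _ hy)
  refine gd_of ((D j).smul_mem (t * t - 1) hx) (smul_ne_zero (sub_ne_zero.2 h2) h0)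
    (by simp [Q_smul, hs]) (by rw [polar_smul_left, ← h.polar_pr hx, pself hs, smul_zero]) hj hv
    ((hv.conj (h.supp hN j g g1 g4)).congr ?_)
  have := g4 _ (h.sub_pr j v)
  rw [map_sub, g2] at this
  linear_combination (norm := module) this

/-- Moving two components of a vector. -/
theorem rc_move {i j : ι} (hij : i ≠ j) {v a b : V} (hv : RC N v) {g k : O Q}
    (g1 : g ∈ commutator (O Q)) (g2 : ∀ w ∈ perp Q (D i), g.1 w = w) (g3 : g.1 (h.pr i v) = a)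
    (k1 : k ∈ commutator (O Q)) (k2 : ∀ w ∈ perp Q (D j), k.1 w = w) (k3 : k.1 (h.pr j v) = b) :
    ∃ w, RC N w ∧ Q w = Q v ∧ h.pr i w = a ∧ h.pr j w = b ∧ polar Q w v =
      polar Q (h.pr i v) a + polar Q (h.pr j v) b + 2 * (Q v - Q (h.pr i v) - Q (h.pr j v)) := by
  have ha : a ∈ D i := g3 ▸ h.mem_of_fix g2 i _ (h.pr_mem i v)
  have hb : b ∈ D j := k3 ▸ h.mem_of_fix k2 j _ (h.pr_mem j v)
  set c := v - h.pr i v - h.pr j v with hc
  have c1 : c ∈ perp Q (D i) := Submodule.sub_mem _ (h.sub_pr i v) (h.orth i j hij (h.pr_mem j v))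
  have c2 : c ∈ perp Q (D j) := by
    rw [hc, sub_right_comm]
    exact Submodule.sub_mem _ (h.sub_pr j v) (h.orth j i hij.symm (h.pr_mem i v))
  have e : v = h.pr i v + h.pr j v + c := by rw [hc]; abel
  have e' : g.1 (k.1 v) = a + b + c := by
    rw [e]
    simp only [map_add, k2 _ (h.orth j i hij.symm (h.pr_mem i v)), k2 c c2, k3, g3, g2 c c1,
      g2 b (h.orth i j hij hb)]
  clear_value c
  refine ⟨a + b + c, e' ▸ (hv.conj (h.supp hN j k k1 k2)).conj (h.supp hN i g g1 g2),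
    by rw [← e', O_map, O_map], ?_, ?_, ?_⟩
  · simp [h.pr_of_mem ha, h.pr_of_ne hij hb, h.pr_eq_zero.2 c1]
  · simp [h.pr_of_mem hb, h.pr_of_ne hij.symm ha, h.pr_eq_zero.2 c2]
  · have h1 := congrArg Q e
    have hi := h.pr_mem i v
    have hj := h.pr_mem j v
    generalize h.pr i v = p at *
    generalize h.pr j v = p' at *
    subst e
    simp only [Q_add, polar_add_left, polar_add_right, h.polar_eq hij hi hj, h.polar_eq hij ha hj,
      h.polar_eq hij.symm hb hi, mem_perp.1 c1 _ hi, mem_perp.1 c1 _ ha, mem_perp.1 c2 _ hj,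
      mem_perp.1 c2 _ hb, mem_perp'.1 c1 _ hi, mem_perp'.1 c2 _ hj, polar_self', polar_comm Q a,
      polar_comm Q b]
    ring

theorem gd_three (h2 : (2 : F) ≠ 0) (hB : BigS F) (h3 : ∀ i, 3 ≤ finrank F (D i)) {v : V}
    (hv : RC N v) (hn : ¬ InD D v) (i₀ : ι) : Gd N D := by
  obtain ⟨i, -, hi⟩ := h.exists_pr_ne (fun hh => hn ⟨i₀, hh⟩)
  obtain ⟨j, hij, hj⟩ := h.exists_pr_ne (fun hh => hn ⟨i, hh⟩)
  by_cases s1 : Q (h.pr i v) = 0
  · exact h.gd_sing hN hB hv (fun hh => hn ⟨i, hh⟩) hi s1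
  by_cases s2 : Q (h.pr j v) = 0
  · exact h.gd_sing hN hB hv (fun hh => hn ⟨j, hh⟩) hj s2
  obtain ⟨t, t0, t1⟩ := id hB
  obtain ⟨a, ha, a1, a2⟩ := exists_norm_polar h.hQ h2 (h.nd i) (h3 i) (h.pr_mem i v) s1
    (Q (h.pr i v)) (Q (h.pr i v) * (1 + t * t) / t)
  obtain ⟨b, hb, b1, b2⟩ := exists_norm_polar h.hQ h2 (h.nd j) (h3 j) (h.pr_mem j v) s2
    (Q (h.pr j v)) (t * Q v - Q (h.pr i v) * (1 + t * t) / t -
      2 * (Q v - Q (h.pr i v) - Q (h.pr j v)))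
  obtain ⟨g, g1, g2, g3⟩ := exists_omega_move h.hQ h5 h2 (h.nd i) (h3 i) (h.pr_mem i v) ha s1 a1
  obtain ⟨k, k1, k2, k3⟩ := exists_omega_move h.hQ h5 h2 (h.nd j) (h3 j) (h.pr_mem j v) hb s2 b1
  obtain ⟨w, w1, w2, w3, w4, w5⟩ := h.rc_move h5 hN hij.symm hv g1 g2 g3 k1 k2 k3
  have h4 : RC N (v - t • w) := (w1.rf hv).congr (by
    rw [w5, w2, a2, b2]; congr 2; field_simp [hv.1]; ring)
  have ne : ∀ p p' : V, Q p ≠ 0 → Q p' = Q p → p - t • p' ≠ 0 := fun p p' h6 h7 h8 =>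
    t1 (mul_right_cancel₀ h6 (by rw [sub_eq_zero] at h8; rw [one_mul, ← h7, ← Q_smul, ← h8, h7]))
  refine h.gd_sing hN hB h4 (j := i) (fun hh => ne _ b s2 b1 ?_) (by
    simpa [w3] using ne _ a s1 a1) ?_
  · simpa [w4] using h.pr_of_ne hij hh
  · rw [map_sub, map_smul, w3, Q_sub, Q_smul, polar_smul_right, a1, a2, smul_eq_mul]
    field_simp
    ring

theorem gd_pair (h2 : (2 : F) ≠ 0) {i j : ι} (hij : i ≠ j) (h4 : 4 ≤ finrank F (D i))
    (h3 : 3 ≤ finrank F (D j)) {v : V} (hv : RC N v) (hi : h.pr i v ≠ 0) (s1 : Q (h.pr i v) = 0)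
    (s2 : Q (h.pr j v) = Q v) : Gd N D := by
  have s3 := s2 ▸ hv.1
  obtain ⟨y, hy, hys, hxy⟩ := exists_partner (h.nd i) (h.pr_mem i v) hi s1
  obtain ⟨c, hc, c1⟩ := quad_exists_eq (nd_inf_perp_pair (h.nd i) (h.pr_mem i v) hy s1 hys hxy) (by
    classical
    have h6 := finrank_inf_perp h.hQ (D i) {h.pr i v, y}
    have := Finset.card_le_two (a := h.pr i v) (b := y)
    rw [Finset.coe_pair] at h6
    omega) 1
  obtain ⟨c2, c3⟩ := mem_perp_pair.1 hc.2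
  obtain ⟨b, hb, b1, b2⟩ := exists_norm_polar h.hQ h2 (h.nd j) h3 (h.pr_mem j v) s3 (Q (h.pr j v)) 0
  obtain ⟨k, k1, k2, k3⟩ := exists_omega_move h.hQ h5 h2 (h.nd j) h3 (h.pr_mem j v) hb s3 b1
  obtain ⟨w, w1, w2, w3, w4, w5⟩ := h.rc_move h5 hN hij hv (eich_mem h.hQ h5 y c)
    (fun w hw => eich_apply_of_orth (pc (hw y hy)) (pc (hw c hc.1))) rfl k1 k2 k3
  have h7 : polar Q (h.pr i v) ((eich Q y c).1 (h.pr i v)) = -1 := by
    simp [eich_ap hys c3, s1, c1, c2, pc c2, hxy, polar_comm Q y]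
  refine h.gd_four h5 hN h4 (w1.rf hv) (fun hh => ?_) ?_
  · have := congrArg (polar Q (h.pr j v)) (h.pr_of_ne hij.symm hh)
    simp [w4, b2, s3, h2] at this
  · rw [map_sub, map_smul, w3, Q_sub, Q_smul, polar_smul_right, O_map, w5, h7, b2, s1, s2, w2]
    simp [hv.1]

theorem E_le_of_gd (h3 : ∀ i, 3 ≤ finrank F (D i)) (hI : ∀ i l j, i ≠ l → i ≠ j → l ≠ j →
    ∃ e : D i ≃ₗ[F] D l, ∀ w : D i, Q (e w : V) = Q w) (hG : Gd N D) : E Q ≤ N := by
  have ein := fun i => (h.supp hN i).ein h.hQ h5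
  have irr : ∀ {i j x w}, i ≠ j → x ∈ D j → EA N x w → w ∉ perp Q (D i) → ∀ z ∈ D i, EA N x z :=
    fun hij hx hw h1 => hw.of_irr h.hQ (h.nd _) (h3 _) (ein _) (h.orth _ _ hij hx) h1
  have nz : ∀ {i x}, x ∈ D i → x ≠ 0 → x ∉ perp Q (D i) := fun hx hx0 hh =>
    hx0 (Submodule.disjoint_def.1 (h.nd _) _ hx hh)
  have full : ∀ {i j x}, i ≠ j → x ∈ D j → Q x = 0 → (∀ z ∈ D i, EA N x z) → EFull N x := by
    intro i j x hij hx hxs h1
    refine h.efull hxs (ein j x hx hxs) fun l hl => ?_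
    by_cases hli : i = l
    · exact hli ▸ h1
    obtain ⟨e, he⟩ := hI i l j hli hij hl
    obtain ⟨s, s1, s2, r, r1, r2, -, r3⟩ := h.exists_swap_omega h5 hli (m := l)
      (le_trans (by omega) (h3 l)) e he
    obtain ⟨u, hu, hu0⟩ := (D i).ne_bot_iff.1 (h.ne i)
    refine irr hl hx ((h1 u hu).conj_fix (hN s s1 s2) ?_) (nz ?_ (O_apply_ne_zero s hu0))
    · rw [r3 x (h.orth i j hij hx) (h.orth l j hl hx), r1 x (h.orth l j hl hx)]
    · exact (r2 ⟨u, hu⟩).symm ▸ h.mem_of_fix r1 l _ (e ⟨u, hu⟩).2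
  obtain ⟨j, x, hx, hx0, w, hw, h1⟩ := hG
  obtain ⟨i, hij, hi⟩ := h.exists_pr_ne hw
  have h2 := irr hij hx h1 (mt h.pr_eq_zero.2 hi)
  obtain ⟨y, hy, hys, hxy⟩ := exists_partner (h.nd j) hx hx0 h1.sing
  obtain ⟨z, hz, hz0, hzs⟩ := quad_exists_sing Q (h3 i)
  exact E_le_of_two h.hQ (by omega) h1.sing hys (full hij hx h1.sing h2) (full hij hy hys
    (irr hij hy ((irr hij.symm hz ((h2 z hz).swap hzs) (nz hx hx0) y hy).swap hys) (nz hz hz0)))
    (by simp [hxy])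

omit h5 hN in
theorem exists_not_pd {i j : ι} (hij : i ≠ j) (h3 : 3 ≤ finrank F (D i)) :
    ∃ x a, Q x = 0 ∧ polar Q x a = 0 ∧ ¬ PD D (eich Q x a) := by
  obtain ⟨x, hx, hx0, hxs⟩ := quad_exists_sing Q h3
  obtain ⟨y, hy, hys, hxy⟩ := exists_partner (h.nd i) hx hx0 hxs
  obtain ⟨a, ha, ha0⟩ := (D j).ne_bot_iff.1 (h.ne j)
  refine ⟨x, a, hxs, h.polar_eq hij hx ha, fun hh => ?_⟩
  obtain ⟨l, hl⟩ := hh i
  have h1 := hl x hx
  rw [eich_apply_self] at h1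
  obtain rfl : i = l := by
    by_contra h2
    exact hx0 (h.eq_zero_of_mem h2 hx h1)
  have h2 := (D i).sub_mem ((D i).add_mem hy ((D i).smul_mem
    (polar Q a y - Q a * polar Q x y) hx)) (hl y hy)
  rw [eich_ap hxs (h.polar_eq hij hx ha), hxy] at h2
  exact ha0 (h.eq_zero_of_mem hij (by simpa using h2) ha)

omit hN in
/-- The reduction of maximality to the growth of a reflection class. -/
theorem E_le_of_rigid (hX : X ≤ commutator (O Q)) (hH : ∀ g ∈ commutator (O Q), PD D g → g ∈ X)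
    {u v : V} (hu : InD D u) (hu0 : Q u ≠ 0) (hv : Q v ≠ 0) (huv : refl Q u * refl Q v ∈ X)
    (hE : ∀ N : Subgroup (O Q), (∀ g ∈ commutator (O Q), PD D g → g ∈ N) → RC N u → RC N v →
      E Q ≤ N) : E Q ≤ X := by
  obtain ⟨N, h1, h2, h3, h4⟩ := exists_hat h.hQ h5 hX hu0
  intro g hg
  refine h4 g (hE N (fun k k1 k2 => h2 k (hH k k1 k2) (hH _ (refl_mul_refl_mem' h.hQ hu0 (O_map _ _))
    ((h.pd_refl hu).mul (h.pd_refl (k2.inD hu))))) h1 (h3 v hv huv) hg) (E_eq h.hQ h5 ▸ hg)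

omit hN in
theorem E_le_three [Finite ι] [Nontrivial ι] (h3 : ∀ i, 3 ≤ finrank F (D i)) (hC : Conn Q D)
    (hT : ∀ w, Q w ≠ 0 → Tri Q D w) (hI : ∀ i l j, i ≠ l → i ≠ j → l ≠ j →
      ∃ e : D i ≃ₗ[F] D l, ∀ w : D i, Q (e w : V) = Q w)
    (hG : ∀ N : Subgroup (O Q), (∀ g ∈ commutator (O Q), PD D g → g ∈ N) → ∀ v, RC N v →
      ¬ InD D v → Gd N D) (X : Subgroup (O Q)) (hX : X ≤ commutator (O Q))
    (hH : ∀ g ∈ commutator (O Q), PD D g → g ∈ X) (g : O Q) (hg : g ∈ X) (hn : ¬ PD D g) :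
    E Q ≤ X := by
  by_contra hc
  refine hn (h.rigid h3 hC hT hH (fun u v hu hu0 hv huv => ?_) hg)
  by_contra hv'
  exact hc (h.E_le_of_rigid h5 hX hH hu hu0 hv huv fun N hN _ h1 =>
    h.E_le_of_gd h5 hN h3 hI (hG N hN v h1 hv'))

end OrD

theorem diam_of [Finite F] [FiniteDimensional F V] (hQ : Nondeg Q) {Z : Submodule F V}
    (hZ : ND Q Z) (h : 4 ≤ finrank F Z ∨ (3 ≤ finrank F Z ∧ BigS F)) (h4 : Nat.card F = 2 →
      finrank F Z = 4 → ∀ U ≤ Z, (∀ w ∈ U, Q w = 0) → 2 * finrank F U ≠ finrank F Z) :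
    Diam Q Z := by
  by_cases h2 : (2 : F) = 0
  swap
  · exact diam_odd hQ h2 hZ h
  refine diam_two hQ h2 hZ ?_
  rcases card_cases (F := F) with hB | ⟨-, h1⟩ | ⟨h1, -⟩
  · exact Or.inl hB
  · refine h.elim (fun h => Or.inr fun U hU h3 => ?_) fun h => Or.inl h.2
    have := two_mul_le_of_ts hQ hZ hU h3
    have := fun h5 => h4 h1 h5 U hU h3
    omega
  · exact absurd h2 h1

open Cfsg.Geo in
/-- Stabilisers of orthogonal decompositions into isometric members of dimension at least three. -/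
theorem omega_dec_three [Finite F] {ι : Type} [Fintype ι] [DecidableEq ι]
    (Q : QuadraticForm F (ι → F)) (hQ : Nondeg Q) {t k : ℕ} {D : Fin t → Submodule F (ι → F)}
    (hD : IsOrthogonalMDecomposition (⇑Q) k D) (hk : 3 ≤ k) (h3 : ¬ (Nat.card F = 3 ∧ k = 3))
    (h4 : ¬ (k = 4 ∧ Nat.card F = 2 ∧ ∀ i, IsPlusTypeOn (⇑Q) (D i))) :
    IsMaximalIn (omegaGL (⇑Q)) (decompositionStabilizer D ⊓ omegaGL (⇑Q)) := by
  have h := od_of hQ hD.decomp
  have hd := hD.decomp.decomp.finrank_eq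
  have : Nontrivial (Fin t) := Fin.nontrivial_iff_two_le.2 hD.decomp.decomp.two_le
  obtain ⟨i, j, hij⟩ := exists_pair_ne (Fin t)
  have h5 : 5 ≤ finrank F (ι → F) := by
    have h1 := Submodule.finrank_mono (h.orth i j hij)
    have := finrank_perp hQ (D i)
    rw [hd] at h1 this
    omega
  have h6 : ∀ i, 3 ≤ finrank F (D i) := fun i => (hd i).symm ▸ hk
  have h7 : 4 ≤ k ∨ ((2 : F) ≠ 0 ∧ BigS F) := by
    by_cases h2 : (2 : F) = 0
    · obtain ⟨m, hm⟩ := even_of_char_two h2 (h.nd i)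
      rw [hd] at hm
      omega
    rcases card_cases (F := F) with hB | ⟨h1, -⟩ | ⟨-, h1⟩
    · exact Or.inr ⟨h2, hB⟩
    · exact absurd h1 h2
    · omega
  have h8 : ∀ i, 4 ≤ finrank F (D i) ∨ (3 ≤ finrank F (D i) ∧ BigS F) := fun i =>
    h7.imp (fun h => (hd i).symm ▸ h) fun h => ⟨h6 i, h.2⟩
  refine isMaximalIn_omega_dec (by rwa [finrank_fintype_fun_eq_card] at h5) h
    (h.exists_not_pd hij (h6 i)) (h.E_le_three h5 h6 (fun y d hd0 hy l => h.conn_part hd0 (h6 l)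
      (diam_of hQ (h.nd l) (h8 l) fun h1 h2 U hU h9 h10 => h4 ⟨hd l ▸ h2, h1, fun m => ?_⟩) (hy l))
      (fun w hw => ?_) (fun i l _ _ _ _ => hD.isometric i l) fun N hN v hv hn => ?_)
  · obtain ⟨e, he⟩ := hD.isometric l m
    refine ⟨((U.comap (D l).subtype).map (e : D l →ₗ[F] D m)).map (D m).subtype,
      Submodule.map_subtype_le _ _, ?_, ?_⟩
    · rintro _ ⟨_, ⟨w, hw, rfl⟩, rfl⟩
      exact (he w).trans (h9 _ hw)
    · rw [Submodule.finrank_map_subtype_eq, LinearEquiv.finrank_map_eq,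
        (Submodule.comapSubtypeEquivOfLe hU).finrank_eq, h10, hd, hd]
  · obtain ⟨l, hl⟩ := h.exists_Q_pr hw
    obtain ⟨m, hm⟩ := exists_ne l
    exact h.tri_of hm.symm hl (h6 m) (h8 l)
  · rcases h7 with h7 | h7
    · obtain ⟨l, hl⟩ := h.exists_Q_pr hv.1
      exact h.gd_four h5 hN ((hd l).symm ▸ h7) hv (fun hh => hn ⟨l, hh⟩) hl
    · exact h.gd_three h5 hN h7.1 h7.2 h6 hv hn i

theorem od_pair [FiniteDimensional F V] (hQ : Nondeg Q) {W : Submodule F V} (hW : ND Q W)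
    (h0 : W ≠ ⊥) (h1 : perp Q W ≠ ⊥) : OrD Q ![W, perp Q W] :=
  ⟨hQ, by simp [hW, nd_perp hQ hW], by simp [perp_perp hQ], by
    rw [eq_top_iff, ← ((ofQuad Q).isCompl_perp hQ hW).sup_eq_top]
    exact sup_le (le_iSup ![W, perp Q W] 0) (le_iSup ![W, perp Q W] 1), by simp [h0, h1]⟩

theorem stab_perp [FiniteDimensional F V] {W : Submodule F V} {g : O Q} (h : ∀ v ∈ W, g.1 v ∈ W) :
    ∀ v ∈ perp Q W, g.1 v ∈ perp Q W := fun v hv =>
  (mem_stabV_perp (isIso_of_O g) (mem_stabV_of_le h) v).1 hv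

theorem pd_pair [FiniteDimensional F V] (hQ : Nondeg Q) {W : Submodule F V} (hW : ND Q W)
    (h0 : W ≠ ⊥) (h1 : perp Q W ≠ ⊥) {g : O Q} (hm : W.map (g.1 : V →ₗ[F] V) ≠ perp Q W) :
    PD ![W, perp Q W] g ↔ ∀ v ∈ W, g.1 v ∈ W := by
  refine ⟨fun h => ?_, fun h i => ?_⟩
  · obtain ⟨π, hπ⟩ := (od_pair hQ hW h0 h1).exists_perm h
    have := hπ 0
    generalize π 0 = j at this
    fin_cases j
    · exact fun v hv => this.le ⟨v, hv, rfl⟩
    · exact absurd this hm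
  · fin_cases i
    exacts [⟨0, h⟩, ⟨1, stab_perp h⟩]

theorem omega_stab_four' [Finite F] [FiniteDimensional F V] (hQ : Nondeg Q) {W : Submodule F V}
    (hW : ND Q W) (h4 : finrank F W = 4) (h3 : finrank F (perp Q W) = 3 ∨ finrank F (perp Q W) = 4)
    (hD : Diam Q W) (hm : ∀ g : O Q, W.map (g.1 : V →ₗ[F] V) ≠ perp Q W) (X : Subgroup (O Q))
    (hX : X ≤ commutator (O Q)) (hH : ∀ g ∈ commutator (O Q), (∀ v ∈ W, g.1 v ∈ W) → g ∈ X)
    (g : O Q) (hg : g ∈ X) (hn : ¬ ∀ v ∈ W, g.1 v ∈ W) : E Q ≤ X := by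
  have h1 := finrank_perp hQ W
  have n0 : W ≠ ⊥ := fun h0 => by rw [h0, finrank_bot] at h4; omega
  have n1 : perp Q W ≠ ⊥ := fun h0 => by rw [h0, finrank_bot] at h3; omega
  simp only [← pd_pair hQ hW n0 n1 (hm _)] at hH hn
  have h := od_pair hQ hW n0 n1
  have h6 : ∀ i, 3 ≤ finrank F (![W, perp Q W] i) := by
    intro i; fin_cases i
    exacts [show 3 ≤ finrank F W by omega, show 3 ≤ finrank F (perp Q W) by omega]
  have hs : ∀ v, Q v = Q (h.pr 0 v) + Q (h.pr 1 v) := fun v => by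
    have := h.Q_sum_pr .univ v
    rwa [h.sum_pr, Fin.sum_univ_two] at this
  have h2 : finrank F (perp Q W) = 3 → (2 : F) ≠ 0 := fun h7 h2 => by
    obtain ⟨m, hm⟩ := even_of_char_two h2 (nd_perp hQ hW)
    omega
  refine h.E_le_three (by omega) h6 (fun y d hd0 hy => ?_) (fun w hw => ?_)
    (fun i l j _ _ _ => by omega) (fun N hN v hv hn => ?_) X hX hH g hg hn
  · obtain ⟨j, hj⟩ := h.conn_part hd0 (h6 0) hD (hy 0)
    have h7 : W.map (y.1 : V →ₗ[F] V) = ![W, perp Q W] j :=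
      Submodule.eq_of_le_of_finrank_le (by rintro _ ⟨v, hv, rfl⟩; exact hj v hv) (by
        rw [LinearEquiv.finrank_map_eq]; fin_cases j
        exacts [le_rfl, show finrank F (perp Q W) ≤ _ by omega])
    have h8 : ∀ v ∈ perp Q W, y.1 v ∈ perp Q (![W, perp Q W] j) := fun v hv => by
      rw [← h7]
      rintro _ ⟨w, hw, rfl⟩
      exact (O_polar y w v).trans (hv w hw)
    intro i
    fin_cases i
    · exact ⟨j, hj⟩
    fin_cases j
    · exact ⟨1, h8⟩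
    · exact ⟨0, fun v hv => by simpa [perp_perp hQ] using h8 v hv⟩
  · by_cases h7 : Q (h.pr 0 w) = 0
    swap
    · exact h.tri_of (m := 1) (by simp) h7 (h6 1) (Or.inl h4.ge)
    have h8 : Q (h.pr 1 w) ≠ 0 := by simpa [hs w, h7] using hw
    rcases h3 with h3 | h3
    swap
    · exact h.tri_of (m := 0) (by simp) h8 (h6 0) (Or.inl h3.ge)
    obtain ⟨a, ha, a1, a2⟩ := exists_nonsing_orth hQ hW (by omega) w
    have h9 := finrank_inf_one hQ (perp Q W) (h.pr 1 w)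
    obtain ⟨b, hb, b1⟩ := quad_exists_eq (nd_inf_perp_one (h.nd 1) (h.pr_mem 1 w)
      (polar_self_ne (h2 h3) h8)) (show 2 ≤ finrank F ↥(perp Q W ⊓ _) by omega) (Q a)
    obtain ⟨a', ha', a3, a4, a5⟩ : ∃ a' ∈ W, Q a' = Q a ∧ a' ∉ Submodule.span F {a} ∧
        polar Q w a' = 0 := by
      by_cases h0 : h.pr 0 w = 0
      · obtain ⟨a', ha', a3, a4⟩ := exists_second hQ (h2 h3) hW (Or.inl (by omega)) ha a1
        exact ⟨a', ha', a3, a4, mem_perp'.1 (h.pr_eq_zero.1 h0) a' ha'⟩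
      have h10 : polar Q a (h.pr 0 w) = 0 := (h.polar_pr (i := 0) ha w).trans (pc a2)
      refine ⟨a + h.pr 0 w, W.add_mem ha (h.pr_mem 0 w), by simp [Q_add, h7, h10], fun hh => ?_,
        by rw [polar_add_right, a2, polar_comm, ← h.polar_pr (h.pr_mem 0 w), pself h7, add_zero]⟩
      obtain ⟨c, hc⟩ := Submodule.mem_span_singleton.1
        (Submodule.sub_mem _ hh (Submodule.mem_span_singleton_self a))
      rw [add_sub_cancel_left] at hc
      rw [← hc] at h0 h7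
      simp [Q_smul, a1, left_ne_zero_of_smul h0] at h7
    exact ⟨0, 1, by simp, a, a', b, ⟨ha, a1, IsSquare.mul_self _⟩,
      ⟨ha', a3 ▸ a1, a3 ▸ IsSquare.mul_self _⟩, ⟨hb.1, b1 ▸ a1, b1 ▸ IsSquare.mul_self _⟩, a4, a2,
      a5, pc ((h.polar_pr hb.1 w).symm.trans (pc (mem_perp_one.1 hb.2)))⟩
  · by_cases h7 : Q (h.pr 0 v) = 0
    swap
    · exact h.gd_four (by omega) hN (j := 0) h4.ge hv (fun hh => hn ⟨0, hh⟩) h7
    have h8 : Q (h.pr 1 v) = Q v := by simp [hs v, h7]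
    rcases h3 with h3 | h3
    · exact h.gd_pair (by omega) hN (h2 h3) (i := 0) (j := 1) (by simp) h4.ge h3.ge hv
        (fun h0 => hn ⟨1, h.pr_eq_zero.1 h0⟩) h7 h8
    · exact h.gd_four (by omega) hN (j := 1) h3.ge hv (fun hh => hn ⟨1, hh⟩) (h8 ▸ hv.1)

open Cfsg.Geo in
/-- Stabilisers of non-degenerate four-dimensional subspaces in dimensions seven and eight. -/
theorem omega_stab_four [Finite F] {ι : Type} [Fintype ι] [DecidableEq ι]
    (Q : QuadraticForm F (ι → F)) (hQ : Nondeg Q) (hn : Fintype.card ι = 7 ∨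
      (Fintype.card ι = 8 ∧ ¬ IsPlusTypeOn (⇑Q) ⊤)) {W : Submodule F (ι → F)}
    (hW : IsNondegenerateOn (polar Q) W) (h4 : finrank F W = 4) :
    IsMaximalIn (omegaGL (⇑Q)) (subspaceStabilizer W ⊓ omegaGL (⇑Q)) := by
  have h1 := finrank_perp hQ W
  have h2 := disjoint_perp_ofQuad hW
  rw [finrank_fintype_fun_eq_card] at h1
  have n0 : W ≠ ⊥ := fun h0 => by rw [h0, finrank_bot] at h4; omega
  have n1 : perp Q W ≠ ⊥ := fun h0 => by rw [h0, finrank_bot] at h1; omega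
  have hm : ∀ g : O Q, W.map (g.1 : (ι → F) →ₗ[F] (ι → F)) ≠ perp Q W := fun g =>
    hn.elim (fun h => hmove_of_dim hQ (by omega) g.1 g.2) fun h =>
      hmove_of_minus hQ h.2 hW ⟨2, h4⟩ g.1 g.2
  refine isMaximalIn_omega hQ (by omega) _ (fun g => ∀ v ∈ W, g.1 v ∈ W) (fun g s e => ?_) ?_
    fun X hX hH g hg hn' => ?_
  · rw [subspaceStabilizer_eq, ← e]
    exact ⟨fun h v => (h v).1, mem_stabV_of_le⟩
  · simp only [← pd_pair hQ h2 n0 n1 (hm _)]
    exact (od_pair hQ h2 n0 n1).exists_not_pd (i := 0) (j := 1) (by simp) (h4.ge.trans' (by omega))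
  by_cases hD : Diam Q W
  · exact omega_stab_four' hQ h2 h4 (by omega) hD hm X hX hH g hg hn'
  have h3 := nd_perp hQ h2
  have h5 := mt (diam_of hQ h2 (Or.inl h4.ge)) hD
  push Not at h5
  obtain ⟨h5, -, U, hU, h6, h7⟩ := h5
  have h8 : Fintype.card ι = 8 ∧ ¬ IsPlusTypeOn (⇑Q) ⊤ := hn.resolve_left fun h => by
    rcases card_cases (F := F) with ⟨t, t0, t1⟩ | ⟨h9, -⟩ | ⟨-, h9⟩
    · obtain ⟨x, -, hx⟩ := (Nat.card_eq_two_iff' (0 : F)).1 h5
      exact t1 (by rw [hx t t0, ← hx 1 one_ne_zero, mul_one])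
    · obtain ⟨m, hm⟩ := even_of_char_two h9 h3
      omega
    · omega
  refine omega_stab_four' hQ h3 (by omega) (by rw [perp_perp hQ]; omega)
    (diam_of hQ h3 (Or.inl (by omega)) fun _ _ U' hU' h9 h10 => h8.2 ⟨U ⊔ U', le_top, ?_, ?_⟩)
    (fun g e => hm g⁻¹ ?_) X hX (fun g h9 h10 => hH g h9 ?_) g hg fun h9 => hn' ?_
  · intro w hw
    obtain ⟨a, ha, b, hb, rfl⟩ := Submodule.mem_sup.1 hw
    rw [Q_add, h6 a ha, h9 b hb, mem_perp.1 (hU' hb) a (hU ha), add_zero, add_zero]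
  · have := Submodule.finrank_sup_add_finrank_inf_eq U U'
    rw [(h2.mono hU hU').eq_bot, finrank_bot] at this
    rw [finrank_top, finrank_fintype_fun_eq_card]
    omega
  · rw [perp_perp hQ] at e
    exact (Submodule.map_symm_eq_iff g.1).2 e
  · simpa [perp_perp hQ] using stab_perp h10
  · simpa [perp_perp hQ] using stab_perp h9

end CfsgLib.OMax
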