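import Mathlib
import Cfsg.Agent.Lib.OMax.Basic
import Cfsg.Agent.Lib.ClMax.TenSL
import Cfsg.Agent.Lib.ClMax.SpTv

/-!
Overgroups of the stabiliser of a tensor decomposition `Sp ⊗ Sp` of an orthogonal space: the
algebra of endomorphisms of the small factor and the case in which it is not scalar.
-/

set_option autoImplicit false

namespace CfsgLib.OMax

open Module CfsgLib.ClMax CfsgLib.ClMax.Ten CfsgLib.OrthE QuadraticMap

variable {F U W V : Type*} [Field F] [AddCommGroup U] [Module F U] [AddCommGroup W]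
  [Module F W] [AddCommGroup V] [Module F V] {τ : U →ₗ[F] W →ₗ[F] V}

theorem uIn_lie {X : Subgroup (V ≃ₗ[F] V)} {N M : End F V} (h1 : UIn X N) (h2 : UIn X M)
    (hN : N * N = 0) (hM : M * M = 0) (h3 : N * M * N = 0) (h4 : M * N * M = 0) :
    UIn X (N * M - M * N) := by
  refine ((h2.conj_uni h1 hN).mul (h2.neg hM)).of_eq ?_
  have : (1 + N) * M * (1 - N) + -M + (1 + N) * M * (1 - N) * -M = N * M - M * N -
      N * M * N - (1 + N) * (M * M) + (1 + N) * (M * N * M) := by noncomm_ring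
  rw [this, h3, h4, hM]; simp

section Alt

variable {f : LinearMap.BilinForm F U}

theorem alt_zero (hA : f.IsAlt) {x y : U} (h : f x y = 0) : f y x = 0 := by
  rw [← hA.neg_eq, h, neg_zero]

theorem alt_ext (hB : f.Nondegenerate) {a b : U} (h : ∀ u, f u a = f u b) : a = b :=
  sub_eq_zero.1 (hB.2 _ fun u => by rw [map_sub, h, sub_self])

variable [FiniteDimensional F U]

theorem alt_exists_eq (hB : f.Nondegenerate) (θ : Dual F U) : ∃ y, f y = θ := by
  obtain ⟨y, hy⟩ := (f.toDual hB).surjective θ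
  exact ⟨y, LinearMap.ext fun x => by rw [← hy, LinearMap.BilinForm.toDual_def]⟩

theorem alt_exists_adj (hA : f.IsAlt) (hB : f.Nondegenerate) (e : End F U) :
    ∃ e' : End F U, ∀ p r, f (e p) r = f p (e' r) := by
  refine ⟨f.leftAdjointOfNondegenerate hB e, fun p r => ?_⟩
  have := f.isAdjointPairLeftAdjointOfNondegenerate hB e r p
  rw [← hA.neg_eq, ← this, hA.neg_eq]

theorem alt_dual_one (hA : f.IsAlt) (hB : f.Nondegenerate) {x z : U}
    (h : z ∉ Submodule.span F {x}) : ∃ a, f a z = 1 ∧ f a x = 0 :=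
  let ⟨a, h1, h2⟩ := ClMax.exists_dual hA hB _ h
  ⟨a, h1, h2 x (Submodule.mem_span_singleton_self x)⟩

theorem alt_orth_two (h : 4 ≤ finrank F U) (f : LinearMap.BilinForm F U) (x y z : U) :
    ∃ u, f x u = 0 ∧ f y u = 0 ∧ u ∉ Submodule.span F {z} := by
  obtain ⟨u, -, h1, h2⟩ := ClMax.exists_orth_not_mem f ⊤ (Submodule.span F {z}) ![x, y] (by
    have := ClMax.finrank_span_singleton_le (F := F) z
    rw [finrank_top]; omega)
  exact ⟨u, h1 0, h1 1, h2⟩

theorem alt_orth_three (h : 5 ≤ finrank F U) (f : LinearMap.BilinForm F U) (x y y' z : U) :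
    ∃ u, f x u = 0 ∧ f y u = 0 ∧ f y' u = 0 ∧ u ∉ Submodule.span F {z} := by
  obtain ⟨u, -, h1, h2⟩ := ClMax.exists_orth_not_mem f ⊤ (Submodule.span F {z}) ![x, y, y'] (by
    have := ClMax.finrank_span_singleton_le (F := F) z
    rw [finrank_top]; omega)
  exact ⟨u, h1 0, h1 1, h1 2, h2⟩

/-- A hyperbolic pair orthogonal to two given vectors. -/
theorem alt_pair_orth (hA : f.IsAlt) (hB : f.Nondegenerate) (h : 5 ≤ finrank F U) (w z : U) :
    ∃ x y, f w x = 0 ∧ f z x = 0 ∧ f w y = 0 ∧ f z y = 0 ∧ f y x = 1 := by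
  obtain ⟨x, -, h1, h2⟩ := ClMax.exists_orth_not_mem f ⊤ (Submodule.span F {w, z}) ![w, z] (by
    have := ClMax.finrank_span_pair_le (F := F) w z
    rw [finrank_top]; omega)
  obtain ⟨y, h3, h4⟩ := ClMax.exists_dual hA hB _ h2
  exact ⟨x, y, h1 0, h1 1, alt_zero hA (h4 w (Submodule.subset_span (by simp))),
    alt_zero hA (h4 z (Submodule.subset_span (by simp))), h3⟩

/-- An algebra of endomorphisms normalised by the symplectic group is scalar or contains all
maps of rank one. -/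
theorem rankOne_of_spAlg (hA : f.IsAlt) (hB : f.Nondegenerate) (E : Submodule F (End F U))
    (hmul : ∀ e ∈ E, ∀ d ∈ E, e * d ∈ E)
    (hconj : ∀ α ∈ spIso f, ∀ e ∈ E, ∀ d : End F U, (∀ p, d (α p) = α (e p)) → d ∈ E)
    (hq : (∃ c : F, c ≠ 0 ∧ c ≠ 1) ∨ 4 ≤ finrank F U) {e : End F U} (he : e ∈ E)
    (hns : ¬ ∃ c : F, ∀ u, e u = c • u) (s x : U) : (f s).smulRight x ∈ E := by
  have h0 := hA.self_eq_zero
  have hc2 : ∀ (y a b c d : U) (σ : F), σ • (f a).smulRight b - (f c).smulRight d ∈ E →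
      σ • (f (a + f y a • y)).smulRight (b + f y b • y) -
        (f (c + f y c • y)).smulRight (d + f y d • y) ∈ E := fun y a b c d σ h => by
    refine hconj _ (tv_mem hA y 1) _ h _ fun p => ?_
    have k := tv_mem hA y 1
    have k1 := k a p
    have k2 := k c p
    simp only [tv_apply, one_mul] at k1 k2
    simp only [LinearMap.sub_apply, LinearMap.smul_apply, LinearMap.smulRight_apply, tv_apply,
      one_mul, k1, k2]
    simp only [map_sub, map_smul, smul_eq_mul]
    module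
  have hc1 : ∀ y a b : U, (f a).smulRight b ∈ E →
      (f (a + f y a • y)).smulRight (b + f y b • y) ∈ E := fun y a b h => by
    simpa using hc2 y a b 0 0 1 (by simpa using h)
  obtain ⟨u, hu⟩ : ∃ u, e u ∉ Submodule.span F {u} := by
    by_contra h'
    push Not at h'
    exact hns (scalar_of_forall_mem_span h')
  have hu0 : u ≠ 0 := by rintro rfl; simp at hu
  obtain ⟨a, ha⟩ := alt_exists_eq hB (f u ∘ₗ e)
  have ha : ∀ p, f u (e p) = f a p := fun p => (LinearMap.congr_fun ha p).symm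
  have hg : ∀ d : F, d • ((f a).smulRight u - (f u).smulRight (e u)) -
      (d ^ 2 * f u (e u)) • (f u).smulRight u ∈ E := fun d => by
    have := E.sub_mem (hconj _ (tv_mem hA u d) e he (e + (d • ((f a).smulRight u -
      (f u).smulRight (e u)) - (d ^ 2 * f u (e u)) • (f u).smulRight u)) fun p => by
        simp only [tv_apply, LinearMap.add_apply, LinearMap.sub_apply, LinearMap.smul_apply,
          LinearMap.smulRight_apply, map_add, map_smul, h0, ← ha]
        module) he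
    rwa [add_sub_cancel_left] at this
  obtain ⟨y, hy0, hy⟩ : ∃ y, y ≠ 0 ∧ (f y).smulRight y ∈ E := by
    have main : ∀ y₀, f u y₀ = 0 → f (e u + f u (e u) • u) y₀ = 0 → y₀ ∉ Submodule.span F {u} →
        ∃ y, y ≠ 0 ∧ (f y).smulRight y ∈ E := fun y₀ h1 h2 h3 => by
      set v := e u + f u (e u) • u with hv
      have hvu : v ∉ Submodule.span F {u} := fun h => hu (by
        simpa [hv] using sub_mem h (Submodule.smul_mem _ (f u (e u))
          (Submodule.mem_span_singleton_self u)))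
      have g1 : (1 : F) • (f a).smulRight u - (f u).smulRight v ∈ E := by
        convert hg 1 using 1
        ext p; simp [hv]; module
      obtain ⟨y, h4, h5, h6⟩ : ∃ y, f y v = 1 ∧ f y u = 0 ∧ y ∉ Submodule.span F {u} := by
        obtain ⟨y, h4, h5⟩ := alt_dual_one hA hB hvu
        by_cases h6 : y ∈ Submodule.span F {u}
        · exact ⟨y + y₀, by simp [h4, alt_zero hA h2], by simp [h5, alt_zero hA h1],
            fun h => h3 (by simpa using sub_mem h h6)⟩
        · exact ⟨y, h4, h5, h6⟩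
      have g2 : f y a • (f y).smulRight u - (f u).smulRight y ∈ E := by
        convert E.sub_mem (hc2 y _ _ _ _ _ g1) g1 using 1
        ext p; simp [h4, h5]; module
      have hy0 : y ≠ 0 := by rintro rfl; simp at h6
      by_cases hσ : f y a = 0
      · obtain ⟨z, h7, h8⟩ := alt_dual_one hA hB (not_mem_span_symm hu0 h6)
        have g3 : (f u).smulRight y ∈ E := by simpa [hσ] using E.neg_mem g2
        refine ⟨y, hy0, ?_⟩
        convert E.sub_mem (hc1 (z + y) _ _ g3) (hc1 z _ _ g3) using 1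
        ext p; simp [h5, h7, h8, h0, add_smul]
      · obtain ⟨z, h7, h8⟩ := alt_dual_one hA hB h6
        refine ⟨u, hu0, ?_⟩
        convert E.smul_mem (f y a)⁻¹ (hmul _ g2 _ (hc2 z _ _ _ _ _ g2)) using 1
        ext p
        have h9 : f y z = -1 := by rw [← hA.neg_eq, h7]
        simp [h5, h7, h8, h0, h9, alt_zero hA h5, alt_zero hA h8, smul_smul, hσ]
    by_cases hκ : f u (e u) = 0
    · exact main (e u) hκ (by simp [hκ, h0]) hu
    rcases hq with ⟨c, hc0, hc1⟩ | hq
    · refine ⟨u, hu0, ?_⟩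
      have hc : (c - c ^ 2) * f u (e u) ≠ 0 := by
        rw [show c - c ^ 2 = c * (1 - c) by ring]
        exact mul_ne_zero (mul_ne_zero hc0 (sub_ne_zero.2 hc1.symm)) hκ
      convert E.smul_mem ((c - c ^ 2) * f u (e u))⁻¹ (E.sub_mem (hg c) (E.smul_mem c (hg 1))) using 1
      rw [eq_inv_smul_iff₀ hc]
      module
    · obtain ⟨y₀, h1, h2, h3⟩ := alt_orth_two hq f u (e u + f u (e u) • u) u
      exact main y₀ h1 h2 h3
  have hall : ∀ x, (f x).smulRight x ∈ E := fun x => by
    by_cases hx : x = 0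
    · simp [hx]
    obtain ⟨α, hα, -, h1⟩ := exists_isom_move hA hB ⊥ (u := y) (u' := x) (by simpa) (by simpa)
      (by simp +contextual)
    exact hconj α hα _ hy _ fun p => by simp [← h1, hα y p]
  have hne : ∀ s, f x s ≠ 0 → (f s).smulRight x ∈ E := fun s hs => by
    convert E.smul_mem (f x s)⁻¹ (hmul _ (hall x) _ (hall s)) using 1
    ext p; simp [smul_smul, mul_comm (f s p), hs]
  by_cases hx : x = 0
  · simp [hx]
  by_cases hs : f x s = 0
  · obtain ⟨b, hb⟩ := exists_B_eq_one hA hB hx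
    have hb' : f x b ≠ 0 := by rw [← hA.neg_eq, hb]; simp
    convert E.sub_mem (hne (s + b) (by simpa [hs])) (hne b hb') using 1
    ext p; simp [add_smul]
  · exact hne s hs

end Alt

/-- A quadratic form on `U ⊗ W` vanishing on pure tensors whose polar form is the product of two
symplectic forms. -/
structure TenQ (f : LinearMap.BilinForm F U) (k : LinearMap.BilinForm F W) (Q : QuadraticForm F V)
    (h : IsTensorProduct τ) : Prop where
  a₁ : f.IsAlt
  n₁ : f.Nondegenerate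
  a₂ : k.IsAlt
  n₂ : k.Nondegenerate
  hQ : Nondeg Q
  eq : ∀ u w u' w', polar Q (τ u w) (τ u' w') = f u u' * k w w'
  pure : ∀ u w, Q (τ u w) = 0

variable {f : LinearMap.BilinForm F U} {k : LinearMap.BilinForm F W} {Q : QuadraticForm F V}
  {h : IsTensorProduct τ}

namespace TenQ

variable (H : TenQ f k Q h)
include H

theorem flip : TenQ k f Q (Ten.flip h) :=
  ⟨H.a₂, H.n₂, H.a₁, H.n₁, H.hQ, fun w u w' u' => (H.eq u w u' w').trans (mul_comm _ _),
    fun w u => H.pure u w⟩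

theorem B_tau (u : U) (z : W) (v : V) : polar Q (τ u z) v = f u (cR h (k z) v) := by
  induction v using h.inductionOn with
  | zero => simp
  | tmul u' w' => simp [H.eq, mul_comm]
  | add a b ha hb => simp [ha, hb]

theorem kron_mem_O {α : U ≃ₗ[F] U} {β : W ≃ₗ[F] W} (hα : α ∈ spIso f) (hβ : β ∈ spIso k) :
    kron h α β ∈ O Q := by
  have e : ∀ v v', polar Q (kron h α β v) (kron h α β v') = polar Q v v' := fun v v' => by
    induction v using h.inductionOn with
    | zero => simp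
    | add a b ha hb => simp [ha, hb]
    | tmul u w =>
      induction v' using h.inductionOn with
      | zero => simp
      | add a b ha hb => simp only [map_add, polar_add_right, ha, hb]
      | tmul u' w' => rw [kron_apply, kron_apply, H.eq, H.eq, hα, hβ]
  intro v
  induction v using h.inductionOn with
  | zero => simp
  | add a b ha hb => rw [map_add, Q_add, Q_add, ha, hb, e]
  | tmul u w => rw [kron_apply, H.pure, H.pure]

variable [FiniteDimensional F U] [FiniteDimensional F W]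

omit [FiniteDimensional F U] in
theorem exists_eq_tau {x : W} (hx0 : x ≠ 0) {v : V}
    (hv : ∀ u c, k x c = 0 → polar Q (τ u c) v = 0) : ∃ u, v = τ u x := by
  refine exists_eq_of_cR h hx0 fun θ hθ => ?_
  obtain ⟨c, rfl⟩ := alt_exists_eq H.n₂ θ
  exact alt_ext H.n₁ fun u => by rw [← H.B_tau, hv u c (alt_zero H.a₂ hθ), map_zero]

theorem right_mem_E {β : W ≃ₗ[F] W} (hβ : β ∈ spIso k) :
    ∃ g ∈ E Q, ∀ u w, g.1 (τ u w) = τ u (β w) := by
  have := finiteDimensional h
  let M : Subgroup (W ≃ₗ[F] W) :=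
    { carrier := {β | ∃ g ∈ E Q, ∀ u w, g.1 (τ u w) = τ u (β w)}
      mul_mem' := by
        rintro a b ⟨g, hg, e⟩ ⟨g', hg', e'⟩
        exact ⟨g * g', mul_mem hg hg', fun u w => by rw [O_mul_apply, e', e]; rfl⟩
      one_mem' := ⟨1, one_mem _, fun _ _ => rfl⟩
      inv_mem' := by
        rintro a ⟨g, hg, e⟩
        exact ⟨g⁻¹, inv_mem hg, fun u w => O_inv_apply_eq g (by rw [e, apply_inv_apply])⟩ }
  refine (spIso_le_of_full H.a₂ H.n₂ (M := M ⊓ spIso k) inf_le_right (fun x d => ?_) hβ).1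
  by_cases hx : x = 0
  · exact hx ▸ tvIn_zero' d
  refine ⟨tv H.a₂ x d, ⟨⟨⟨_, H.kron_mem_O (one_mem _) (tv_mem H.a₂ x d)⟩, ?_,
    kron_apply h 1 _⟩, tv_mem _ _ _⟩, tv_apply _ _ _⟩
  refine mem_of_refl_of_siegel_fix H.hQ (LinearMap.ker (cR h (k x))) _ (fun v hv hv' => ?_)
    (fun u v _ _ _ _ _ => eich_mem_E u v) _ fun v hv => ?_
  · obtain ⟨u, rfl⟩ := H.exists_eq_tau hx fun u c hc => hv' _ (by simp [hc])
    exact absurd (H.pure u x) hv
  · have e : ∀ v, kron h 1 (tv H.a₂ x d) v = v + τ (d • cR h (k x) v) x := fun v => by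
      induction v using h.inductionOn with
      | zero => simp
      | add a b ha hb => simp only [map_add, ha, hb, smul_add, LinearMap.add_apply]; abel
      | tmul u w => simp [tv_apply, smul_smul]
    refine mem_fixSp.2 ((e v).trans ?_)
    rw [LinearMap.mem_ker.1 hv]; simp

end TenQ

/-- The nilpotent map `e ⊗ (w y^*) + e' ⊗ (y w^*)`. -/
noncomputable def sN (k : LinearMap.BilinForm F W) (h : IsTensorProduct τ) (e e' : End F U)
    (w y : W) : End F V := nR h e (k y) w + nR h e' (k w) y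

@[simp] theorem sN_apply (e e' : End F U) (w y : W) (v : V) :
    sN k h e e' w y v = τ (e (cR h (k y) v)) w + τ (e' (cR h (k w) v)) y := rfl

theorem sN_mul {w y w' y' : W} (h1 : k w w' = 0) (h2 : k w y' = 0) (h3 : k y w' = 0)
    (h4 : k y y' = 0) (e e' d d' : End F U) : sN k h e e' w y * sN k h d d' w' y' = 0 := by
  ext v; simp [h1, h2, h3, h4]

/-- An overgroup in the orthogonal group of the stabiliser of the tensor decomposition. -/
structure SpSp (f : LinearMap.BilinForm F U) (k : LinearMap.BilinForm F W) (Q : QuadraticForm F V)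
    (h : IsTensorProduct τ) (X : Subgroup (V ≃ₗ[F] V)) : Prop extends TenQ f k Q h where
  ha : 2 ≤ finrank F U
  hab : finrank F U + 1 < finrank F W
  hb : 5 ≤ finrank F W
  hX : X ≤ O Q
  hK : ∀ g ∈ E Q, g.1 ∈ Kron τ → g.1 ∈ X

namespace SpSp

variable {X : Subgroup (V ≃ₗ[F] V)} (H : SpSp f k Q h X) [FiniteDimensional F U]
  [FiniteDimensional F W]
include H

omit [FiniteDimensional F U] [FiniteDimensional F W] in
theorem pol {g : V ≃ₗ[F] V} (hg : g ∈ X) (x y : V) : polar Q (g x) (g y) = polar Q x y :=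
  O_polar ⟨g, H.hX hg⟩ x y

theorem right {β : W ≃ₗ[F] W} (hβ : β ∈ spIso k) : ∃ g ∈ X, (∀ u w, g (τ u w) = τ u (β w)) ∧
    ∀ y v, cR h (k (β y)) (g v) = cR h (k y) v := by
  obtain ⟨g, hg, e⟩ := H.right_mem_E hβ
  refine ⟨g.1, H.hK g hg ⟨1, β, e⟩, e, fun y v => ?_⟩
  exact LinearMap.congr_fun (ext h (f := cR h (k (β y)) ∘ₗ (g.1 : V →ₗ[F] V)) (g := cR h (k y))
    fun u w => by simp [e, hβ y w]) v

theorem left {α : U ≃ₗ[F] U} (hα : α ∈ spIso f) : ∃ g ∈ X, (∀ u w, g (τ u w) = τ (α u) w) ∧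
    ∀ θ v, cR h θ (g v) = α (cR h θ v) := by
  obtain ⟨g, hg, e⟩ := H.flip.right_mem_E hα
  have e : ∀ u w, g.1 (τ u w) = τ (α u) w := fun u w => e w u
  refine ⟨g.1, H.hK g hg ⟨α, 1, e⟩, e, fun θ v => ?_⟩
  exact LinearMap.congr_fun (ext h (f := cR h θ ∘ₗ (g.1 : V →ₗ[F] V))
    (g := (α : U →ₗ[F] U) ∘ₗ cR h θ) fun u w => by simp [e]) v

theorem exists_tv (x : W) (d : F) : ∃ g ∈ X, ∀ v, g v = v + τ (d • cR h (k x) v) x := by
  obtain ⟨g, hg, e, -⟩ := H.right (tv_mem H.a₂ x d)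
  refine ⟨g, hg, fun v => ?_⟩
  induction v using h.inductionOn with
  | zero => simp
  | add a b ha hb => simp only [map_add, ha, hb, smul_add, LinearMap.add_apply]; abel
  | tmul u w => simp [e, tv_apply, smul_smul]

theorem one {w y : W} (h0 : k w y = 0) : UIn X (sN k h 1 1 w y) := by
  obtain ⟨g, hg, e, -⟩ := H.right (heis_mem H.a₂ w y h0 0)
  exact ⟨g, hg, ext h fun u z => by simp [e, heis_apply, add_assoc]⟩

/-- The algebra of endomorphisms `e` with `1 + e ⊗ (w y^*) + e^* ⊗ (y w^*)` in `X`. -/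
def alg : Submodule F (End F U) where
  carrier := {e | ∃ e' : End F U, (∀ p r, f (e p) r = f p (e' r)) ∧
    ∀ w y, k w y = 0 → UIn X (sN k h e e' w y)}
  add_mem' := by
    rintro a b ⟨a', ha, ha'⟩ ⟨b', hb, hb'⟩
    refine ⟨a' + b', fun p r => by simp [ha, hb], fun w y h0 => ?_⟩
    refine ((ha' w y h0).add (hb' w y h0) (sN_mul (H.a₂.self_eq_zero _) h0 (alt_zero H.a₂ h0)
      (H.a₂.self_eq_zero _) _ _ _ _)).of_eq ?_
    ext v; simp; abel
  zero_mem' := ⟨0, by simp, fun w y _ => uIn_zero.of_eq (by ext v; simp)⟩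
  smul_mem' := by
    rintro c a ⟨a', ha, ha'⟩
    exact ⟨c • a', fun p r => by simp [ha], fun w y h0 =>
      (ha' w (c • y) (by simp [h0])).of_eq (by ext v; simp)⟩

theorem mem_alg_of_one {e e' : End F U} (he : ∀ p r, f (e p) r = f p (e' r)) {w y : W}
    (hw : w ≠ 0) (hy : y ∉ Submodule.span F {w}) (h0 : k w y = 0) (h1 : UIn X (sN k h e e' w y)) :
    e ∈ H.alg := by
  have h00 := H.a₂.self_eq_zero
  have key : ∀ w' y', w' ≠ 0 → y' ∉ Submodule.span F {w'} → k w' y' = 0 →
      UIn X (sN k h e e' w' y') := fun w' y' hw' hy' h0' => by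
    obtain ⟨β, hβ, -, h2⟩ := exists_isom_move H.a₂ H.n₂ ⊥ (u := w) (u' := w') (by simpa)
      (by simpa) (by simp +contextual)
    obtain ⟨γ, hγ, h3, h4⟩ := exists_isom_move H.a₂ H.n₂ (Submodule.span F {w'}) (u := β y)
      (u' := y') (fun h5 => hy (by
        obtain ⟨c, hc⟩ := Submodule.mem_span_singleton.1 h5
        exact Submodule.mem_span_singleton.2 ⟨c, β.injective (by rw [map_smul, h2, hc])⟩)) hy'
      (fun z hz => by
        obtain ⟨c, rfl⟩ := Submodule.mem_span_singleton.1 hz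
        have : k w' (β y) = 0 := by rw [← h2, hβ, h0]
        simp [h0', this])
    obtain ⟨g, hg, e1, e2⟩ := H.right (mul_mem hγ hβ)
    have h5 : (γ * β) w = w' := by
      rw [LinearEquiv.mul_apply, h2, h3 _ (Submodule.mem_span_singleton_self _)]
    have h6 : (γ * β) y = y' := h4
    exact h1.conj' hg fun v => by rw [← h5, ← h6]; simp only [sN_apply, e2, map_add, e1]
  refine ⟨e', he, fun w' y' h0' => ?_⟩
  by_cases hw' : w' = 0
  · exact uIn_zero.of_eq (by ext v; simp [hw'])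
  by_cases hy' : y' ∈ Submodule.span F {w'}
  swap
  · exact key w' y' hw' hy' h0'
  obtain ⟨z, h2, h3, h4⟩ := alt_orth_two (by have := H.hb; omega) k w' y' w'
  refine ((key w' (y' + z) hw' (fun h5 => h4 (by simpa using sub_mem h5 hy')) (by simp [h0', h2])).sub
    (key w' z hw' h4 h2) (sN_mul (h00 _) h2 (by simp [alt_zero H.a₂ h0', alt_zero H.a₂ h2])
      (by simp [h3, h00]) _ _ _ _)
    (sN_mul (h00 _) h2 (alt_zero H.a₂ h2) (h00 _) _ _ _ _)).of_eq ?_
  ext v; simp; abel

omit [FiniteDimensional F U] [FiniteDimensional F W] in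
theorem comm_step {e e' d d' : End F U} (e₀ : End F U) {w y x z : W} (hwy : k w y = 0)
    (hxz : k x z = 0) (hwx : k w x = 0) (hwz : k w z = 0) (hyz : k y z = 0) (hyx : k y x = 1)
    (h1 : UIn X (sN k h e e' w y + nR h e₀ (k w) w)) (h2 : UIn X (sN k h d d' x z)) :
    UIn X (sN k h (e * d) (d' * e') w z) := by
  have h00 := H.a₂.self_eq_zero
  have hxy : k x y = -1 := by rw [← H.a₂.neg_eq, hyx]
  have := alt_zero H.a₂ hwy
  have := alt_zero H.a₂ hxz
  have := alt_zero H.a₂ hwx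
  have := alt_zero H.a₂ hwz
  have := alt_zero H.a₂ hyz
  refine (uIn_lie h1 h2 ?_ ?_ ?_ ?_).of_eq ?_ <;> ext v <;> simp [*]

omit [FiniteDimensional F U] in
theorem mul_mem_alg (e : End F U) (he : e ∈ H.alg) (d : End F U) (hd : d ∈ H.alg) :
    e * d ∈ H.alg := by
  obtain ⟨e', h1, h2⟩ := he
  obtain ⟨d', h3, h4⟩ := hd
  refine ⟨d' * e', fun p r => by simp [h1, h3], fun w z h0 => ?_⟩
  obtain ⟨x, y, h5, h6, h7, h8, h9⟩ := alt_pair_orth H.a₂ H.n₂ H.hb w z
  exact H.comm_step 0 h7 (alt_zero H.a₂ h6) h5 h0 (alt_zero H.a₂ h8) h9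
    ((h2 w y h7).of_eq (by ext v; simp)) (h4 x z (alt_zero H.a₂ h6))

theorem conj_mem_alg (α : U ≃ₗ[F] U) (hα : α ∈ spIso f) (e : End F U) (he : e ∈ H.alg)
    (d : End F U) (hd : ∀ p, d (α p) = α (e p)) : d ∈ H.alg := by
  obtain ⟨e', h1, h2⟩ := he
  obtain ⟨g, hg, e1, e2⟩ := H.left hα
  refine ⟨(α : End F U) ∘ₗ e' ∘ₗ (α.symm : End F U), fun p r => ?_, fun w y h0 =>
    (h2 w y h0).conj' hg fun v => by simp [e1, e2, hd]⟩
  obtain ⟨p, rfl⟩ := α.surjective p
  obtain ⟨r, rfl⟩ := α.surjective r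
  simp [hd, hα _ _, h1]

theorem E_le_of_rankOne (hr : ∀ s x : U, (f s).smulRight x ∈ H.alg) :
    E Q ≤ X.subgroupOf (O Q) := by
  have := finiteDimensional h
  have h00 := H.a₂.self_eq_zero
  have h1 : ∀ u u' w y, k w y = 0 → EA (X.subgroupOf (O Q)) (τ u w) (τ u' y) := by
    intro u u' w y h0
    obtain ⟨e', h2, h3⟩ := hr u' u
    obtain ⟨g, hg, e⟩ := (h3 w y h0).exists
    have h4 : ∀ r, e' r = -f u r • u' := fun r => alt_ext H.n₁ fun p => by
      rw [← h2]; simp [← H.a₁.neg_eq p u', mul_comm]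
    have h5 : polar Q (τ u w) (τ u' y) = 0 := by simp [H.eq, h0]
    refine ⟨H.pure _ _, h5, Subgroup.mem_subgroupOf.2 ?_⟩
    convert hg using 1
    ext v
    rw [eich_ap (H.pure _ _) h5, e, H.pure, H.B_tau, H.B_tau]
    simp [h4, add_assoc, sub_eq_add_neg]
  have : Nontrivial U := Module.nontrivial_of_finrank_pos (R := F) (by have := H.ha; omega)
  have : Nontrivial W := Module.nontrivial_of_finrank_pos (R := F) (by have := H.hb; omega)
  obtain ⟨u₃, hu₃⟩ := exists_ne (0 : U)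
  obtain ⟨u₂, hu₂⟩ := exists_B_eq_one H.a₁ H.n₁ hu₃
  have h2 : ∀ u u' w y, f u u' = 0 → EA (X.subgroupOf (O Q)) (τ u w) (τ u' y) := by
    intro u u' w y h0
    obtain ⟨w₃, w₂, h5, h6, h7, h8, h9⟩ := alt_pair_orth H.a₂ H.n₂ H.hb w y
    simpa [H.eq, H.pure, hu₂, h9, h6] using (h1 u u₃ w w₃ h5).move (h1 u' u₂ y w₂ h8)
      (by simp [H.eq, alt_zero H.a₁ h0]) (by simp [H.eq, alt_zero H.a₂ h7])
  have h3 : ∀ u w, w ≠ 0 → EFull (X.subgroupOf (O Q)) (τ u w) := by
    intro u w hw a ha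
    obtain ⟨w', hw'⟩ := exists_B_eq_one H.a₂ H.n₂ hw
    have hw'' : k w w' = -1 := by rw [← H.a₂.neg_eq, hw']
    have h4 : ∀ v, EA (X.subgroupOf (O Q)) (τ u w) (v + τ (cR h (k w) v) w') := fun v => by
      induction v using h.inductionOn with
      | zero => simpa using EA.zero (H.pure u w)
      | add a b ha hb => exact (ha.add hb).congr (by simp; abel)
      | tmul u' z => exact (h1 u u' w (z + k w z • w') (by simp [hw''])).congr (by simp)
    exact ((h4 a).sub (h2 u _ w w' (by rwa [← H.B_tau]))).congr (add_sub_cancel_right _ _)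
  obtain ⟨w, hw⟩ := exists_ne (0 : W)
  obtain ⟨w', hw'⟩ := exists_B_eq_one H.a₂ H.n₂ hw
  exact E_le_of_two H.hQ (by have := H.ha; have := H.hb; rw [finrank_eq h]; nlinarith)
    (H.pure u₂ w') (H.pure u₃ w) (h3 _ _ (by rintro rfl; simp at hw')) (h3 _ _ hw)
    (by simp [H.eq, hu₂, hw'])

end SpSp

end CfsgLib.OMax
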