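import Mathlib
import Cfsg.Agent.Lib.OMax.ExtO
import Cfsg.Agent.Lib.OMax.Dec
import Cfsg.Agent.Lib.OMax.TenSp

/-!
Overgroups of the stabiliser of a tensor decomposition `O ⊗ O` of an orthogonal space in odd
characteristic: endomorphisms of the small factor, and the case of a skew map.
-/

set_option autoImplicit false
set_option linter.unusedSectionVars false

namespace CfsgLib.OMax

open Module CfsgLib.ClMax CfsgLib.ClMax.Ten CfsgLib.OrthE QuadraticMap

variable {F U W V : Type*} [Field F] [AddCommGroup U] [Module F U] [AddCommGroup W]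
  [Module F W] [AddCommGroup V] [Module F V] {τ : U →ₗ[F] W →ₗ[F] V}

section Small

variable {P : QuadraticForm F U} [FiniteDimensional F U]

theorem exists_nonsing_third (hP : Nondeg P) (h2 : (2 : F) ≠ 0) (h4 : 4 ≤ finrank F U) {u u' c : U}
    (h : Hyp P u u') (h1 : polar P c u = 0) (h1' : polar P c u' = 0) (hc : P c ≠ 0) :
    ∃ d, polar P d u = 0 ∧ polar P d u' = 0 ∧ polar P c d = 0 ∧ P d ≠ 0 := by
  have hZ := nd_perp hP (nd_pair h.he h.hf h.hef)
  have h3 := finrank_perp_pair hP u u'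
  have h5 := finrank_inf_one hP (perp P (Submodule.span F {u, u'})) c
  obtain ⟨d, hd, h6⟩ := exists_nonsing_mem hP (nd_inf_perp_one hZ
    (mem_perp_pair.2 ⟨pc h1, pc h1'⟩) (polar_self_ne h2 hc)) le_rfl (by omega)
  exact ⟨d, pc (mem_perp_pair.1 hd.1).1, pc (mem_perp_pair.1 hd.1).2, mem_perp_one.1 hd.2, h6⟩

/-- An endomorphism preserving every singular point is scalar. -/
theorem scalar_of_sing [Finite F] (hP : Nondeg P) (h2 : (2 : F) ≠ 0) (h3 : 3 ≤ finrank F U)
    {e : End F U} (he : ∀ u, P u = 0 → e u ∈ Submodule.span F {u}) : ∃ c : F, ∀ u, e u = c • u := by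
  obtain ⟨u, u', h⟩ := hP.exists_hyp_of_three h3
  obtain ⟨a, ha⟩ := Submodule.mem_span_singleton.1 (he u h.he)
  obtain ⟨b, hb⟩ := Submodule.mem_span_singleton.1 (he u' h.hf)
  have key : ∀ c, polar P c u = 0 → polar P c u' = 0 → e c = b • c ∧ P c * (a - b) = 0 := by
    intro c h1 h1'
    have k : ∀ c, polar P c u = 0 → polar P c u' = 0 →
        ∃ m : F, m • (u' - c - P c • u) = b • u' - e c - P c • a • u := fun c h1 h1' => by
      obtain ⟨m, hm⟩ := Submodule.mem_span_singleton.1 (he _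
        (h.eich_apply_f h1 h1' ▸ (O_map _ u').trans h.hf))
      exact ⟨m, by rw [hm, map_sub, map_sub, map_smul, ha, hb]⟩
    obtain ⟨m, hm⟩ := k c h1 h1'
    obtain ⟨m', hm'⟩ := k (-c) (by simp [h1]) (by simp [h1'])
    rw [Q_neg, map_neg] at hm'
    have e1 : (m + m' - 2 * b) • u' - (m - m') • c - (P c * (m + m' - 2 * a)) • u = 0 := by
      linear_combination (norm := module) hm + hm'
    have e2 := congrArg (polar P u) e1
    have e3 := congrArg (polar P u') e1
    simp [h.hee, h.hff, h.hef, h.hfe, pc h1, pc h1', -mul_eq_zero] at e2 e3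
    rw [e2, e3, zero_smul, zero_smul, sub_zero, zero_sub, neg_eq_zero] at e1
    have e4 : P c * (a - b) = 0 :=
      mul_left_cancel₀ h2 (by linear_combination P c * e2 - e3)
    refine ⟨?_, e4⟩
    by_cases hc : c = 0
    · simp [hc]
    have e5 : m = b := mul_left_cancel₀ h2 (by
      linear_combination e2 + (smul_eq_zero.1 e1).resolve_right hc)
    have e6 : (P c * (a - b)) • u = 0 := by rw [e4, zero_smul]
    rw [e5] at hm
    linear_combination (norm := module) hm - e6
  obtain ⟨c, h1, h1', hc⟩ := h.exists_nonsingular hP h3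
  have hab : a = b := sub_eq_zero.1 ((mul_eq_zero.1 (key c h1 h1').2).resolve_left hc)
  refine ⟨b, fun v => ?_⟩
  rw [eq_add_pr (Q := P) (e := u) (f := u') v]
  simp only [map_add, map_smul, ← ha, ← hb, hab, (key _ (h.pr_e v) (h.pr_f v)).1]
  module

/-- A self-adjoint map commuting with its conjugates under Eichler transformations is scalar. -/
theorem scalar_of_comm [Finite F] (hP : Nondeg P) (h2 : (2 : F) ≠ 0) (h3 : 3 ≤ finrank F U)
    (hq : (∃ t : F, t ≠ 0 ∧ t * t ≠ 1) ∨ 4 ≤ finrank F U) {e : End F U}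
    (hs : ∀ p r, polar P (e p) r = polar P p (e r))
    (hc : ∀ u c, P u = 0 → polar P u c = 0 → ∀ p r,
      polar P ((eich P u c).1 (e p)) (e ((eich P u c).1 r)) =
        polar P (e ((eich P u c).1 p)) ((eich P u c).1 (e r))) : ∃ c : F, ∀ u, e u = c • u := by
  have hs' : ∀ p r, polar P p (e r) = polar P r (e p) := fun p r => by rw [← hs, polar_comm]
  have A : ∀ u, P u = 0 → polar P u (e u) = 0 := fun u hu => by
    by_cases hu0 : u = 0
    · simp [hu0]
    obtain ⟨u', h⟩ := hP.exists_hyp hu hu0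
    have k : ∀ c, polar P c u = 0 → polar P c u' = 0 → polar P u (e u) * polar P c (e c) -
        polar P c (e u) ^ 2 - polar P u (e (e u)) * P c + (polar P u (e u) * P c) ^ 2 = 0 := by
      intro c h1 h1'
      have e1 := hc u c hu (pc h1) u u'
      have e2 := hc u (-c) hu (by simp [pc h1]) u u'
      rw [eich_apply_self, h.eich_apply_f h1 h1', eich_ap hu (pc h1), eich_ap hu (pc h1)] at e1
      rw [eich_apply_self, h.eich_apply_f (by simp [h1]) (by simp [h1']),
        eich_ap hu (by simp [pc h1]), eich_ap hu (by simp [pc h1])] at e2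
      simp only [map_add, map_sub, map_smul, map_neg, polar_add_left, polar_add_right,
        polar_sub_left, polar_sub_right, polar_smul_left, polar_smul_right, polar_neg_left,
        polar_neg_right, smul_eq_mul, Q_neg, hs, hs' u c] at e1 e2
      exact mul_left_cancel₀ h2 (by linear_combination e1 + e2)
    obtain ⟨c, h1, h1', h4⟩ := h.exists_nonsingular hP h3
    rcases hq with ⟨t, ht, ht'⟩ | hq
    · have e1 := k (t • c) (by simp [h1]) (by simp [h1'])
      simp only [map_smul, polar_smul_left, polar_smul_right, smul_eq_mul, Q_smul] at e1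
      have e2 : (t * t * (t * t - 1) * P c ^ 2) * polar P u (e u) ^ 2 = 0 := by
        linear_combination e1 - t * t * k c h1 h1'
      simpa [ht, sub_ne_zero.2 ht', h4] using e2
    · obtain ⟨d, h5, h6, h7, h8⟩ := exists_nonsing_third hP h2 hq h h1 h1' h4
      have e1 := k (c + d) (by simp [h1, h5]) (by simp [h1', h6])
      have e2 := k (c - d) (by simp [h1, h5]) (by simp [h1', h6])
      simp only [map_add, map_sub, polar_add_left, polar_add_right, polar_sub_left,
        polar_sub_right, Q_add, Q_sub, h7] at e1 e2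
      have e3 : (2 * 2 * P c * P d) * polar P u (e u) ^ 2 = 0 := by
        linear_combination e1 + e2 - 2 * k c h1 h1' - 2 * k d h5 h6
      simpa [h2, h4, h8] using e3
  refine scalar_of_sing hP h2 h3 fun u hu => ?_
  by_cases hu0 : u = 0
  · simp [hu0]
  obtain ⟨u', h⟩ := hP.exists_hyp hu hu0
  have k : ∀ c, polar P c u' = 0 → polar P c u = 0 →
      polar P u (e c) = P c * polar P u' (e c) := fun c h1 h1' => by
    have e1 := A _ (h.symm.eich_apply_f h1 h1' ▸ (O_map _ u).trans hu)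
    have e2 := A _ (h.symm.eich_apply_f (w := -c) (by simp [h1]) (by simp [h1']) ▸
      (O_map _ u).trans hu)
    simp only [map_sub, map_smul, map_neg, polar_sub_left, polar_sub_right, polar_smul_left,
      polar_smul_right, polar_neg_left, polar_neg_right, smul_eq_mul, Q_neg, hs' c u,
      hs' c u'] at e1 e2
    exact mul_left_cancel₀ (mul_ne_zero h2 h2) (by linear_combination e2 - e1)
  have k2 : ∀ c, polar P c u' = 0 → polar P c u = 0 → polar P u (e c) = 0 := fun c h1 h1' => by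
    rw [k c h1 h1']
    by_cases h4 : P c = 0
    · simp [h4]
    rcases hq with ⟨t, ht, ht'⟩ | hq
    · have e1 := k (t • c) (by simp [h1]) (by simp [h1'])
      simp only [map_smul, polar_smul_right, smul_eq_mul, Q_smul, k c h1 h1'] at e1
      exact mul_left_cancel₀ (mul_ne_zero ht (sub_ne_zero.2 ht')) (by linear_combination -e1)
    · obtain ⟨d, h5, h6, h7, h8⟩ := exists_nonsing_third hP h2 hq h h1' h1 h4
      have e1 := k (c + d) (by simp [h1, h6]) (by simp [h1', h5])
      have e2 := k (c - d) (by simp [h1, h6]) (by simp [h1', h5])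
      simp only [map_add, map_sub, polar_add_right, polar_sub_right, Q_add, Q_sub, h7,
        k c h1 h1'] at e1 e2
      exact mul_left_cancel₀ (mul_ne_zero h2 h8) (by linear_combination -P c * (e1 + e2))
  refine mem_span_of_orth hP fun a ha => ?_
  rw [hs, eq_add_pr (Q := P) (e := u) (f := u') a]
  simp [A u hu, pc ha, k2 _ (h.pr_f a) (h.pr_e a)]

omit [FiniteDimensional F U] in
theorem sing_span (hP : Nondeg P) {x : U} (hx : P x = 0) (hx0 : x ≠ 0) (A : AddSubgroup U)
    (h1 : ∀ t : F, t • x ∈ A) (h2 : ∀ y, P y = 0 → polar P x y ≠ 0 → y ∈ A) (w : U) : w ∈ A := by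
  have k : ∀ w, polar P x w ≠ 0 → w ∈ A := fun w hw => by
    simpa using A.add_mem (h2 (w - (P w / polar P x w) • x) (by
      rw [Q_sub, Q_smul, hx, polar_smul_right, polar_comm P w x]; simp [hw])
      (by simpa [pself hx])) (h1 (P w / polar P x w))
  by_cases hw : polar P x w = 0
  · obtain ⟨y, hy⟩ := hP.exists_hyp hx hx0
    simpa using A.sub_mem (k (w + y) (by simp [hw, hy.hef])) (k y (by simp [hy.hef]))
  · exact k w hw

omit [FiniteDimensional F U] in
theorem polar_ext (hP : Nondeg P) {a b : U} (h : ∀ u, polar P u a = polar P u b) : a = b :=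
  sub_eq_zero.1 (hP _ fun u => by rw [polar_comm, polar_sub_right, h, sub_self])

theorem exists_polar_dual (hP : Nondeg P) (θ : Dual F U) : ∃ y, polarBilin P y = θ :=
  alt_exists_eq ((nondeg_iff P).1 hP) θ

end Small

/-- The additive group `A(x)`. -/
def EAs {Q : QuadraticForm F V} (X : Subgroup (O Q)) {x : V} (hx : Q x = 0) : AddSubgroup V where
  carrier := {a | EA X x a}
  add_mem' := EA.add
  zero_mem' := EA.zero hx
  neg_mem' := EA.neg

/-- Contraction with the polar form of the right factor. -/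
noncomputable def cP (h : IsTensorProduct τ) (P : QuadraticForm F W) : W →ₗ[F] V →ₗ[F] U :=
  cR h ∘ₗ polarBilin P

@[simp] theorem cP_apply (h : IsTensorProduct τ) (P : QuadraticForm F W) (y : W) (u : U) (w : W) :
    cP h P y (τ u w) = polar P y w • u := cR_apply h _ u w

/-- A quadratic form on `U ⊗ W` whose polar form is the product of two symmetric forms. -/
structure TenO (P₁ : QuadraticForm F U) (P₂ : QuadraticForm F W) (Q : QuadraticForm F V)
    (h : IsTensorProduct τ) : Prop where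
  two : (2 : F) ≠ 0
  n₁ : Nondeg P₁
  n₂ : Nondeg P₂
  hQ : Nondeg Q
  eq : ∀ u w u' w', polar Q (τ u w) (τ u' w') = polar P₁ u u' * polar P₂ w w'

variable {P₁ : QuadraticForm F U} {P₂ : QuadraticForm F W} {Q : QuadraticForm F V}
  {h : IsTensorProduct τ}

namespace TenO

variable (H : TenO P₁ P₂ Q h)
include H

theorem flip : TenO P₂ P₁ Q (Ten.flip h) :=
  ⟨H.two, H.n₂, H.n₁, H.hQ, fun w u w' u' => (H.eq u w u' w').trans (mul_comm _ _)⟩

theorem B_tau (u : U) (z : W) (v : V) : polar Q (τ u z) v = polar P₁ u (cP h P₂ z v) := by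
  induction v using h.inductionOn with
  | zero => simp
  | tmul u' w' => simp [H.eq, mul_comm]
  | add a b ha hb => simp [ha, hb]

theorem Q_tau (u : U) (w : W) : Q (τ u w) = 2 * P₁ u * P₂ w := by
  have := H.eq u w u w
  rw [polar_self', polar_self', polar_self'] at this
  exact mul_left_cancel₀ H.two (by linear_combination this)

theorem kron_mem_O (β : O P₂) : kron h 1 β.1 ∈ O Q := fun v => by
  have e : ∀ v v', polar Q (kron h 1 β.1 v) (kron h 1 β.1 v') = polar Q v v' := fun v v' => by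
    induction v using h.inductionOn with
    | zero => simp
    | add a b ha hb => simp [ha, hb]
    | tmul u w =>
      induction v' using h.inductionOn with
      | zero => simp
      | add a b ha hb => simp only [map_add, polar_add_right, ha, hb]
      | tmul u' w' => rw [kron_apply, kron_apply, H.eq, H.eq, O_polar]; rfl
  exact mul_left_cancel₀ H.two (by rw [← polar_self', e, polar_self'])

/-- The action of the orthogonal group of the right factor. -/
noncomputable def rhom : O P₂ →* O Q where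
  toFun β := ⟨_, H.kron_mem_O β⟩
  map_one' := Subtype.ext (equiv_ext h fun u w => by simp)
  map_mul' a b := Subtype.ext (equiv_ext h fun u w => by simp)

theorem rhom_apply (β : O P₂) (u : U) (w : W) : (H.rhom β).1 (τ u w) = τ u (β.1 w) :=
  kron_apply h 1 _ u w

theorem lhom_apply (α : O P₁) (u : U) (w : W) : (H.flip.rhom α).1 (τ u w) = τ (α.1 u) w :=
  H.flip.rhom_apply α w u

theorem cP_rhom (β : O P₂) (y : W) (v : V) : cP h P₂ (β.1 y) ((H.rhom β).1 v) = cP h P₂ y v :=
  LinearMap.congr_fun (ext h (f := cP h P₂ (β.1 y) ∘ₗ ((H.rhom β).1 : V →ₗ[F] V))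
    (g := cP h P₂ y) fun u w => by simp [H.rhom_apply, O_polar]) v

theorem cP_lhom (α : O P₁) (y : W) (v : V) :
    cP h P₂ y ((H.flip.rhom α).1 v) = α.1 (cP h P₂ y v) :=
  LinearMap.congr_fun (ext h (f := cP h P₂ y ∘ₗ ((H.flip.rhom α).1 : V →ₗ[F] V))
    (g := (α.1 : U →ₗ[F] U) ∘ₗ cP h P₂ y) fun u w => by simp [H.lhom_apply]) v

theorem rhom_eich {x c : W} (hx : P₂ x = 0) (hc : polar P₂ x c = 0) (v : V) :
    (H.rhom (eich P₂ x c)).1 v =
      v + τ (cP h P₂ c v - P₂ c • cP h P₂ x v) x - τ (cP h P₂ x v) c := by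
  induction v using h.inductionOn with
  | zero => simp
  | add a b ha hb =>
    simp only [map_add, ha, hb, smul_add, map_sub, LinearMap.add_apply, LinearMap.sub_apply]; abel
  | tmul u w => simp [H.rhom_apply, eich_ap hx hc, smul_smul, sub_smul]

variable [FiniteDimensional F U] [FiniteDimensional F W]

theorem exists_eq_tau {x : W} (hx0 : x ≠ 0) {v : V}
    (hv : ∀ u c, polar P₂ x c = 0 → polar Q (τ u c) v = 0) : ∃ u, v = τ u x := by
  refine exists_eq_of_cR h hx0 fun θ hθ => ?_
  obtain ⟨c, rfl⟩ := exists_polar_dual H.n₂ θ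
  exact polar_ext H.n₁ fun u => by
    rw [polar_zero_right, ← hv u c (pc hθ), H.B_tau]; rfl

theorem rhom_mem [Finite F] (h5 : 5 ≤ finrank F V) {β : O P₂} (hβ : β ∈ E P₂) :
    H.rhom β ∈ commutator (O Q) := by
  have := finiteDimensional h
  refine OrthE.E_le (H := (commutator (O Q)).comap H.rhom) (fun u v hu huv => ?_) hβ
  rw [Subgroup.mem_comap, eich_sq H.two hu huv, map_mul]
  exact sq_mem_commutator H.hQ h5 _

end TenO

/-- The maps `m` with `1 + m ⊗ (x x^*)` in `X`. -/
def ZO (h : IsTensorProduct τ) (X : Subgroup (V ≃ₗ[F] V)) {x : W} (hx : P₂ x = 0) :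
    AddSubgroup (End F U) where
  carrier := {m | UIn X (τ.flip x ∘ₗ m ∘ₗ cP h P₂ x)}
  add_mem' ha hb := (UIn.add ha hb (by ext v; simp [pself hx])).of_eq (by ext v; simp)
  zero_mem' := uIn_zero.of_eq (by simp)
  neg_mem' ha := (UIn.neg ha (by ext v; simp [pself hx])).of_eq (by ext v; simp)

/-- An overgroup in the orthogonal group of the stabiliser of the tensor decomposition. -/
structure OO (P₁ : QuadraticForm F U) (P₂ : QuadraticForm F W) (Q : QuadraticForm F V)
    (h : IsTensorProduct τ) (X : Subgroup (V ≃ₗ[F] V)) : Prop extends TenO P₁ P₂ Q h where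
  ha : 3 ≤ finrank F U
  hb : 5 ≤ finrank F W
  hX : X ≤ O Q
  hK : ∀ g ∈ commutator (O Q), g.1 ∈ Kron τ → g.1 ∈ X

namespace OO

variable {X : Subgroup (V ≃ₗ[F] V)} (H : OO P₁ P₂ Q h X) [FiniteDimensional F U]
  [FiniteDimensional F W] [Finite F]
include H

theorem pol {g : V ≃ₗ[F] V} (hg : g ∈ X) (x y : V) : polar Q (g x) (g y) = polar Q x y :=
  O_polar ⟨g, H.hX hg⟩ x y

theorem five : 5 ≤ finrank F V := by
  have := H.ha; have := H.hb; rw [finrank_eq h]; nlinarith

theorem right {β : O P₂} (hβ : β ∈ E P₂) : (H.rhom β).1 ∈ X :=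
  H.hK _ (H.rhom_mem H.five hβ) ⟨1, β.1, H.rhom_apply β⟩

theorem left {α : O P₁} (hα : α ∈ E P₁) : (H.flip.rhom α).1 ∈ X :=
  H.hK _ (H.flip.rhom_mem H.five hα) ⟨α.1, 1, H.lhom_apply α⟩

theorem wedge_of_Z (hU : ∀ u d, u ≠ 0 → P₁ u = 0 → P₁ d = 0 → polar P₁ u d = 0 →
      d ∉ Submodule.span F {u} → 5 ≤ finrank F U) {x : W} (hx : P₂ x = 0) (hx0 : x ≠ 0)
    {m : End F U} (hm : m ∈ ZO h X hx) (hm0 : m ≠ 0) : ∃ u, u ≠ 0 ∧ P₁ u = 0 ∧
      ∀ a, polar P₁ u a = 0 → EA (X.subgroupOf (O Q)) (τ u x) (τ a x) := by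
  have h2 := H.two
  obtain ⟨x', hx'⟩ := H.n₂.exists_hyp hx hx0
  have hs : ∀ p r, polar P₁ p (m r) = -polar P₁ (m p) r := fun p r => by
    obtain ⟨g, hg, e⟩ := hm.exists
    have := H.pol hg (τ p x') (τ r x')
    simp [e, H.eq, hx'.hee, hx'.hff, hx'.hef, hx'.hfe] at this
    linear_combination this
  have hs0 : ∀ p, polar P₁ p (m p) = 0 := fun p =>
    mul_left_cancel₀ h2 (by linear_combination hs p p - polar_comm P₁ (m p) p)
  obtain ⟨u, hu, hd⟩ : ∃ u, P₁ u = 0 ∧ m u ∉ Submodule.span F {u} := by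
    by_contra h'
    push Not at h'
    obtain ⟨c, hc⟩ := scalar_of_sing H.n₁ h2 H.ha h'
    obtain ⟨u, u', hu⟩ := H.n₁.exists_hyp_of_three H.ha
    have := hs u u'
    simp only [hc, polar_smul_left, polar_smul_right, hu.hef, smul_eq_mul] at this
    have h3 : c = 0 := mul_left_cancel₀ h2 (by linear_combination this)
    exact hm0 (LinearMap.ext fun v => by simp [hc, h3])
  have hu0 : u ≠ 0 := by rintro rfl; simp at hd
  have hQ0 : ∀ a, Q (τ a x) = 0 := fun a => by simp [H.Q_tau, hx]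
  let A := (EAs (X.subgroupOf (O Q)) (hQ0 u)).comap (τ.flip x).toAddMonoidHom
  have k : ∀ c, polar P₁ u c = 0 → (2 : F) • (P₁ c • m u - polar P₁ c (m u) • c) ∈ A := by
    intro c hc
    have k1 : ∀ c, polar P₁ u c = 0 → ((eich P₁ u c).1 : End F U) * m *
        ((eich P₁ u (-c)).1 : End F U) ∈ ZO h X hx := fun c hc =>
      UIn.conj' hm (H.left (eich_mem_E u c)) fun v => by
        simp [H.cP_lhom, H.lhom_apply, eich_neg]
    obtain ⟨g, hg, e⟩ := UIn.exists (sub_mem (sub_mem (add_mem (k1 c hc) (k1 (-c) (by simp [hc])))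
      hm) hm)
    have h5 : polar Q (τ u x) (τ ((2 : F) • (P₁ c • m u - polar P₁ c (m u) • c)) x) = 0 := by
      simp [H.eq, pself hx]
    refine ⟨hQ0 u, h5, Subgroup.mem_subgroupOf.2 ?_⟩
    convert hg using 1
    ext v
    erw [eich_ap (hQ0 u) h5]
    rw [e, hQ0, H.B_tau, H.B_tau]
    generalize hy : cP h P₂ x v = y
    have h6 : polar P₁ u (-c) = 0 := by simp [hc]
    simp only [LinearMap.comp_apply, hy, LinearMap.flip_apply, LinearMap.sub_apply,
      LinearMap.add_apply, End.mul_apply, LinearEquiv.coe_coe, neg_neg, eich_ap hu hc,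
      eich_ap hu h6]
    simp only [map_add, map_sub, map_smul, map_neg, polar_add_right, polar_sub_right,
      polar_smul_right, polar_neg_left, polar_neg_right, polar_smul_left, polar_sub_left,
      smul_eq_mul, Q_neg, hs0, hs u y, hs u c, polar_comm P₁ (m u) c, LinearMap.add_apply,
      LinearMap.sub_apply, LinearMap.smul_apply, LinearMap.neg_apply]
    module
  have k2 : ∀ c d, polar P₁ u c = 0 → polar P₁ u d = 0 →
      polar P₁ c d • m u - polar P₁ c (m u) • d - polar P₁ d (m u) • c ∈ A := fun c d hc hd => by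
    convert sub_mem (sub_mem (k ((2 : F)⁻¹ • c + d) (by simp [hc, hd]))
      (k ((2 : F)⁻¹ • c) (by simp [hc]))) (k d hd) using 1
    simp only [Q_add, polar_add_left, polar_smul_left, smul_eq_mul]
    match_scalars <;> field_simp <;> ring
  refine ⟨u, hu0, hu, fun a ha => show a ∈ A from ?_⟩
  by_cases h3 : P₁ (m u) = 0
  · obtain ⟨b, h4, h5⟩ := exists_dual_one H.n₁ hd
    obtain ⟨b, h4, h5, h6⟩ : ∃ b, polar P₁ b (m u) = 1 ∧ polar P₁ u b = 0 ∧ polar P₁ b b = 0 :=
      ⟨b - P₁ b • m u, by simp [polar_comm P₁ b, h4, pself h3], by simp [h5, hs0],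
        pself (by simp [Q_sub, Q_smul, h3, polar_comm P₁ b, h4])⟩
    have h7 := finrank_perp_pair H.n₁ u (m u)
    have h8 := hU u (m u) hu0 hu h3 (hs0 u) hd
    obtain ⟨c, hc, h9⟩ := exists_nonsing H.n₁ (S := perp P₁ (Submodule.span F {u, m u})) (by omega)
    obtain ⟨hc, hc'⟩ := mem_perp_pair.1 hc
    have h10 := polar_self_ne h2 h9
    convert sub_mem (sub_mem (k2 ((polar P₁ a b / polar P₁ c c) • c) c (by simp [hc]) hc)
      (k2 (a - polar P₁ a (m u) • b) b (by simp [ha, h5]) h5))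
      (k2 ((polar P₁ a (m u) / 2) • b) b (by simp [h5]) h5) using 1
    simp only [polar_smul_left, polar_sub_left, smul_eq_mul, pc hc', h4, h6]
    match_scalars <;> field_simp <;> ring
  · have h4 := polar_self_ne h2 h3
    convert neg_mem (k2 ((polar P₁ (m u) (m u))⁻¹ • m u) a (by simp [hs0]) ha) using 1
    simp only [polar_smul_left, smul_eq_mul, polar_comm P₁ a]
    match_scalars <;> field_simp
    ring

theorem E_le_of_wedge {x₀ : W} (hx₀ : P₂ x₀ = 0) (hx0 : x₀ ≠ 0) {u₀ : U} (hu₀ : P₁ u₀ = 0)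
    (hu0 : u₀ ≠ 0)
    (h0 : ∀ a, polar P₁ u₀ a = 0 → EA (X.subgroupOf (O Q)) (τ u₀ x₀) (τ a x₀)) :
    E Q ≤ X.subgroupOf (O Q) := by
  have := finiteDimensional h
  have hb := H.hb
  obtain ⟨u₁, hu₁⟩ := H.n₁.exists_hyp hu₀ hu0
  obtain ⟨x₁, hx₁⟩ := H.n₂.exists_hyp hx₀ hx0
  have h1 : ∀ u x, u ≠ 0 → P₁ u = 0 → x ≠ 0 → P₂ x = 0 → ∀ a, polar P₁ u a = 0 →
      EA (X.subgroupOf (O Q)) (τ u x) (τ a x) := fun u x hu hu' hx hx' a ha => by
    obtain ⟨α, hα, s, hs, e1⟩ := hu₁.exists_E_singular H.n₁ (hu₁.exists_nonsingular H.n₁ H.ha)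
      hu0 hu hu₀ hu'
    obtain ⟨β, hβ, t, ht, e2⟩ := hx₁.exists_E_singular H.n₂
      (hx₁.exists_nonsingular H.n₂ (by omega)) hx0 hx hx₀ hx'
    have h2 := ((h0 (α⁻¹.1 ((s * t * t)⁻¹ • a)) (by
      rw [← O_polar_left, e1]; simp [ha])).conj (g := H.flip.rhom α) (H.left hα)).conj
      (g := H.rhom β) (H.right hβ)
    simp only [H.lhom_apply, H.rhom_apply, e1, e2, O_apply_inv_apply, map_smul,
      LinearMap.smul_apply, smul_smul] at h2
    refine (h2.of_smul_left (mul_ne_zero hs ht)).congr ?_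
    match_scalars; field_simp
  have hQ0 : ∀ u x, P₁ u = 0 → Q (τ u x) = 0 := fun u x hu => by simp [H.Q_tau, hu]
  have h2 : ∀ u x, u ≠ 0 → P₁ u = 0 → x ≠ 0 → P₂ x = 0 → ∀ w,
      EA (X.subgroupOf (O Q)) (τ u x) (τ u w) := fun u x hu hu' hx hx' =>
    sing_span H.n₂ hx' hx ((EAs _ (hQ0 u x hu')).comap (τ u).toAddMonoidHom)
      (fun t => (EA.self (hQ0 u x hu') t).congr (by simp)) fun y hy hxy => by
      obtain ⟨b, -, b', -, h3, h4, h5⟩ := exists_pair_orth H.n₁ (nd_top H.n₁) (by simpa using H.ha)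
        trivial hu hu'
      have := (h1 u x hu hu' hx hx' ((polar P₂ x y)⁻¹ • b') (by simp [h4])).move
        (h1 u y hu hu' (ne_zero_of_polar (polar_comm P₂ x y ▸ hxy)) hy b h3)
        (by simp [H.eq, pself hu']) (by simp [H.eq, pc h3])
      change EA _ _ (τ u y)
      simpa [H.eq, h4, h5, polar_comm P₂ y x, hxy] using this
  have h3 : ∀ u x, u ≠ 0 → P₁ u = 0 → x ≠ 0 → P₂ x = 0 → ∀ w, polar P₂ x w = 0 → ∀ a,
      EA (X.subgroupOf (O Q)) (τ u x) (τ a w) := fun u x hu hu' hx hx' w hw =>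
    sing_span H.n₁ hu' hu ((EAs _ (hQ0 u x hu')).comap (τ.flip w).toAddMonoidHom)
      (fun t => (h2 u x hu hu' hx hx' (t • w)).congr (by simp)) fun a ha hua => by
      obtain ⟨y, h4, h5, h6⟩ : ∃ y, P₂ y = 0 ∧ polar P₂ x y = 0 ∧ y ∉ Submodule.span F {w} := by
        by_cases h4 : x ∈ Submodule.span F {w}
        · obtain ⟨y, h5, h6, h7⟩ := exists_sing_out H.n₂ (Submodule.span F {x}) (by
            rw [finrank_span_singleton hx]; omega)
          refine ⟨y, h7, mem_perp_one.1 h5, fun h8 => h6 ?_⟩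
          obtain ⟨c, rfl⟩ := Submodule.mem_span_singleton.1 h4
          rwa [Submodule.span_singleton_smul_eq (left_ne_zero_of_smul hx).isUnit]
        · exact ⟨x, hx', pself hx', h4⟩
      obtain ⟨z, h7, h8⟩ := exists_dual_one H.n₂ h6
      have := (h2 u x hu hu' hx hx' (-(polar P₁ u a)⁻¹ • z)).move
        (h2 a y (ne_zero_of_polar (polar_comm P₁ u a ▸ hua)) ha (by rintro rfl; simp at h7)
          h4 w) (by simp [H.eq, pc h5]) (by simp [H.eq, pc hw])
      change EA _ _ (τ a w)
      simpa [H.eq, h7, h8, polar_comm P₁ a u, hua, hQ0 a w ha] using this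
  have h4 : ∀ u x, u ≠ 0 → P₁ u = 0 → x ≠ 0 → P₂ x = 0 →
      EFull (X.subgroupOf (O Q)) (τ u x) := fun u x hu hu' hx hx' v hv => by
    obtain ⟨u', h5⟩ := H.n₁.exists_hyp hu' hu
    obtain ⟨y, h6⟩ := H.n₂.exists_hyp hx' hx
    have h7 : ∀ v, EA (X.subgroupOf (O Q)) (τ u x) (v - τ (cP h P₂ x v) y) := fun v => by
      induction v using h.inductionOn with
      | zero => simpa using EA.zero (hQ0 u x hu')
      | add a b ha hb => exact (ha.add hb).congr (by simp; abel)
      | tmul a z =>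
        exact (h3 u x hu hu' hx hx' (z - polar P₂ x z • y) (by simp [h6.hef]) a).congr (by simp)
    rw [H.B_tau] at hv
    have h8 := (h3 u x hu hu' hx hx' x (pself hx') u').move (h1 u y hu hu' h6.f_ne h6.hf _ hv)
      (by simp [H.eq, pself hu']) (by simp [H.eq, pc hv])
    generalize polar Q _ (τ u' x) - _ = c at h8
    refine ((h7 v).add ((h2 u x hu hu' hx hx' (c • y)).sub h8)).congr ?_
    simp [H.eq, h5.hef, h6.hfe]
  exact E_le_of_two H.hQ (by have := H.five; omega) (hQ0 _ _ hu₀) (hQ0 _ _ hu₁.hf)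
    (h4 _ _ hu0 hu₀ hx0 hx₀) (h4 _ _ hu₁.f_ne hu₁.hf hx₁.f_ne hx₁.hf)
    (by simp [H.eq, hu₁.hef, hx₁.hef])

end OO

end CfsgLib.OMax
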