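import Mathlib
import Cfsg.Agent.Lib.OMax.TenO1
import Cfsg.Agent.Lib.QuadPair.Inv

/-!
Overgroups of the stabiliser of a tensor decomposition `O ⊗ O` of an orthogonal space in odd
characteristic: the case without skew maps, and the maximality theorem.
-/

set_option autoImplicit false
set_option linter.unusedSectionVars false

namespace CfsgLib.OMax

open Module CfsgLib.ClMax CfsgLib.ClMax.Ten CfsgLib.OrthE QuadraticMap

variable {F U W V : Type*} [Field F] [AddCommGroup U] [Module F U] [AddCommGroup W]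
  [Module F W] [AddCommGroup V] [Module F V] {τ : U →ₗ[F] W →ₗ[F] V}
  {P₁ : QuadraticForm F U} {P₂ : QuadraticForm F W} {Q : QuadraticForm F V}
  {h : IsTensorProduct τ}

/-- The elements of `X` in the unipotent radical of the stabiliser of `U ⊗ x`. -/
structure RX (h : IsTensorProduct τ) (P₂ : QuadraticForm F W) (X : Subgroup (V ≃ₗ[F] V)) (x : W)
    (t : V ≃ₗ[F] V) : Prop where
  mem : t ∈ X
  fix : ∀ u, t (τ u x) = τ u x
  sub : ∀ v, cP h P₂ x v = 0 → ∃ u, t v = v + τ u x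

namespace OO

variable {X : Subgroup (V ≃ₗ[F] V)} (H : OO P₁ P₂ Q h X) [FiniteDimensional F U]
  [FiniteDimensional F W] [Finite F]
include H

theorem cP_map {x x₁ : W} {g : V ≃ₗ[F] V} (hg : g ∈ X) {u u₁ : U} (e : g (τ u x) = τ u₁ x₁)
    (v : V) : polar P₁ u₁ (cP h P₂ x₁ (g v)) = polar P₁ u (cP h P₂ x v) := by
  rw [← H.B_tau, ← e, H.pol hg, H.B_tau]

theorem cP_sub {x : W} {t : V ≃ₗ[F] V} (ht : RX h P₂ X x t) (v : V) : cP h P₂ x (t v - v) = 0 :=
  polar_ext H.n₁ fun u => by simp [H.cP_map ht.mem (ht.fix u)]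

theorem rx_conj {x x₁ : W} {g t : V ≃ₗ[F] V} (ht : RX h P₂ X x t) (hg : g ∈ X) {α : U ≃ₗ[F] U}
    (e : ∀ u, g (τ u x) = τ (α u) x₁) : RX h P₂ X x₁ (g * t * g⁻¹) := by
  refine ⟨X.mul_mem (X.mul_mem hg ht.mem) (X.inv_mem hg), fun u => ?_, fun v hv => ?_⟩
  · obtain ⟨u, rfl⟩ := α.surjective u
    simp [← e, ht.fix]
  · obtain ⟨v, rfl⟩ := g.surjective v
    obtain ⟨u, hu⟩ := ht.sub v (polar_ext H.n₁ fun u => by rw [← H.cP_map hg (e u), hv]; simp)
    exact ⟨α u, by simp [hu, e]⟩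

theorem rx_eich {x c : W} (hx : P₂ x = 0) (hc : polar P₂ x c = 0) :
    RX h P₂ X x (H.rhom (eich P₂ x c)).1 :=
  ⟨H.right (eich_mem_E _ _), fun u => by rw [H.rhom_apply, eich_apply_self],
    fun v hv => ⟨cP h P₂ c v, by simp [H.rhom_eich hx hc, hv]⟩⟩

theorem rx_pol {x : W} {t : V ≃ₗ[F] V} (ht : RX h P₂ X x t) {v : V} {p : U}
    (e : t v = v + τ p x) (a : V) : polar Q (t a - a) v = -polar Q a (τ p x) := by
  have h1 := H.pol ht.mem a v
  have h2 : polar Q (τ p x) (t a - a) = 0 := by rw [H.B_tau, H.cP_sub ht, polar_zero_right]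
  rw [e, polar_add_right] at h1
  rw [polar_comm, polar_sub_left] at h2
  rw [polar_sub_left]
  linear_combination h1 - h2

theorem exists_equiv {x x₁ : W} (hx0 : x ≠ 0) (hx1 : x₁ ≠ 0) {g : V ≃ₗ[F] V}
    (hs : ∀ u, ∃ u', g (τ u x) = τ u' x₁) : ∃ α : U ≃ₗ[F] U, ∀ u, g (τ u x) = τ (α u) x₁ := by
  obtain ⟨θ₀, hθ₀⟩ := exists_dual_one_of_ne (F := F) hx1
  let α₀ : U →ₗ[F] U := cR h θ₀ ∘ₗ (g : V →ₗ[F] V) ∘ₗ τ.flip x
  have hα₀ : ∀ u, g (τ u x) = τ (α₀ u) x₁ := fun u => by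
    obtain ⟨u', hu'⟩ := hs u
    have : α₀ u = u' := by simp [α₀, hu', hθ₀]
    rw [this, hu']
  have hinj : Function.Injective α₀ := by
    rw [← LinearMap.ker_eq_bot, LinearMap.ker_eq_bot']
    intro u hu
    have := hα₀ u
    rw [hu, map_zero, LinearMap.zero_apply, LinearEquiv.map_eq_zero_iff] at this
    by_contra h0
    exact ne_zero h h0 hx0 this
  exact ⟨LinearEquiv.ofInjectiveEndo α₀ hinj, hα₀⟩

variable (hZ : ∀ x (hx : P₂ x = 0), x ≠ 0 → ∀ m ∈ ZO h X hx, m = 0)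
include hZ

theorem eq_of_fix {x : W} (hx : P₂ x = 0) (hx0 : x ≠ 0) {g k : V ≃ₗ[F] V} (hg : g ∈ X)
    (hk : k ∈ X) (hf : ∀ v, cP h P₂ x v = 0 → g v = k v) : g = k := by
  obtain ⟨x', hx'⟩ := H.n₂.exists_hyp hx hx0
  have hg' := X.mul_mem (X.inv_mem hk) hg
  have hf' : ∀ v, cP h P₂ x v = 0 → (k⁻¹ * g) v = v := fun v hv => by simp [hf v hv]
  rw [← mul_inv_cancel_left k g]
  generalize k⁻¹ * g = g at hg' hf'
  let m : End F U := cP h P₂ x' ∘ₗ ((g : V →ₗ[F] V) - LinearMap.id) ∘ₗ τ.flip x'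
  have hm : ∀ u, g (τ u x') = τ u x' + τ (m u) x := fun u => by
    obtain ⟨y, hy⟩ := H.exists_eq_tau hx0 (v := g (τ u x') - τ u x') fun u' c hc => by
      rw [polar_sub_right, ← hf' (τ u' c) (by simp [hc]), H.pol hg', hf' (τ u' c) (by simp [hc]),
        sub_self]
    have : m u = y := by
      change cP h P₂ x' (g (τ u x') - τ u x') = y
      rw [hy]; simp [hx'.hfe]
    rw [this, ← hy]; abel
  have e : ∀ v, g v = v + τ (m (cP h P₂ x v)) x := fun v => by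
    have := hf' (v - τ (cP h P₂ x v) x') (by simp [hx'.hef])
    rw [map_sub, hm] at this
    linear_combination (norm := module) this
  have := hZ x hx hx0 m (uIn_of_apply hg' e)
  exact LinearEquiv.ext fun v => by simp [e, this]

theorem rx_comm {x : W} (hx : P₂ x = 0) (hx0 : x ≠ 0) {t t' : V ≃ₗ[F] V} (ht : RX h P₂ X x t)
    (ht' : RX h P₂ X x t') (a b : V) :
    polar Q (t a - a) (t' b - b) = polar Q (t' a - a) (t b - b) := by
  have h1 := H.eq_of_fix hZ hx hx0 (X.mul_mem ht.mem ht'.mem) (X.mul_mem ht'.mem ht.mem)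
    fun v hv => by
      obtain ⟨p, hp⟩ := ht.sub v hv
      obtain ⟨p', hp'⟩ := ht'.sub v hv
      simp only [LinearEquiv.mul_apply, hp, hp', map_add, ht.fix, ht'.fix]
      abel
  obtain ⟨p, hp⟩ := ht.sub _ (H.cP_sub ht' b)
  obtain ⟨p', hp'⟩ := ht'.sub _ (H.cP_sub ht b)
  have h2 : t (t' b) = t' (t b) := LinearEquiv.congr_fun h1 b
  rw [H.rx_pol ht hp, H.rx_pol ht' hp']
  rw [map_sub] at hp hp'
  rw [show τ p x = τ p' x by linear_combination (norm := module) h2 - hp + hp']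

variable (hq : (∃ t : F, t ≠ 0 ∧ t * t ≠ 1) ∨ 4 ≤ finrank F U)
include hq

theorem eq_eich {x : W} (hx : P₂ x = 0) (hx0 : x ≠ 0) {t : V ≃ₗ[F] V} (ht : RX h P₂ X x t) :
    ∃ c, polar P₂ x c = 0 ∧ t = (H.rhom (eich P₂ x c)).1 := by
  obtain ⟨x', hx'⟩ := H.n₂.exists_hyp hx hx0
  have hb := H.hb
  have k1 : ∀ y, polar P₂ y x = 0 → polar P₂ y x' = 0 → P₂ y = 0 →
      ∃ s : F, ∀ u, cP h P₂ y (t (τ u x') - τ u x') = s • u := fun y h1 h2 h3 => by
    refine scalar_of_comm (e := cP h P₂ y ∘ₗ ((t : V →ₗ[F] V) - LinearMap.id) ∘ₗ τ.flip x')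
      H.n₁ H.two H.ha hq (fun p r => ?_) fun u c _ _ p r => ?_
    · have := H.rx_comm hZ hx hx0 ht (H.rx_eich hx (pc h1)) (τ p x') (τ r x')
      simp only [H.rhom_apply, hx'.eich_apply_f h1 h2, h3, zero_smul, sub_zero, map_sub,
        sub_sub_cancel_left, polar_neg_left, polar_neg_right, neg_inj] at this
      rw [polar_comm, H.B_tau, H.B_tau, polar_comm] at this
      exact this
    · generalize hα : eich P₁ u c = α
      have hαE : α ∈ E P₁ := hα ▸ eich_mem_E u c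
      have ht' := H.rx_conj ht (H.left (inv_mem hαE)) (H.lhom_apply α⁻¹ · x)
      have h4 := finrank_perp_pair H.n₂ x x'
      obtain ⟨d, hd, h5, h6⟩ := exists_nonsing_orth H.n₂
        (nd_perp H.n₂ (nd_pair hx hx'.hf hx'.hef)) (by omega) y
      obtain ⟨h7, h8⟩ := mem_perp_pair.1 hd
      have k : ∀ d, polar P₂ x d = 0 → polar P₂ x' d = 0 → ∀ a b,
          polar Q (t (τ a x') - τ a x') ((H.rhom (eich P₂ y d)).1 ((H.flip.rhom α⁻¹).1
            (t (τ (α.1 b) x') - τ (α.1 b) x'))) =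
          polar Q ((H.rhom (eich P₂ y d)).1 ((H.flip.rhom α⁻¹).1
            (t (τ (α.1 a) x') - τ (α.1 a) x'))) (t (τ b x') - τ b x') := fun d h7 h8 a b => by
        have e1 : (eich P₂ y d).1 x' = x' := eich_apply_of_orth (pc h2) h8
        have := H.rx_comm hZ hx hx0 ht (H.rx_conj ht' (H.right (eich_mem_E y d)) (α := 1)
          (x₁ := x) fun u => by rw [H.rhom_apply, eich_apply_of_orth (pc h1) h7]; rfl)
          (τ a x') (τ b x')
        simpa only [LinearEquiv.mul_apply, ← Subgroup.coe_inv, ← map_inv, inv_inv, H.rhom_apply,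
          H.lhom_apply, O_inv_apply_eq _ e1, map_sub, O_inv_apply_apply, e1] using this
      have e1 := k d h7 h8 p r
      have e2 := k (-d) (by simp [h7]) (by simp [h8]) p r
      have e3 := k 0 (by simp) (by simp) p r
      rw [H.rhom_eich h3 h6, H.rhom_eich h3 h6] at e1
      rw [H.rhom_eich h3 (by simp [h6]), H.rhom_eich h3 (by simp [h6])] at e2
      simp only [eich_zero_right, map_one, O_one_apply] at e3
      simp only [LinearMap.comp_apply, LinearMap.flip_apply, LinearMap.sub_apply,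
        LinearEquiv.coe_coe, LinearMap.id_apply]
      generalize t (τ p x') - τ p x' = a, t (τ r x') - τ r x' = b,
        t (τ (α.1 p) x') - τ (α.1 p) x' = a', t (τ (α.1 r) x') - τ (α.1 r) x' = b' at *
      have e4 := H.B_tau (cP h P₂ y ((H.flip.rhom α⁻¹).1 b')) y a
      have e5 := H.B_tau (cP h P₂ y ((H.flip.rhom α⁻¹).1 a')) y b
      conv_rhs at e4 => rw [H.cP_lhom, O_polar_inv_left]
      conv_rhs at e5 => rw [H.cP_lhom, O_polar_inv_left]
      simp only [map_sub, map_smul, map_neg, polar_add_left, polar_add_right, polar_sub_left,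
        polar_sub_right, polar_smul_left, polar_smul_right, polar_neg_left, polar_neg_right,
        LinearMap.sub_apply, LinearMap.smul_apply, LinearMap.neg_apply, smul_eq_mul, Q_neg] at e1 e2
      rw [polar_comm, ← e4, ← e5, polar_comm]
      exact mul_left_cancel₀ (mul_ne_zero H.two h5) (by linear_combination 2 * e3 - e1 - e2)
  obtain ⟨u₀, u₁, hu⟩ := H.n₁.exists_hyp_of_three H.ha
  obtain ⟨c, hc⟩ := exists_polar_dual H.n₂
    (-polarBilin P₁ u₀ ∘ₗ (cP h P₂).flip (t (τ u₁ x') - τ u₁ x'))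
  have hc : ∀ y, polar P₂ c y = -polar P₁ u₀ (cP h P₂ y (t (τ u₁ x') - τ u₁ x')) :=
    fun y => LinearMap.congr_fun hc y
  have hcx : polar P₂ x c = 0 := by rw [polar_comm, hc, H.cP_sub ht]; simp
  have k2 : ∀ y, polar P₂ x y = 0 → ∀ u,
      cP h P₂ y (t (τ u x') - τ u x') = -polar P₂ c y • u := fun y hy u => by
    let A : AddSubgroup W :=
      { carrier := {y | ∃ s : F, ∀ u, cP h P₂ y (t (τ u x') - τ u x') = s • u}
        add_mem' := by
          rintro a b ⟨s, hs⟩ ⟨s', hs'⟩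
          exact ⟨s + s', fun u => by rw [map_add, LinearMap.add_apply, hs, hs', add_smul]⟩
        zero_mem' := ⟨0, by simp⟩
        neg_mem' := by
          rintro a ⟨s, hs⟩
          exact ⟨-s, fun u => by rw [map_neg, LinearMap.neg_apply, hs, neg_smul]⟩ }
    have h1 := A.add_mem (sing_induction_W hx' H.n₂ hb A k1 (hx'.pr_e y) (hx'.pr_f y))
      (show polar P₂ y x' • x ∈ A from ⟨0, fun u => by
        rw [map_smul, LinearMap.smul_apply, H.cP_sub ht]; simp⟩)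
    rw [pr_def, pc hy, zero_smul, sub_zero, sub_add_cancel] at h1
    obtain ⟨s, hs⟩ := h1
    rw [hc, hs, hs]; simp [hu.hef]
  refine ⟨c, hcx, H.eq_of_fix hZ hx hx0 ht.mem (H.right (eich_mem_E _ _)) fun v hv => ?_⟩
  obtain ⟨p, hp⟩ := ht.sub v hv
  rw [hp, H.rhom_eich hx hcx, hv, show p = cP h P₂ c v from polar_ext H.n₁ fun u => ?_]
  · simp
  obtain ⟨z, hz⟩ := H.exists_eq_tau hx0 (v := t (τ u x') - τ u x' + τ u c) fun u' y hy => by
    rw [polar_add_right, H.B_tau, k2 y hy, H.eq, polar_comm P₂ y c]; simp [mul_comm]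
  have h1 := H.rx_pol ht hp (τ u x')
  rw [eq_sub_of_add_eq hz, polar_sub_left, H.B_tau, H.B_tau, hv, H.eq, hx'.hfe] at h1
  simpa using h1.symm

theorem exists_rel {x x₁ : W} (hx : P₂ x = 0) (hx0 : x ≠ 0) (hx₁ : P₂ x₁ = 0) (hx1 : x₁ ≠ 0)
    {g : V ≃ₗ[F] V} (hg : g ∈ X) {α : U ≃ₗ[F] U} (e : ∀ u, g (τ u x) = τ (α u) x₁) :
    ∃ μ : F, μ ≠ 0 ∧ (∀ u u', polar P₁ (α u) (α u') = μ * polar P₁ u u') ∧
      ∀ c, polar P₂ x c = 0 → ∃ c₁, polar P₂ x₁ c₁ = 0 ∧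
        ∀ u, ∃ u', g (τ u c) = τ (α u) c₁ + τ u' x₁ := by
  obtain ⟨x', hx'⟩ := H.n₂.exists_hyp hx hx0
  have k : ∀ c, polar P₂ x c = 0 → ∃ c₁, polar P₂ x₁ c₁ = 0 ∧
      ∀ u, ∃ u', g (τ u c) = τ (cP h P₂ x₁ (g (τ u x'))) c₁ + τ u' x₁ := fun c hc => by
    obtain ⟨c₁, h1, h2⟩ := H.eq_eich hZ hq hx₁ hx1 (H.rx_conj (H.rx_eich hx hc) hg e)
    refine ⟨c₁, h1, fun u => ?_⟩
    have h3 := LinearEquiv.congr_fun h2 (g (τ u x'))
    rw [H.rhom_eich hx₁ h1, LinearEquiv.mul_apply, LinearEquiv.mul_apply, inv_apply_apply,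
      H.rhom_eich hx hc, map_sub, map_add, e, cP_apply h P₂ x, hx'.hef, one_smul] at h3
    generalize α _ = a, cP h P₂ c₁ _ - _ = b at h3
    exact ⟨a - b, by rw [map_sub, LinearMap.sub_apply]; linear_combination (norm := module) -h3⟩
  obtain ⟨d, h1, -, h2⟩ := hx'.exists_nonsingular H.n₂ (by have := H.hb; omega)
  obtain ⟨d₁, h3, h4⟩ := k d (pc h1)
  have h5 : ∀ u u', polar P₁ (cP h P₂ x₁ (g (τ u x'))) (cP h P₂ x₁ (g (τ u' x'))) *
      polar P₂ d₁ d₁ = polar P₁ u u' * polar P₂ d d := fun u u' => by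
    obtain ⟨a, ha⟩ := h4 u
    obtain ⟨a', ha'⟩ := h4 u'
    rw [← H.eq u, ← H.pol hg, ha, ha']
    simp [H.eq, h3, pc h3, pself hx₁, -polar_self]
  have h6 := polar_self_ne H.two h2
  obtain ⟨u₀, u₁, hu⟩ := H.n₁.exists_hyp_of_three H.ha
  have h7 : polar P₂ d₁ d₁ ≠ 0 := fun h7 => h6 (by simpa [h7, hu.hef] using (h5 u₀ u₁).symm)
  have h8 : ∀ u u', polar P₁ (α u) (cP h P₂ x₁ (g (τ u' x'))) = polar P₁ u u' := fun u u' => by
    rw [H.cP_map hg (e u), cP_apply, hx'.hef, one_smul]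
  have h9 : ∀ u, cP h P₂ x₁ (g (τ u x')) = (polar P₂ d d / polar P₂ d₁ d₁) • α u := fun u => by
    rw [← map_smul, ← α.symm_apply_eq]
    refine polar_ext H.n₁ fun u' => ?_
    rw [polar_comm, ← h8, α.apply_symm_apply, polar_smul_right, smul_eq_mul, div_mul_eq_mul_div,
      eq_div_iff h7, h5, polar_comm, mul_comm]
  refine ⟨polar P₂ d₁ d₁ / polar P₂ d d, div_ne_zero h7 h6, fun u u' => ?_, fun c hc => ?_⟩
  · rw [← h8 u u', h9, polar_smul_right, smul_eq_mul]; field_simp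
  · obtain ⟨c₁, h10, h11⟩ := k c hc
    exact ⟨(polar P₂ d d / polar P₂ d₁ d₁) • c₁, by simp [h10, -polar_self], fun u => by
      simpa only [h9, map_smul, LinearMap.smul_apply] using h11 u⟩

theorem map_orth {x x₁ : W} (hx : P₂ x = 0) (hx0 : x ≠ 0) (hx₁ : P₂ x₁ = 0) (hx1 : x₁ ≠ 0)
    {g : V ≃ₗ[F] V} (hg : g ∈ X) {α : U ≃ₗ[F] U} (e : ∀ u, g (τ u x) = τ (α u) x₁) {c : W}
    (hc : P₂ c = 0) (hxc : polar P₂ x c = 0) : ∃ c', ∀ u, g (τ u c) = τ (α u) c' := by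
  obtain ⟨μ, hμ, hs, k⟩ := H.exists_rel hZ hq hx hx0 hx₁ hx1 hg e
  have h1 := finrank_perp_pair H.n₂ x c
  obtain ⟨d, hd, h2⟩ := exists_nonsing H.n₂ (S := perp P₂ (Submodule.span F {x, c}))
    (by have := H.hb; omega)
  obtain ⟨hxd, hcd⟩ := mem_perp_pair.1 hd
  obtain ⟨c₁, h3, h4⟩ := k c hxc
  obtain ⟨d₁, h5, h6⟩ := k d hxd
  choose c' h4 using h4
  choose d' h6 using h6
  obtain ⟨u₀, u₁, hu⟩ := H.n₁.exists_hyp_of_three H.ha
  have k2 : ∀ {c d c₁ d₁ : W} {c' d' : U → U}, polar P₂ x₁ c₁ = 0 → polar P₂ x₁ d₁ = 0 →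
      (∀ u, g (τ u c) = τ (α u) c₁ + τ (c' u) x₁) → (∀ u, g (τ u d) = τ (α u) d₁ + τ (d' u) x₁) →
      polar P₂ c d = μ * polar P₂ c₁ d₁ := fun h3 h5 h4 h6 => by
    have := H.pol hg (τ u₀ _) (τ u₁ _) |>.symm.trans (congrArg₂ (polar Q) (h4 u₀) (h6 u₁))
    simpa [H.eq, hs, hu.hef, h5, pc h3, pself hx₁, -polar_self] using this
  have k3 : ∀ {c c₁ : W} {c' : U → U}, (∀ u, g (τ u c) = τ (α u) c₁ + τ (c' u) x₁) →
      ∀ v, cP h P₂ x₁ (g v) = 0 → α (cP h P₂ c v) = μ • cP h P₂ c₁ (g v) := fun h4 v hv =>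
    polar_ext H.n₁ fun u => by
      obtain ⟨u, rfl⟩ := α.surjective u
      rw [hs, ← H.B_tau, ← H.pol hg, h4, polar_add_left, H.B_tau, H.B_tau, hv]; simp
  have h7 : P₂ c₁ = 0 := by
    have := k2 h3 h3 h4 h4
    rw [pself hc, polar_self'] at this
    simpa [hμ, H.two] using this
  have h8 : polar P₂ c₁ (μ • d₁) = 0 := by
    rw [polar_smul_right, smul_eq_mul, ← k2 h3 h5 h4 h6, hcd]
  have h9 : P₂ d = μ * P₂ d₁ := by
    have := k2 h5 h5 h6 h6
    rw [polar_self', polar_self'] at this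
    exact mul_left_cancel₀ H.two (by linear_combination this)
  have h10 : (eich P₂ c₁ (μ • d₁)).1 x₁ = x₁ := eich_apply_of_orth h3 (by simp [h5])
  have h11 : (eich P₂ c d).1 x = x := eich_apply_of_orth hxc hxd
  obtain ⟨a, h12, h13⟩ := H.eq_eich hZ hq hx₁ hx1 (t := (H.rhom (eich P₂ c₁ (μ • d₁))⁻¹).1 *
    (g * (H.rhom (eich P₂ c d)).1 * g⁻¹)) ⟨X.mul_mem (H.right (inv_mem (eich_mem_E _ _)))
      (X.mul_mem (X.mul_mem hg (H.right (eich_mem_E _ _))) (X.inv_mem hg)), fun u => by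
      obtain ⟨u, rfl⟩ := α.surjective u
      simp only [LinearEquiv.mul_apply]
      rw [← e, inv_apply_apply, H.rhom_apply, h11, e, H.rhom_apply, O_inv_apply_eq _ h10],
      fun v hv => by
      obtain ⟨v, rfl⟩ := g.surjective v
      refine ⟨c' (cP h P₂ d v - P₂ d • cP h P₂ c v) - d' (cP h P₂ c v), ?_⟩
      simp only [LinearEquiv.mul_apply, inv_apply_apply, map_inv]
      refine O_inv_apply_eq _ ?_
      rw [map_add, H.rhom_apply, h10, H.rhom_eich h7 h8, H.rhom_eich hc hcd, map_sub g, map_add g,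
        h4, h6]
      simp only [map_sub, map_smul, k3 h4 v hv, k3 h6 v hv, h9, Q_smul, LinearMap.sub_apply,
        LinearMap.smul_apply]
      module⟩
  rw [map_inv, Subgroup.coe_inv, inv_mul_eq_iff_eq_mul, ← Subgroup.coe_mul, ← map_mul,
    mul_inv_eq_iff_eq_mul] at h13
  have h14 : (eich P₂ c₁ (μ • d₁) * eich P₂ x₁ a).1 x₁ = x₁ := by
    rw [O_mul_apply, eich_apply_self, h10]
  generalize eich P₂ c₁ (μ • d₁) * eich P₂ x₁ a = β at h13 h14
  refine ⟨(polar P₂ d d)⁻¹ • (β.1 d₁ - d₁), fun u => ?_⟩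
  have h15 := LinearEquiv.congr_fun h13 (τ u d)
  simp only [LinearEquiv.mul_apply, H.rhom_apply, eich_ap hc hcd, hcd, h6, map_add, h14, mul_zero,
    sub_zero, zero_smul, map_smul] at h15
  rw [map_smul, map_sub, eq_inv_smul_iff₀ (polar_self_ne H.two h2)]
  linear_combination (norm := module) h15

theorem exists_map {x x₁ : W} (hx : P₂ x = 0) (hx0 : x ≠ 0) (hx1 : x₁ ≠ 0)
    {g : V ≃ₗ[F] V} (hg : g ∈ X) {α : U ≃ₗ[F] U} (e : ∀ u, g (τ u x) = τ (α u) x₁) (z : W) :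
    ∃ z', ∀ u, g (τ u z) = τ (α u) z' := by
  obtain ⟨u₀, u₁, hu⟩ := H.n₁.exists_hyp_of_three H.ha
  have k : ∀ {c c'}, P₂ c = 0 → (∀ u, g (τ u c) = τ (α u) c') → P₂ c' = 0 := fun hc e => by
    have := H.pol hg (τ (α.symm u₀) _) (τ (α.symm u₁) _) |>.symm.trans
      (congrArg₂ (polar Q) (e _) (e _))
    simpa [H.eq, hc, hu.hef, H.two] using this
  obtain ⟨x', hx'⟩ := H.n₂.exists_hyp hx hx0
  let A : AddSubgroup W :=
    { carrier := {z | ∃ z', ∀ u, g (τ u z) = τ (α u) z'}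
      add_mem' := by
        rintro a b ⟨s, hs⟩ ⟨s', hs'⟩
        exact ⟨s + s', fun u => by simp [hs, hs']⟩
      zero_mem' := ⟨0, by simp⟩
      neg_mem' := by
        rintro a ⟨s, hs⟩
        exact ⟨-s, fun u => by simp [hs]⟩ }
  refine sing_induction hx' A (fun z hz => ?_) z
  obtain ⟨c, -, hc0, hc, h1⟩ := exists_sing_orth H.n₂ ⊤ [x, z] (by simpa using H.hb)
  obtain ⟨c', hc'⟩ := H.map_orth hZ hq hx hx0 (k hx e) hx1 hg e hc (h1 x (by simp))
  refine H.map_orth hZ hq hc hc0 (k hc hc') ?_ hg hc' hz (pc (h1 z (by simp)))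
  rintro rfl
  exact ne_zero h hu.e_ne hc0 (by simpa using hc' u₀)

theorem mem_of_map {x x₁ : W} (hx : P₂ x = 0) (hx0 : x ≠ 0) (hx1 : x₁ ≠ 0)
    {g : V ≃ₗ[F] V} (hg : g ∈ X) (hs : ∀ u, ∃ u', g (τ u x) = τ u' x₁) : g ∈ Kron τ := by
  have : Nontrivial U := Module.nontrivial_of_finrank_pos (R := F) (by have := H.ha; omega)
  obtain ⟨α, e⟩ := H.exists_equiv hx0 hx1 hs
  exact mem_Kron_of h α (H.exists_map hZ hq hx hx0 hx1 hg e)

end OO

end CfsgLib.OMax
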