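import Mathlib
import Cfsg.Agent.Lib.OMax.TenO2
import Cfsg.Agent.Lib.NonMax.Tens
import Cfsg.Agent.Lib.ClMax.TenSp2

/-!
Overgroups of the stabiliser of a tensor decomposition `O ⊗ O` of an orthogonal space in odd
characteristic: rigidity of the quadratic elements and the maximality theorem.
-/

set_option autoImplicit false
set_option linter.unusedSectionVars false

namespace CfsgLib.OMax

open Module CfsgLib.ClMax CfsgLib.ClMax.Ten CfsgLib.OrthE QuadraticMap

variable {F U W V : Type*} [Field F] [AddCommGroup U] [Module F U] [AddCommGroup W]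
  [Module F W] [AddCommGroup V] [Module F V] {τ : U →ₗ[F] W →ₗ[F] V}
  {P₁ : QuadraticForm F U} {P₂ : QuadraticForm F W} {Q : QuadraticForm F V}
  {h : IsTensorProduct τ}

theorem finrank_mul_le [FiniteDimensional F U] [FiniteDimensional F W] (h : IsTensorProduct τ)
    (I : Submodule F W) {M : Type*} [AddCommGroup M] [Module F M] [FiniteDimensional F M]
    (Φ : V →ₗ[F] M) (S : Submodule F V) (hS : ∀ u, ∀ i ∈ I, τ u i ∈ S)
    (hΦ : ∀ x ∈ S, Φ x = 0 → x = 0) : finrank F U * finrank F I ≤ finrank F M := by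
  rw [← Module.finrank_tensorProduct]
  refine LinearMap.finrank_le_finrank_of_injective
    (f := Φ ∘ₗ (h.equiv : _ →ₗ[F] V) ∘ₗ I.subtype.lTensor U) ?_
  rw [← LinearMap.ker_eq_bot, LinearMap.ker_eq_bot']
  intro x hx
  have h1 : h.equiv (I.subtype.lTensor U x) ∈ S := by
    clear hx
    induction x using TensorProduct.induction_on with
    | zero => simp
    | tmul u i => simpa using hS u i i.2
    | add a b ha hb => simpa using S.add_mem ha hb
  exact Module.Flat.lTensor_preserves_injective_linearMap _ I.injective_subtype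
    (h.equiv.injective ((hΦ _ h1 hx).trans (by simp)))

/-- A basis of a totally singular plane. -/
structure TSP (P : QuadraticForm F W) (y c : W) : Prop where
  sy : P y = 0
  sc : P c = 0
  orth : polar P y c = 0
  ne : y ≠ 0
  nmem : c ∉ Submodule.span F {y}

theorem TSP.dual [FiniteDimensional F W] (hP : Nondeg P₂) {y c : W} (T : TSP P₂ y c) :
    ∃ y' c', polar P₂ y y' = 1 ∧ polar P₂ c y' = 0 ∧ polar P₂ c c' = 1 ∧ polar P₂ y c' = 0 :=
  let ⟨y', h1, h2⟩ := exists_dual_one hP (not_mem_span_symm T.ne T.nmem)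
  let ⟨c', h3, h4⟩ := exists_dual_one hP T.nmem
  ⟨y', c', h1, h2, h3, h4⟩

theorem exists_tsp [Finite F] [FiniteDimensional F W] (hP : Nondeg P₂) (h5 : 5 ≤ finrank F W)
    {y : W} (hy : P₂ y = 0) (hy0 : y ≠ 0) : ∃ c, TSP P₂ y c := by
  obtain ⟨c, h1, h2, h3⟩ := exists_sing_out hP (Submodule.span F {y}) (by
    rw [finrank_span_singleton hy0]; omega)
  exact ⟨c, hy, h3, mem_perp_one.1 h1, hy0, h2⟩

/-- The nilpotent part of a long root element of the right factor. -/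
noncomputable def aN (h : IsTensorProduct τ) (P : QuadraticForm F W) (y c : W) : End F V :=
  τ.flip y ∘ₗ cP h P c - τ.flip c ∘ₗ cP h P y

theorem aN_apply (y c : W) (v : V) :
    aN h P₂ y c v = τ (cP h P₂ c v) y - τ (cP h P₂ y v) c := rfl

theorem TSP.aN_mul {y c : W} (T : TSP P₂ y c) : aN h P₂ y c * aN h P₂ y c = 0 := by
  ext v; simp [aN_apply, T.sy, T.sc, T.orth, pc T.orth]

theorem TenO.rhom_tsp (H : TenO P₁ P₂ Q h) {y c : W} (T : TSP P₂ y c) (v : V) :
    (H.rhom (eich P₂ y c)).1 v = v + aN h P₂ y c v := by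
  simp [H.rhom_eich T.sy T.orth, T.sc, aN_apply, add_sub_assoc]

theorem TenO.aN_skew (H : TenO P₁ P₂ Q h) (y c : W) (a b : V) :
    polar Q (aN h P₂ y c a) b = -polar Q a (aN h P₂ y c b) := by
  rw [polar_comm Q a]
  simp only [aN_apply, polar_sub_left, H.B_tau, polar_comm P₁ (cP h P₂ c _)]
  ring

namespace OO

variable {X : Subgroup (V ≃ₗ[F] V)} (H : OO P₁ P₂ Q h X) [FiniteDimensional F U]
  [FiniteDimensional F W] [Finite F]
include H

theorem exists_right (hab : finrank F U < finrank F W) {y c : W} (T : TSP P₂ y c)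
    {g : V ≃ₗ[F] V} (hg : g ∈ X) (hs : g⁻¹ * (H.rhom (eich P₂ y c)).1 * g ∈ Kron τ) :
    ∃ C : End F W, ∀ u w, g (τ u (C w)) = aN h P₂ y c (g (τ u w)) := by
  obtain ⟨α, β, e⟩ := hs
  have hA : ∀ v, aN h P₂ y c (aN h P₂ y c v) = 0 := fun v => by
    rw [← End.mul_apply, T.aN_mul, LinearMap.zero_apply]
  have e1 : ∀ v w, g (τ (α v) (β w)) = g (τ v w) + aN h P₂ y c (g (τ v w)) := fun v w => by
    rw [← e, LinearEquiv.mul_apply, LinearEquiv.mul_apply, apply_inv_apply, H.rhom_tsp T]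
  by_cases hβ : ∀ w, β w ∈ Submodule.span F {w}
  · obtain ⟨s, hs⟩ := scalar_of_forall_mem_span (f := (β : End F W)) hβ
    have hs : ∀ w, β w = s • w := hs
    obtain ⟨N, hN⟩ : ∃ N : End F U, ∀ u w, g (τ (N u) w) = aN h P₂ y c (g (τ u w)) :=
      ⟨s • (α : End F U) - 1, fun u w => by simpa [hs, sub_eq_iff_eq_add'] using e1 u w⟩
    suffices ∀ u u', polar P₁ (N u) u' = 0 from
      ⟨0, fun u w => by rw [← hN, H.n₁ _ (this u)]; simp⟩
    intro u u'
    by_contra h1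
    obtain ⟨x', hx'⟩ := H.n₂.exists_hyp T.sy T.ne
    have h2 : ∀ p r, polar P₁ (N p) r = -polar P₁ p (N r) := fun p r => by
      have := H.aN_skew y c (g (τ p y)) (g (τ r x'))
      rw [← hN, ← hN, H.pol hg, H.pol hg] at this
      simpa [H.eq, hx'.hef] using this
    have h3 : ∀ p, polar P₁ p (N p) = 0 := fun p =>
      mul_left_cancel₀ H.two (by linear_combination h2 p p - polar_comm P₁ (N p) p)
    obtain ⟨z, hz, h4⟩ := exists_ne_zero_map_eq_zero (((cP h P₂ y).prod (cP h P₂ c)) ∘ₗ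
      (g : V →ₗ[F] V) ∘ₗ (τ u).coprod (τ u')) (by simp only [finrank_prod]; omega)
    have h5 : cP h P₂ y (g (τ u z.1 + τ u' z.2)) = 0 := congrArg Prod.fst h4
    have h6 : cP h P₂ c (g (τ u z.1 + τ u' z.2)) = 0 := congrArg Prod.snd h4
    have h7 : τ (N u) z.1 + τ (N u') z.2 = 0 := g.injective (by
      rw [map_add, hN, hN, ← map_add, ← map_add, aN_apply, h5, h6]; simp)
    have h8 := congrArg (cL h (polarBilin P₁ u)) h7
    have h9 := congrArg (cL h (polarBilin P₁ u')) h7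
    have h10 : polar P₁ u (N u') ≠ 0 := fun h10 => h1 (by simp [h2, h10])
    simp [h3, h10, polar_comm P₁ u' (N u), h1] at h8 h9
    exact hz (Prod.ext h9 h8)
  push Not at hβ
  obtain ⟨w₀, hw₀⟩ := hβ
  obtain ⟨φ, h1, h0⟩ := exists_dual_one_zero hw₀
  have h3 : ∀ u, φ (β (β w₀)) • α u = (2 : F) • u := fun u => by
    have e2 : τ (α (α u)) (β (β w₀)) - (2 : F) • τ (α u) (β w₀) + τ u w₀ = 0 := g.injective (by
      rw [map_add, map_sub, map_smul, e1, e1]
      simp only [map_add, hA, map_zero]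
      module)
    have e3 := congrArg (cR h φ) e2
    simp only [map_add, map_sub, map_smul, cR_apply, h1, h0, zero_smul, one_smul, add_zero,
      map_zero, sub_eq_zero] at e3
    exact α.injective (by simpa using e3)
  obtain ⟨u₀, u₁, hu⟩ := H.n₁.exists_hyp_of_three H.ha
  have hp : φ (β (β w₀)) ≠ 0 := fun e => by simpa [e, H.two, hu.e_ne] using (h3 u₀).symm
  obtain ⟨s, h4⟩ : ∃ s : F, ∀ u, α u = s • u := ⟨2 / φ (β (β w₀)), fun u => by
    rw [div_eq_inv_mul, mul_smul, ← h3, inv_smul_smul₀ hp]⟩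
  exact ⟨s • (β : End F W) - 1, fun u w => by simpa [h4, sub_eq_iff_eq_add'] using e1 u w⟩

theorem neg_of_invol {y c : W} (T : TSP P₂ y c) {i : V ≃ₗ[F] V} (hi : i ∈ X) (hK : i ∈ Kron τ)
    (h1 : i * i = 1) (h1' : i ≠ 1) (hc : ∀ v, i (aN h P₂ y c v) = aN h P₂ y c (i v))
    (hk : ∀ v, aN h P₂ y c v = 0 → ∃ v', i v = v + aN h P₂ y c v') :
    (∀ v, i (aN h P₂ y c v) = -aN h P₂ y c v) ∧
      ∃ s, s ≠ 0 ∧ polar P₂ y s = 0 ∧ polar P₂ c s = 0 ∧ ∀ u, i (τ u s) = τ u s := by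
  obtain ⟨α, β, e⟩ := hK
  obtain ⟨u₀, u₁, hu⟩ := H.n₁.exists_hyp_of_three H.ha
  obtain ⟨w₀, -, h2, h3⟩ := exists_orth_not_mem H.n₂ ⊤ (Submodule.span F {y, c}) [y, c] (by
    have := RootMax.finrank_span_pair_le (F := F) y c
    have := H.hb
    simp only [List.length_cons, List.length_nil, finrank_top]; omega)
  obtain ⟨a, h4, h5, h6⟩ := exists_dual_pair H.n₂ h2
  have hk' : ∀ u w, polar P₂ y w = 0 → polar P₂ c w = 0 → ∃ p r, i (τ u w) = τ u w +
      (τ p y - τ r c) := fun u w hy hc =>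
    let ⟨_, hv⟩ := hk (τ u w) (by simp [aN_apply, hy, hc]); ⟨_, _, hv⟩
  have h7 : ∀ u, polar P₂ a (β w₀) • α u = u := fun u => by
    obtain ⟨p, r, h7⟩ := hk' u w₀ (h3 y (by simp)) (h3 c (by simp))
    simpa [e, pc h5, pc h6, polar_comm P₂ a w₀, h4] using congrArg (cP h P₂ a) h7
  have h8 : polar P₂ a (β w₀) ≠ 0 := fun h8 => hu.e_ne (by rw [← h7 u₀, h8, zero_smul])
  obtain ⟨b, e⟩ : ∃ b : End F W, ∀ u w, i (τ u w) = τ u (b w) :=
    ⟨(polar P₂ a (β w₀))⁻¹ • (β : End F W), fun u w => by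
      rw [e]; nth_rw 2 [← h7 u]; simp [h8]⟩
  have h9 : ∀ w, b (b w) = w := fun w => right_inj h hu.e_ne (by
    rw [← e, ← e, ← LinearEquiv.mul_apply, h1]; rfl)
  have h10 : ∀ w w', polar P₂ (b w) w' = polar P₂ w (b w') := fun w w' => by
    simpa [e, H.eq, hu.hef, h9] using H.pol hi (τ u₀ w) (τ u₁ (b w'))
  have h11 : ∀ w, polar P₂ y w = 0 → polar P₂ c w = 0 → ∃ s t : F, b w = w + s • y - t • c :=
    fun w hy hc => by
      obtain ⟨p, r, h7⟩ := hk' u₀ w hy hc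
      exact ⟨polar P₁ u₁ p, polar P₁ u₁ r, by
        simpa [e, hu.hfe, add_sub_assoc] using congrArg (cL h (polarBilin P₁ u₁)) h7⟩
  obtain ⟨y', c', d1, d2, d3, d4⟩ := T.dual H.n₂
  have h12 : ∀ w, polar P₂ c w • b y - polar P₂ y w • b c =
      polar P₂ (b c) w • y - polar P₂ (b y) w • c := fun w => right_inj h hu.e_ne (by
    simpa [aN_apply, e, h10] using hc (τ u₀ w))
  have e1 := h12 c'
  have e2 := h12 y'
  simp only [d1, d2, d3, d4, one_smul, zero_smul, sub_zero, zero_sub] at e1 e2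
  have e3 := congrArg (polar P₂ · c') e1
  have e4 := congrArg (polar P₂ · y') e2
  have e5 := congrArg (polar P₂ · y') e1
  simp only [polar_sub_left, polar_smul_left, polar_neg_left, d1, d2, d3, d4, smul_eq_mul] at e3 e4 e5
  rw [show polar P₂ (b y) c' = 0 from mul_left_cancel₀ H.two (by linear_combination e3)] at e1 e5
  rw [show polar P₂ (b c) y' = 0 from mul_left_cancel₀ H.two (by linear_combination -e4), e5] at e2
  generalize polar P₂ (b c) c' = m at e1 e2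
  simp only [zero_smul, sub_zero, zero_sub, neg_inj, mul_one, mul_zero] at e1 e2
  have h13 : m * m = 1 := smul_left_injective F T.ne (by
    simpa [e1, smul_smul] using h9 y)
  rcases mul_self_eq_one_iff.1 h13 with rfl | rfl
  · refine absurd (equiv_ext h fun u w => ?_) h1'
    rw [one_smul] at e1 e2
    obtain ⟨s, t, h14⟩ := h11 (b w - w) (by simp [← h10, e1]) (by simp [← h10, e2])
    have h15 := congrArg b h14
    rw [h9, map_sub, map_add, map_smul, map_smul, e1, e2] at h15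
    rw [map_sub, h9] at h14 h15
    have h16 : ((2 : F) * 2) • (b w - w) = 0 := by linear_combination (norm := module) h15 - h14
    rw [e, sub_eq_zero.1 ((smul_eq_zero.1 h16).resolve_left (mul_ne_zero H.two H.two))]; rfl
  · refine ⟨fun v => by simp [aN_apply, e, e1, e2]; abel, w₀ + b w₀, fun h14 => ?_,
      by simp [← h10, e1, h3], by simp [← h10, e2, h3], fun u => by simp [e, h9, add_comm]⟩
    obtain ⟨s, t, h15⟩ := h11 w₀ (h3 y (by simp)) (h3 c (by simp))
    have := congrArg (polar P₂ · a) h14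
    simp [h15, h4, h5, h6] at this
    exact H.two (by linear_combination this)

variable (hZ : ∀ x (hx : P₂ x = 0), x ≠ 0 → ∀ m ∈ ZO h X hx, m = 0)
  (hq : (∃ t : F, t ≠ 0 ∧ t * t ≠ 1) ∨ 4 ≤ finrank F U)
include hZ hq

theorem mem_of_right {y c : W} (T : TSP P₂ y c) {g : V ≃ₗ[F] V} (hg : g ∈ X) {C : End F W}
    (hC : ∀ u w, g (τ u (C w)) = aN h P₂ y c (g (τ u w))) : g ∈ Kron τ := by
  have := finiteDimensional h
  have hb := H.hb
  obtain ⟨y', c', h1, h2, h3, h4⟩ := T.dual H.n₂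
  obtain ⟨u₀, u₁, hu⟩ := H.n₁.exists_hyp_of_three H.ha
  have hA : ∀ u, aN h P₂ y c (τ u c') = τ u y := fun u => by simp [aN_apply, h3, h4]
  have h5 := finrank_mul_le h (LinearMap.range C) (((cP h P₂ y').prod (cP h P₂ c')) ∘ₗ
    (g : V →ₗ[F] V)) ((LinearMap.range (aN h P₂ y c)).comap (g : V →ₗ[F] V)) (by
      rintro u _ ⟨w, rfl⟩; exact ⟨_, (hC u w).symm⟩) fun x ⟨v, hv⟩ hx => by
      have e1 : cP h P₂ y' (g x) = 0 := congrArg Prod.fst hx
      have e2 : cP h P₂ c' (g x) = 0 := congrArg Prod.snd hx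
      replace hv : aN h P₂ y c v = g x := hv
      rw [← hv, aN_apply] at e1 e2
      simp [polar_comm P₂ y', polar_comm P₂ c', h1, h2, h3, h4] at e1 e2
      simpa [aN_apply, e1, e2] using hv.symm
  have h6 : finrank F (LinearMap.range C) ≤ 2 := by
    rw [finrank_prod, ← mul_two] at h5
    exact Nat.le_of_mul_le_mul_left h5 (by have := H.ha; omega)
  have h7 := finrank_perp H.n₂ (LinearMap.range C)
  obtain ⟨d, hd, hd'⟩ := exists_nonsing H.n₂ (S := perp P₂ (LinearMap.range C)) (by omega)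
  have h8 : ∀ w w', polar P₂ (C w) (C w') = 0 := fun w w' => by
    have := H.aN_skew y c (g (τ u₀ w)) (g (τ u₁ (C w')))
    rw [← hC, H.pol hg, hC u₁, ← End.mul_apply, T.aN_mul] at this
    simpa [H.eq, hu.hef] using this
  obtain ⟨w₁, hw₁⟩ : ∃ w₁, C w₁ ≠ 0 := by
    by_contra h'
    push Not at h'
    have : aN h P₂ y c ∘ₗ (g : V →ₗ[F] V) = 0 := ext h fun u w => by simp [← hC, h']
    have := LinearMap.congr_fun this (g⁻¹ (τ u₀ c'))
    exact ne_zero h hu.e_ne T.ne (by simpa [hA] using this)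
  have h9 : P₂ (C w₁) = 0 := by simpa [H.two] using h8 w₁ w₁
  have h10 : polar P₂ (C w₁) d = 0 := hd _ ⟨w₁, rfl⟩
  have h11 := H.rhom_eich h9 h10
  have hs := X.mul_mem (X.mul_mem hg (H.right (eich_mem_E (C w₁) d))) (X.inv_mem hg)
  have h12 : ∀ v, g ((H.rhom (eich P₂ (C w₁) d)).1 (g⁻¹ (aN h P₂ y c (g v)))) =
      aN h P₂ y c (g v) := fun v => by
    induction v using h.inductionOn with
    | zero => simp
    | add a b ha hb => simp only [map_add, ha, hb]
    | tmul u w =>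
      rw [← hC, inv_apply_apply, H.rhom_apply, eich_apply_of_orth (h8 _ _) (hd _ ⟨w, rfl⟩)]
  have h13 := H.exists_map hZ hq T.sy T.ne T.ne hs (α := 1) fun u => by
    simpa [hA] using h12 (g⁻¹ (τ u c'))
  choose β h13 using h13
  simp only [LinearEquiv.mul_apply, LinearEquiv.coe_one, id_eq] at h13
  have h14 : ∀ u z, g⁻¹ (τ u (β (β z) - (2 : F) • β z + z)) =
      τ (-(2 * P₂ d) • cP h P₂ (C w₁) (g⁻¹ (τ u z))) (C w₁) := fun u z => by
    rw [map_add, map_sub, map_smul, ← h13, ← h13]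
    simp only [map_add, map_sub, map_smul, inv_apply_apply, h11, cP_apply, pself h9, h10, pc h10,
      polar_self', LinearMap.add_apply, LinearMap.sub_apply, LinearMap.smul_apply]
    module
  obtain ⟨z, hz⟩ : ∃ z, β (β z) - (2 : F) • β z + z ≠ 0 := by
    by_contra h'
    push Not at h'
    obtain ⟨x', hx'⟩ := H.n₂.exists_hyp h9 hw₁
    have : cP h P₂ (C w₁) ∘ₗ ((g⁻¹ : V ≃ₗ[F] V) : V →ₗ[F] V) = 0 := ext h fun u z => by
      have := congrArg (cP h P₂ x') (h14 u z)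
      simpa [h', hx'.hfe, H.two, hd'] using this
    simpa [hx'.hef, hu.e_ne] using LinearMap.congr_fun this (g (τ u₀ x'))
  refine (Kron τ).inv_mem_iff.1 (H.mem_of_map hZ hq ?_ hz hw₁ (X.inv_mem hg) fun u => ⟨_, h14 u z⟩)
  have := H.pol (X.inv_mem hg) (τ u₀ _) (τ u₁ _) |>.symm.trans
    (congrArg₂ (polar Q) (h14 u₀ z) (h14 u₁ z))
  rw [H.eq, H.eq, h8, hu.hef, polar_self'] at this
  simpa [H.two] using this

theorem le_Kron (hab : finrank F U < finrank F W) : X ≤ Kron τ := fun g hg => by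
  by_contra hgK
  have := finiteDimensional h
  have hb := H.hb
  have rig : ∀ {y c}, TSP P₂ y c → ∀ k ∈ X, k⁻¹ * (H.rhom (eich P₂ y c)).1 * k ∈ Kron τ →
      k ∈ Kron τ := fun T k hk hs =>
    let ⟨_, hC⟩ := H.exists_right hab T hk hs; H.mem_of_right hZ hq T hk hC
  obtain ⟨y₁, x₁, hy₁⟩ := H.n₂.exists_hyp_of_three (by omega)
  obtain ⟨c₁, T₁⟩ := exists_tsp H.n₂ hb hy₁.he hy₁.e_ne
  have hA₁ := T₁.aN_mul (h := h)
  have hs₁ := H.aN_skew y₁ c₁
  have hx₁ := H.rhom_tsp T₁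
  have rig₁ := rig T₁
  have hX₁ := H.right (eich_mem_E y₁ c₁)
  have hK₁ : (H.rhom (eich P₂ y₁ c₁)).1 ∈ Kron τ := ⟨1, _, H.rhom_apply _⟩
  have neg₁ := fun i => H.neg_of_invol T₁ (i := i)
  generalize aN h P₂ y₁ c₁ = A₁, (H.rhom (eich P₂ y₁ c₁)).1 = t₁ at *
  have hY := X.mul_mem (X.mul_mem (X.inv_mem hg) hX₁) hg
  let T : Submodule F W := ⨅ v, LinearMap.ker ((cP h P₂).flip (g⁻¹ (A₁ v)))
  have hT : ∀ {w}, w ∈ T ↔ ∀ v, cP h P₂ w (g⁻¹ (A₁ v)) = 0 := by simp [T]
  have : Finite V := Module.finite_of_finite F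
  have : Finite (V ≃ₗ[F] V) := Finite.of_injective _ DFunLike.coe_injective
  obtain ⟨p, hp⟩ := CharP.exists F
  have hp' : Fact p.Prime := ⟨CharP.char_is_prime F p⟩
  have key : ∀ {y c}, TSP P₂ y c → ∃ s ∈ T, s ≠ 0 ∧ polar P₂ y s = 0 ∧ polar P₂ c s = 0 := by
    intro y c T₂
    obtain ⟨i, hi, hK, h1, h2, r, e, h3, h4⟩ := QuadPair.exists_invol
      (ρ := LinearEquiv.automorphismGroup.toLinearMapMonoidHom) (A := aN h P₂ y c)
      (B := ((g⁻¹ : V ≃ₗ[F] V) : End F V) * A₁ * (g : End F V)) (p := p) (H := Kron τ)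
      LinearEquiv.toLinearMap_injective
      (by rintro rfl; exact H.two (by exact_mod_cast CharP.cast_eq_zero F 2))
      (by rw [← map_natCast (algebraMap F (End F V)), CharP.cast_eq_zero, map_zero]) T₂.aN_mul
      (by ext v; simpa using LinearMap.congr_fun hA₁ (g v))
      (LinearMap.ext (H.rhom_tsp T₂)) (LinearMap.ext fun v => by simp [hx₁])
      (H.right (eich_mem_E y c)) hY ⟨1, _, H.rhom_apply _⟩ (fun h1 => hgK (rig₁ g hg h1)) (rig T₂)
    have hA := T₂.aN_mul (h := h)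
    have neg₂ := H.neg_of_invol T₂ hi hK h1 h2
    generalize aN h P₂ y c = A at *
    obtain ⟨B, hB⟩ : ∃ B, B = ((g⁻¹ : V ≃ₗ[F] V) : End F V) * A₁ * (g : End F V) := ⟨_, rfl⟩
    rw [← hB] at e h4
    replace e : (i : End F V) = 1 + (A * B + B * A) * r := e
    have hB : ∀ v, g (B v) = A₁ (g v) := fun v => by simp [hB]
    have hBB : B * B = 0 := LinearMap.ext fun v => g.injective (by
      simpa [hB] using LinearMap.congr_fun hA₁ (g v))
    have c1 : ∀ v, i (A v) = A (i v) := LinearMap.congr_fun (f := _ * A) (g := A * _)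
      (e ▸ ((Commute.one_left A).add_left ((QuadPair.comm_z_left hA).mul_left h3)).eq :
        (i : End F V) * A = A * (i : End F V))
    have c2 : ∀ v, i (B v) = B (i v) := LinearMap.congr_fun (f := _ * B) (g := B * _)
      (e ▸ ((Commute.one_left B).add_left ((QuadPair.comm_z_right hBB).mul_left h4)).eq :
        (i : End F V) * B = B * (i : End F V))
    have e : ∀ v, i v = v + (A (B (r v)) + B (A (r v))) := LinearMap.congr_fun e
    have h3 : ∀ v, r (A v) = A (r v) := LinearMap.congr_fun h3.eq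
    have h4 : ∀ v, r (B v) = B (r v) := LinearMap.congr_fun h4.eq
    obtain ⟨-, s, h5, h6, h7, h8⟩ := neg₂ c1 fun v hv => ⟨B (r v), by simp [e, ← h3, hv]⟩
    have hi' := X.mul_mem (X.mul_mem hg hi) (X.inv_mem hg)
    have c3 : ∀ v, (g * i * g⁻¹) (A₁ v) = A₁ ((g * i * g⁻¹) v) := fun v => by
      obtain ⟨v, rfl⟩ := g.surjective v
      simp [← hB, c2]
    obtain ⟨h9, -⟩ := neg₁ _ hi' (rig₁ _ hi' (by
        convert hK₁ using 1
        rw [mul_assoc, inv_mul_eq_iff_eq_mul]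
        exact LinearEquiv.ext fun v => by
          rw [LinearEquiv.mul_apply, LinearEquiv.mul_apply _ t₁, hx₁, hx₁, map_add, c3]))
      (by rw [conj_mul, h1]; simp) (by simpa using h2) c3 fun v hv => by
        obtain ⟨v, rfl⟩ := g.surjective v
        have : B v = 0 := g.injective (by simpa [hB] using hv)
        exact ⟨g (A (r v)), by simp [e, ← h4, this, hB]⟩
    refine ⟨s, hT.2 fun v => polar_ext H.n₁ fun u => ?_, h5, h6, h7⟩
    have h10 : i (g⁻¹ (A₁ v)) = -g⁻¹ (A₁ v) := g.injective (by simpa using h9 v)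
    have h11 := H.pol hi (τ u s) (g⁻¹ (A₁ v))
    rw [h8, h10, polar_neg_right, H.B_tau] at h11
    exact mul_left_cancel₀ H.two (by linear_combination -h11 - 2 * polar_zero_right P₁ u)
  have an : ∀ y ∈ T, P₂ y = 0 → y = 0 := fun y hy hy' => by
    by_contra hy0
    refine hgK (rig₁ g hg (H.mem_of_map hZ hq hy' hy0 hy0 hY fun u => ⟨u, ?_⟩))
    have : A₁ (g (τ u y)) = 0 := H.hQ _ fun v => by
      rw [hs₁, ← apply_inv_apply g (A₁ v), H.pol hg, H.B_tau, hT.1 hy]; simp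
    simp [hx₁, this]
  have h1 : finrank F T ≤ 2 := by
    by_contra h1
    obtain ⟨y, hy, h2, h3⟩ := RootMax.quad_exists_sing P₂ (Z := T) (by omega)
    exact h2 (an y hy h3)
  obtain ⟨t, ht, ht0, -⟩ := key T₁
  obtain ⟨y, -, hy, hyt⟩ := exists_sing_not_orth (nd_top H.n₂) trivial hy₁.e_ne hy₁.he (w := t)
    fun h2 => ht0 (H.n₂ t fun v => pc (h2 v trivial))
  have hy0 := ne_zero_of_polar hyt
  have h2 := Submodule.finrank_lt_finrank_of_lt (s := T ⊓ perp P₂ (Submodule.span F {y}))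
    (lt_of_le_of_ne inf_le_left fun h2 => hyt (mem_perp_one.1 (h2.ge ht).2))
  obtain ⟨v, hv⟩ := finrank_le_one_iff.1
    (show finrank F ↥(T ⊓ perp P₂ (Submodule.span F {y})) ≤ 1 by omega)
  have h3 : ∀ c, P₂ c = 0 → polar P₂ y c = 0 → polar P₂ v.1 c = 0 := fun c hc hyc => by
    by_cases h3 : c ∈ Submodule.span F {y}
    · exact pc (v.2.2 c h3)
    obtain ⟨s, hs, hs0, h4, h5⟩ := key ⟨hy, hc, hyc, hy0, h3⟩
    obtain ⟨a, ha⟩ := hv ⟨s, hs, mem_perp_one.2 h4⟩
    obtain rfl : a • v.1 = s := congrArg Subtype.val ha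
    exact pc (by simpa [left_ne_zero_of_smul hs0] using h5)
  obtain ⟨a, ha⟩ := Submodule.mem_span_singleton.1 (mem_span_of_orth H.n₂ (x := y) (w := v.1)
    fun a ha => by
      obtain ⟨p, r, h4, h5, h6, h7, rfl⟩ := sing_add_sing_orth H.n₂ hb hy hy0 ha
      simp [h3 p h4 h6, h3 r h5 h7])
  obtain ⟨c, T₂⟩ := exists_tsp H.n₂ hb hy hy0
  obtain ⟨s, hs, hs0, h4, -⟩ := key T₂
  obtain ⟨b, hb⟩ := hv ⟨s, hs, mem_perp_one.2 h4⟩
  refine hs0 (an s hs ?_)
  rw [← show b • v.1 = s from congrArg Subtype.val hb, ← ha]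
  simp [Q_smul, hy]

omit hZ in
theorem E_le (hab : finrank F U < finrank F W)
    (hU : ∀ u d, u ≠ 0 → P₁ u = 0 → P₁ d = 0 → polar P₁ u d = 0 →
      d ∉ Submodule.span F {u} → 5 ≤ finrank F U) (hX : ¬ X ≤ Kron τ) :
    E Q ≤ X.subgroupOf (O Q) := by
  by_cases hZ : ∀ x (hx : P₂ x = 0), x ≠ 0 → ∀ m ∈ ZO h X hx, m = 0
  · exact absurd (H.le_Kron hZ hq hab) hX
  push Not at hZ
  obtain ⟨x, hx, hx0, m, hm, hm0⟩ := hZ
  obtain ⟨u, hu0, hu, h1⟩ := H.wedge_of_Z hU hx hx0 hm hm0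
  exact H.E_le_of_wedge hx hx0 hu hu0 h1

end OO

theorem TenO.isMaximalIn [Finite F] [FiniteDimensional F U] [FiniteDimensional F W] {ι : Type}
    [Fintype ι] [DecidableEq ι] {τ : U →ₗ[F] W →ₗ[F] (ι → F)} {Q : QuadraticForm F (ι → F)}
    {h : IsTensorProduct τ} (H : TenO P₁ P₂ Q h) (ha : 3 ≤ finrank F U) (hb : 5 ≤ finrank F W)
    (hab : finrank F U < finrank F W) (hq : (∃ t : F, t ≠ 0 ∧ t * t ≠ 1) ∨ 4 ≤ finrank F U)
    (h4 : finrank F U = 4 → ∀ S : Submodule F U, (∀ v ∈ S, P₁ v = 0) → finrank F S ≠ 2)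
    (M : Subgroup (GL ι F)) (hM : ∀ g, g ∈ M ↔ toEquiv g ∈ Kron τ) :
    Cfsg.Geo.IsMaximalIn (Cfsg.Geo.omegaGL (⇑Q)) (M ⊓ Cfsg.Geo.omegaGL (⇑Q)) := by
  refine isMaximalIn_omega H.hQ (by
      have := finrank_eq h
      rw [finrank_fintype_fun_eq_card] at this; nlinarith) _
    (fun g => g.1 ∈ Kron τ) (fun g k hk => by rw [hM, hk]) ?_ fun X _ hX g hg hg' => ?_
  · obtain ⟨u, u', hu⟩ := H.n₁.exists_hyp_of_three ha
    obtain ⟨y, y', hy⟩ := H.n₂.exists_hyp_of_three (by omega)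
    obtain ⟨d, h1, h2, h3⟩ := hu.exists_nonsingular H.n₁ ha
    have h5 : Q (τ u y) = 0 := by simp [H.Q_tau, hu.he]
    have h0 : polar Q (τ u y) (τ d y) = 0 := by simp [H.eq, hy.he]
    refine ⟨_, _, h5, h0, fun hK => ?_⟩
    obtain ⟨β, hβ⟩ := right_of_fix h (M := F × F) (by simp; omega) hK
      ((Q.polarBilin (τ u y)).prod (Q.polarBilin (τ d y))) fun x hx => by
        have h6 : polar Q _ x = 0 := congrArg Prod.fst hx
        have h7 : polar Q _ x = 0 := congrArg Prod.snd hx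
        rw [eich_ap h5 h0, h6, h7]; simp
    have h6 := congrArg (cL h (polarBilin P₁ d)) (hβ u' y')
    rw [eich_ap h5 h0] at h6
    simp [H.eq, h1, h2, h3, hu.hef, hy.hef, H.two, hy.e_ne] at h6
  · have H' : OO _ _ _ h (X.map (O Q).subtype) :=
      { H with
        ha := ha
        hb := hb
        hX := Subgroup.map_subtype_le _
        hK := fun g h1 h2 => ⟨g, hX g h1 h2, rfl⟩ }
    have := H'.E_le hq hab (fun u d h1 h2 h3 h5 h6 => ?_) fun h1 => hg' (h1 ⟨g, hg, rfl⟩)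
    · rwa [Subgroup.subgroupOf, Subgroup.comap_map_eq_self_of_injective Subtype.val_injective]
        at this
    have h7 : ∀ v ∈ Submodule.span F {u, d}, P₁ v = 0 := fun v hv => by
      obtain ⟨a, b, rfl⟩ := Submodule.mem_span_pair.1 hv
      simp [Q_add, Q_smul, h2, h3, h5]
    have h8 : finrank F (Submodule.span F {u, d}) = 2 := by
      have := finrank_span_eq_card ((LinearIndependent.pair_iff' h1).2 fun a e =>
        h6 (Submodule.mem_span_singleton.2 ⟨a, e⟩))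
      rwa [Matrix.range_cons_cons_empty] at this
    have h9 := two_mul_le_of_ts H.n₁ (nd_top H.n₁) le_top h7
    rw [finrank_top] at h9
    have : finrank F U ≠ 4 := fun e => h4 e _ h7 h8
    omega

open Cfsg Cfsg.Geo in
/-- The stabiliser of a decomposition (orthogonal) `⊗` (orthogonal) is maximal in `Ω`, `q` odd. -/
theorem isMaximalIn_omega_tenO [Fintype F] (hodd : Odd (Fintype.card F)) {ι : Type} [Fintype ι]
    [DecidableEq ι] {Q : QuadraticForm F (ι → F)} (hQ : Nondeg Q) {n₁ n₂ : ℕ} (h1 : 3 ≤ n₁)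
    (h1' : 3 ≤ n₂) (hne : n₁ ≠ n₂) (h5 : 5 ≤ n₁ ∨ 5 ≤ n₂)
    (hex : Fintype.card F = 3 → n₁ ≠ 3 ∧ n₂ ≠ 3) {e : ι ≃ Fin n₁ × Fin n₂} {P : GL ι F}
    {f₁ : (Fin n₁ → F) → (Fin n₁ → F) → F} {f₂ : (Fin n₂ → F) → (Fin n₂ → F) → F}
    (hf₁ : IsSymmetricForm f₁) (hf₂ : IsSymmetricForm f₂)
    (h4 : n₁ = 4 → ¬ IsPlusTypeOn (fun v => f₁ v v) ⊤)
    (h4' : n₂ = 4 → ¬ IsPlusTypeOn (fun v => f₂ v v) ⊤)
    (hT : IsTensorFormStructure id (polar Q) f₁ f₂ e P) :
    IsMaximalIn (omegaGL ⇑Q) (tensorProductSubgroup n₁ n₂ e P ⊓ omegaGL ⇑Q) := by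
  have h2 := two_ne_zero_of_odd hodd
  obtain ⟨c, hc, hτ⟩ := NonMax.tau_form (σ := RingHom.id F) (Asch.isSesq0_of_bilin hf₁.bilinear)
    (Asch.isSesq0_of_bilin hf₂.bilinear) hT
  have hc' : c / (2 * 2) ≠ 0 := div_ne_zero hc (mul_ne_zero h2 h2)
  have hp : ∀ x y, polar ((c / (2 * 2)) • NonMax.diagQF hf₁.bilinear) x y =
      c / (2 * 2) * polar (NonMax.diagQF hf₁.bilinear) x y := fun x y => by
    simp only [polar, smul_apply, smul_eq_mul]; ring
  have H : TenO ((c / (2 * 2)) • NonMax.diagQF hf₁.bilinear) (NonMax.diagQF hf₂.bilinear) Q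
      (isTensorProduct_tauOf e P) :=
    ⟨h2, fun x hx => (nondeg_iff _).2 (NonMax.diagQF_nd h2 hf₁) x fun y =>
        (mul_eq_zero.1 ((hp x y).symm.trans (hx y))).resolve_left hc',
      (nondeg_iff _).2 (NonMax.diagQF_nd h2 hf₂), hQ, fun u w u' w' => by
        rw [hp, NonMax.polar_diagQF hf₁, NonMax.polar_diagQF hf₂]
        refine (hτ u w u' w').trans ?_
        field_simp⟩
  have hq : ∀ n : ℕ, 3 ≤ n → (Fintype.card F = 3 → n ≠ 3) →
      (∃ t : F, t ≠ 0 ∧ t * t ≠ 1) ∨ 4 ≤ finrank F (Fin n → F) := fun n h3 hex => by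
    by_cases h6 : Fintype.card F = 3
    · right; have := hex h6; simp; omega
    · obtain ⟨t, h7, h8, h9, -⟩ := ClMax.big_of_card (F := F) (by
        have := Fintype.one_lt_card (α := F)
        obtain ⟨k, hk⟩ := hodd
        omega) 1 (-1) 0
      exact Or.inl ⟨t, h7, fun e => (mul_self_eq_one_iff.1 e).elim h8 h9⟩
  have hM : ∀ g, g ∈ tensorProductSubgroup n₁ n₂ e P ↔ toEquiv g ∈ Kron (tauOf e P) := fun g => by
    rw [tensorProductSubgroup_eq]; rfl
  rcases lt_or_gt_of_ne hne with h6 | h6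
  · refine H.isMaximalIn (by simpa) (by simp; omega) (by simpa) (hq _ h1 fun e => (hex e).1)
      (fun e S hS h7 => h4 (by simpa using e) ⟨S, le_top, fun v hv => ?_, by
        rw [h7, finrank_top, e]⟩) _ hM
    exact (mul_eq_zero.1 (hS v hv)).resolve_left hc'
  · exact H.flip.isMaximalIn (by simpa) (by simp; omega) (by simpa) (hq _ h1' fun e => (hex e).2)
      (fun e S hS h7 => h4' (by simpa using e) ⟨S, le_top, hS, by rw [h7, finrank_top, e]⟩) _
      fun g => by rw [Kron_flip, hM]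

end CfsgLib.OMax
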