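import Mathlib
import Cfsg.Agent.Lib.OMax.ExtO

/-!
Overgroups of the field extension subgroup of an orthogonal group: a non-trivial element in the
centre of the unipotent radical of a singular `K`-line forces the whole of `Ω`.
-/

set_option autoImplicit false
set_option linter.unusedSectionVars false

namespace CfsgLib.OMax

open Module CfsgLib.ClMax CfsgLib.OrthE QuadraticMap

variable {F K V : Type*} [Field F] [Field K] [Algebra F K] [AddCommGroup V]
  [Module F V] [Module K V] [IsScalarTower F K V]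
  {Q : QuadraticForm F V} {P : QuadraticForm K V} {X : Subgroup (O Q)}

/-- Quadratic action. -/
def Quad (t : O Q) : Prop := ∀ v, t.1 (t.1 v - v) = t.1 v - v

/-- Cubic action. -/
def Cub (t : O Q) : Prop := ∀ v, t.1 (t.1 (t.1 v - v) - (t.1 v - v)) = t.1 (t.1 v - v) - (t.1 v - v)

theorem Quad.cub {t : O Q} (h : Quad t) : Cub t := fun _ => h _

theorem Quad.conj {t : O Q} (h : Quad t) (g : O Q) : Quad (g⁻¹ * t * g) := fun v => by
  apply g.1.injective
  simp only [O_mul_apply, map_sub, O_apply_inv_apply]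
  simpa only [map_sub] using h (g.1 v)

theorem Cub.conj {t : O Q} (h : Cub t) (g : O Q) : Cub (g⁻¹ * t * g) := fun v => by
  apply g.1.injective
  simp only [O_mul_apply, map_sub, O_apply_inv_apply]
  simpa only [map_sub] using h (g.1 v)

/-- The maximal intersection argument. -/
theorem exists_stab [FiniteDimensional F K] {u : V} (hu : ∀ k k' : K, polar Q (k • u) (k' • u) = 0)
    (T : O Q → Prop) (hT : ∀ t g, T t → T (g⁻¹ * t * g))
    (hflex : ∀ (k : K) (x : V), x ∉ Submodule.span K {u} → polar Q (k • u) x = 0 →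
      ∃ t ∈ X, (∀ c : K, t.1 (c • u) = c • u) ∧ t.1 x = x + k • u ∧ T t)
    (hg : ∃ g ∈ X, g.1 u = u ∧ ∃ k : K, g.1 (k • u) ∉ Submodule.span K {u}) :
    ∃ x y : K, y ≠ 0 ∧ ∃ h ∈ X, (∀ k : K, h.1 (k • u) ∈ Submodule.span K {u}) ∧
      h.1 (x • u) = x • u + y • u ∧ T h := by
  let S : O Q → Submodule F K := fun g =>
    ((Submodule.span K {u}).restrictScalars F).comap
      ((g.1 : V →ₗ[F] V) ∘ₗ (LinearMap.toSpanSingleton K V u).restrictScalars F)
  have hS : ∀ g k, k ∈ S g ↔ g.1 (k • u) ∈ Submodule.span K {u} := fun g k => Iff.rfl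
  have hP : ∃ n, ∃ g ∈ X, S g ≠ ⊥ ∧ S g ≠ ⊤ ∧ finrank F K - finrank F (S g) = n := by
    obtain ⟨g, hgX, hgu, k, hk⟩ := hg
    refine ⟨_, g, hgX, fun h => ?_, fun h => hk ((hS g k).1 (h ▸ Submodule.mem_top)), rfl⟩
    have : (1 : K) ∈ S g := by
      rw [hS, one_smul, hgu]; exact Submodule.mem_span_singleton_self _
    rw [h] at this
    exact one_ne_zero ((Submodule.mem_bot F).1 this)
  classical
  obtain ⟨g, hgX, h0, h1, hn⟩ := Nat.find_spec hP
  obtain ⟨y, hy, hy0⟩ := (Submodule.ne_bot_iff _).1 h0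
  obtain ⟨x, hx⟩ : ∃ x, x ∉ S g := by
    by_contra h
    push Not at h
    exact h1 (eq_top_iff.2 fun x _ => h x)
  refine ⟨x, y, hy0, ?_⟩
  obtain ⟨k, hk⟩ := Submodule.mem_span_singleton.1 ((hS g y).1 hy)
  obtain ⟨t, htX, ht1, ht2, ht3⟩ := hflex k (g.1 (x • u)) hx (by rw [hk, O_polar, hu])
  have hfix : ∀ s ∈ S g, (g⁻¹ * t * g).1 (s • u) = s • u := by
    intro s hs
    obtain ⟨l, hl⟩ := Submodule.mem_span_singleton.1 ((hS g s).1 hs)
    rw [O_mul_apply, O_mul_apply, ← hl, ht1, hl, O_inv_apply_apply]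
  have hx' : (g⁻¹ * t * g).1 (x • u) = x • u + y • u := by
    rw [O_mul_apply, O_mul_apply, ht2, hk, ← map_add, O_inv_apply_apply]
  have hX : g⁻¹ * t * g ∈ X := X.mul_mem (X.mul_mem (X.inv_mem hgX) htX) hgX
  refine ⟨_, hX, fun k => ?_, hx', hT _ _ ht3⟩
  have hle : S g < S (g⁻¹ * t * g) := by
    refine lt_of_le_of_ne (fun s hs => ?_) fun h => hx ?_
    · rw [hS, hfix s hs]; exact Submodule.smul_mem _ _ (Submodule.mem_span_singleton_self _)
    · rw [h, hS, hx', ← add_smul]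
      exact Submodule.smul_mem _ _ (Submodule.mem_span_singleton_self _)
  have htop : S (g⁻¹ * t * g) = ⊤ := by
    by_contra h
    have h2 := Nat.find_min' hP ⟨_, hX, fun h3 => h0 (le_bot_iff.1 (h3 ▸ hle.le)), h, rfl⟩
    have h3 := Submodule.finrank_lt_finrank_of_lt hle
    have h4 := Submodule.finrank_le (S (g⁻¹ * t * g))
    omega
  exact (hS _ k).1 (htop ▸ Submodule.mem_top)

namespace OD

variable [Finite K]

theorem flex (h : OD Q P X) {u u' : V} (hu : Hyp P u u') {σ : K ≃ₐ[F] K} (hσ : σ ≠ 1)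
    (hZ : HasZ (h.ZR hu.he) σ) (k : K) (x : V) (hx : x ∉ Submodule.span K {u})
    (hk : polar Q (k • u) x = 0) : ∃ t ∈ X, (∀ c : K, t.1 (c • u) = c • u) ∧ t.1 x = x + k • u ∧
      Cub t ∧ (finrank F K = 3 → Quad t) := by
  have := h.fdK
  by_cases h0 : polar P x u = 0
  · have h1 : pr P u u' x ≠ 0 := fun h1 => hx (by
      rw [eq_of_pr_eq_zero h1 h0]
      exact Submodule.smul_mem _ _ (Submodule.mem_span_singleton_self u))
    obtain ⟨w, a1, a2, a3, a4⟩ : ∃ w, polar P w u = 0 ∧ polar P w u' = 0 ∧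
        (finrank F K = 3 → P w = 0) ∧ polar P w (pr P u u' x) = k := by
      by_cases h3 : finrank F K = 3
      · obtain ⟨w, a1, a2, a3, a4⟩ :=
          exists_sing_polar hu h.hP (h.hd5 h3.le) (hu.pr_e x) (hu.pr_f x) h1 k
        exact ⟨w, a1, a2, fun _ => a3, by rw [polar_comm, a4]⟩
      · obtain ⟨w, a1, a2, a4⟩ := hu.exists_orth_polar h.hP (hu.pr_e x) (hu.pr_f x) h1 k
        exact ⟨w, a1, a2, fun h4 => absurd h4 h3, a4⟩
    rw [polar_pr_of_orth a1 a2, polar_comm] at a4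
    have a1' : polar P u w = 0 := by rw [polar_comm, a1]
    refine ⟨_, h.res_eich u w, fun c => by rw [res_apply, map_smul, eich_apply_self],
      by simp [res_apply, eich_apply hu.he a1', h0, a4], fun v => ?_, fun h3 v => ?_⟩
    · simp [res_apply, eich_apply hu.he a1', a1, a1', hu.he]
    · simp [res_apply, eich_apply hu.he a1', a1, a1', hu.he, a3 h3]
  · obtain ⟨ψ, ⟨t, ht, e⟩, hψ⟩ := hZ.flex h.hr hσ h0 (k := k) (by rw [← hk, h.pol_left, polar_comm])
    have hq : Quad t := fun v => by simp [e, hu.he]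
    exact ⟨t, ht, fun c => by simp [e, hu.he], by rw [e, hψ], hq.cub, fun _ => hq⟩

theorem hasZ_all (h : OD Q P X) {u u' : V} (hu : Hyp P u u') {σ : K ≃ₐ[F] K} (hσ : σ ≠ 1)
    (hZ : HasZ (h.ZR hu.he) σ) (τ : K ≃ₐ[F] K) : HasZ (h.ZR hu.he) τ := by
  by_cases hr2 : finrank F K = 2
  · exact all_of_two hr2 hσ hZ τ
  obtain ⟨x, y, hy, g, hg, hst, hx, hc, hq⟩ := exists_stab (K := K) (X := X) (u := u)
    (fun k k' => by rw [h.pol_left]; simp [hu.he])
    (fun t => Cub t ∧ (finrank F K = 3 → Quad t))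
    (fun t g ht => ⟨ht.1.conj g, fun h3 => (ht.2 h3).conj g⟩) (h.flex hu hσ hZ) (by
      obtain ⟨ψ, ⟨t, ht, e⟩, hψ⟩ := h.hasZ_move hu.he hu.hf hu.e_ne hu.f_ne hZ 1
      obtain ⟨k, hk⟩ : ∃ k, σ k ≠ σ⁻¹ k := by
        by_contra h1
        push Not at h1
        have := Fact.mk h.hr
        have h2 := orderOf_dvd_natCard σ
        rw [card_gal, orderOf_eq_prime (p := 2)
          (by rw [pow_two, mul_eq_one_iff_eq_inv]; exact AlgEquiv.ext h1) hσ] at h2
        exact hr2 ((Nat.prime_dvd_prime_iff_eq Nat.prime_two h.hr).1 h2).symm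
      refine ⟨t, ht, by simp [e, hψ, hu.hef], k, fun h1 => hk ?_⟩
      obtain ⟨c, hc⟩ := Submodule.mem_span_singleton.1 h1
      have h2 := congr_arg (fun v => polar P v u) hc
      simp only [e, hψ, polar_add_left, polar_smul_left, hu.hee, hu.hef, hu.hfe, smul_eq_mul,
        mul_one, one_mul, mul_zero, zero_add] at h2
      exact sub_eq_zero.1 h2.symm)
  obtain ⟨α, a, hα, ha, -⟩ := h.exists_alpha hu hst
  have hinj : ∀ a b : K, a • u = b • u → a = b := fun a b h => smul_left_injective K hu.e_ne h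
  refine (h.ts hu.he hu.e_ne).all h.hr hσ hZ α a.symm (fun hs => ?_)
    (fun ψ hψ => h.ZR_conj hu.he hu.he hg (α := α) (β := a.symm) hα (fun v => ?_) hψ)
    (fun ψ hψ => h.ZR_conj hu.he hu.he (X.inv_mem hg) (α := α.symm) (β := a)
      (fun k => O_inv_apply_eq _ (by rw [hα]; simp)) (fun v => by rw [inv_inv]; exact ha v) hψ) τ
  · obtain ⟨c, ρ, hc'⟩ := hs.exists_eq
    have hα' : ∀ k, g.1 (k • u) = (c * ρ k) • u := fun k => by rw [hα, ← hc']; rfl
    have hne : c * ρ x ≠ x := fun h1 => hy (by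
      rw [hα', h1, ← add_smul] at hx
      simpa using hinj _ _ hx)
    by_cases h3 : finrank F K = 3
    · refine h.h2 (two_of_quadratic h.hr (c := c) (σ := ρ) (fun z => ?_) ⟨x, hne⟩).2.1
      have := hq h3 (z • u)
      rw [hα', ← sub_smul, hα'] at this
      have := hinj _ _ this
      rw [map_sub] at this
      linear_combination this
    · refine hne (eq_of_cubic h.hr hr2 h3 (fun z => ?_) x)
      have := hc (z • u)
      simp only [hα', ← sub_smul] at this
      have := hinj _ _ this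
      simp only [map_sub, mul_sub] at this
      linear_combination this
  · apply a.injective
    rw [← ha, O_apply_inv_apply]; simp

/-- All of the centre of the unipotent radical of every singular line lies in `X`. -/
def AllZ (h : OD Q P X) : Prop :=
  ∀ (e : V) (he : P e = 0) (ψ : K →ₗ[F] K), Skew ψ → ψ ∈ h.ZR he

theorem allZ (h : OD Q P X) {u u' : V} (hu : Hyp P u u') {ψ : K →ₗ[F] K} (hψ : ψ ∈ h.ZR hu.he)
    (h0 : ψ ≠ 0) : h.AllZ := by
  obtain ⟨σ, hσ, hZ⟩ := (h.ts hu.he hu.e_ne).exists_hasZ hψ h0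
  intro e he φ hφ
  by_cases he0 : e = 0
  · exact ⟨1, X.one_mem, fun v => by simp [he0]⟩
  exact mem_of_all h.h2 (fun τ => h.hasZ_move hu.he he hu.e_ne he0 (h.hasZ_all hu hσ hZ τ)) hφ

theorem Q_sing (h : OD Q P X) {e : V} (he : P e = 0) (a : K) : Q (a • e) = 0 := by
  rw [h.eq, Q_smul, he, mul_zero, map_zero]

theorem pol_sing (h : OD Q P X) {e : V} (he : P e = 0) (a b : K) : polar Q (a • e) (b • e) = 0 := by
  rw [h.pol_left]; simp [he]

theorem AllZ.eich_line {h : OD Q P X} (hA : h.AllZ) {e : V} (he : P e = 0) (a b : K) :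
    eich Q (a • e) (b • e) ∈ X := by
  let T : K → K → K →ₗ[F] K := fun a b =>
    (LinearMap.toSpanSingleton F K a) ∘ₗ Algebra.trace F K ∘ₗ LinearMap.mulLeft F b
  have hT : ∀ a b y, T a b y = Algebra.trace F K (b * y) • a := fun _ _ _ => rfl
  obtain ⟨t, ht, e1⟩ := hA e he (T a b - T b a) fun y => by
    simp only [LinearMap.sub_apply, hT, sub_mul, smul_mul_assoc, map_sub, map_smul, smul_eq_mul]
    ring
  convert ht using 1
  refine O_ext fun v => ?_
  rw [e1, eich_apply (h.Q_sing he a) (h.pol_sing he a b), h.Q_sing he, h.pol_right, h.pol_right]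
  simp only [LinearMap.sub_apply, hT, sub_smul, smul_assoc, zero_mul, zero_smul]
  abel

/-- The directions of the Eichler maps with centre `u` lying in `X`. -/
def AS (X : Subgroup (O Q)) {u : V} (hu : Q u = 0) : AddSubgroup V where
  carrier := {a | polar Q u a = 0 ∧ eich Q u a ∈ X}
  zero_mem' := ⟨by simp, by rw [eich_zero_right]; exact X.one_mem⟩
  add_mem' := by
    rintro a b ⟨h1, h2⟩ ⟨h3, h4⟩
    exact ⟨by simp [h1, h3], by rw [← eich_mul hu h1 h3]; exact X.mul_mem h2 h4⟩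
  neg_mem' := by
    rintro a ⟨h1, h2⟩
    exact ⟨by simp [h1], by rw [eich_neg]; exact X.inv_mem h2⟩

theorem AS_conj {u : V} (hu : Q u = 0) {g : O Q} (hg : g ∈ X) (hgu : g.1 u = u) {a : V}
    (ha : a ∈ AS X hu) : g.1 a ∈ AS X hu := by
  refine ⟨by rw [← ha.1, ← O_polar g u a, hgu], ?_⟩
  have := X.mul_mem (X.mul_mem hg ha.2) (X.inv_mem hg)
  rwa [conj_eich, hgu] at this

theorem Q_sing' (h : OD Q P X) {e : V} (he : P e = 0) : Q e = 0 := by
  rw [h.eq, he, map_zero]

theorem AllZ.line {h : OD Q P X} (hA : h.AllZ) {e : V} (he : P e = 0) (b : K) :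
    b • e ∈ AS X (h.Q_sing' he) :=
  ⟨by simpa using h.pol_sing he 1 b, by simpa using hA.eich_line he 1 b⟩

theorem AllZ.opp_of_three {h : OD Q P X} (hA : h.AllZ) (hr : finrank F K ≠ 2) {u u' : V}
    (hu : Hyp P u u') {m : K} (hm : Algebra.trace F K m = 0) :
    m • u' ∈ AS X (h.Q_sing' hu.he) := by
  obtain ⟨m', hm', hm''⟩ : ∃ m' ∈ LinearMap.ker (Algebra.trace F K), m' ∉ Submodule.span F {m} := by
    by_contra h1
    push Not at h1
    have h2 := Submodule.finrank_mono (show LinearMap.ker (Algebra.trace F K) ≤ _ from h1)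
    have h3 := finrank_span_le_card (R := F) ({m} : Set K)
    have h4 := finrank_ker_tr (F := F) (K := K)
    have h5 := h.hr.two_le
    simp at h3
    omega
  rw [LinearMap.mem_ker] at hm'
  obtain ⟨φ, h1, h2⟩ := exists_dual_one_zero hm''
  obtain ⟨χ, hχ⟩ := exists_dual_lift (V := K) (tr_ne_zero (F := F) (K := K)) φ
  have h3 : ∀ z, Algebra.trace F K (z * χ 1) = φ z := fun z => by simpa using hχ z 1
  have h4 := AS_conj (h.Q_sing' hu.he) (hA.eich_line hu.hf m m')
    (eich_apply_of_orth (by rw [h.pol_right, hu.hef, mul_one, hm])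
      (by rw [h.pol_right, hu.hef, mul_one, hm'])) (hA.line hu.he (χ 1))
  rw [eich_apply (h.Q_sing hu.hf m) (h.pol_sing hu.hf m m'), h.Q_sing hu.hf, h.pol_right,
    h.pol_right, polar_smul_left, hu.hef, smul_eq_mul, mul_one, h3, h3, h1, h2] at h4
  simpa using AddSubgroup.sub_mem _ h4 (hA.line hu.he (χ 1))

theorem exists_tr_zero (h : OD Q P X) : ∃ m : K, m ≠ 0 ∧ Algebra.trace F K m = 0 := by
  have h4 := finrank_ker_tr (F := F) (K := K)
  have h5 := h.hr.two_le
  obtain ⟨m, hm, hm0⟩ := Submodule.exists_mem_ne_zero_of_ne_bot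
    (p := LinearMap.ker (Algebra.trace F K)) (fun h1 => by rw [h1, finrank_bot] at h4; omega)
  exact ⟨m, hm0, hm⟩

theorem AllZ.W_of_three {h : OD Q P X} (hA : h.AllZ) (hr : finrank F K ≠ 2) {u u' : V}
    (hu : Hyp P u u') {w : V} (h1 : polar P w u = 0) (h2 : polar P w u' = 0) :
    w ∈ AS X (h.Q_sing' hu.he) := by
  obtain ⟨m, hm0, hm⟩ := h.exists_tr_zero
  have h3 := hA.opp_of_three hr hu hm
  have h4 := AS_conj (h.Q_sing' hu.he) (h.res_eich u (m⁻¹ • w)) (eich_apply_self _ _) h3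
  rw [res_apply, map_smul, hu.eich_apply_f (by simp [h1]) (by simp [h2])] at h4
  have h5 := AddSubgroup.sub_mem _ (AddSubgroup.sub_mem _ h3 h4) (hA.line hu.he (m * P (m⁻¹ • w)))
  convert h5 using 1
  rw [smul_sub, smul_sub, smul_inv_smul₀ hm0, smul_smul]; abel

theorem AllZ.W_of_two {h : OD Q P X} (hA : h.AllZ) (hr : finrank F K = 2) {u u' : V}
    (hu : Hyp P u u') {w : V} (h1 : polar P w u = 0) (h2 : polar P w u' = 0) :
    w ∈ AS X (h.Q_sing' hu.he) := by
  have := h.fdK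
  refine sing_induction_W hu h.hP (h.hd5 (by omega)) _ (fun a' a1 _ a3 => ?_) h1 h2
  obtain ⟨σ, hσ, hσ'⟩ := (Nat.card_eq_two_iff' (1 : K ≃ₐ[F] K)).1 (card_gal.trans hr)
  have htr : ∀ x, algebraMap F K (Algebra.trace F K x) = x + σ x := fun x => by
    rw [trace_eq_sum_automorphisms, Finset.sum_eq_add_of_mem 1 σ (by simp) (by simp) hσ.symm
      fun c _ hc => absurd (hσ' c hc.1) hc.2]
    rfl
  have hσσ : ∀ x, σ (σ x) = x := fun x => by
    have := htr (σ x)
    rw [tr_gal, htr] at this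
    linear_combination -this
  obtain ⟨δ, hδ0, hδ⟩ := h.exists_tr_zero
  have hδ' : σ δ = -δ := by
    have := htr δ
    rw [hδ, map_zero] at this
    linear_combination -this
  let ψ : K →ₗ[F] K := LinearMap.mulLeft F δ ∘ₗ σ.toLinearMap
  have hψ : ∀ x, ψ x = δ * σ x := fun _ => rfl
  have hsk : Skew ψ := fun x => (algebraMap F K).injective (by
    rw [htr, hψ, map_mul, map_mul, hσσ, hδ', map_zero]; ring)
  have hsk' : Skew (-ψ) := fun x => by simp [hsk x]
  obtain ⟨a, rfl⟩ : ∃ a : V, a' = -δ • a := ⟨-δ⁻¹ • a', by simp [smul_smul, hδ0]⟩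
  have b1 : polar P a u = 0 := by simpa [hδ0] using a1
  have b1' : polar P u a = 0 := by rw [polar_comm, b1]
  have b3 : P a = 0 := by simpa [Q_smul, hδ0] using a3
  have a1' : polar P u (-δ • a) = 0 := by rw [polar_comm, a1]
  have a1'' : polar Q u (-δ • a) = 0 := by rw [h.pol, a1', map_zero]
  obtain ⟨t₁, ht₁, e₁⟩ := hA (u + a) (by rw [Q_add, hu.he, b3, b1']; simp) ψ hsk
  obtain ⟨t₂, ht₂, e₂⟩ := hA u hu.he _ hsk'
  obtain ⟨t₃, ht₃, e₃⟩ := hA a b3 _ hsk'
  refine ⟨a1'', ?_⟩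
  convert X.mul_mem (X.mul_mem (X.mul_mem ht₁ ht₂) ht₃) (h.res_eich u (-δ • a)) using 1
  refine O_ext fun v => ?_
  rw [eich_apply (h.Q_sing' hu.he) a1'', h.Q_sing b3, h.pol_right, h.pol v u, zero_mul, zero_smul,
    ← algebraMap_smul K, ← algebraMap_smul K (Algebra.trace F K _), htr, htr]
  simp only [O_mul_apply, res_apply, eich_apply hu.he a1', e₁, e₂, e₃, a3, polar_add_left,
    polar_sub_left, polar_smul_left, polar_add_right, polar_smul_right, polar_self', hu.he, b1,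
    b1', b3, LinearMap.neg_apply, hψ, smul_eq_mul, mul_zero, add_zero, sub_zero, zero_mul,
    zero_smul, map_add, map_mul, map_neg, hδ', map_zero]
  module

theorem AllZ.orth {h : OD Q P X} (hA : h.AllZ) {u : V} (hu : P u = 0) (hu0 : u ≠ 0) {w : V}
    (h1 : polar P w u = 0) : w ∈ AS X (h.Q_sing' hu) := by
  obtain ⟨u', hu'⟩ := h.hP.exists_hyp hu hu0
  rw [eq_add_pr (Q := P) (e := u) (f := u') w, h1, zero_smul, add_zero]
  refine AddSubgroup.add_mem _ (hA.line hu _) ?_
  by_cases hr : finrank F K = 2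
  · exact hA.W_of_two hr hu' (hu'.pr_e w) (hu'.pr_f w)
  · exact hA.W_of_three hr hu' (hu'.pr_e w) (hu'.pr_f w)

theorem AllZ.opp {h : OD Q P X} (hA : h.AllZ) {u u' : V}
    (hu : Hyp P u u') {m : K} (hm : Algebra.trace F K m = 0) :
    m • u' ∈ AS X (h.Q_sing' hu.he) := by
  by_cases hr : finrank F K = 2
  swap
  · exact hA.opp_of_three hr hu hm
  have := h.fdK
  obtain ⟨a, a1, a2, a0, a3⟩ := hu.exists_singular_orth (h.hd5 (by omega))
  obtain ⟨k, hk⟩ := exists_tr_eq (F := F) (one_ne_zero (α := K)) 1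
  obtain ⟨b, b1, b2, b3⟩ := hu.exists_orth_polar h.hP a1 a2 a0 (k * 1)
  have h1 := hA.orth a3 a0 (w := m • u') (by rw [polar_comm]; simp [a2])
  have h2 := hA.orth hu.he hu.e_ne b1
  have h3 := AS_conj (h.Q_sing' hu.he) h1.2
    (eich_apply_of_orth (by rw [h.pol, polar_comm, a1, map_zero])
      (by rw [h.pol_right, hu.hef, mul_one, hm])) h2
  rw [eich_apply (h.Q_sing' a3) h1.1, h.Q_sing hu.hf, h.pol_right, h.pol, b2, b3, hk] at h3
  simpa using AddSubgroup.sub_mem _ h2 h3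

theorem AllZ.full {h : OD Q P X} (hA : h.AllZ) {u : V} (hu : P u = 0) (hu0 : u ≠ 0) {w : V}
    (h1 : polar Q w u = 0) : eich Q u w ∈ X := by
  obtain ⟨u', hu'⟩ := h.hP.exists_hyp hu hu0
  rw [h.pol] at h1
  have h2 := AddSubgroup.add_mem _ (hA.orth hu hu0 (w := w - polar P w u • u') (by simp [hu'.hfe]))
    (hA.opp hu' h1)
  rw [sub_add_cancel] at h2
  exact h2.2

theorem AllZ.le {h : OD Q P X} (hA : h.AllZ) : commutator (O Q) ≤ X := by
  have : Finite F := Finite.of_injective _ (algebraMap F K).injective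
  have := h.fdK
  have := h.fdF
  obtain ⟨u, u', hu⟩ := h.hP.exists_hyp_of_three h.hd
  obtain ⟨k, hk⟩ := exists_tr_eq (F := F) (one_ne_zero (α := K)) 1
  have hk0 : k ≠ 0 := by rintro rfl; simp at hk
  have hF : Hyp Q u (k • u') :=
    ⟨h.Q_sing' hu.he, h.Q_sing hu.hf k, by rw [h.pol_right, hu.hef, hk]⟩
  rw [← h.hQ.E_eq_commutator_of_finite h.five_le]
  exact hF.E_le h.hQ (hF.exists_nonsingular h.hQ (by have := h.five_le; omega)) X
    (fun w h1 _ => hA.full hu.he hu.e_ne h1) fun w _ h2 =>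
      hA.full (by rw [Q_smul, hu.hf, mul_zero]) (smul_ne_zero hk0 hu.f_ne) h2

/-- If the stabiliser of a singular `K`-line is not semilinear, `X` is all of `Ω`. -/
theorem le_of_stab (h : OD Q P X) {u u' : V} (hu : Hyp P u u') {g : O Q} (hg : g ∈ X)
    (hst : ∀ k : K, g.1 (k • u) ∈ Submodule.span K {u}) (hns : ¬ SemiK K g.1) :
    commutator (O Q) ≤ X :=
  let ⟨_, hψ, h0⟩ := h.exists_ZR_ne hu hg hst hns
  (h.allZ hu hψ h0).le

end OD

end CfsgLib.OMax
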