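import Mathlib
import Cfsg.Agent.Lib.OMax.ExtO2

/-!
Overgroups of the field extension subgroup of an orthogonal group: the geometry of the conjugates
of a singular `K`-line whose stabiliser is semilinear; dimension at least four.
-/

set_option autoImplicit false
set_option linter.unusedSectionVars false

namespace CfsgLib.OMax

open Module CfsgLib.ClMax CfsgLib.OrthE QuadraticMap

variable {F K V : Type*} [Field F] [Field K] [Algebra F K] [AddCommGroup V]
  [Module F V] [Module K V] [IsScalarTower F K V]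
  {Q : QuadraticForm F V} {P : QuadraticForm K V} {X : Subgroup (O Q)}

theorem exists_aut_of_semiK [Finite K] [Nontrivial V] {g : V ≃ₗ[F] V} (hg : SemiK K g) :
    ∃ σ : K ≃ₐ[F] K, ∀ (k : K) v, g (k • v) = σ k • g v := by
  choose s hs using hg
  obtain ⟨v, hv⟩ := exists_ne (0 : V)
  have hv' : g v ≠ 0 := by simpa using hv
  have hinj : ∀ a b : K, a • g v = b • g v → a = b := fun a b h => smul_left_injective K hv' h
  let φ : K →ₐ[F] K :=
    { toFun := s
      map_one' := hinj _ _ (by rw [← hs, one_smul, one_smul])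
      map_mul' := fun a b => hinj _ _ (by rw [← hs, mul_smul, hs, hs, mul_smul])
      map_zero' := hinj _ _ (by rw [← hs, zero_smul, zero_smul, map_zero])
      map_add' := fun a b => hinj _ _ (by rw [← hs, add_smul, map_add, hs, hs, add_smul])
      commutes' := fun c => hinj _ _ (by rw [← hs, algebraMap_smul, algebraMap_smul, map_smul]) }
  exact ⟨AlgEquiv.ofBijective φ (Finite.injective_iff_bijective.1 φ.injective), hs⟩

theorem linearIndependent_of_fixed [Finite K] (hr : (finrank F K).Prime) {g : V ≃ₗ[F] V}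
    {σ : K ≃ₐ[F] K} (hσ : σ ≠ 1) (hg : ∀ (k : K) v, g (k • v) = σ k • g v) (m : ℕ)
    (v : Fin m → V) (hv : LinearIndependent F v) (hfix : ∀ i, g (v i) = v i) :
    LinearIndependent K v := by
  induction m with
  | zero => exact linearIndependent_empty_type
  | succ m ih =>
    rw [linearIndependent_finSucc] at hv ⊢
    have h1 := ih _ hv.1 fun i => hfix _
    refine ⟨h1, fun h2 => hv.2 ?_⟩
    obtain ⟨c, hc⟩ := (Submodule.mem_span_range_iff_exists_fun K).1 h2
    have h3 : ∑ i, (σ (c i) - c i) • Fin.tail v i = 0 := by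
      have h4 := congr_arg g hc
      rw [map_sum, hfix, ← hc] at h4
      simp only [hg, Fin.tail, hfix] at h4
      simp only [sub_smul, Finset.sum_sub_distrib]
      exact sub_eq_zero.2 h4
    have h5 := Fintype.linearIndependent_iff.1 h1 _ h3
    choose d hd using fun i => exists_of_fixed hr hσ (sub_eq_zero.1 (h5 i))
    rw [Submodule.mem_span_range_iff_exists_fun]
    exact ⟨d, by rw [← hc]; simp only [← hd, algebraMap_smul]⟩

variable (K) in
/-- The fixed space is large. -/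
def Big (t : O Q) : Prop := finrank K V < finrank F (fixSp t)

theorem Big.conj [FiniteDimensional F V] {t : O Q} (h : Big K t) (g : O Q) :
    Big K (g⁻¹ * t * g) := by
  refine lt_of_lt_of_le h ?_
  rw [← LinearEquiv.finrank_map_eq (g⁻¹).1 (fixSp t)]
  refine Submodule.finrank_mono ?_
  rintro _ ⟨v, hv, rfl⟩
  rw [mem_fixSp, O_mul_apply, O_mul_apply]
  erw [O_apply_inv_apply, mem_fixSp.1 hv]
  rfl

variable (F K) in
/-- The `K`-line through `e`, as an `F`-subspace. -/
def Ln (e : V) : Submodule F V := (Submodule.span K {e}).restrictScalars F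

theorem mem_Ln {e v : V} : v ∈ Ln F K e ↔ ∃ k : K, k • e = v := Submodule.mem_span_singleton

theorem smul_mem_Ln (k : K) (e : V) : k • e ∈ Ln F K e := mem_Ln.2 ⟨k, rfl⟩

theorem self_mem_Ln (e : V) : e ∈ Ln F K e := mem_Ln.2 ⟨1, one_smul _ _⟩

/-- The image of a subspace. -/
def act (g : O Q) (M : Submodule F V) : Submodule F V := M.map (g.1 : V →ₗ[F] V)

theorem mem_act {g : O Q} {M : Submodule F V} {v : V} : v ∈ act g M ↔ (g⁻¹).1 v ∈ M :=
  Submodule.mem_map_equiv M

theorem apply_mem_act {g : O Q} {M : Submodule F V} {v : V} : g.1 v ∈ act g M ↔ v ∈ M := by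
  rw [mem_act, O_inv_apply_apply]

theorem act_mul (g h : O Q) (M : Submodule F V) : act (g * h) M = act g (act h M) := by
  ext v; simp only [mem_act, mul_inv_rev, O_mul_apply]

theorem act_one (M : Submodule F V) : act (1 : O Q) M = M := by
  ext v; rw [mem_act]; rfl

theorem act_inv_act (g : O Q) (M : Submodule F V) : act g⁻¹ (act g M) = M := by
  rw [← act_mul, inv_mul_cancel, act_one]

theorem act_inf (g : O Q) (M M' : Submodule F V) : act g (M ⊓ M') = act g M ⊓ act g M' := by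
  ext v; simp only [mem_act, Submodule.mem_inf]

theorem finrank_act (g : O Q) (M : Submodule F V) : finrank F (act g M) = finrank F M :=
  LinearEquiv.finrank_map_eq _ _

variable (K) in
/-- The conjugates of the line `K u`. -/
def Good (X : Subgroup (O Q)) (u : V) (M : Submodule F V) : Prop := ∃ g ∈ X, M = act g (Ln F K u)

theorem good_self (u : V) : Good K X u (Ln F K u) := ⟨1, X.one_mem, (act_one _).symm⟩

theorem Good.act {u : V} {M : Submodule F V} (h : Good K X u M) {g : O Q} (hg : g ∈ X) :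
    Good K X u (act g M) :=
  let ⟨k, hk, e⟩ := h
  ⟨g * k, X.mul_mem hg hk, by rw [e, act_mul]⟩

theorem Good.exists_not_mem [FiniteDimensional F V] {u : V} {M M' : Submodule F V}
    (h : Good K X u M) (h' : Good K X u M') (hne : M ≠ M') : ∃ v ∈ M, v ∉ M' := by
  by_contra h1
  push Not at h1
  obtain ⟨g, -, rfl⟩ := h
  obtain ⟨g', -, rfl⟩ := h'
  exact hne (Submodule.eq_of_le_of_finrank_eq h1 (by rw [finrank_act, finrank_act]))

theorem exists_ne_ne (h2 : (2 : K) ≠ 0) (a b : K) : ∃ c, c ≠ a ∧ c ≠ b := by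
  by_contra h
  push Not at h
  have h3 : (1 : K) ≠ -1 := fun h3 => h2 (by linear_combination h3)
  by_cases h0 : 0 = a
  · exact h3 ((h 1 (h0 ▸ one_ne_zero)).trans (h (-1) (h0 ▸ neg_ne_zero.2 one_ne_zero)).symm)
  · by_cases h1 : 1 = a
    · exact neg_ne_zero.2 one_ne_zero ((h (-1) (h1 ▸ h3.symm)).trans (h 0 h0).symm)
    · exact one_ne_zero ((h 1 h1).trans (h 0 h0).symm)

namespace OD

variable [Finite K]

theorem big_of_two (h : OD Q P X) {t : O Q} (a b : V)
    (ht : ∀ v, polar P v a = 0 → polar P v b = 0 → t.1 v = v) : Big K t := by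
  have := h.fdF
  let φ : V →ₗ[F] K × K := (((polarBilin P).flip a).prod ((polarBilin P).flip b)).restrictScalars F
  have h1 : LinearMap.ker φ ≤ fixSp t := fun v hv =>
    mem_fixSp.2 (ht v (congr_arg Prod.fst hv) (congr_arg Prod.snd hv))
  have h2 := Submodule.finrank_mono h1
  have h3 := φ.finrank_range_add_finrank_ker
  have h4 := Submodule.finrank_le (LinearMap.range φ)
  rw [finrank_prod] at h4
  rw [← finrank_mul_finrank F K V] at h3
  have h5 := h.hd
  have h6 := h.hd5
  have h7 := h.hr.two_le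
  unfold Big
  by_cases h8 : finrank F K ≤ 3
  · have := h6 h8
    nlinarith
  · nlinarith

theorem big_eich (h : OD Q P X) (u w : V) : Big K (h.res (eich P u w)) :=
  h.big_of_two u w fun _ h1 h2 => eich_apply_of_orth h1 h2

theorem lin_of_big (h : OD Q P X) {t : O Q} (hs : SemiK K t.1) (hb : Big K t) (k : K) (v : V) :
    t.1 (k • v) = k • t.1 v := by
  have := h.fdK
  have := h.fdF
  have : Nontrivial V := Module.nontrivial_of_finrank_pos (R := K) (by have := h.hd; omega)
  obtain ⟨σ, hσ⟩ := exists_aut_of_semiK hs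
  by_cases h1 : σ = 1
  · rw [hσ, h1]; rfl
  let b := Module.finBasis F (fixSp t)
  have h2 := linearIndependent_of_fixed h.hr h1 hσ _ (fun i => (b i : V))
    (b.linearIndependent.map' (fixSp t).subtype (Submodule.ker_subtype _))
    fun i => mem_fixSp.1 (b i).2
  have h3 := h2.fintype_card_le_finrank
  rw [Fintype.card_fin] at h3
  exact absurd hb (not_lt.2 h3)

theorem good_line (h : OD Q P X) {u e : V} (hu : P u = 0) (hu0 : u ≠ 0) (he : P e = 0)
    (he0 : e ≠ 0) : Good K X u (Ln F K e) := by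
  obtain ⟨g, hg, b, hb, h1⟩ := h.move hu0 he0 hu he
  refine ⟨_, hg, le_antisymm (fun v hv => ?_) ?_⟩
  · obtain ⟨k, rfl⟩ := mem_Ln.1 hv
    refine ⟨(k * b⁻¹) • u, smul_mem_Ln _ _, ?_⟩
    change g.1 _ = _
    rw [map_smul, h1, smul_smul, inv_mul_cancel_right₀ hb]
  · rintro _ ⟨v, hv, rfl⟩
    obtain ⟨k, rfl⟩ := mem_Ln.1 hv
    change g.1 _ ∈ _
    rw [map_smul, h1, smul_smul]
    exact smul_mem_Ln _ _

theorem exists_rot (h : OD Q P X) (U : Submodule K V)
    (hU : ∀ x ∈ U, x ≠ 0 → ∃ y ∈ U, polar P x y ≠ 0) (h2 : 2 ≤ finrank K U) {m : V}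
    (hm : ∃ y ∈ U, polar P m y ≠ 0) :
    ∃ t ∈ X, Big K t ∧ (∀ x, (∀ y ∈ U, polar P x y = 0) → t.1 x = x) ∧ t.1 m ≠ m := by
  have := h.fdK
  obtain ⟨a, haU, ha, ham⟩ : ∃ a ∈ U, P a ≠ 0 ∧ polar P m a ≠ 0 := by
    obtain ⟨y, hy, hy'⟩ := hm
    by_cases h0 : P y = 0
    swap
    · exact ⟨y, hy, h0, hy'⟩
    obtain ⟨z, hz, hz'⟩ := hU y hy (by rintro rfl; simp at hy')
    obtain ⟨c, hc1, hc2⟩ := exists_ne_ne h.h2 (-P z / polar P y z) (-polar P m z / polar P m y)
    refine ⟨z + c • y, U.add_mem hz (U.smul_mem c hy), fun h1 => hc1 ?_, fun h1 => hc2 ?_⟩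
    · rw [Q_add, Q_smul, h0, polar_smul_right, polar_comm, smul_eq_mul] at h1
      field_simp; linear_combination h1
    · rw [polar_add_right, polar_smul_right, smul_eq_mul] at h1
      field_simp; linear_combination h1
  obtain ⟨c, hcU, hc0, hac⟩ : ∃ c ∈ U, c ≠ 0 ∧ polar P a c = 0 := by
    let φ : U →ₗ[K] K := polarBilin P a ∘ₗ U.subtype
    have h3 := φ.finrank_range_add_finrank_ker
    have h4 := Submodule.finrank_le (LinearMap.range φ)
    rw [finrank_self] at h4
    obtain ⟨c, hc, hc0⟩ := Submodule.exists_mem_ne_zero_of_ne_bot (p := LinearMap.ker φ)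
      (fun h1 => by rw [h1, finrank_bot] at h3; omega)
    exact ⟨c, c.2, fun h1 => hc0 (Subtype.ext h1), hc⟩
  obtain ⟨x, hx0, hx⟩ : ∃ x : K, x ≠ 0 ∧ P a + x * x * P c ≠ 0 := by
    by_cases h1 : P a + 1 * 1 * P c = 0
    swap
    · exact ⟨1, one_ne_zero, h1⟩
    obtain ⟨y, hy⟩ := exists_not_mem_range (F := F) (K := K) h.hr.two_le
    refine ⟨y, fun h3 => hy (h3 ▸ Submodule.zero_mem _), fun h3 => hy ?_⟩
    have h4 : P a * ((y - 1) * (y + 1)) = 0 := by linear_combination y * y * h1 - h3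
    rcases mul_eq_zero.1 ((mul_eq_zero.1 h4).resolve_left ha) with h5 | h5
    · rw [sub_eq_zero.1 h5]; exact Submodule.mem_span_singleton_self _
    · rw [eq_neg_of_add_eq_zero_left h5]
      exact Submodule.neg_mem _ (Submodule.mem_span_singleton_self _)
  have hb : P (a + x • c) = P a + x * x * P c := by rw [Q_add, Q_smul]; simp [hac]
  have hbU : a + x • c ∈ U := U.add_mem haU (U.smul_mem x hcU)
  have hab : polar P a (a + x • c) = 2 * P a := by simp [hac]
  generalize hbdef : a + x • c = b at hb hbU hab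
  have hfix : ∀ v, polar P v a = 0 → polar P v b = 0 →
      (h.res (refl P a * refl P b * (refl P a * refl P b))).1 v = v := fun v h1 h2 => by
    simp only [res_apply, O_mul_apply, refl_apply_of_orth h1, refl_apply_of_orth h2]
  refine ⟨_, h.res_sq (refl P a * refl P b), h.big_of_two a b hfix,
    fun v hv => hfix v (hv a haU) (hv b hbU), fun h1 => ?_⟩
  have h3 : refl P a * refl P b * (refl P a * refl P b) = refl P a * refl P ((refl P b).1 a) := by
    rw [← conj_refl, refl_inv]; group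
  rw [res_apply, h3, O_mul_apply] at h1
  have h4 := O_inv_apply_eq _ h1
  rw [refl_inv, refl_apply, refl_apply, sub_right_inj] at h4
  generalize (P ((refl P b).1 a))⁻¹ * polar P m ((refl P b).1 a) = s at h4
  have h5 : (P b)⁻¹ * polar P a b ≠ 0 := by simp [hab, hb, hx, ha, h.h2]
  rw [refl_apply] at h4
  generalize (P b)⁻¹ * polar P a b = μ at h4 h5
  have h6 := congr_arg (polar P a) h4
  rw [polar_smul_right, polar_smul_right, polar_sub_right, polar_smul_right, hab, polar_self']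
    at h6
  simp only [smul_eq_mul] at h6
  have h7 : (P a)⁻¹ * polar P m a = s * (1 - μ) :=
    mul_right_cancel₀ (mul_ne_zero h.h2 ha) (by linear_combination h6)
  rw [h7, ← hbdef] at h4
  have h8 : (s * μ * x) • c = 0 := by linear_combination (norm := module) h4
  have h9 : s = 0 := by simpa [hc0, h5, hx0] using h8
  simp [h9, ha, ham] at h7

theorem exists_big_move (h : OD Q P X) {v v' : V} (hv : v ≠ 0) (hv' : v' ∉ Ln F K v) :
    ∃ t ∈ X, Big K t ∧ t.1 v = v ∧ t.1 v' ≠ v' := by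
  have := h.fdK
  by_cases h0 : P v = 0
  · obtain ⟨z, hz⟩ := h.hP.exists_hyp h0 hv
    by_cases h1 : polar P v' v = 0
    · have h2 : pr P v z v' ≠ 0 := fun h2 => hv' (by
        rw [eq_of_pr_eq_zero h2 h1]; exact smul_mem_Ln _ _)
      obtain ⟨w, a1, a2, a3⟩ := hz.exists_orth_polar h.hP (hz.pr_e v') (hz.pr_f v') h2 1
      rw [polar_pr_of_orth a1 a2, polar_comm] at a3
      refine ⟨_, h.res_eich v w, h.big_eich _ _, eich_apply_self _ _, ?_⟩
      rw [res_apply, eich_apply h0 (by rw [polar_comm, a1]), h1, a3]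
      simpa using hv
    · obtain ⟨w, a1, -, a3⟩ := hz.exists_nonsingular h.hP h.hd
      have a1' : polar P v w = 0 := by rw [polar_comm, a1]
      refine ⟨_, h.res_eich v w, h.big_eich _ _, eich_apply_self _ _, fun h2 => ?_⟩
      have h3 := congr_arg (fun x => polar P x w) h2
      simp [res_apply, eich_apply h0 a1', a1', h1, a3, h.h2] at h3
  · let U := LinearMap.ker (polarBilin P v)
    have hU : ∀ x, x ∈ U ↔ polar P v x = 0 := fun _ => Iff.rfl
    have h1 : ∀ y, y - (polar P v y / (2 * P v)) • v ∈ U := fun y => by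
      have := h.h2
      rw [hU, polar_sub_right, polar_smul_right, polar_self', smul_eq_mul]; field_simp; ring
    have h2 : ∀ x ∈ U, x ≠ 0 → ∃ y ∈ U, polar P x y ≠ 0 := fun x hx hx0 => by
      obtain ⟨y, hy⟩ := h.hP.exists_eq hx0 1
      refine ⟨_, h1 y, ?_⟩
      rw [polar_sub_right, polar_smul_right, polar_comm P x v, (hU x).1 hx, polar_comm, hy]; simp
    obtain ⟨t, ht, hb, h3, h4⟩ := h.exists_rot U h2 (by
      have h3 := (polarBilin P v).finrank_range_add_finrank_ker
      have h4 := Submodule.finrank_le (LinearMap.range (polarBilin P v))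
      rw [finrank_self] at h4
      have := h.hd
      simp only [U]
      omega) (m := v') (by
      obtain ⟨y, hy, hy'⟩ := h2 _ (h1 v') fun h3 => hv' (by
        rw [sub_eq_zero.1 h3]; exact smul_mem_Ln _ _)
      refine ⟨y, hy, ?_⟩
      rwa [polar_sub_left, polar_smul_left, (hU y).1 hy, smul_zero, sub_zero] at hy')
    exact ⟨t, ht, hb, h3 v fun y hy => hy, h4⟩

end OD

/-- The stabiliser in `X` of the singular line `K u` is semilinear. -/
structure C2 (Q : QuadraticForm F V) (P : QuadraticForm K V) (X : Subgroup (O Q)) (u u' : V) :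
    Prop extends OD Q P X where
  hu : Hyp P u u'
  semi : ∀ g ∈ X, (∀ k : K, g.1 (k • u) ∈ Ln F K u) → SemiK K g.1

namespace C2

variable [Finite K] {u u' : V}

theorem rigid (h : C2 Q P X u u') {t : O Q} (ht : t ∈ X) (hb : Big K t) {M : Submodule F V}
    (hM : Good K X u M) (hst : ∀ m ∈ M, t.1 m ∈ M) {v : V} (hv : v ∈ M) (hv0 : v ≠ 0)
    (hfix : t.1 v = v) {m : V} (hm : m ∈ M) : t.1 m = m := by
  have := h.fdF
  obtain ⟨g, hg, rfl⟩ := hM
  have h1 := h.lin_of_big (h.semi (g⁻¹ * t * g) (X.mul_mem (X.mul_mem (X.inv_mem hg) ht) hg)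
    fun k => mem_act.1 (hst _ (apply_mem_act.2 (smul_mem_Ln k u)))) (hb.conj g)
  obtain ⟨k, hk⟩ := mem_Ln.1 (mem_act.1 hv)
  obtain ⟨k', hk'⟩ := mem_Ln.1 (mem_act.1 hm)
  have hk0 : k ≠ 0 := by
    rintro rfl
    exact O_apply_ne_zero g⁻¹ hv0 (by rw [← hk, zero_smul])
  have h2 : (g⁻¹ * t * g).1 (k • u) = k • u := by
    rw [hk, O_mul_apply, O_mul_apply, O_apply_inv_apply, hfix]
  rw [h1] at h2
  have h3 := h1 k' u
  rw [smul_right_injective V hk0 h2, hk', O_mul_apply, O_mul_apply, O_apply_inv_apply] at h3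
  exact (g⁻¹).1.injective h3

theorem flexM (h : C2 Q P X u u') {M : Submodule F V} (hM : Good K X u M) {v m₀ : V} (hv : v ∉ M)
    (horth : ∀ m ∈ M, polar Q m v = 0) (hm₀ : m₀ ∈ M) :
    ∃ t ∈ X, Big K t ∧ (∀ m ∈ M, t.1 m = m) ∧ t.1 v = v + m₀ := by
  have := h.fdF
  have hu := h.hu
  obtain ⟨g, hg, rfl⟩ := hM
  obtain ⟨v, rfl⟩ := g.1.surjective v
  obtain ⟨m₀, rfl⟩ := g.1.surjective m₀
  rw [apply_mem_act] at hv hm₀
  obtain ⟨k, rfl⟩ := mem_Ln.1 hm₀
  have h0 : polar P v u = 0 := eq_of_tr (F := F) fun c => by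
    rw [polar_comm, ← h.pol_left, ← O_polar g, horth _ (apply_mem_act.2 (smul_mem_Ln c u))]; simp
  have h1 : pr P u u' v ≠ 0 := fun h1 => hv (by
    rw [eq_of_pr_eq_zero h1 h0]; exact smul_mem_Ln _ _)
  obtain ⟨w, a1, a2, a3⟩ := hu.exists_orth_polar h.hP (hu.pr_e v) (hu.pr_f v) h1 k
  rw [polar_pr_of_orth a1 a2, polar_comm] at a3
  refine ⟨g⁻¹⁻¹ * h.res (eich P u w) * g⁻¹,
    X.mul_mem (X.mul_mem (X.inv_mem (X.inv_mem hg)) (h.res_eich _ _)) (X.inv_mem hg),
    (h.big_eich u w).conj _, fun m hm => ?_, ?_⟩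
  · obtain ⟨c, hc⟩ := mem_Ln.1 (mem_act.1 hm)
    rw [inv_inv, O_mul_apply, O_mul_apply, ← hc, OD.res_apply, map_smul, eich_apply_self, hc,
      O_apply_inv_apply]
  · rw [inv_inv, O_mul_apply, O_mul_apply, O_inv_apply_apply, OD.res_apply,
      eich_apply hu.he (by rw [polar_comm, a1]), h0, a3]
    simp

theorem exists_meet (h : C2 Q P X u u') {g : O Q} (hg : g ∈ X) (hns : ¬ SemiK K g.1) :
    ∃ M, Good K X u M ∧ M ≠ Ln F K u ∧ u ∈ M := by
  have := h.fdF
  have hu := h.hu
  have hv0 : g.1 u ≠ 0 := O_apply_ne_zero g hu.e_ne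
  obtain ⟨k, hk⟩ : ∃ k : K, g.1 (k • u) ∉ Ln F K (g.1 u) := by
    by_contra h1
    push Not at h1
    choose s hs using fun k => mem_Ln.1 (h1 k)
    have h2 : Function.Surjective s := Finite.surjective_of_injective fun a b hab =>
      smul_left_injective K hu.e_ne (g.1.injective (by beta_reduce; rw [← hs, ← hs, hab]))
    have h3 : polar P (g.1 u) (g.1 u) = 0 := eq_of_tr (F := F) fun c => by
      obtain ⟨c, rfl⟩ := h2 c
      rw [← h.pol_left, hs, O_polar, h.pol_left, hu.hee]; simp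
    rw [polar_self'] at h3
    obtain ⟨n, hn, b, -, h4⟩ := h.move hv0 hu.e_ne ((mul_eq_zero.1 h3).resolve_left h.h2) hu.he
    have h5 := h.semi _ (X.mul_mem hn hg) fun k => by
      rw [O_mul_apply, ← hs, OD.res_apply, map_smul, h4, smul_smul]; exact smul_mem_Ln _ _
    refine hns fun k => ?_
    obtain ⟨k', hk'⟩ := h5 k
    exact ⟨k', fun v => n.1.injective (by rw [n.1.map_smul k']; exact hk' v)⟩
  obtain ⟨t, ht, hb, h1, h2⟩ := h.exists_big_move hv0 hk
  have hs : g⁻¹ * t * g ∈ X := X.mul_mem (X.mul_mem (X.inv_mem hg) ht) hg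
  have hsu : (g⁻¹ * t * g).1 u = u := by rw [O_mul_apply, O_mul_apply, h1, O_inv_apply_apply]
  refine ⟨_, (good_self u).act hs, fun h3 => h2 ?_, ⟨u, self_mem_Ln u, hsu⟩⟩
  have h4 := h.rigid hs (hb.conj g) (good_self u) (fun m hm => h3 ▸ apply_mem_act.2 hm)
    (self_mem_Ln u) hu.e_ne hsu (smul_mem_Ln k u)
  rw [O_mul_apply, O_mul_apply] at h4
  rw [← O_apply_inv_apply g (t.1 _), h4]

end C2

/-- `D` is the largest dimension of the intersection of two distinct conjugates, attained by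
`K u` and `M`. -/
structure C3 (Q : QuadraticForm F V) (P : QuadraticForm K V) (X : Subgroup (O Q)) (u u' : V)
    (D : ℕ) (M : Submodule F V) : Prop extends C2 Q P X u u' where
  max : ∀ M M', Good K X u M → Good K X u M' → D < finrank F ↥(M ⊓ M') → M = M'
  pos : 0 < D
  good : Good K X u M
  ne : M ≠ Ln F K u
  dim : finrank F ↥(Ln F K u ⊓ M) = D

theorem C2.exists_c3 [Finite K] {u u' : V} (h : C2 Q P X u u') {g : O Q} (hg : g ∈ X)
    (hns : ¬ SemiK K g.1) : ∃ D M, C3 Q P X u u' D M := by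
  have := h.fdF
  obtain ⟨M₀, h1, h2, h3⟩ := h.exists_meet hg hns
  have hP : ∃ n, ∃ M M', Good K X u M ∧ Good K X u M' ∧ M ≠ M' ∧
      finrank F V - finrank F ↥(M ⊓ M') = n := ⟨_, _, _, h1, good_self u, h2, rfl⟩
  classical
  obtain ⟨M, M', hM, hM', hne, hn⟩ := Nat.find_spec hP
  have hmax : ∀ N N', Good K X u N → Good K X u N' → N ≠ N' →
      finrank F ↥(N ⊓ N') ≤ finrank F ↥(M ⊓ M') := fun N N' a b c => by
    have h4 := Nat.find_min' hP ⟨N, N', a, b, c, rfl⟩
    have h5 := Submodule.finrank_le (N ⊓ N')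
    have h6 := Submodule.finrank_le (M ⊓ M')
    omega
  obtain ⟨k, hk, rfl⟩ := hM
  refine ⟨finrank F ↥(act k (Ln F K u) ⊓ M'), act k⁻¹ M', h, fun N N' a b c => ?_, ?_,
    hM'.act (X.inv_mem hk), fun h4 => hne ?_, ?_⟩
  · by_contra h4
    exact absurd (hmax N N' a b h4) (not_le.2 c)
  · refine lt_of_lt_of_le ?_ (hmax _ _ h1 (good_self u) h2)
    exact finrank_pos_iff_exists_ne_zero.2
      ⟨⟨u, h3, self_mem_Ln u⟩, fun h4 => h.hu.e_ne (congr_arg Subtype.val h4)⟩
  · rw [← h4, ← act_mul, mul_inv_cancel, act_one]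
  · rw [← finrank_act k⁻¹ (act k _ ⊓ M'), act_inf, act_inv_act]

namespace C3

variable [Finite K] {u u' : V} {D : ℕ} {M : Submodule F V}

theorem stab (h : C3 Q P X u u' D M) {N : Submodule F V} (hN : Good K X u N) {t : O Q}
    (ht : t ∈ X) {U : Submodule F V} (hU : D < finrank F U) (h1 : U ≤ N) (h2 : U ≤ act t N) :
    ∀ m ∈ N, t.1 m ∈ N := fun m hm => by
  have := h.fdF
  rw [h.max N _ hN (hN.act ht) (lt_of_lt_of_le hU (Submodule.finrank_mono (le_inf h1 h2)))]
  exact apply_mem_act.2 hm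

theorem exists_mem (h : C3 Q P X u u' D M) {U : Submodule F V} (hU : D ≤ finrank F U) :
    ∃ m ∈ U, m ≠ 0 := Submodule.exists_mem_ne_zero_of_ne_bot fun h1 => by
  have := h.pos
  rw [h1, finrank_bot] at hU; omega

theorem lt_sup (h : C3 Q P X u u' D M) {U : Submodule F V} (hU : D ≤ finrank F U) {v : V}
    (hv : v ∉ U) : D < finrank F ↥(U ⊔ Submodule.span F {v}) := by
  have := h.fdF
  refine lt_of_le_of_lt hU (Submodule.finrank_lt_finrank_of_lt (lt_of_le_of_ne le_sup_left ?_))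
  intro h1
  exact hv (h1 ▸ Submodule.mem_sup_right (Submodule.mem_span_singleton_self v))

theorem opp (h : C3 Q P X u u' D M) {N N' : Submodule F V} (hN : Good K X u N)
    (hN' : Good K X u N') (hd : D ≤ finrank F ↥(N ⊓ N')) {v : V} (hv : v ∈ N')
    (horth : ∀ m ∈ N, polar Q m v = 0) : v ∈ N := by
  by_contra h1
  obtain ⟨m, hm, hm0⟩ := h.exists_mem hd
  obtain ⟨t, ht, hb, h2, h3⟩ := h.flexM hN h1 horth hm.1
  have h4 := h.stab hN' ht (h.lt_sup hd (v := v) fun h4 => h1 h4.1)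
    (sup_le inf_le_right ((Submodule.span_singleton_le_iff_mem _ _).2 hv))
    (sup_le (fun x hx => h2 x hx.1 ▸ apply_mem_act.2 hx.2)
      ((Submodule.span_singleton_le_iff_mem _ _).2 (by
        have : t.1 (v - m) = v := by rw [map_sub, h3, h2 m hm.1, add_sub_cancel_right]
        exact this ▸ apply_mem_act.2 (N'.sub_mem hv hm.2))))
  have h5 := h.rigid ht hb hN' h4 hm.2 hm0 (h2 m hm.1) hv
  rw [h3] at h5
  exact hm0 (by simpa using h5)

theorem polar_ne (h : C3 Q P X u u' D M) {v : V} (hv : v ∈ M) (hv' : v ∉ Ln F K u) :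
    polar P v u ≠ 0 := fun h1 =>
  hv' (h.opp (good_self u) h.good h.dim.ge hv fun m hm => by
    obtain ⟨k, rfl⟩ := mem_Ln.1 hm
    rw [h.pol_left, polar_comm, h1]; simp)

theorem not_four (h : C3 Q P X u u' D M) (h4 : 4 ≤ finrank K V) : False := by
  have := h.fdF
  have := h.fdK
  obtain ⟨v, hv, hv'⟩ := h.good.exists_not_mem (good_self u) h.ne
  have hb := h.polar_ne hv hv'
  set b := polar P v u with hbdef
  have hu := hyp_of_polar h.hu.he (y := b⁻¹ • v) (by simp [← hbdef, hb])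
  set z := b⁻¹ • v - P (b⁻¹ • v) • u with hz
  have hvz : v = b • z + (b * P (b⁻¹ • v)) • u := by
    rw [hz, smul_sub, smul_inv_smul₀ hb, smul_smul]; abel
  have hvW : ∀ y ∈ W P u z, polar P v y = 0 := fun y hy => by
    rw [hvz, polar_comm]; simp [hy.1, hy.2]
  have hW := hu.finrank_eq
  obtain ⟨m₀, hm₀, hm0⟩ := h.exists_mem h.dim.ge
  have hM : ∀ m ∈ M, ∀ y ∈ W P u z, polar P m y = 0 := by
    intro m hm
    by_contra h1
    push Not at h1
    obtain ⟨t, ht, hbig, h2, h3⟩ := h.exists_rot (W P u z) (fun x hx hx0 => by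
      obtain ⟨y, a1, a2, a3⟩ := hu.exists_orth_polar h.hP hx.1 hx.2 hx0 1
      exact ⟨y, ⟨a1, a2⟩, by rw [polar_comm, a3]; exact one_ne_zero⟩) (by omega) h1
    have h5 : ∀ x ∈ Ln F K u, t.1 x = x := fun x hx => h2 x fun y hy => by
      obtain ⟨k, rfl⟩ := mem_Ln.1 hx
      rw [polar_comm]; simp [hy.1]
    have h6 := h.stab h.good ht (h.lt_sup h.dim.ge (v := v) fun h4 => hv' h4.1)
      (sup_le inf_le_right ((Submodule.span_singleton_le_iff_mem _ _).2 hv))
      (sup_le (fun x hx => h5 x hx.1 ▸ apply_mem_act.2 hx.2)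
        ((Submodule.span_singleton_le_iff_mem _ _).2 (h2 v hvW ▸ apply_mem_act.2 hv)))
    exact h3 (h.rigid ht hbig h.good h6 hm₀.2 hm0 (h5 _ hm₀.1) hm)
  obtain ⟨s, rfl⟩ := mem_Ln.1 hm₀.1
  have hs : s ≠ 0 := by rintro rfl; simp at hm0
  obtain ⟨w, hw, hw0, hw'⟩ : ∃ w ∈ W P u z, w ≠ 0 ∧ (P w * b) • u ∈ M := by
    obtain ⟨⟨w, x⟩, h1, h2⟩ := exists_singular
      ((QW P u z).prod (-(s / b) • (QuadraticMap.sq : QuadraticForm K K)))
      (by rw [finrank_prod, finrank_self]; omega)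
    simp only [QuadraticMap.prod_apply, QW_apply, smul_apply, QuadraticMap.sq_apply,
      smul_eq_mul] at h2
    by_cases hx : x = 0
    · refine ⟨w, w.2, fun h3 => h1 (Prod.ext (Subtype.ext h3) hx), ?_⟩
      rw [show P w = 0 by simpa [hx] using h2]; simp
    · have h3 : P (x⁻¹ • w : V) * b = s := by
        rw [Q_smul, show P w = s / b * (x * x) by linear_combination h2]; field_simp
      refine ⟨x⁻¹ • w, Submodule.smul_mem _ _ w.2, fun h4 => ?_, h3 ▸ hm₀.2⟩
      rw [h4] at h3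
      exact hs (by simpa using h3.symm)
  have hw1 : polar P u w = 0 := by rw [polar_comm, hw.1]
  have ht := h.res_eich u w
  have h1 : (h.res (eich P u w)).1 v = v - b • w - (P w * b) • u := by
    rw [OD.res_apply, eich_apply h.hu.he hw1, hvW w hw]; simp [hbdef]
  have h2 := h.opp h.good (h.good.act ht) (h.dim.ge.trans (Submodule.finrank_mono
    (le_inf inf_le_right fun x hx => by
      obtain ⟨k, rfl⟩ := mem_Ln.1 hx.1
      have : (h.res (eich P u w)).1 (k • u) = k • u := by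
        rw [OD.res_apply, map_smul, eich_apply_self]
      exact this ▸ apply_mem_act.2 hx.2))) (apply_mem_act.2 hv) fun m hm => by
    have h3 : ∀ x ∈ M, polar Q m x = 0 := fun x hx => by
      obtain ⟨g, -, e⟩ := h.good
      rw [e, mem_act] at hm hx
      obtain ⟨k, hk⟩ := mem_Ln.1 hm
      obtain ⟨k', hk'⟩ := mem_Ln.1 hx
      rw [← O_polar g⁻¹, ← hk, ← hk', h.pol_sing h.hu.he]
    rw [h1, polar_sub_right, polar_sub_right, h3 _ hv, h3 _ hw', h.pol_right, hM m hm w hw]
    simp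
  rw [h1] at h2
  have h3 : b • w ∈ M := by
    convert M.sub_mem (M.sub_mem hv hw') h2 using 1
    abel
  obtain ⟨y, a1, a2, a3⟩ := hu.exists_orth_polar h.hP hw.1 hw.2 hw0 1
  have h5 := hM _ h3 y ⟨a1, a2⟩
  rw [polar_comm] at h5
  simp [a3, hb] at h5

end C3

end CfsgLib.OMax
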