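import Mathlib
import Cfsg.Agent.Lib.OMax.ExtO3
import Cfsg.Agent.Lib.Frob.Complement

/-!
Overgroups of the field extension subgroup of an orthogonal group: dimension three.
-/

set_option autoImplicit false
set_option linter.unusedSectionVars false

namespace CfsgLib.OMax

open Module CfsgLib.ClMax CfsgLib.OrthE QuadraticMap

section general

variable {F V : Type*} [Field F] [AddCommGroup V] [Module F V] {Q : QuadraticForm F V} {e f : V}

theorem exists_gen_W [FiniteDimensional F V] (h : Hyp Q e f) (hQ : Nondeg Q)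
    (h3 : finrank F V = 3) : ∃ w, polar Q w e = 0 ∧ polar Q w f = 0 ∧ Q w ≠ 0 ∧
      ∀ x, ∃ c : F, pr Q e f x = c • w := by
  obtain ⟨w, h1, h2, h4⟩ := h.exists_nonsingular hQ h3.ge
  refine ⟨w, h1, h2, h4, fun x => ?_⟩
  have h5 : finrank F (W Q e f) = 1 := by have := h.finrank_eq; omega
  obtain ⟨c, hc⟩ := (finrank_eq_one_iff_of_nonzero' (⟨w, h1, h2⟩ : W Q e f) (fun h6 => h4 (by
    rw [show w = 0 from congr_arg Subtype.val h6, map_zero]))).1 h5 ⟨_, h.pr_mem x⟩
  exact ⟨c, (congr_arg Subtype.val hc).symm⟩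

theorem fix_eich [FiniteDimensional F V] (h : Hyp Q e f) (hQ : Nondeg Q) (h2 : (2 : F) ≠ 0)
    (h3 : finrank F V = 3) {w v : V} (hw : polar Q e w = 0) (h1 : eich Q e w ≠ 1)
    (hv : (eich Q e w).1 v = v) : ∃ c : F, c • e = v := by
  obtain ⟨w₀, a1, a2, a3, a4⟩ := exists_gen_W h hQ h3
  rw [h.eich_eq_pr hw] at h1 hv
  obtain ⟨c, hc⟩ := a4 w
  rw [hc] at h1 hv
  have hc0 : c ≠ 0 := by rintro rfl; simp [eich_zero_right] at h1
  have a1' : polar Q e w₀ = 0 := by rw [polar_comm, a1]
  rw [eich_apply h.he (by simp [a1'])] at hv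
  have h4 : polar Q v e = 0 := by
    simpa [a1', hc0, a3, h2] using congr_arg (fun x => polar Q x w₀) hv
  have h5 : polar Q w₀ v = 0 := by
    rw [polar_comm]; simpa [h4, hc0, h.e_ne] using hv
  obtain ⟨d, hd⟩ := a4 v
  rw [← polar_pr_of_orth a1 a2, hd] at h5
  have h6 : d = 0 := by simpa [h2, a3] using h5
  exact ⟨_, (eq_of_pr_eq_zero (by rw [hd, h6, zero_smul]) h4).symm⟩

theorem eq_eich_or [FiniteDimensional F V] (h : Hyp Q e f) (hQ : Nondeg Q)
    (h3 : finrank F V = 3) {t : O Q} (ht : t.1 e = e) :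
    ∃ w, polar Q e w = 0 ∧ (t = eich Q e w ∨ ∃ w₀, Q w₀ ≠ 0 ∧ t = eich Q e w * refl Q w₀) := by
  obtain ⟨w₀, a1, a2, a3, a4⟩ := exists_gen_W h hQ h3
  have h1 : polar Q (t.1 f) e = 1 := by rw [← h.hfe, ← O_polar t f e, ht]
  have h2 : (eich Q e (-pr Q e f (t.1 f))).1 f = t.1 f := by
    have h4 := h.Q_eq (t.1 f)
    rw [O_map, h.hf, h1, mul_one] at h4
    rw [h.eich_apply_f (by simp [h.pr_e]) (by simp [h.pr_f]), Q_neg,
      show Q (pr Q e f (t.1 f)) = -polar Q (t.1 f) f by linear_combination -h4, pr_def, h1]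
    module
  refine ⟨-pr Q e f (t.1 f), by simp [h.e_pr], ?_⟩
  generalize -pr Q e f (t.1 f) = w at h2
  obtain ⟨s, rfl⟩ : ∃ s, t = eich Q e w * s := ⟨(eich Q e w)⁻¹ * t, by group⟩
  have hse : s.1 e = e := (eich Q e w).1.injective (by rw [eich_apply_self]; exact ht)
  have hsf : s.1 f = f := ((eich Q e w).1.injective h2).symm
  have h5 := apply_mem_W hse hsf (w := w₀) ⟨a1, a2⟩
  obtain ⟨c, hc⟩ := a4 (s.1 w₀)
  rw [pr_of_orth h5.1 h5.2] at hc
  have h6 : c * c = 1 := mul_right_cancel₀ a3 (by rw [← Q_smul, ← hc, O_map, one_mul])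
  have h7 : ∀ x, polar Q x e = 0 → polar Q x f = 0 → ∃ d : F, x = d • w₀ := fun x b1 b2 => by
    simpa [pr_of_orth b1 b2] using a4 x
  rcases mul_self_eq_one_iff.1 h6 with rfl | rfl
  · refine Or.inl (mul_eq_left.2 (O_ext_hyp e f h hse hsf fun x b1 b2 => ?_))
    obtain ⟨d, rfl⟩ := h7 x b1 b2
    rw [map_smul, hc, one_smul]; rfl
  · refine Or.inr ⟨w₀, a3, congr_arg _ (O_ext_hyp e f h ?_ ?_ fun x b1 b2 => ?_)⟩
    · rw [hse, refl_apply_of_orth (by rw [polar_comm, a1])]
    · rw [hsf, refl_apply_of_orth (by rw [polar_comm, a2])]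
    · obtain ⟨d, rfl⟩ := h7 x b1 b2
      rw [map_smul, hc, map_smul, refl_apply_self a3, neg_one_smul]

theorem eich_pow_nat {u w : V} (hu : Q u = 0) (hw : polar Q u w = 0) (n : ℕ) :
    eich Q u w ^ n = eich Q u ((n : F) • w) := by
  induction n with
  | zero => simp [eich_zero_right]
  | succ n ih => rw [pow_succ, ih, eich_mul hu (by simp [hw]) hw, Nat.cast_succ, add_smul, one_smul]

theorem det_refl [FiniteDimensional F V] {w : V} (hw : Q w ≠ 0) :
    LinearMap.det ((refl Q w).1 : V →ₗ[F] V) = -1 := by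
  have : ((refl Q w).1 : V →ₗ[F] V) =
      LinearMap.transvection (-(Q w)⁻¹ • (polarBilin Q).flip w) w := by
    ext v; simp [refl_apply, LinearMap.transvection.apply, sub_eq_add_neg]
  rw [this, LinearMap.transvection.det]
  simp only [LinearMap.smul_apply, LinearMap.flip_apply, polarBilin_apply_apply, polar_self',
    smul_eq_mul]
  field_simp; ring

theorem det_of_mem_commutator {g : O Q} (hg : g ∈ commutator (O Q)) :
    LinearMap.det (g.1 : V →ₗ[F] V) = 1 := by
  have := Abelianization.commutator_subset_ker (LinearEquiv.det.comp (O Q).subtype) hg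
  rw [← LinearEquiv.coe_det, Units.val_eq_one]
  exact this

theorem count_false {q z n ρ : ℕ} (hq : 3 ≤ q) (hz : q * q ≤ z) (hn : n = q * z) (hρ : n ≤ ρ)
    (h : (n - q) * ((n - 1) * n * (ρ - 1)) ≤ (q - 1) * ((n * (n * z) + n * n) * ρ)) : False := by
  have h1 : 3 * q ≤ z := le_trans (Nat.mul_le_mul_right _ hq) hz
  have h2 : q ≤ n := hn ▸ Nat.le_mul_of_pos_right _ (by omega)
  zify [h2, show 1 ≤ n by omega, show 1 ≤ ρ by omega, show 1 ≤ q by omega] at h hq h1 hn hρ
  have h3 : (0 : ℤ) < n := by omega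
  have h4 : ((n : ℤ) - q) * ((n - 1) * (ρ - 1)) ≤ (q - 1) * (n * (z + 1) * ρ) :=
    le_of_mul_le_mul_left (by linarith) h3
  have h5 : ((n : ℤ) - 1) * ρ ≤ n * (ρ - 1) := by linarith
  have h6 : (0 : ℤ) ≤ (n - q) * (n - 1) := mul_nonneg (by omega) (by omega)
  have h7 : ((n : ℤ) - q) * (n - 1) * (n - 1) ≤ (q - 1) * (n * (z + 1)) * n :=
    le_of_mul_le_mul_right (a := (ρ : ℤ))
      (by nlinarith [mul_le_mul_of_nonneg_left h5 h6, mul_le_mul_of_nonneg_left h4 h3.le])
      (by omega)
  have h8 : ((n : ℤ) - q) * (n - 2) ≤ (q - 1) * (n * (z + 1)) :=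
    le_of_mul_le_mul_right (by nlinarith) h3
  have h9 : ((z : ℤ) - 1) * (q * z - 2) ≤ (q - 1) * (z * (z + 1)) :=
    le_of_mul_le_mul_left (a := (q : ℤ)) (by rw [hn] at h8; linarith) (by omega)
  nlinarith

end general

theorem exists_isSquare {F K : Type*} [Field F] [Field K] [Algebra F K] [Finite K]
    (h2 : (2 : K) ≠ 0) (hr : Odd (finrank F K)) {a : K} (ha : a ≠ 0) :
    ∃ c : F, c ≠ 0 ∧ ∃ l, algebraMap F K c * a = l * l := by
  classical
  by_cases h : IsSquare a
  · exact ⟨1, one_ne_zero, by rw [map_one, one_mul]; exact h⟩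
  have : Finite F := Finite.of_injective _ (algebraMap F K).injective
  have := Fintype.ofFinite K
  obtain ⟨c, hc⟩ := FiniteField.exists_nonsquare (F := F) fun h1 => h2 (by
    have := ringChar.Nat.cast_ringChar (R := F)
    rw [h1] at this
    rw [← map_ofNat (algebraMap F K) 2, show (2 : F) = 0 by exact_mod_cast this, map_zero])
  have hc0 : c ≠ 0 := by rintro rfl; exact hc IsSquare.zero
  have h3 : ¬ IsSquare (algebraMap F K c) := by
    rintro ⟨y, hy⟩
    obtain ⟨m, hm⟩ := hr
    have h4 := congr_arg (Algebra.norm F) hy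
    rw [Algebra.norm_algebraMap, map_mul, hm] at h4
    refine hc ⟨Algebra.norm F y / c ^ m, ?_⟩
    field_simp
    linear_combination h4
  refine ⟨c, hc0, (quadraticChar_one_iff_isSquare (by simp [hc0, ha])).1 ?_⟩
  rw [map_mul, quadraticChar_neg_one_iff_not_isSquare.2 h, quadraticChar_neg_one_iff_not_isSquare.2 h3]
  simp

variable {F K V : Type*} [Field F] [Field K] [Algebra F K] [AddCommGroup V]
  [Module F V] [Module K V] [IsScalarTower F K V] [Finite K]
  {Q : QuadraticForm F V} {P : QuadraticForm K V} {X : Subgroup (O Q)}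

theorem OD.odd (h : OD Q P X) (h3 : finrank K V = 3) : Odd (finrank F K) :=
  h.hr.odd_of_ne_two fun h1 => by have := h.hd5 (by omega); omega

theorem OD.exists_res (h : OD Q P X) {g : O Q} (hg : ∀ (k : K) v, g.1 (k • v) = k • g.1 v) :
    ∃ t, h.res t = g := by
  refine ⟨⟨{ g.1 with map_smul' := hg }, fun v => ?_⟩, rfl⟩
  refine mul_left_cancel₀ h.h2 (eq_of_tr (F := F) fun k => ?_)
  rw [← polar_self', ← polar_self', ← h.pol_left, ← h.pol_left, ← O_polar g (k • v), hg]; rfl

theorem OD.refl_not_mem (h : OD Q P X) (h3 : finrank K V = 3) {w : V} (hw : P w ≠ 0) :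
    h.res (refl P w) ∉ X := fun h1 => by
  have := h.fdK
  have h2 := det_of_mem_commutator (h.hX h1)
  change LinearMap.det (((refl P w).1 : V →ₗ[K] V).restrictScalars F) = 1 at h2
  rw [LinearMap.det_restrictScalars, det_refl hw, ← map_one (algebraMap F K), ← map_neg,
    Algebra.norm_algebraMap, (h.odd h3).neg_one_pow] at h2
  exact h.h2F (by linear_combination -h2)

namespace C3

variable {u u' : V} {D : ℕ} {M : Submodule F V}

theorem eq_eich (h : C3 Q P X u u' D M) (h3 : finrank K V = 3) (hD : 2 ≤ D) {y : O Q} (hy : y ∈ X)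
    (hfix : ∀ x ∈ Ln F K u ⊓ M, y.1 x = x) (hst : ∀ k : K, y.1 (k • u) ∈ Ln F K u) :
    ∃ w, polar P u w = 0 ∧ y = h.res (eich P u w) := by
  have := h.fdK
  have := h.fdF
  have : Nontrivial V := nontrivial_of_ne _ _ h.hu.e_ne
  obtain ⟨σ, hσ⟩ := exists_aut_of_semiK (h.semi y hy hst)
  obtain ⟨m, hm, hm0⟩ := h.exists_mem h.dim.ge
  obtain ⟨m', hm', hm''⟩ : ∃ m' ∈ Ln F K u ⊓ M, m' ∉ Submodule.span F {m} := by
    by_contra h1
    push Not at h1
    have h2 := Submodule.finrank_mono (show Ln F K u ⊓ M ≤ _ from h1)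
    rw [finrank_span_singleton hm0, h.dim] at h2
    omega
  obtain ⟨s, rfl⟩ := mem_Ln.1 hm.1
  obtain ⟨s', rfl⟩ := mem_Ln.1 hm'.1
  have hs : s ≠ 0 := by rintro rfl; simp at hm0
  have h1 : σ = 1 := by
    by_contra h1
    have h2 := hσ (s' * s⁻¹) (s • u)
    rw [hfix _ hm, smul_smul, inv_mul_cancel_right₀ hs, hfix _ hm', smul_smul] at h2
    have h4 : σ (s' * s⁻¹) = s' * s⁻¹ :=
      (eq_mul_inv_iff_mul_eq₀ hs).2 (smul_left_injective K h.hu.e_ne h2).symm
    obtain ⟨c, hc⟩ := exists_of_fixed h.hr h1 h4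
    refine hm'' (Submodule.mem_span_singleton.2 ⟨c, ?_⟩)
    rw [← algebraMap_smul K, hc, smul_smul, inv_mul_cancel_right₀ hs]
  obtain ⟨t, rfl⟩ := h.exists_res (g := y) (by simpa [h1] using hσ)
  have h2 : t.1 u = u := smul_right_injective V hs (by
    beta_reduce; rw [← map_smul]; exact hfix _ hm)
  obtain ⟨w, hw, rfl | ⟨w₀, h4, rfl⟩⟩ := eq_eich_or h.hu h.hP h3 h2
  · exact ⟨w, hw, rfl⟩
  · rw [map_mul] at hy
    exact absurd ((X.mul_mem_cancel_left (h.res_eich u w)).1 hy) (h.refl_not_mem h3 h4)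

theorem not_two (h : C3 Q P X u u' D M) (h3 : finrank K V = 3) (hD : 2 ≤ D) : False := by
  have := h.fdK
  have : Finite V := Module.finite_of_finite K
  have : Finite (V ≃ₗ[F] V) := Finite.of_injective _ DFunLike.coe_injective
  have hu := h.hu
  let Y : Subgroup (O Q) :=
    { carrier := {g | g ∈ X ∧ ∀ x ∈ Ln F K u ⊓ M, g.1 x = x}
      one_mem' := ⟨X.one_mem, fun _ _ => rfl⟩
      mul_mem' := fun {a b} ha hb => ⟨X.mul_mem ha.1 hb.1, fun x hx => by
        rw [O_mul_apply, hb.2 x hx, ha.2 x hx]⟩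
      inv_mem' := fun {a} ha => ⟨X.inv_mem ha.1, fun x hx => O_inv_apply_eq _ (ha.2 x hx)⟩ }
  let S : Subgroup Y :=
    { carrier := {g | ∃ w, polar P u w = 0 ∧ g.1 = h.res (eich P u w)}
      one_mem' := ⟨0, by simp, by rw [eich_zero_right, map_one]; rfl⟩
      mul_mem' := by
        rintro a b ⟨w, hw, e⟩ ⟨w', hw', e'⟩
        exact ⟨w + w', by simp [hw, hw'], by
          rw [Subgroup.coe_mul, e, e', ← map_mul, eich_mul hu.he hw hw']⟩
      inv_mem' := by
        rintro a ⟨w, hw, e⟩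
        exact ⟨-w, by simp [hw], by rw [Subgroup.coe_inv, e, ← map_inv, eich_neg]⟩ }
  have hfixL : ∀ w (k : K), (h.res (eich P u w)).1 (k • u) = k • u := fun w k => by
    rw [OD.res_apply, map_smul, eich_apply_self]
  have hY : ∀ w, h.res (eich P u w) ∈ Y := fun w => ⟨h.res_eich u w, fun x hx => by
    obtain ⟨k, rfl⟩ := mem_Ln.1 hx.1
    exact hfixL w k⟩
  have hfix : ∀ s ∈ S, s ≠ 1 → ∀ v, s.1.1 v = v → v ∈ Ln F K u := by
    rintro s ⟨w, hw, e⟩ h1 v hv
    rw [e] at hv
    exact mem_Ln.2 (fix_eich hu h.hP h.h2 h3 hw (fun h2 => h1 (Subtype.ext (by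
      rw [e, h2, map_one]; rfl))) hv)
  obtain ⟨w₀, a1, a2, a3, -⟩ := exists_gen_W hu h.hP h3
  have a1' : polar P u w₀ = 0 := by rw [polar_comm, a1]
  let x : K → S := fun c => ⟨⟨_, hY (c • w₀)⟩, c • w₀, by simp [a1'], rfl⟩
  have hxinj : Function.Injective x := fun c d hcd => by
    have h1 := congr_arg (fun s : S => polar P (s.1.1.1 u') w₀) hcd
    simpa [x, OD.res_apply, hu.eich_apply_f, a1, a2, a1', polar_comm P u' w₀, a3, h.h2] using h1
  have hxpow : ∀ c (n : ℕ), x c ^ n = x (n * c) := fun c n => Subtype.ext (Subtype.ext (by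
    simp only [x, SubmonoidClass.coe_pow]
    rw [← map_pow, eich_pow_nat hu.he (by simp [a1']), smul_smul]))
  have hx0 : x 0 = 1 := by simpa using (hxpow 0 0).symm
  have hx1 : ∀ c, c ≠ 0 → x c ≠ 1 := fun c hc h1 => hc (hxinj (h1.trans hx0.symm))
  have hF : Cfsg.IsFrobeniusComplement S := by
    refine Frob.isFrobeniusComplement_iff.2 ⟨fun h1 => hx1 1 one_ne_zero (Subtype.ext ?_),
      fun h1 => ?_, fun g s hs hs1 hc => ?_⟩
    · exact Subgroup.mem_bot.1 (h1 ▸ (x 1).2)
    · obtain ⟨g, hg, e⟩ := h.good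
      have h2 : ∀ m ∈ M, (g * h.res (eich P u ((1 : K) • w₀)) * g⁻¹).1 m = m := fun m hm => by
        obtain ⟨k, hk⟩ := mem_Ln.1 (mem_act.1 (e ▸ hm))
        rw [O_mul_apply, O_mul_apply, ← hk, hfixL, hk, O_apply_inv_apply]
      have := h.fdF
      obtain ⟨v, hv, hv'⟩ := h.good.exists_not_mem (good_self u) h.ne
      refine hv' (hfix ⟨_, X.mul_mem (X.mul_mem hg (h.res_eich _ _)) (X.inv_mem hg),
        fun m hm => h2 m hm.2⟩ (h1 ▸ Subgroup.mem_top _) (fun h4 => ?_) v (h2 v hv))
      exact hx1 1 one_ne_zero (Subtype.ext (Subtype.ext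
        (conj_eq_one_iff.1 (congr_arg Subtype.val h4))))
    · refine h.eq_eich h3 hD g.2.1 g.2.2 fun k => hfix _ hc (fun h1 => hs1 (conj_eq_one_iff.1 h1))
        _ ?_
      obtain ⟨w, -, e⟩ := hs
      change g.1.1 (s.1.1 ((g.1⁻¹).1 (g.1.1 _))) = _
      rw [O_inv_apply_apply, e, hfixL]
  obtain ⟨p, hp⟩ := CharP.exists K
  have hp' : Fact p.Prime := ⟨CharP.char_is_prime K p⟩
  have hord : ∀ c, c ≠ 0 → orderOf (x c) = p := fun c hc =>
    orderOf_eq_prime (by rw [hxpow, CharP.cast_eq_zero, zero_mul, hx0]) (hx1 c hc)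
  obtain ⟨β, hβ⟩ := exists_not_mem_range (F := F) (K := K) h.hr.two_le
  have h4 := (Frob.pqCond_of_frob hF).mem_zpowers_of_commute hp'.out (hord 1 one_ne_zero)
    (hord β fun h1 => hβ (h1 ▸ Submodule.zero_mem _)) (Subtype.ext (Subtype.ext (by
      simp only [x, Subgroup.coe_mul, ← map_mul]
      rw [eich_comm hu.he (by simp [a1']) (by simp [a1'])])))
  obtain ⟨n, hn⟩ := mem_powers_iff_mem_zpowers.2 h4
  beta_reduce at hn
  rw [hxpow] at hn
  refine hβ (Submodule.mem_span_singleton.2 ⟨n, ?_⟩)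
  rw [← hxinj hn, Nat.cast_smul_eq_nsmul, nsmul_eq_mul]

theorem sing_mem (h : C3 Q P X u u' 1 M) (h3 : finrank K V = 3) {N : Submodule F V}
    (hN : Good K X u N) {e e' : V} (he : e ∈ N) (he0 : e ≠ 0) (hPe : P e = 0)
    (hne : N ≠ Ln F K e) (he' : e' ∈ N) (hPe' : P e' = 0) : e' ∈ Submodule.span F {e} := by
  have := h.fdK
  have := h.fdF
  by_contra hcon
  have hL := h.good_line h.hu.he h.hu.e_ne hPe he0
  have hU := h.lt_sup (U := Submodule.span F {e}) (finrank_span_singleton he0).ge hcon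
  have hUN : ∀ N' : Submodule F V, e ∈ N' → e' ∈ N' →
      Submodule.span F {e} ⊔ Submodule.span F {e'} ≤ N' := fun N' a b =>
    sup_le ((Submodule.span_singleton_le_iff_mem _ _).2 a)
      ((Submodule.span_singleton_le_iff_mem _ _).2 b)
  have hb : polar P e' e ≠ 0 := fun hb => by
    have h1 := h.opp hL hN (finrank_pos_iff_exists_ne_zero.2
      ⟨⟨e, self_mem_Ln e, he⟩, fun h4 => he0 (congr_arg Subtype.val h4)⟩) he' fun m hm => by
        obtain ⟨k, rfl⟩ := mem_Ln.1 hm
        rw [h.pol_left, polar_comm, hb]; simp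
    exact hne (h.max _ _ hN hL (lt_of_lt_of_le hU (Submodule.finrank_mono
      (le_inf (hUN _ he he') (hUN _ (self_mem_Ln e) h1)))))
  set b := polar P e' e with hbdef
  have hb' : polar P e e' = b := polar_comm _ _ _
  obtain ⟨w₀, a1, a2, a3⟩ := (show Hyp P e (b⁻¹ • e') from
    ⟨hPe, by rw [Q_smul, hPe', mul_zero], by simp [hb', hb]⟩).exists_nonsingular h.hP h.hd
  have a2' : polar P w₀ e' = 0 := by simpa [hb] using a2
  obtain ⟨c, hc, l, hl⟩ := exists_isSquare h.h2 (h.odd h3) (a := -b / P w₀) (by simp [hb, a3])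
  set c' := algebraMap F K c with hc'
  have hc0 : c' ≠ 0 := by simpa [hc'] using hc
  have ha : P (e' - c' • e) = -(c' * b) := by
    rw [Q_sub, Q_smul, polar_smul_right, hPe, hPe']; simp [hbdef]
  have hw : P (l • w₀) = -(c' * b) := by
    rw [Q_smul, ← hl]; field_simp
  have hwe : polar P e (l • w₀) = 0 := by rw [polar_comm]; simp [a1]
  have hwe' : polar P e' (l • w₀) = 0 := by rw [polar_comm]; simp [a2']
  have hae : polar P e (e' - c' • e) = b := by simp [hb', hPe]
  have hae' : polar P e' (e' - c' • e) = -(c' * b) := by simp [hPe', hbdef]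
  have haw : polar P (e' - c' • e) (l • w₀) = 0 := by
    rw [polar_sub_left, polar_smul_left, hwe, hwe']; simp
  generalize l • w₀ = w at hw hwe hwe' haw
  have hj : refl P w * refl P (e' - c' • e) = refl P (e' - c' • e - w) * refl P (e' - c' • e) *
      (refl P (e' - c' • e - w) * refl P (e' - c' • e)) := by
    conv_lhs => rw [← refl_sub_apply (Q := P) (x := e' - c' • e) (y := w) (ha.trans hw.symm) (by
      rw [Q_sub, ha, hw, haw]
      simpa [← two_mul, ← neg_add, h.h2, hb] using hc0), ← conj_refl, refl_inv]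
    group
  have hjX : h.res (refl P w * refl P (e' - c' • e)) ∈ X := hj ▸ h.res_sq _
  have hje : (h.res (refl P w * refl P (e' - c' • e))).1 e = c⁻¹ • e' := by
    have : (refl P (e' - c' • e)).1 e = c'⁻¹ • e' := by
      rw [refl_apply, ha, hae]
      match_scalars <;> field_simp
      ring
    rw [OD.res_apply, O_mul_apply, this, map_smul, refl_apply_of_orth hwe', hc', ← map_inv₀,
      algebraMap_smul]
  have hje' : (h.res (refl P w * refl P (e' - c' • e))).1 e' = c • e := by
    have : (refl P (e' - c' • e)).1 e' = c' • e := by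
      rw [refl_apply, ha, hae', inv_mul_cancel₀ (by simp [hc0, hb])]; simp
    rw [OD.res_apply, O_mul_apply, this, map_smul, refl_apply_of_orth hwe, hc', algebraMap_smul]
  have hbig := h.big_of_two (t := h.res (refl P w * refl P (e' - c' • e))) w (e' - c' • e)
    fun v h1 h2 => by rw [OD.res_apply, O_mul_apply, refl_apply_of_orth h2, refl_apply_of_orth h1]
  generalize h.res (refl P w * refl P (e' - c' • e)) = j at hjX hje hje' hbig
  have h4 := h.stab hN hjX hU (hUN _ he he') (hUN _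
    ⟨c⁻¹ • e', N.smul_mem _ he', by simp [hje', smul_smul, hc]⟩
    ⟨c • e, N.smul_mem _ he, by simp [hje, smul_smul, hc]⟩)
  have h5 := h.rigid hjX hbig hN h4 (N.add_mem he' (N.smul_mem c he))
    (fun h5 => hcon (by
      rw [eq_neg_of_add_eq_zero_left h5]
      exact Submodule.neg_mem _ (Submodule.smul_mem _ _ (Submodule.mem_span_singleton_self e))))
    (by simp [hje, hje', smul_smul, hc, add_comm]) he'
  exact hcon (Submodule.mem_span_singleton.2 ⟨c, by rw [← hje', h5]⟩)

theorem not_one (h : C3 Q P X u u' 1 M) (h3 : finrank K V = 3) : False := by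
  classical
  have := h.fdK
  have := h.fdF
  have : Finite V := Module.finite_of_finite K
  have : Finite F := Finite.of_injective _ (algebraMap F K).injective
  have := Fintype.ofFinite V
  have := Fintype.ofFinite F
  have := Fintype.ofFinite K
  have := Fintype.ofFinite (Submodule F V)
  have hu := h.hu
  obtain ⟨w₀, a1, a2, a3, a4⟩ := exists_gen_W hu h.hP h3
  have a1' : polar P u w₀ = 0 := by rw [polar_comm, a1]
  have a2' : polar P u' w₀ = 0 := by rw [polar_comm, a2]
  let G : Finset (Submodule F V) := {N | Good K X u N}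
  let ρ : V → ℕ := fun v => (G.filter fun N => v ∈ N).card
  have hρg : ∀ g ∈ X, ∀ v, ρ v ≤ ρ (g.1 v) := fun g hg v =>
    Finset.card_le_card_of_injOn (act g)
      (fun N hN => by
        simp only [G, Finset.coe_filter, Finset.mem_filter, Finset.mem_univ, true_and,
          Set.mem_ofPred_eq] at hN ⊢
        exact ⟨hN.1.act hg, apply_mem_act.2 hN.2⟩)
      fun N _ N' _ h1 => by rw [← act_inv_act g N, h1, act_inv_act]
  have hρg' : ∀ g ∈ X, ∀ v, ρ (g.1 v) = ρ v := fun g hg v =>
    le_antisymm (by simpa only [O_inv_apply_apply] using hρg _ (X.inv_mem hg) (g.1 v)) (hρg g hg v)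
  have hρL : ∀ k : K, k ≠ 0 → ρ (k • u) = ρ u := fun k hk => by
    obtain ⟨c, hc, l, hl⟩ := exists_isSquare h.h2 (h.odd h3) hk
    have hl0 : l ≠ 0 := by rintro rfl; simp [hc, hk] at hl
    obtain ⟨g, hg, h1⟩ := h.exists_tor hu hl0
    rw [← hρg' _ hg u, OD.res_apply, h1, pow_two, ← hl, mul_smul, algebraMap_smul]
    simp only [ρ, Submodule.smul_mem_iff _ hc]
  have hρ : ∀ N, Good K X u N → ∀ v ∈ N, v ≠ 0 → ρ v = ρ u := by
    rintro _ ⟨g, hg, rfl⟩ v hv hv0
    obtain ⟨k, hk⟩ := mem_Ln.1 (mem_act.1 hv)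
    rw [← hρg' _ (X.inv_mem hg), ← hk]
    refine hρL k ?_
    rintro rfl
    exact O_apply_ne_zero g⁻¹ hv0 (by rw [← hk, zero_smul])
  have hρu : Fintype.card K ≤ ρ u := by
    obtain ⟨m, hm, hm0⟩ := h.exists_mem h.dim.ge
    rw [← hρ M h.good m hm.2 hm0]
    obtain ⟨s, rfl⟩ := mem_Ln.1 hm.1
    have hfix : ∀ w, (h.res (eich P u w)).1 (s • u) = s • u := fun w => by
      rw [OD.res_apply, map_smul, eich_apply_self]
    refine Finset.card_le_card_of_injOn (fun c => act (h.res (eich P u (c • w₀))) M)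
      (fun c _ => ?_) fun c _ d _ hcd => ?_
    · simp only [G, Finset.coe_filter, Finset.mem_filter, Finset.mem_univ, true_and,
        Set.mem_ofPred_eq]
      exact ⟨h.good.act (h.res_eich _ _), ⟨_, hm.2, hfix _⟩⟩
    · have h1 : eich P u ((c - d) • w₀) = (eich P u (d • w₀))⁻¹ * eich P u (c • w₀) := by
        rw [← eich_neg, eich_mul hu.he (by simp [a1']) (by simp [a1'])]
        congr 1; module
      obtain ⟨v, hv, hv'⟩ := h.good.exists_not_mem (good_self u) h.ne
      have h2 := h.rigid (h.res_eich u ((c - d) • w₀)) (h.big_eich _ _) h.good (fun m hm => by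
        rw [h1, map_mul, map_inv, O_mul_apply, ← mem_act]
        beta_reduce at hcd
        exact hcd ▸ apply_mem_act.2 hm) hm.2 hm0 (hfix _) hv
      have h4 := congr_arg (fun x => polar P x w₀) h2
      simpa [OD.res_apply, eich_apply hu.he (v := (c - d) • w₀) (by simp [a1']), a1',
        h.polar_ne hv hv', h.h2, a3, sub_eq_zero] using h4
  set q := Fintype.card F with hq
  set n := Fintype.card K with hn
  let Sg : Finset V := {e | e ≠ 0 ∧ P e = 0}
  let Ns : Finset V := {v | Q v = 0 ∧ P v ≠ 0}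
  have hcardN : ∀ N, Good K X u N → (Finset.univ.filter fun v => v ∈ N).card = n := by
    rintro _ ⟨g, -, rfl⟩
    refine (Finset.card_nbij (fun k : K => g.1 (k • u)) (fun k _ => ?_)
      (fun a _ b _ hab => smul_left_injective K hu.e_ne (g.1.injective hab)) fun v hv => ?_).symm
    · simpa using apply_mem_act.2 (smul_mem_Ln k u)
    · obtain ⟨k, hk⟩ := mem_Ln.1 (mem_act.1 (by simpa using hv : v ∈ act g (Ln F K u)))
      exact ⟨k, by simp, by beta_reduce; rw [hk, O_apply_inv_apply]⟩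
  have hline : ∀ N ∈ G, (n - q) * (Sg.filter fun e => e ∈ N ∧ N ≠ Ln F K e).card ≤
      (q - 1) * (Ns.filter fun v => v ∈ N).card := by
    intro N hN
    have hN' : Good K X u N := by simpa [G] using hN
    rcases (Sg.filter fun e => e ∈ N ∧ N ≠ Ln F K e).eq_empty_or_nonempty with h0 | ⟨e, he⟩
    · simp [h0]
    simp only [Sg, Finset.mem_filter, Finset.mem_univ, true_and] at he
    have h1 : (Sg.filter fun e => e ∈ N ∧ N ≠ Ln F K e).card ≤ q - 1 := by
      rw [hq, ← Finset.card_univ, ← Finset.card_erase_of_mem (Finset.mem_univ (0 : F))]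
      refine le_trans (Finset.card_le_card fun e' he' => ?_)
        (Finset.card_image_le (f := fun c : F => c • e))
      simp only [Sg, Finset.mem_filter, Finset.mem_univ, true_and] at he'
      obtain ⟨c, rfl⟩ := Submodule.mem_span_singleton.1
        (h.sing_mem h3 hN' he.2.1 he.1.1 he.1.2 he.2.2 he'.2.1 he'.1.2)
      exact Finset.mem_image.2 ⟨c, by simpa using left_ne_zero_of_smul he'.1.1, rfl⟩
    have h2 : n ≤ (Ns.filter fun v => v ∈ N).card + q := by
      rw [← hcardN N hN', hq, ← Finset.card_univ]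
      refine le_trans (Finset.card_le_card fun v hv => ?_) ((Finset.card_union_le _ _).trans
        (Nat.add_le_add_left (Finset.card_image_le (f := fun c : F => c • e)) _))
      have hv' : v ∈ N := by simpa using hv
      by_cases h4 : P v = 0
      · obtain ⟨c, rfl⟩ := Submodule.mem_span_singleton.1
          (h.sing_mem h3 hN' he.2.1 he.1.1 he.1.2 he.2.2 hv' h4)
        exact Finset.mem_union_right _ (Finset.mem_image.2 ⟨c, by simp, rfl⟩)
      · refine Finset.mem_union_left _ ?_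
        simp only [Ns, Finset.mem_filter, Finset.mem_univ, true_and]
        refine ⟨⟨?_, h4⟩, hv'⟩
        obtain ⟨g, -, rfl⟩ := hN'
        obtain ⟨k, hk⟩ := mem_Ln.1 (mem_act.1 hv')
        rw [← O_map g⁻¹, ← hk, h.Q_sing hu.he]
    rw [mul_comm]
    exact Nat.mul_le_mul h1 (by omega)
  have hsum := Finset.sum_le_sum hline
  rw [← Finset.mul_sum, ← Finset.mul_sum] at hsum
  have e1 : ∑ N ∈ G, (Sg.filter fun e => e ∈ N ∧ N ≠ Ln F K e).card = Sg.card * (ρ u - 1) := by
    rw [← smul_eq_mul, ← Finset.sum_const]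
    refine (Finset.sum_card_bipartiteAbove_eq_sum_card_bipartiteBelow
      (fun N e => e ∈ N ∧ N ≠ Ln F K e)).trans (Finset.sum_congr rfl fun e he => ?_)
    simp only [Sg, Finset.mem_filter, Finset.mem_univ, true_and] at he
    have hL := h.good_line hu.he hu.e_ne he.2 he.1
    rw [← hρ _ hL e (self_mem_Ln e) he.1, ← Finset.card_erase_of_mem (a := Ln F K e)
      (by simpa [G] using ⟨hL, self_mem_Ln e⟩)]
    congr 1
    ext N
    simp only [Finset.mem_bipartiteBelow, Finset.mem_erase, Finset.mem_filter]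
    tauto
  have e2 : ∑ N ∈ G, (Ns.filter fun v => v ∈ N).card ≤ Ns.card * ρ u := by
    rw [← smul_eq_mul, ← Finset.sum_const]
    refine (Finset.sum_card_bipartiteAbove_eq_sum_card_bipartiteBelow
      (fun N v => v ∈ N)).trans_le (Finset.sum_le_sum fun v hv => ?_)
    rcases (G.filter fun N => v ∈ N).eq_empty_or_nonempty with h0 | ⟨N, hN⟩
    · exact (Finset.card_eq_zero.2 h0).trans_le (Nat.zero_le _)
    · simp only [G, Ns, Finset.mem_filter, Finset.mem_univ, true_and] at hN hv
      exact (hρ N hN.1 v hN.2 (by rintro rfl; simp at hv)).le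
  have e3 : (n - 1) * n ≤ Sg.card := by
    rw [hn, ← Finset.card_univ, ← Finset.card_erase_of_mem (Finset.mem_univ (0 : K)),
      ← Finset.card_product]
    refine Finset.card_le_card_of_injOn
      (fun p => (-(p.2 * p.2 * P w₀) / p.1) • u + p.1 • u' + p.2 • w₀) (fun p hp => ?_)
      fun p _ p' _ hp => ?_
    · have hp1 : p.1 ≠ 0 := by simpa using hp
      simp only [Sg, Finset.coe_filter, Finset.mem_univ, true_and, Set.mem_ofPred_eq]
      refine ⟨fun h1 => hp1 ?_, ?_⟩
      · simpa [hu.he, hu.hfe, a1] using congr_arg (fun x => polar P x u) h1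
      · rw [Q_add, hu.Q_lin, Q_smul]
        simp [a1', a2', hp1]
    · refine Prod.ext ?_ ?_
      · simpa [hu.he, hu.hfe, a1] using congr_arg (fun x => polar P x u) hp
      · simpa [a1', a2', a3, h.h2] using congr_arg (fun x => polar P x w₀) hp
  let Z : Finset K := {z | Algebra.trace F K z = 0}
  have e4 : Ns.card ≤ n * (n * Z.card) + n * n := by
    rw [← Finset.card_filter_add_card_filter_not (s := Ns) (fun v => polar P v u ≠ 0), hn,
      ← Finset.card_univ, ← Finset.card_product, ← Finset.card_product, ← Finset.card_product]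
    have h5 : ∀ v v', polar P v u = polar P v' u → polar P v u' = polar P v' u' →
        polar P v w₀ = polar P v' w₀ → v = v' := fun v v' b1 b2 b3 => by
      obtain ⟨c, hc⟩ := a4 (v - v')
      have h6 := polar_pr_of_orth a1 a2 (v - v')
      rw [hc, polar_comm P w₀ (v - v'), polar_sub_left, b3, sub_self] at h6
      have h7 : c = 0 := by simpa [a3, h.h2] using h6
      have h8 := eq_add_pr (Q := P) (e := u) (f := u') (v - v')
      rw [hc, h7, polar_sub_left, polar_sub_left, b1, b2] at h8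
      simpa [sub_eq_zero] using h8
    refine Nat.add_le_add (Finset.card_le_card_of_injOn
      (fun v => (polar P v u, polar P v w₀, P v)) (fun v hv => ?_) fun v hv v' _ e => ?_)
      (Finset.card_le_card_of_injOn (fun v => (polar P v u', polar P v w₀)) (fun v _ => by simp)
        fun v hv v' hv' e => ?_)
    · simp only [Ns, Finset.coe_filter, Finset.mem_filter, Finset.mem_univ, true_and,
        Set.mem_ofPred_eq] at hv
      simpa [Z, ← h.eq] using hv.1.1
    · simp only [Prod.mk.injEq] at e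
      have hv1 : polar P v u ≠ 0 := (Finset.mem_filter.1 hv).2
      have h6 := h5 (pr P u u' v) (pr P u u' v') (by rw [hu.pr_e, hu.pr_e])
        (by rw [hu.pr_f, hu.pr_f]) (by
          rw [polar_comm, polar_pr_of_orth a1 a2, polar_comm P (pr _ _ _ _), polar_pr_of_orth a1 a2,
            polar_comm, e.2.1, polar_comm])
      refine h5 v v' e.1 (mul_right_cancel₀ hv1 ?_) e.2.1
      have h7 := e.2.2
      rw [hu.Q_eq v, hu.Q_eq v', h6, ← e.1] at h7
      exact add_right_cancel h7
    · simp only [Prod.mk.injEq] at e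
      have b1 : polar P v u = 0 := by simpa using (Finset.mem_filter.1 hv).2
      have b2 : polar P v' u = 0 := by simpa using (Finset.mem_filter.1 hv').2
      exact h5 v v' (b1.trans b2.symm) e.1 e.2
  have e5 : Z.card = q ^ (finrank F K - 1) := by
    have h5 := Module.natCard_eq_pow_finrank (K := F) (V := LinearMap.ker (Algebra.trace F K))
    have h6 := finrank_ker_tr (F := F) (K := K)
    rw [show finrank F K - 1 = finrank F (LinearMap.ker (Algebra.trace F K)) by omega, hq,
      ← Nat.card_eq_fintype_card, ← h5, ← Nat.card_eq_finsetCard]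
    exact Nat.card_congr (Equiv.subtypeEquivRight fun z => by simp [Z])
  have hr : 3 ≤ finrank F K := by
    by_contra h5
    have := h.hd5 (by omega)
    omega
  have e6 : n = q * Z.card := by
    rw [e5, ← pow_succ', hn, Module.card_eq_pow_finrank (K := F)]
    congr 1; omega
  have hq3 : 3 ≤ q := by
    have h1 : 1 < q := Fintype.one_lt_card
    by_contra h4
    have h5 := FiniteField.cast_card_eq_zero F
    rw [← hq, show q = 2 by omega] at h5
    exact h.h2F (by exact_mod_cast h5)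
  have e7 : q * q ≤ Z.card := by
    rw [e5, ← pow_two]; exact Nat.pow_le_pow_right (by omega) (by omega)
  rw [e1] at hsum
  exact count_false hq3 e7 e6 hρu ((Nat.mul_le_mul_left _ (Nat.mul_le_mul_right _ e3)).trans
    (hsum.trans (Nat.mul_le_mul_left _ (e2.trans (Nat.mul_le_mul_right _ e4)))))

end C3

theorem OD.le (h : OD Q P X) {g : O Q} (hg : g ∈ X) (hns : ¬ SemiK K g.1) :
    commutator (O Q) ≤ X := by
  have := h.fdK
  obtain ⟨u, u', hu⟩ := h.hP.exists_hyp_of_three h.hd
  by_contra h1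
  have h2 : C2 Q P X u u' := ⟨h, hu, fun g hg hst => by
    by_contra h2
    exact h1 (h.le_of_stab hu hg hst h2)⟩
  obtain ⟨D, M, h3⟩ := h2.exists_c3 hg hns
  by_cases h4 : 4 ≤ finrank K V
  · exact h3.not_four h4
  have h5 : finrank K V = 3 := by have := h.hd; omega
  by_cases h6 : 2 ≤ D
  · exact h3.not_two h5 h6
  obtain rfl : D = 1 := by have := h3.pos; omega
  exact h3.not_one h5

end CfsgLib.OMax
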