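import Mathlib
import Cfsg.Agent.Lib.OMax.ExtO4

/-!
Maximality of the field extension subgroups `Ω_d(q^r).r` in orthogonal groups of odd
characteristic.
-/

set_option autoImplicit false

namespace CfsgLib.OMax

open Module CfsgLib.ClMax CfsgLib.OrthE CfsgLib.RootMax QuadraticMap Matrix

universe u

/-- Maximality criterion in `Ω(Q)`. -/
theorem isMaximalIn_omegaGL {ι : Type} [Fintype ι] [DecidableEq ι] {F : Type u} [Field F]
    (Q : QuadraticForm F (ι → F)) (X : Subgroup (GL ι F)) (Y : ((ι → F) ≃ₗ[F] (ι → F)) → Prop)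
    (hXY : ∀ g, g ∈ X ↔ Y (toEquiv g)) (hne : ∃ g ∈ commutator (O Q), ¬ Y g.1)
    (h : ∀ M : Subgroup (O Q), M ≤ commutator (O Q) → (∀ g ∈ commutator (O Q), Y g.1 → g ∈ M) →
      ∀ g ∈ M, ¬ Y g.1 → commutator (O Q) ≤ M) :
    Cfsg.Geo.IsMaximalIn (Cfsg.Geo.omegaGL (⇑Q)) (X ⊓ Cfsg.Geo.omegaGL (⇑Q)) := by
  have hm : ∀ g : GL ι F, g ∈ Cfsg.Geo.omegaGL (⇑Q) ↔ toEquiv g ∈ Om Q := fun g => by
    rw [omegaGL_eq_Om]; rfl
  refine isMaximalIn_of inf_le_right ?_ fun M h1 h2 g hg hg' => ?_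
  · obtain ⟨g, hg, hY⟩ := hne
    refine ⟨toEquiv.symm g.1, (hm _).2 (by simpa using (mem_Om_iff g).2 hg), fun h1 => hY ?_⟩
    simpa using (hXY _).1 h1.1
  · have h3 := h (M.comap (toEquiv.symm.toMonoidHom.comp (O Q).subtype))
      (fun a ha => (mem_Om_iff a).1 (by simpa using (hm _).1 (h2 ha)))
      (fun a ha hY => h1 ⟨(hXY _).2 (by simpa using hY),
        (hm _).2 (by simpa using (mem_Om_iff a).2 ha)⟩)
      ⟨toEquiv g, Om_le Q ((hm g).1 (h2 hg))⟩ (by simpa using hg)
      fun hY => hg' ⟨(hXY g).2 hY, h2 hg⟩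
    intro a ha
    have h4 := (hm a).1 ha
    simpa using h3 ((mem_Om_iff ⟨toEquiv a, Om_le Q h4⟩).1 h4)

section

variable {F K V : Type*} [Field F] [Field K] [Algebra F K] [AddCommGroup V]
  [Module F V] [Module K V] [IsScalarTower F K V] [Finite K]

theorem exists_trForm {Q : QuadraticForm F V} (h2 : (2 : F) ≠ 0)
    (hsa : ∀ (k : K) u v, polar Q (k • u) v = polar Q u (k • v)) :
    ∃ P : QuadraticForm K V, ∀ v, Q v = Algebra.trace F K (P v) := by
  choose ψ hψ using fun u => exists_dual_lift (V := V) (tr_ne_zero (F := F) (K := K))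
    (polarBilin Q u)
  let f : LinearMap.BilinForm K V :=
    { toFun := ψ
      map_add' := fun u v => LinearMap.ext fun w => eq_of_tr (F := F) fun k => by
        simp [hψ, mul_add]
      map_smul' := fun c u => LinearMap.ext fun w => eq_of_tr (F := F) fun k => by
        simp only [RingHom.id_apply, LinearMap.smul_apply, smul_eq_mul]
        rw [← mul_assoc, hψ, hψ, polarBilin_apply_apply, polarBilin_apply_apply, hsa, smul_smul,
          mul_comm] }
  refine ⟨(algebraMap F K 2⁻¹ • f).toQuadraticMap, fun v => ?_⟩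
  change _ = Algebra.trace F K (algebraMap F K 2⁻¹ * ψ v v)
  rw [hψ, algebraMap_smul, map_smul, polarBilin_apply_apply, polar_self', smul_eq_mul,
    inv_mul_cancel_left₀ h2]

theorem OD.exists_not_semiK {Q : QuadraticForm F V} {P : QuadraticForm K V} {X : Subgroup (O Q)}
    (h : OD Q P X) : ∃ g ∈ commutator (O Q), ¬ SemiK K g.1 := by
  have : Finite F := Finite.of_injective _ (algebraMap F K).injective
  have := h.fdK
  have := h.fdF
  obtain ⟨u, u', hu⟩ := h.hP.exists_hyp_of_three h.hd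
  obtain ⟨β, hβ⟩ := exists_not_mem_range (F := F) (K := K) h.hr.two_le
  have e : ∀ v, (eich Q ((1 : K) • u) (β • u)).1 v = v +
      (Algebra.trace F K (β * polar P v u) • (1 : K) - Algebra.trace F K (polar P v u) • β) • u :=
    fun v => by
      rw [eich_apply (h.Q_sing hu.he 1) (h.pol_sing hu.he 1 β), h.Q_sing hu.he, h.pol_right,
        h.pol_right]
      simp [sub_smul, add_sub_assoc]
  refine ⟨eich Q ((1 : K) • u) (β • u), ?_, fun hs => ?_⟩
  · rw [← h.hQ.E_eq_commutator_of_finite h.five_le]; exact eich_mem_E _ _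
  have h1 : ∀ (k : K) v, (eich Q ((1 : K) • u) (β • u)).1 (k • v) =
      k • (eich Q ((1 : K) • u) (β • u)).1 v := fun k => by
    obtain ⟨k', hk⟩ := hs k
    have h2 := hk u
    simp only [e, polar_smul_left, hu.hee, smul_zero, mul_zero, map_zero, zero_smul, sub_zero,
      add_zero] at h2
    rw [smul_left_injective K hu.e_ne h2]
    exact smul_left_injective K hu.e_ne h2 ▸ hk
  have h2 : ∀ k : K, Algebra.trace F K (β * k) • (1 : K) - Algebra.trace F K k • β =
      k * (Algebra.trace F K β • (1 : K) - Algebra.trace F K 1 • β) := fun k => by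
    have h3 := h1 k u'
    simp only [e, polar_smul_left, hu.hfe, smul_eq_mul, mul_one, smul_add, add_right_inj,
      smul_smul] at h3
    exact smul_left_injective K hu.e_ne h3
  obtain ⟨k, hk⟩ := exists_tr_eq (F := F) (one_ne_zero (α := K)) 1
  rw [mul_one] at hk
  generalize Algebra.trace F K β • (1 : K) - Algebra.trace F K 1 • β = γ at h2
  have h3 : ∀ k : K, Algebra.trace F K (k * (k * γ)) = 0 := fun k => by
    rw [← h2]; simp [mul_sub, mul_comm]
  have h4 : γ = 0 := (mul_eq_zero.1 (eq_of_tr (F := F) (a := 2 * γ) (b := 0) fun k => by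
    rw [show k * (2 * γ) = (k + 1) * ((k + 1) * γ) - k * (k * γ) - 1 * (1 * γ) by ring, map_sub,
      map_sub, h3, h3, h3]; simp)).resolve_left h.h2
  have h5 := h2 k
  rw [h4, mul_zero, hk, one_smul, sub_eq_zero] at h5
  exact hβ (Submodule.mem_span_singleton.2 ⟨_, h5⟩)

end

/-- The field extension subgroup is maximal in `Ω(Q)`. -/
theorem isMaximalIn_omega_ext {ι : Type} [Fintype ι] [DecidableEq ι] {F : Type u} [Field F]
    [Finite F] (h2 : (2 : F) ≠ 0) (Q : QuadraticForm F (ι → F)) (hQ : Nondeg Q) {r : ℕ}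
    (hr : r.Prime) (h3 : 2 * r < Fintype.card ι) (h5 : r ≤ 3 → 4 * r < Fintype.card ι)
    (K₀ : Subalgebra F (Matrix ι ι F)) (hK : Cfsg.Geo.IsFieldSubalgebra r K₀)
    (hsa : Cfsg.Geo.IsSelfAdjointFor (polar Q) K₀) :
    Cfsg.Geo.IsMaximalIn (Cfsg.Geo.omegaGL (⇑Q))
      (Cfsg.Geo.subalgebraNormalizer K₀ ⊓ Cfsg.Geo.omegaGL (⇑Q)) := by
  have : Nonempty ι := Fintype.card_pos_iff.1 (by omega)
  refine with_ext_field hK fun K _ _ _ _ _ hrK hdim hmem _ hN => ?_
  obtain ⟨P, hP⟩ := exists_trForm (K := K) (Q := Q) h2 fun k u v => by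
    obtain ⟨a, ha, h⟩ := hmem k
    simpa only [h] using hsa a ha u v
  have hdata : ∀ M : Subgroup (O Q), M ≤ commutator (O Q) →
      (∀ g ∈ commutator (O Q), SemiK K g.1 → g ∈ M) → OD Q P M := fun M hM hH =>
    ⟨fun h => h2 ((algebraMap F K).injective (by rw [map_ofNat, h, map_zero])), hrK ▸ hr,
      by rw [← hdim, mul_comm] at h3; exact Nat.lt_of_mul_lt_mul_left h3,
      fun h => by
        have := h5 (hrK ▸ h)
        rw [← hdim, mul_comm] at this; exact Nat.lt_of_mul_lt_mul_left this,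
      fun x hx => hQ x fun y => by
        have : polar Q x y = Algebra.trace F K (polar P x y) := by simp [polar, hP]
        rw [this, hx, map_zero], hP, hM, hH⟩
  exact isMaximalIn_omegaGL Q _ (SemiK K) (fun g => hN g _ (toEquiv_apply g))
    (hdata _ le_rfl fun g hg _ => hg).exists_not_semiK
    fun M hM hH g hg hgs => (hdata M hM hH).le hg hgs

end CfsgLib.OMax
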