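import Mathlib
import Cfsg.Agent.Lib.Dickson.Max
import Cfsg.Agent.Lib.OMax.Dec

/-!
Reflections of a three-dimensional non-degenerate subspace over a prime field, via Dickson's
classification of the subgroups of `PGL₂`.
-/

set_option autoImplicit false

namespace CfsgLib.OMax

open CfsgLib.Forms CfsgLib.ClMax CfsgLib.RootMax CfsgLib.OrthE CfsgLib.Dickson Module QuadraticMap
open scoped MatrixGroups

theorem a4_klein : ∀ A R : alternatingGroup (Fin 4), A * A = 1 → A ≠ 1 → R * R = 1 →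
    A * R = R * A := by decide +kernel

theorem s4_klein : ∀ y z R : Equiv.Perm (Fin 4), y * y * (y * y) = 1 → z * z * (z * z) = 1 →
    R * R = 1 → y * y * R = R * (y * y) ∨ z * z * R = R * (z * z) ∨
      y * y * (z * z) * R = R * (y * y * (z * z)) := by decide +kernel

theorem a5_four : ∀ y : alternatingGroup (Fin 5), y * y * (y * y) = 1 → y * y = 1 := by
  decide +kernel

variable {F : Type*} [Field F]

theorem invol_eq [Finite F] {x y : Pbar F} (hxy : x ≠ y) {A B : PGL(2, F)}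
    (hA : A ∈ stab2 ⊤ x y) (hB : B ∈ stab2 ⊤ x y) (h1 : A * A = 1) (h2 : B * B = 1) (h3 : A ≠ 1)
    (h4 : B ≠ 1) : A = B := by
  classical
  obtain ⟨p, hp⟩ := CharP.exists F
  have := Fact.mk (CharP.char_is_prime F p)
  have := isCyclic_stab2 p ⊤ hxy
  have := Fintype.ofFinite (stab2 (F := F) ⊤ x y)
  by_contra h
  have h5 := IsCyclic.card_pow_eq_one_le (α := stab2 (F := F) ⊤ x y) two_pos
  refine absurd (Finset.two_lt_card_iff.2 ⟨1, ⟨A, hA⟩, ⟨B, hB⟩, ?_⟩) h5.not_gt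
  simp [Subtype.ext_iff, pow_two, h1, h2, h3.symm, h4.symm, h]

/-- A four-group together with an involution centralising none of its involutions. -/
theorem dk [Finite F] (hF : (Nat.card F).Prime) (h2 : (2 : F) ≠ 0) (G : Subgroup PGL(2, F))
    {A B R : PGL(2, F)} (hA : A ∈ G) (hB : B ∈ G) (hR : R ∈ G) (a2 : A * A = 1) (b2 : B * B = 1)
    (c2 : A * B * (A * B) = 1) (r2 : R * R = 1) (n1 : A * R ≠ R * A) (n2 : B * R ≠ R * B)
    (n3 : A * B * R ≠ R * (A * B)) : (pslPGL F).range ≤ G ∨ Nonempty (G ≃* Equiv.Perm (Fin 4)) ∨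
      Nonempty (G ≃* alternatingGroup (Fin 5)) := by
  obtain ⟨p, hp⟩ := CharP.exists F
  have := Fact.mk (CharP.char_is_prime F p)
  have a1 : A ≠ 1 := by rintro rfl; simp at n1
  have b1 : B ≠ 1 := by rintro rfl; simp at n2
  have c1 : A * B ≠ 1 := fun h => by simp [h] at n3
  have ab : A ≠ B := by rintro rfl; exact c1 a2
  have hc : B * A = A * B := by
    rw [← mul_left_inj (A * B), c2, mul_assoc, ← mul_assoc A, a2, one_mul, b2]
  have pair : ∀ x y, x ≠ y → ¬ G ≤ pairStab ⊤ x y := fun x y hxy h => by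
    have key : ∀ Z ∈ G, Z * Z = 1 → Z ≠ 1 → Z * R ≠ R * Z → Z • x = y ∧ Z • y = x := by
      intro Z hZ z2 z1 nz
      refine (mem_pairStab.1 (h hZ)).2.resolve_left fun h1 => nz ?_
      rcases (mem_pairStab.1 (h hR)).2 with h3 | h3
      · rw [invol_eq hxy ⟨trivial, h1⟩ ⟨trivial, h3⟩ z2 r2 z1 (by rintro rfl; simp at nz)]
      · have := swap_conj_eq_inv hxy ⟨trivial, h1⟩ h3.1 h3.2
        rw [inv_eq_of_mul_eq_one_right z2, mul_inv_eq_iff_eq_mul] at this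
        exact this.symm
    have h3 := (key _ (G.mul_mem hA hB) c2 c1 n3).1
    rw [mul_smul, (key B hB b2 b1 n2).1, (key A hA a2 a1 n1).2] at h3
    exact hxy h3
  rcases dickson_fin p G with ⟨x, h⟩ | ⟨x, y, hxy, h⟩ | ⟨x, y, hxy, h⟩ | ⟨-, -, ⟨e⟩⟩ | h | h |
    ⟨K, k, -, h⟩
  · obtain ⟨-, y, hy, h3⟩ := exists_fix_of_not_isUnip (h hA).2 fun hu =>
      a1 (bar_unip_eq_one_of_pow hu (n := 2) (by exact_mod_cast h2) (by rw [pow_two, a2]))
    exact absurd (invol_eq hy.symm ⟨trivial, (h hA).2, h3⟩ ⟨trivial, (h hB).2,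
      (mob_bar p).comm_fix_right a1 hy.symm (h hA).2 h3 hc (h hB).2⟩ a2 b2 a1 b1) ab
  · exact absurd h (pair _ _ (emb_injective.ne hxy))
  · exact absurd h (pair _ _ hxy.2.1)
  · refine absurd ?_ n1
    have := a4_klein (e ⟨A, hA⟩) (e ⟨R, hR⟩)
    simpa [← map_mul, Subtype.ext_iff, a2, a1, r2] using this
  · exact Or.inr (Or.inl h.2.2)
  · exact Or.inr (Or.inr h.2.2)
  · obtain rfl := subfield_eq_top_of_prime hF K
    exact Or.inl (psl_le_of_top h)

variable {V : Type*} [AddCommGroup V] [Module F V] {Q : QuadraticForm F V} {N : Subgroup (O Q)}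

/-- A model of the three-dimensional space `W` by matrices of trace zero. -/
structure Spin (Q : QuadraticForm F V) (W : Submodule F V)
    (Ψ : V →ₗ[F] Matrix (Fin 2) (Fin 2) F) (k : F) : Prop where
  h2 : (2 : F) ≠ 0
  hk : k ≠ 0
  anti : ∀ u ∈ W, ∀ v, Ψ u * Ψ v + Ψ v * Ψ u = (k * polar Q u v) • 1
  tr : ∀ v, Ψ v 1 1 = -Ψ v 0 0
  ker : ∀ v ∈ perp Q W, Ψ v = 0

/-- The invertible matrix of a non-singular vector. -/
noncomputable def glOf (M : Matrix (Fin 2) (Fin 2) F) : GL (Fin 2) F := by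
  classical exact if h : M.det ≠ 0 then Matrix.GeneralLinearGroup.mkOfDetNeZero M h else 1

/-- Conjugation by `g` induces `± n`. -/
def Rel (Ψ : V →ₗ[F] Matrix (Fin 2) (Fin 2) F) (g : GL (Fin 2) F) (n : O Q) : Prop :=
  ∃ ε : F, ε * ε = 1 ∧ ∀ v, g * Ψ v = ε • (Ψ (n.1 v) * g)

variable {W : Submodule F V} {Ψ : V →ₗ[F] Matrix (Fin 2) (Fin 2) F} {k : F}

theorem Rel.mul {g g' : GL (Fin 2) F} {n n' : O Q} (h : Rel Ψ g n) (h' : Rel Ψ g' n') :
    Rel Ψ (g * g') (n * n') := by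
  obtain ⟨ε, e1, e2⟩ := h
  obtain ⟨δ, d1, d2⟩ := h'
  refine ⟨ε * δ, by linear_combination δ * δ * e1 + d1, fun v => ?_⟩
  rw [Units.val_mul, mul_assoc, d2, Matrix.mul_smul, ← mul_assoc, e2, O_mul_apply]
  simp [smul_smul, mul_comm δ, mul_assoc]

theorem Rel.inv {g : GL (Fin 2) F} {n : O Q} (h : Rel Ψ g n) : Rel Ψ g⁻¹ n⁻¹ := by
  obtain ⟨ε, e1, e2⟩ := h
  refine ⟨ε, e1, fun v => ?_⟩
  have := congrArg (fun M => ε • ((g⁻¹ : GL (Fin 2) F).1 * M * (g⁻¹ : GL (Fin 2) F).1)) (e2 (n⁻¹.1 v))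
  simpa [← mul_assoc, smul_smul, e1, O_apply_inv_apply, mul_assoc] using this.symm

theorem Rel.of_mk {g g' : GL (Fin 2) F} {n : O Q} (h : Rel Ψ g n)
    (e : Matrix.ProjGenLinGroup.mk g = Matrix.ProjGenLinGroup.mk g') : Rel Ψ g' n := by
  obtain ⟨u, rfl⟩ := Matrix.ProjGenLinGroup.mk_eq_mk_iff.1 e
  obtain ⟨ε, e1, e2⟩ := h
  refine ⟨ε, e1, fun v => ?_⟩
  have : ((g * Matrix.GeneralLinearGroup.scalar (Fin 2) u : GL (Fin 2) F) :
      Matrix (Fin 2) (Fin 2) F) = (u : F) • (g : Matrix (Fin 2) (Fin 2) F) := by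
    simp [Matrix.scalar_apply, ← Matrix.smul_eq_mul_diagonal]
  rw [this, Matrix.smul_mul, e2, Matrix.mul_smul, smul_comm]

/-- The elements of `PGL₂` induced by elements of `N` acting on `W^⊥` as `1` or `τ`. -/
def spinG (Ψ : V →ₗ[F] Matrix (Fin 2) (Fin 2) F) (W : Submodule F V) (N : Subgroup (O Q))
    {τ : O Q} (h1 : τ * τ = 1) (h2 : ∀ w ∈ W, τ.1 w = w) : Subgroup PGL(2, F) where
  carrier := {g | ∃ g' n, Matrix.ProjGenLinGroup.mk g' = g ∧ n ∈ N ∧ Rel Ψ g' n ∧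
    ∃ t : O Q, (t = 1 ∨ t = τ) ∧ ∀ z ∈ perp Q W, n.1 z = t.1 z}
  one_mem' := ⟨1, 1, rfl, N.one_mem, ⟨1, by simp, by simp⟩, 1, Or.inl rfl, by simp⟩
  mul_mem' := by
    rintro _ _ ⟨g, n, rfl, a1, a2, t, a3, a4⟩ ⟨g', n', rfl, b1, b2, t', b3, b4⟩
    refine ⟨_, _, map_mul _ _ _, N.mul_mem a1 b1, a2.mul b2, t * t', ?_, fun z hz => ?_⟩
    · rcases a3 with rfl | rfl <;> rcases b3 with rfl | rfl <;> simp [h1]
    · rw [O_mul_apply, O_mul_apply, b4 z hz, a4]
      rcases b3 with rfl | rfl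
      · exact hz
      · exact fun w hw => by rw [ofQuad_B, ← h2 w hw, O_polar]; exact hz w hw
  inv_mem' := by
    rintro _ ⟨g, n, rfl, a1, a2, t, a3, a4⟩
    refine ⟨_, _, map_inv _ _, N.inv_mem a1, a2.inv, t, a3, fun z hz => ?_⟩
    have : n.1 (t.1 z) = z := by
      rcases a3 with rfl | rfl
      · exact a4 z hz
      · rw [a4 _ fun w hw => by rw [ofQuad_B, ← h2 w hw, O_polar]; exact hz w hw, ← O_mul_apply,
          h1]; rfl
    conv_lhs => rw [← this, O_inv_apply_apply]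

/-- `Ω(W)` acts on `W` through `N`. -/
def Full (N : Subgroup (O Q)) (W : Submodule F V) : Prop :=
  (∀ x ∈ W, ∀ a ∈ W, Q x = 0 → polar Q x a = 0 → Q a ≠ 0 → EA N x a) ∧
    ∀ w ∈ W, ∀ w' ∈ W, Q w' = Q w → RC N w → RC N w'

/-- The values of `4 cos²` for rotations of order `3`, `4`, `5`. -/
def Spec (s : F) : Prop := s = 1 ∨ s = 2 ∨ s ^ 2 - 3 * s + 1 = 0

namespace Spin

variable (h : Spin Q W Ψ k) {u v : V}
include h

theorem sq (hu : u ∈ W) : Ψ u * Ψ u = (k * Q u) • 1 := by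
  have := h.anti u hu u
  rw [polar_self', ← two_smul F, mul_left_comm, mul_smul] at this
  exact smul_right_injective _ h.h2 this

theorem det (hu : u ∈ W) : (Ψ u).det = -(k * Q u) := by
  have := congrFun (congrFun (h.sq hu) 0) 0
  simp only [Matrix.mul_apply, Fin.sum_univ_two, Matrix.smul_apply, Matrix.one_apply_eq,
    smul_eq_mul] at this
  rw [Matrix.det_fin_two, h.tr]; linear_combination -this

theorem val (hu : u ∈ W) (h0 : Q u ≠ 0) : (glOf (Ψ u) : Matrix (Fin 2) (Fin 2) F) = Ψ u := by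
  rw [glOf, dif_pos (by rw [h.det hu]; exact neg_ne_zero.2 (mul_ne_zero h.hk h0))]; rfl

theorem rel_refl (hu : u ∈ W) (h0 : Q u ≠ 0) : Rel Ψ (glOf (Ψ u)) (refl Q u) := by
  refine ⟨-1, by simp, fun v => ?_⟩
  rw [h.val hu h0, refl_ap, map_sub, map_smul, sub_mul, Matrix.smul_mul, h.sq hu, smul_smul,
    eq_sub_of_add_eq (h.anti u hu v)]
  match_scalars <;> field_simp

theorem rel_one {τ : O Q} (hτ : ∀ w ∈ W, τ.1 w = w) : Rel Ψ 1 τ :=
  ⟨1, by simp, fun v => by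
    have := h.ker (τ.1 v - v) fun w hw => by
      rw [ofQuad_B, polar_sub_right, sub_eq_zero]; conv_lhs => rw [← hτ w hw, O_polar]
    rw [map_sub, sub_eq_zero] at this
    simp [this]⟩

theorem tau_mul (hu : u ∈ W) (hv : v ∈ W) (h0 : Q u ≠ 0) (h1 : Q v ≠ 0) :
    tau (Matrix.ProjGenLinGroup.mk (glOf (Ψ u)) * Matrix.ProjGenLinGroup.mk (glOf (Ψ v))) =
      polar Q u v ^ 2 / (Q u * Q v) := by
  have := congrFun (congrFun (h.anti u hu v) 0) 0
  rw [← map_mul, mk_eq_pm, tau_pm, ← Matrix.det_fin_two]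
  simp only [Units.val_mul, h.val hu h0, h.val hv h1, Matrix.det_mul, h.det hu, h.det hv,
    Matrix.mul_apply, Fin.sum_univ_two, Matrix.smul_apply, Matrix.one_apply_eq,
    smul_eq_mul, Matrix.add_apply, h.tr] at this ⊢
  have := h.hk
  field_simp
  grind

theorem invol (hu : u ∈ W) (h0 : Q u ≠ 0) :
    Matrix.ProjGenLinGroup.mk (glOf (Ψ u)) * Matrix.ProjGenLinGroup.mk (glOf (Ψ u)) = 1 := by
  rw [← map_mul, mk_eq_pm, pm_eq_one_iff]
  simp [h.val hu h0, h.sq hu]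

theorem mem_psl (hu : u ∈ W) (hv : v ∈ W) (h0 : Q u ≠ 0) (h1 : Q v ≠ 0)
    (hs : IsSquare (Q u * Q v)) :
    Matrix.ProjGenLinGroup.mk (glOf (Ψ u) * glOf (Ψ v)) ∈ (pslPGL F).range := by
  obtain ⟨r, hr⟩ := hs
  rw [mk_eq_pm, pm_mem_range_pslPGL_iff, ← Matrix.det_fin_two, Units.val_mul, h.val hu h0,
    h.val hv h1, Matrix.det_mul, h.det hu, h.det hv]
  exact ⟨k * r, by linear_combination k * k * hr⟩

variable [FiniteDimensional F V] (hQ : Nondeg Q) (hW : ND Q W) {τ : O Q} {t1 : τ * τ = 1}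
  {t2 : ∀ w ∈ W, τ.1 w = w}

theorem mem_spinG (hu : u ∈ W) (h0 : Q u ≠ 0) (hN : refl Q u ∈ N ∨ refl Q u * τ ∈ N) :
    Matrix.ProjGenLinGroup.mk (glOf (Ψ u)) ∈ spinG Ψ W N t1 t2 := by
  rcases hN with hN | hN
  · exact ⟨_, _, rfl, hN, h.rel_refl hu h0, 1, Or.inl rfl,
      fun z hz => refl_apply_of_orth (pc (hz u hu))⟩
  · refine ⟨_, _, rfl, hN, by simpa using (h.rel_refl hu h0).mul (h.rel_one t2), τ, Or.inr rfl,
      fun z hz => refl_apply_of_orth ?_⟩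
    rw [← t2 u hu]; exact (O_polar τ z u).trans (pc (hz u hu))

include hQ hW

theorem act (hG : (pslPGL F).range ≤ spinG Ψ W N t1 t2) (hu : u ∈ W) (hv : v ∈ W) (h0 : Q u ≠ 0)
    (h1 : Q v ≠ 0) (hs : IsSquare (Q u * Q v)) : ∃ n ∈ N, ∃ ε : F, ε ≠ 0 ∧
      (∀ w ∈ W, n.1 w = ε • (refl Q u * refl Q v).1 w) ∧
      n * n = refl Q u * refl Q v * (refl Q u * refl Q v) := by
  obtain ⟨g, n, a0, a1, a2, t, a3, a4⟩ := hG (h.mem_psl hu hv h0 h1 hs)
  obtain ⟨ε, e1, e2⟩ := ((h.rel_refl hu h0).mul (h.rel_refl hv h1)).inv.mul (a2.of_mk a0)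
  have b1 : ∀ z ∈ perp Q W, (refl Q u * refl Q v).1 z = z := fun z hz => by
    rw [O_mul_apply, refl_apply_of_orth (pc (hz v hv)), refl_apply_of_orth (pc (hz u hu))]
  generalize refl Q u * refl Q v = r at *
  have b2 : ∀ z ∈ perp Q W, t.1 z ∈ perp Q W ∧ t.1 (t.1 z) = z := fun z hz => by
    rcases a3 with rfl | rfl
    · exact ⟨hz, rfl⟩
    · exact ⟨fun w hw => by rw [ofQuad_B, ← t2 w hw, O_polar]; exact hz w hw,
        by rw [← O_mul_apply, t1]; rfl⟩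
  have b3 : ∀ w ∈ W, n.1 w = ε • r.1 w := fun w hw => by
    have c1 : n.1 w ∈ W := perp_perp hQ W ▸ fun z hz => by
      rw [ofQuad_B, ← (b2 z hz).2, ← a4 _ (b2 z hz).1, O_polar]; exact pc ((b2 z hz).1 w hw)
    have c2 := mem_of_fix hQ (g := r⁻¹) (fun z hz => by
      conv_lhs => rw [← b1 z hz, O_inv_apply_apply]) c1
    have c3 : r⁻¹.1 (n.1 w) - ε • w = 0 := nd_iff.1 hW _ (W.sub_mem c2 (W.smul_mem _ hw))
      fun y hy => by
        have c4 := h.anti y hy (r⁻¹.1 (n.1 w) - ε • w)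
        have c5 := e2 w
        simp only [inv_mul_cancel, Units.val_one, one_mul, mul_one, O_mul_apply] at c5
        rw [map_sub, map_smul, c5, smul_smul, e1, one_smul, sub_self] at c4
        have := congrFun (congrFun c4 0) 0
        exact pc (by simpa [h.hk] using this.symm)
    rw [← map_smul, ← sub_eq_zero.1 c3, O_apply_inv_apply]
  refine ⟨n, a1, ε, by rintro rfl; simp at e1, b3, O_ext fun x => ?_⟩
  obtain ⟨z, hz, w, hw, rfl⟩ := decomp hQ hW x
  simp only [O_mul_apply, map_add, b3 w hw, b1 z hz, a4 z hz, a4 _ (b2 z hz).1, (b2 z hz).2,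
    map_smul, b3 _ (mem_of_fix hQ b1 hw), smul_smul, e1, one_smul]

theorem full [Finite F] (h3 : 3 ≤ finrank F W) (hG : (pslPGL F).range ≤ spinG Ψ W N t1 t2) :
    Full N W := by
  refine ⟨fun x hx a ha x0 xa a0 => ?_, fun w hw w' hw' e hc => ?_⟩
  · obtain ⟨b, rfl⟩ : ∃ b, a = (2 : F) • b := ⟨(2 : F)⁻¹ • a, by simp [h.h2]⟩
    have hb : b ∈ W := by simpa [h.h2] using W.smul_mem (2 : F)⁻¹ ha
    have b0 : Q b ≠ 0 := fun h0 => a0 (by simp [Q_smul, h0])
    have xb : polar Q x b = 0 := by simpa [h.h2] using xa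
    have e : Q (b - Q b • x) = Q b := by simp [Q_sub, Q_smul, x0, pc xb]
    obtain ⟨n, hn, -, -, -, e'⟩ := h.act hQ hW hG hb (W.sub_mem hb (W.smul_mem (Q b) hx)) b0
      (by rwa [e]) ⟨Q b, by rw [e]⟩
    rw [← eich_eq_refl_mul_refl x0 xb b0, eich_mul x0 xb xb, ← two_smul F] at e'
    exact ⟨x0, xa, e' ▸ N.mul_mem hn hn⟩
  · have key : ∀ w' ∈ W, Q w' = Q w → Q (w - w') ≠ 0 → RC N w' := fun w' hw' e h0 => by
      obtain ⟨b, hb, b1, b2⟩ := exists_norm_polar hQ h.h2 hW h3 hw hc.1 (Q (w - w')) 0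
      obtain ⟨n, hn, ε, e0, e1, -⟩ := h.act hQ hW hG (W.sub_mem hw hw') hb h0 (b1 ▸ h0)
        ⟨Q b, by rw [b1]⟩
      have := hc.conj hn
      rw [e1 w hw, O_mul_apply, refl_apply_of_orth b2, refl_ap] at this
      refine this.of_smul.congr ?_
      rw [show polar Q (w - w') w = Q (w - w') by
        rw [Q_sub, polar_sub_left, polar_self', polar_comm Q w', e]; ring, inv_mul_cancel₀ h0]
      simp
    by_cases h0 : Q (w - w') = 0
    · refine (key (-w') (W.neg_mem hw') (by rw [Q_neg, e]) fun h1 => ?_).smul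
        (neg_ne_zero.2 one_ne_zero) |>.congr (by simp)
      rw [Q_sub, e] at h0
      rw [Q_sub, Q_neg, polar_neg_right, e] at h1
      exact mul_ne_zero h.h2 (mul_ne_zero h.h2 hc.1) (by linear_combination h0 + h1)
    · exact key w' hw' e h0

end Spin

section triple

variable {a b c : V} (ha : Q a ≠ 0) (hb : Q b ≠ 0) (hc : Q c ≠ 0) (hab : polar Q a b = 0)
  (hac : polar Q a c = 0) (hbc : polar Q b c = 0) (h2 : (2 : F) ≠ 0)
include ha hb hc hab hac hbc h2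

theorem nd_triple : ND Q (Submodule.span F {a, b, c}) := nd_iff.2 fun x hx h => by
  obtain ⟨r, s, t, rfl⟩ := Submodule.mem_span_triple.1 hx
  have h1 := h a (Submodule.subset_span (by simp))
  have h3 := h b (Submodule.subset_span (by simp))
  have h4 := h c (Submodule.subset_span (by simp))
  simp only [polar_add_left, polar_smul_left, polar_self', hab, hac, hbc, pc hab, pc hac, pc hbc,
    smul_eq_mul, mul_zero, add_zero, zero_add, mul_eq_zero, h2, ha, hb, hc, or_false] at h1 h3 h4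
  simp [h1, h3, h4]

theorem finrank_triple [FiniteDimensional F V] : finrank F (Submodule.span F {a, b, c}) = 3 := by
  have e1 : b ∉ Submodule.span F {c} := fun h => by
    obtain ⟨t, ht⟩ := Submodule.mem_span_singleton.1 h
    exact polar_self_ne h2 hb (by conv_lhs => rw [polar_comm]; congr; rfl; rw [← ht]
                                  simp [pc hbc])
  have e2 : a ∉ Submodule.span F {c} ⊔ Submodule.span F {b} := fun h => by
    refine polar_self_ne h2 ha ((show _ ≤ LinearMap.ker (polarBilin Q a) from sup_le ?_ ?_) h) <;>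
      simp [Submodule.span_singleton_le_iff_mem, hab, hac]
  rw [Submodule.span_insert, Submodule.span_insert, sup_comm, sup_comm (Submodule.span F {b}),
    Submodule.finrank_sup_span_singleton e2, Submodule.finrank_sup_span_singleton e1,
    finrank_span_singleton (ne_zero_of_Q hc)]

theorem exists_spin [Finite F] : ∃ Ψ k, Spin Q (Submodule.span F {a, b, c}) Ψ k ∧
    Matrix.ProjGenLinGroup.mk (glOf (Ψ a)) * Matrix.ProjGenLinGroup.mk (glOf (Ψ b)) =
      Matrix.ProjGenLinGroup.mk (glOf (Ψ c)) := by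
  obtain ⟨k, hk⟩ : ∃ k, k = -(Q a * Q b * Q c) := ⟨_, rfl⟩
  have k0 : k ≠ 0 := by simp [hk, ha, hb, hc]
  obtain ⟨s, t, e⟩ := Orth.exists_sq_add_sq_eq one_ne_zero (neg_ne_zero.2 (mul_ne_zero k0 ha))
    (k * Q b)
  let A : Matrix (Fin 2) (Fin 2) F := !![0, k * Q a; 1, 0]
  let B : Matrix (Fin 2) (Fin 2) F := !![s, -(k * Q a * t); t, -s]
  let Ψ : V →ₗ[F] Matrix (Fin 2) (Fin 2) F := ((2 * Q a)⁻¹ • polarBilin Q a).smulRight A +
    ((2 * Q b)⁻¹ • polarBilin Q b).smulRight B +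
    ((2 * Q c)⁻¹ • polarBilin Q c).smulRight ((Q a * Q b)⁻¹ • (A * B))
  have hΨ : ∀ v, Ψ v = ((2 * Q a)⁻¹ * polar Q a v) • A + ((2 * Q b)⁻¹ * polar Q b v) • B +
    ((2 * Q c)⁻¹ * polar Q c v) • ((Q a * Q b)⁻¹ • (A * B)) := fun v => rfl
  have e1 : Ψ a = A := by
    rw [hΨ, polar_self', inv_mul_cancel₀ (mul_ne_zero h2 ha)]; simp [pc hab, pc hac]
  have e2 : Ψ b = B := by
    rw [hΨ, polar_self', inv_mul_cancel₀ (mul_ne_zero h2 hb)]; simp [hab, pc hbc]
  have e3 : Ψ c = (Q a * Q b)⁻¹ • (A * B) := by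
    rw [hΨ, polar_self', inv_mul_cancel₀ (mul_ne_zero h2 hc)]; simp [hac, hbc]
  have hS : Spin Q (Submodule.span F {a, b, c}) Ψ k := by
    refine ⟨h2, k0, fun u hu v => ?_, fun v => ?_, fun v hv => ?_⟩
    · obtain ⟨x, y, z, rfl⟩ := Submodule.mem_span_triple.1 hu
      simp only [map_add, map_smul, e1, e2, e3, hΨ v, polar_add_left, polar_smul_left]
      ext i j
      fin_cases i <;> fin_cases j <;> simp [A, B, Matrix.mul_apply, Fin.sum_univ_two] <;>
        field_simp <;> grind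
    · simp [hΨ, A, B]; ring
    · rw [mem_perp_span] at hv
      simp [hΨ, hv]
  refine ⟨Ψ, k, hS, ?_⟩
  rw [← map_mul, Matrix.ProjGenLinGroup.mk_eq_mk_iff]
  refine ⟨Units.mk0 _ (inv_ne_zero (mul_ne_zero ha hb)), Units.ext ?_⟩
  rw [Units.val_mul, Units.val_mul, hS.val (Submodule.subset_span (by simp)) ha,
    hS.val (Submodule.subset_span (by simp)) hb, hS.val (Submodule.subset_span (by simp)) hc,
    e1, e2, e3]
  simp [Matrix.scalar_apply, ← Matrix.smul_eq_mul_diagonal, smul_smul, mul_comm]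

variable [Finite F] [FiniteDimensional F V] (hF : (Nat.card F).Prime) (hQ : Nondeg Q) {v : V}
  (ca : RC N a) (cb : RC N b) (cv : RC N v) (hv : v ∈ Submodule.span F {a, b, c})
  (va : polar Q a v ≠ 0) (vb : polar Q b v ≠ 0) (vc : polar Q c v ≠ 0)
include hF hQ ca cb cv hv va vb vc

theorem spin_aux {τ : O Q} (t1 : τ * τ = 1) (t2 : ∀ w ∈ Submodule.span F {a, b, c}, τ.1 w = w) :
    Full N (Submodule.span F {a, b, c}) ∨ ∃ (G : Subgroup PGL(2, F)) (ψ : V → PGL(2, F)),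
      (Nonempty (G ≃* Equiv.Perm (Fin 4)) ∨ Nonempty (G ≃* alternatingGroup (Fin 5))) ∧
      ψ a * ψ b = ψ c ∧ ψ a ∈ G ∧ ψ b ∈ G ∧ ψ v ∈ G ∧ ψ v * ψ v = 1 ∧
      (∀ u ∈ ({a, b, c} : Set V), ψ u * ψ u = 1 ∧ ψ u * ψ v ≠ ψ v * ψ u ∧
        tau (ψ u * ψ v) = polar Q u v ^ 2 / (Q u * Q v)) ∧
      ∀ u ∈ Submodule.span F {a, b, c}, ∀ w ∈ Submodule.span F {a, b, c}, Q u ≠ 0 → Q w ≠ 0 →
        refl Q u * τ ∈ N → ψ u ∈ G ∧ ψ u * ψ w * ψ u = ψ ((refl Q u).1 w) := by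
  obtain ⟨Ψ, k, h, e⟩ := exists_spin ha hb hc hab hac hbc h2
  have ma : a ∈ Submodule.span F {a, b, c} := Submodule.subset_span (by simp)
  have mb : b ∈ Submodule.span F {a, b, c} := Submodule.subset_span (by simp)
  have mc : c ∈ Submodule.span F {a, b, c} := Submodule.subset_span (by simp)
  have nc : ∀ u ∈ Submodule.span F {a, b, c}, ∀ w ∈ Submodule.span F {a, b, c}, Q u ≠ 0 →
      Q w ≠ 0 → polar Q w u = 0 → polar Q u v ≠ 0 → polar Q w v ≠ 0 →
      Matrix.ProjGenLinGroup.mk (glOf (Ψ u)) * Matrix.ProjGenLinGroup.mk (glOf (Ψ v)) ≠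
      Matrix.ProjGenLinGroup.mk (glOf (Ψ v)) * Matrix.ProjGenLinGroup.mk (glOf (Ψ u)) := by
    intro u hu w hw u0 w0 wu uv wv e
    have e1 := h.invol hu u0
    have e2 := h.invol hv cv.1
    rcases (pow_two_eq_one_iff (g := Matrix.ProjGenLinGroup.mk (glOf (Ψ u)) *
      Matrix.ProjGenLinGroup.mk (glOf (Ψ v)))).1 (by
      rw [pow_two]; nth_rw 1 [e]; rw [mul_assoc, ← mul_assoc _ _ (Matrix.ProjGenLinGroup.mk
        (glOf (Ψ v))), e1, one_mul, e2]) with h1 | h1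
    · rw [h.tau_mul hu hv u0 cv.1] at h1
      simp [u0, cv.1, uv] at h1
    · have h3 := h.tau_mul hw hu w0 u0
      rw [mul_right_cancel (h1.trans e2.symm), h.tau_mul hw hv w0 cv.1, wu] at h3
      simp [w0, cv.1, wv] at h3
  have n1 := nc a ma b mb ha hb (pc hab) va vb
  have n2 := nc b mb a ma hb ha hab vb va
  have n3 := nc c mc a ma hc ha hac vc va
  refine (dk hF h2 (spinG Ψ _ N t1 t2) (h.mem_spinG ma ha (Or.inl ca.2))
    (h.mem_spinG mb hb (Or.inl cb.2)) (h.mem_spinG hv cv.1 (Or.inl cv.2)) (h.invol ma ha)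
    (h.invol mb hb) (e ▸ h.invol mc hc) (h.invol hv cv.1) n1 n2 (e ▸ n3)).imp
    (h.full hQ (nd_triple ha hb hc hab hac hbc h2) (finrank_triple ha hb hc hab hac hbc h2).ge)
    fun hG => ⟨_, fun u => Matrix.ProjGenLinGroup.mk (glOf (Ψ u)), hG, e,
      h.mem_spinG ma ha (Or.inl ca.2), h.mem_spinG mb hb (Or.inl cb.2),
      h.mem_spinG hv cv.1 (Or.inl cv.2), h.invol hv cv.1, ?_, fun u hu w hw u0 w0 hN =>
      ⟨h.mem_spinG hu u0 (Or.inr hN), ?_⟩⟩
  · rintro u (rfl | rfl | rfl)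
    exacts [⟨h.invol ma ha, n1, h.tau_mul ma hv ha cv.1⟩,
      ⟨h.invol mb hb, n2, h.tau_mul mb hv hb cv.1⟩, ⟨h.invol mc hc, n3, h.tau_mul mc hv hc cv.1⟩]
  · have h3 : (refl Q u).1 w ∈ Submodule.span F {a, b, c} := by
      rw [refl_ap]; exact Submodule.sub_mem _ hw (Submodule.smul_mem _ _ hu)
    obtain ⟨ε, e1, e2⟩ := h.rel_refl hu u0
    have e0 : ε ≠ 0 := by rintro rfl; simp at e1
    rw [← map_mul, ← map_mul, eq_comm, Matrix.ProjGenLinGroup.mk_eq_mk_iff]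
    refine ⟨Units.mk0 _ (mul_ne_zero e0 (mul_ne_zero h.hk u0)), Units.ext ?_⟩
    rw [Units.val_mul, Units.val_mul, Units.val_mul, h.val hw w0, e2,
      h.val h3 (by rwa [O_map]), h.val hu u0, Matrix.smul_mul, mul_assoc, h.sq hu]
    simp [Matrix.scalar_apply, ← Matrix.smul_eq_mul_diagonal, smul_smul, mul_comm, mul_left_comm]

/-- Three reflections, two of them in orthogonal vectors. -/
theorem spin_T : Full N (Submodule.span F {a, b, c}) ∨
    ∀ u ∈ ({a, b, c} : Set V), Spec (polar Q u v ^ 2 / (Q u * Q v)) := by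
  refine (spin_aux ha hb hc hab hac hbc h2 hF hQ ca cb cv hv va vb vc (τ := 1) (one_mul _)
    fun _ _ => rfl).imp_right ?_
  rintro ⟨G, ψ, hG, e, ga, gb, gv, v2, h, -⟩ u hu
  obtain ⟨h1, h3, h4⟩ := h u hu
  have gu : ψ u * ψ v ∈ G := G.mul_mem (by
    rcases hu with rfl | rfl | rfl
    exacts [ga, gb, e ▸ G.mul_mem ga gb]) gv
  have h5 : (ψ u * ψ v) ^ 2 ≠ 1 := fun h0 => h3 (by
    rw [pow_two, mul_eq_one_iff_eq_inv, mul_inv_rev, inv_eq_of_mul_eq_one_right h1,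
      inv_eq_of_mul_eq_one_right v2] at h0
    exact h0)
  have h6 : ψ u * ψ v ≠ 1 := fun h0 => h5 (by simp [h0])
  have h7 : tau (ψ u * ψ v) ≠ 0 := fun h0 => h5 (pow_two_eq_one_iff.2 (Or.inl h0))
  rw [← h4]
  rcases hG with hG | hG
  · rcases pow_cases_of_equiv hG s4_pow gu with h8 | h8 | h8 <;>
      rw [orderOf_dvd_iff_pow_eq_one] at h8
    · exact absurd h8 h5
    · exact Or.inl ((pow_three_eq_one_iff.1 h8).resolve_right h6)
    · exact Or.inr (Or.inl (((pow_four_eq_one_iff.1 h8).resolve_right h6).resolve_left h7))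
  · rcases pow_cases_of_equiv hG a5_pow gu with h8 | h8 | h8 <;>
      rw [orderOf_dvd_iff_pow_eq_one] at h8
    · exact absurd h8 h5
    · exact Or.inl ((pow_three_eq_one_iff.1 h8).resolve_right h6)
    · exact Or.inr (Or.inr ((pow_five_eq_one_iff.1 h8).resolve_right h6))

/-- The full monomial group of a frame together with one more reflection. -/
theorem spin_D (e1 : Q a = Q c) (e2 : Q b = Q c) {τ : O Q} (t1 : τ * τ = 1)
    (t2 : ∀ w ∈ Submodule.span F {a, b, c}, τ.1 w = w) (h3 : refl Q (a - c) * τ ∈ N)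
    (h4 : refl Q (b - c) * τ ∈ N) : Full N (Submodule.span F {a, b, c}) := by
  refine (spin_aux ha hb hc hab hac hbc h2 hF hQ ca cb cv hv va vb vc t1 t2).resolve_right ?_
  rintro ⟨G, ψ, hG, e, ga, gb, gv, v2, h, h'⟩
  have mc : c ∈ Submodule.span F {a, b, c} := Submodule.subset_span (by simp)
  have key : ∀ u ∈ ({a, b, c} : Set V), ψ u ∈ G → Q u = Q c → polar Q u c = 0 →
      refl Q (u - c) * τ ∈ N → ∃ y ∈ G, y * y = ψ c * ψ u := fun u hu gu e1 e2 h3 => by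
    have mu : u ∈ Submodule.span F {a, b, c} := Submodule.subset_span hu
    have e3 : Q (u - c) = 2 * Q c := by rw [Q_sub, e1, e2]; ring
    obtain ⟨h5, h6⟩ := h' _ (Submodule.sub_mem _ mu mc) u mu (e3 ▸ mul_ne_zero h2 hc) (e1 ▸ hc) h3
    refine ⟨_, G.mul_mem h5 gu, ?_⟩
    rw [← mul_assoc, h6, refl_ap, e3, polar_sub_left, polar_self', e1, pc e2, sub_zero,
      inv_mul_cancel₀ (mul_ne_zero h2 hc)]
    simp
  obtain ⟨y, hy, y2⟩ := key b (by simp) gb e2 hbc h4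
  obtain ⟨z, hz, z2⟩ := key a (by simp) ga e1 hac h3
  obtain ⟨a2, a3, -⟩ := h a (by simp)
  obtain ⟨b2, b3, -⟩ := h b (by simp)
  obtain ⟨c2, c3, -⟩ := h c (by simp)
  rw [← e, mul_assoc, b2, mul_one] at y2
  replace z2 : z * z = ψ b := by
    rw [z2, ← mul_right_inj (ψ c), ← mul_assoc, c2, ← e, mul_assoc (ψ a), b2, one_mul, mul_one]
  rcases hG with ⟨⟨f⟩⟩ | ⟨⟨f⟩⟩
  · have := s4_klein (f ⟨y, hy⟩) (f ⟨z, hz⟩) (f ⟨_, gv⟩)
    simp [← map_mul, Subtype.ext_iff, y2, z2, a2, b2, v2, a3, b3, e, c3] at this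
  · have := a5_four (f ⟨y, hy⟩)
    simp only [← map_mul, EmbeddingLike.map_eq_one_iff, Subtype.ext_iff, Subgroup.coe_mul, y2, a2,
      Subgroup.coe_one, forall_true_left] at this
    simp [this] at a3

end triple

end CfsgLib.OMax
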