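import Mathlib
import Cfsg.Agent.Lib.OMax.ExtMain
import Cfsg.Agent.Lib.OMax.Basic

/-!
Field extension subgroups of orthogonal groups in odd characteristic for extensions of degree two
and three, including the small dimensions: the set-up (following `OMax/ExtO`).
-/

set_option autoImplicit false
set_option linter.unusedSectionVars false

namespace CfsgLib.OMax.Sm

open Module CfsgLib.ClMax CfsgLib.OrthE QuadraticMap

variable {F K V : Type*} [Field F] [Field K] [Algebra F K] [AddCommGroup V]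
  [Module F V] [Module K V] [IsScalarTower F K V]

/-- The set-up: `Q` is the trace of the `K`-form `P`, and `X` lies between the semilinear part of
`Ω(Q)` and `Ω(Q)`. -/
structure OD (Q : QuadraticForm F V) (P : QuadraticForm K V) (X : Subgroup (O Q)) : Prop where
  h2 : (2 : K) ≠ 0
  hr : (finrank F K).Prime
  hd : 3 ≤ finrank K V
  hr3 : finrank F K ≤ 3
  hd4 : finrank F K = 2 → 4 ≤ finrank K V
  hP : Nondeg P
  eq : ∀ v, Q v = Algebra.trace F K (P v)
  hX : X ≤ commutator (O Q)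
  hN : ∀ g ∈ commutator (O Q), SemiK K g.1 → g ∈ X

namespace OD

variable {Q : QuadraticForm F V} {P : QuadraticForm K V} {X : Subgroup (O Q)}

/-- Isometries of `P` are isometries of `Q`. -/
def res (h : OD Q P X) : O P →* O Q where
  toFun t := ⟨t.1.restrictScalars F, fun v => by rw [h.eq, h.eq]; exact congr_arg _ (t.2 v)⟩
  map_one' := rfl
  map_mul' _ _ := rfl

theorem res_apply (h : OD Q P X) (t : O P) (v : V) : (h.res t).1 v = t.1 v := rfl

theorem pol (h : OD Q P X) (x y : V) : polar Q x y = Algebra.trace F K (polar P x y) := by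
  simp [polar, h.eq]

theorem pol_left (h : OD Q P X) (k : K) (x y : V) :
    polar Q (k • x) y = Algebra.trace F K (k * polar P x y) := by
  rw [h.pol, polar_smul_left, smul_eq_mul]

theorem pol_right (h : OD Q P X) (k : K) (x y : V) :
    polar Q x (k • y) = Algebra.trace F K (k * polar P x y) := by
  rw [h.pol, polar_smul_right, smul_eq_mul]

theorem h2F (h : OD Q P X) : (2 : F) ≠ 0 := fun h0 =>
  h.h2 (by rw [← map_ofNat (algebraMap F K) 2, h0, map_zero])

theorem five_le (h : OD Q P X) : 5 ≤ finrank F V := by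
  rw [← finrank_mul_finrank F K V]
  have := h.hr.two_le
  have := h.hd
  nlinarith

theorem fdK (h : OD Q P X) : FiniteDimensional K V :=
  Module.finite_of_finrank_pos (by have := h.hd; omega)

theorem fdF (h : OD Q P X) : FiniteDimensional F V :=
  Module.finite_of_finrank_pos (by have := h.five_le; omega)

variable [Finite K]

theorem hQ (h : OD Q P X) : Nondeg Q := fun x hx =>
  h.hP x fun y => eq_of_tr (F := F) fun k => by rw [← h.pol_right, hx]; simp

theorem sq_mem (h : OD Q P X) (g : O Q) : g * g ∈ commutator (O Q) :=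
  have : Finite F := Finite.of_injective _ (algebraMap F K).injective
  have := h.fdF
  sq_mem_commutator h.hQ h.five_le g

theorem res_mem (h : OD Q P X) {t : O P} (ht : h.res t ∈ commutator (O Q)) : h.res t ∈ X :=
  h.hN _ ht (semiK_restrict t.1)

theorem res_sq (h : OD Q P X) (t : O P) : h.res (t * t) ∈ X :=
  h.res_mem (by rw [map_mul]; exact h.sq_mem _)

theorem res_eich (h : OD Q P X) (u w : V) : h.res (eich P u w) ∈ X := by
  by_cases h1 : P u = 0 ∧ polar P u w = 0
  · rw [eich_sq h.h2 h1.1 h1.2]; exact h.res_sq _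
  · rw [eich_of_not h1, map_one]; exact X.one_mem

theorem res_E (h : OD Q P X) {t : O P} (ht : t ∈ E P) : h.res t ∈ X :=
  E_le (H := X.comap h.res) (fun u w _ _ => h.res_eich u w) ht

theorem move (h : OD Q P X) {x y : V} (hx : x ≠ 0) (hy : y ≠ 0) (hx0 : P x = 0) (hy0 : P y = 0) :
    ∃ g : O P, h.res g ∈ X ∧ ∃ b : K, b ≠ 0 ∧ g.1 x = b • y := by
  have := h.fdK
  obtain ⟨x', hx'⟩ := h.hP.exists_hyp hx0 hx
  obtain ⟨g, hg, h1⟩ := hx'.exists_E_singular h.hP (hx'.exists_nonsingular h.hP h.hd) hx hy hx0 hy0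
  exact ⟨g, h.res_E hg, h1⟩

theorem exists_tor (h : OD Q P X) {u u' : V} (hu : Hyp P u u') {c : K} (hc : c ≠ 0) :
    ∃ g : O P, h.res g ∈ X ∧ g.1 u = c ^ 2 • u :=
  ⟨_, h.res_sq (tor P u u' c), by rw [hu.tor_mul hc hc, hu.tor_e (mul_ne_zero hc hc), pow_two]⟩

theorem polar_of_fix (h : OD Q P X) {u : V} {g : O Q} (hg : ∀ k : K, g.1 (k • u) = k • u)
    (v : V) : polar P (g.1 v) u = polar P v u :=
  eq_of_tr (F := F) fun k => by rw [← h.pol_right, ← h.pol_right, ← O_polar g v, hg]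

/-- The part of the centre of the unipotent radical lying in `X`. -/
def ZR (_ : OD Q P X) {u : V} (hu : P u = 0) : AddSubgroup (K →ₗ[F] K) where
  carrier := {ψ | ∃ t ∈ X, ∀ v, t.1 v = v + ψ (polar P v u) • u}
  zero_mem' := ⟨1, X.one_mem, fun v => by simp⟩
  add_mem' := by
    rintro ψ ψ' ⟨t, ht, e⟩ ⟨t', ht', e'⟩
    refine ⟨t * t', X.mul_mem ht ht', fun v => ?_⟩
    rw [O_mul_apply, e', e]
    simp only [polar_add_left, polar_smul_left, polar_self', hu, mul_zero, smul_zero, add_zero,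
      LinearMap.add_apply, add_smul]
    abel
  neg_mem' := by
    rintro ψ ⟨t, ht, e⟩
    refine ⟨t⁻¹, X.inv_mem ht, fun v => O_inv_apply_eq t ?_⟩
    rw [e]
    simp [hu]

theorem mem_ZR (h : OD Q P X) {u : V} (hu : P u = 0) {ψ : K →ₗ[F] K} :
    ψ ∈ h.ZR hu ↔ ∃ t ∈ X, ∀ v, t.1 v = v + ψ (polar P v u) • u := Iff.rfl

theorem ZR_conj (h : OD Q P X) {u u' : V} (hu : P u = 0) (hu' : P u' = 0) {g : O Q} (hg : g ∈ X)
    {α β : K →ₗ[F] K} (h1 : ∀ k, g.1 (k • u) = α k • u')
    (h2 : ∀ v, polar P ((g⁻¹).1 v) u = β (polar P v u')) {ψ : K →ₗ[F] K} (hψ : ψ ∈ h.ZR hu) :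
    ∃ ψ' ∈ h.ZR hu', ∀ x, ψ' x = α (ψ (β x)) := by
  obtain ⟨t, ht, e⟩ := hψ
  refine ⟨α ∘ₗ ψ ∘ₗ β, ⟨g * t * g⁻¹, X.mul_mem (X.mul_mem hg ht) (X.inv_mem hg), fun v => ?_⟩,
    fun _ => rfl⟩
  rw [O_mul_apply, O_mul_apply, e, map_add, O_apply_inv_apply, h1, h2]; rfl

theorem ZR_move (h : OD Q P X) {u u' : V} (hu : P u = 0) (hu' : P u' = 0) {g : O P}
    (hg : h.res g ∈ X) {b : K} (hb : g.1 u = b • u') {ψ : K →ₗ[F] K} (hψ : ψ ∈ h.ZR hu) :
    ∃ ψ' ∈ h.ZR hu', ∀ x, ψ' x = b * ψ (b * x) :=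
  h.ZR_conj hu hu' hg (α := LinearMap.mulLeft F b) (β := LinearMap.mulLeft F b)
    (fun k => by rw [res_apply, map_smul, hb, smul_smul, mul_comm]; rfl)
    (fun v => by rw [← map_inv, res_apply, O_polar_inv_left, hb]; simp) hψ

theorem ts (h : OD Q P X) {u : V} (hu : P u = 0) (hu0 : u ≠ 0) : TS (h.ZR hu) := by
  obtain ⟨u', hu'⟩ := h.hP.exists_hyp hu hu0
  refine ⟨h.h2, ?_, fun ψ hψ c hc => ?_⟩
  · rintro ψ ⟨t, -, e⟩ x
    have h1 := O_map t (x • u')
    rw [e, h.eq, h.eq] at h1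
    simpa [Q_add, Q_smul, hu, hu'.hf, hu'.hfe] using h1
  · obtain ⟨g, hg, h1⟩ := h.exists_tor hu' hc
    exact h.ZR_move hu hu hg h1 hψ

theorem hasZ_move (h : OD Q P X) {u u' : V} (hu : P u = 0) (hu' : P u' = 0) (h0 : u ≠ 0)
    (h0' : u' ≠ 0) {σ : K ≃ₐ[F] K} (hZ : HasZ (h.ZR hu) σ) : HasZ (h.ZR hu') σ := by
  obtain ⟨g, hg, b, hb, h1⟩ := h.move h0 h0' hu hu'
  intro c
  obtain ⟨ψ, hψ, e⟩ := hZ (c * (b * σ b)⁻¹)
  obtain ⟨ψ', hψ', e'⟩ := h.ZR_move hu hu' hg h1 hψ
  refine ⟨ψ', hψ', fun x => ?_⟩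
  have h2 : σ b ≠ 0 := by simpa using hb
  have h3 : σ⁻¹ (σ b) = b := by rw [← AlgEquiv.mul_apply, inv_mul_cancel, AlgEquiv.one_apply]
  rw [e', e, show c * (b * σ b)⁻¹ * (b * x) = c * x * (σ b)⁻¹ by field_simp, map_mul σ⁻¹,
    map_inv₀, h3, map_mul]
  field_simp

theorem exists_ZR_of_fix (h : OD Q P X) {u u' : V} (hu : Hyp P u u') {s : O Q} (hs : s ∈ X)
    (hfix : ∀ v, polar P v u = 0 → s.1 v = v) :
    ∃ ψ ∈ h.ZR hu.he, ∀ v, s.1 v = v + ψ (polar P v u) • u := by
  have h1 : ∀ v, s.1 v - v = polar P (s.1 v - v) u' • u := fun v =>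
    eq_smul_of_orth hu h.hP fun y hy => eq_of_tr (F := F) fun k => by
      rw [← h.pol_right, polar_sub_left, ← O_polar s v, hfix (k • y) (by simp [hy])]; simp
  let ψ : K →ₗ[F] K := ((polarBilin P).flip u').restrictScalars F ∘ₗ
    ((s.1 : V →ₗ[F] V) - LinearMap.id) ∘ₗ (LinearMap.toSpanSingleton K V u').restrictScalars F
  have hψ : ∀ x, ψ x = polar P (s.1 (x • u') - x • u') u' := fun x => rfl
  have key : ∀ v, s.1 v = v + ψ (polar P v u) • u := fun v => by
    have h2 := hfix (v - polar P v u • u') (by simp [hu.hfe])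
    rw [hψ, ← h1, ← sub_eq_zero, ← sub_eq_zero.2 h2, map_sub]
    abel
  exact ⟨ψ, ⟨s, hs, key⟩, key⟩

theorem exists_alpha (h : OD Q P X) {u u' : V} (hu : Hyp P u u') {g : O Q}
    (hg : ∀ k : K, g.1 (k • u) ∈ Submodule.span K {u}) :
    ∃ α a : K ≃ₗ[F] K, (∀ k, g.1 (k • u) = α k • u) ∧
      (∀ v, polar P (g.1 v) u = a (polar P v u)) ∧
      ∀ k m, Algebra.trace F K (α k * a m) = Algebra.trace F K (k * m) := by
  obtain ⟨α, hα⟩ := exists_line_map (h := (g.1 : V →ₗ[F] V)) hu.e_ne hg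
  have hα' : ∀ k, g.1 (k • u) = α k • u := hα
  have hαi : Function.Injective α := fun a b hab => by
    have : g.1 (a • u) = g.1 (b • u) := by rw [hα', hα', hab]
    exact smul_left_injective K hu.e_ne (g.1.injective this)
  let a : K →ₗ[F] K := ((polarBilin P).flip u).restrictScalars F ∘ₗ (g.1 : V →ₗ[F] V) ∘ₗ
    (LinearMap.toSpanSingleton K V u').restrictScalars F
  have ha : ∀ k, a k = polar P (g.1 (k • u')) u := fun k => rfl
  have hrel : ∀ k v, Algebra.trace F K (α k * polar P (g.1 v) u) =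
      Algebra.trace F K (k * polar P v u) := fun k v => by
    rw [← h.pol_right, ← hα', O_polar, h.pol_right]
  have hrel' : ∀ k m, Algebra.trace F K (α k * a m) = Algebra.trace F K (k * m) := fun k m => by
    rw [ha, hrel]; simp [hu.hfe]
  have hai : Function.Injective a := fun m m' hm =>
    eq_of_tr (F := F) fun k => by rw [← hrel', hm, hrel']
  refine ⟨.ofInjectiveEndo α hαi, .ofInjectiveEndo a hai, hα', fun v => eq_of_tr (F := F) fun k => ?_,
    hrel'⟩
  obtain ⟨k, rfl⟩ := Finite.surjective_of_injective hαi k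
  rw [hrel]
  exact (hrel' _ _).symm

section caseOne

theorem eq_one_of_fix (h : OD Q P X) {u u' : V} (hu : Hyp P u u')
    (hZ : ∀ ψ ∈ h.ZR hu.he, ψ = 0) {s : O Q} (hs : s ∈ X)
    (hfix : ∀ v, polar P v u = 0 → s.1 v = v) : s = 1 := by
  obtain ⟨ψ, hψ, e⟩ := h.exists_ZR_of_fix hu hs hfix
  exact O_ext fun v => by simp [e, hZ ψ hψ]

theorem eq_eich (h : OD Q P X) {u u' : V} (hu : Hyp P u u')
    (hZ : ∀ ψ ∈ h.ZR hu.he, ψ = 0) {t : O Q} (ht : t ∈ X) (h1 : ∀ k : K, t.1 (k • u) = k • u)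
    (h2 : ∀ v, polar P v u = 0 → t.1 v - v ∈ Submodule.span K {u}) :
    ∃ w, polar P u w = 0 ∧ t = h.res (eich P u w) := by
  have h3 := h.polar_of_fix h1
  have hcomm : ∀ w, polar P u w = 0 → t * h.res (eich P u w) = h.res (eich P u w) * t := by
    intro w hw
    have := h.eq_one_of_fix hu hZ (s := (h.res (eich P u w) * t)⁻¹ * (t * h.res (eich P u w)))
      (X.mul_mem (X.inv_mem (X.mul_mem (h.res_eich _ _) ht)) (X.mul_mem ht (h.res_eich _ _)))
      fun v hv => by
        rw [O_mul_apply]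
        refine O_inv_apply_eq _ ?_
        obtain ⟨j, hj⟩ := Submodule.mem_span_singleton.1 (h2 v hv)
        have h4 : t.1 v = v + j • u := by rw [hj]; abel
        simp only [O_mul_apply, res_apply, eich_apply hu.he hw, h3, hv, zero_smul, sub_zero,
          mul_zero, map_add, h1]
        rw [h4]; simp [hw]
    exact (inv_mul_eq_one.1 this).symm
  have hw₀ : polar P u (u' - t.1 u') = 0 := by
    rw [polar_comm, polar_sub_left, h3, sub_self]
  refine ⟨u' - t.1 u', hw₀, ?_⟩
  have := h.eq_one_of_fix hu hZ (s := (h.res (eich P u (u' - t.1 u')))⁻¹ * t)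
    (X.mul_mem (X.inv_mem (h.res_eich _ _)) ht) fun w hw => by
      rw [O_mul_apply]
      refine O_inv_apply_eq _ ?_
      have hw' : polar P u w = 0 := by rw [polar_comm, hw]
      have h4 := congr_arg (fun g : O Q => g.1 u') (hcomm w hw')
      simp only [O_mul_apply, res_apply, eich_apply hu.he hw', h3, hu.hfe, map_sub, map_add,
        h1, one_smul] at h4
      rw [res_apply, eich_apply hu.he hw₀, hw, polar_sub_right, polar_comm P w, polar_comm P w]
      linear_combination (norm := module) h4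
  exact (inv_mul_eq_one.1 this).symm

theorem exists_ZR_ne (h : OD Q P X) {u u' : V} (hu : Hyp P u u') {g : O Q} (hg : g ∈ X)
    (hst : ∀ k : K, g.1 (k • u) ∈ Submodule.span K {u}) (hns : ¬ SemiK K g.1) :
    ∃ ψ ∈ h.ZR hu.he, ψ ≠ 0 := by
  have : Finite F := Finite.of_injective _ (algebraMap F K).injective
  have := h.fdK
  have := h.fdF
  by_contra hZ
  push Not at hZ
  obtain ⟨α, a, hα, ha, hrel⟩ := h.exists_alpha hu hst
  set L := Submodule.span K {u} with hL
  have hLu : ∀ k : K, k • u ∈ L := fun k => L.smul_mem k (Submodule.mem_span_singleton_self u)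
  have ha1 : a 1 ≠ 0 := by simp
  have hA : ∀ w, polar P w u = 0 → ∃ w', ∀ x : K, g.1 (x • w) - a x • w' ∈ L := by
    intro w hw
    have hw' : polar P u w = 0 := by rw [polar_comm, hw]
    obtain ⟨w', hw'', e⟩ := h.eq_eich hu hZ (t := g * h.res (eich P u w) * g⁻¹)
      (X.mul_mem (X.mul_mem hg (h.res_eich _ _)) (X.inv_mem hg))
      (fun k => by
        obtain ⟨k, rfl⟩ := α.surjective k
        rw [← hα, O_mul_apply, O_mul_apply, O_inv_apply_apply, res_apply, map_smul,
          eich_apply_self])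
      fun v hv => by
        obtain ⟨v, rfl⟩ := g.1.surjective v
        rw [ha, map_eq_zero_iff _ a.injective] at hv
        rw [O_mul_apply, O_mul_apply, O_inv_apply_apply, res_apply, eich_apply hu.he hw', hv]
        simpa [hα] using hLu _
    refine ⟨w', fun x => ?_⟩
    have h4 := congr_arg (fun t : O Q => t.1 (g.1 (x • u'))) e
    simp only [O_mul_apply, O_inv_apply_apply, res_apply, eich_apply hu.he hw',
      eich_apply hu.he hw'', map_sub, map_add, hα, ha, polar_smul_left, hu.hfe, smul_eq_mul,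
      mul_one] at h4
    have h5 := L.add_mem (L.sub_mem (hLu (α (x * polar P u' w))) (hLu (α (P w * x))))
      (L.sub_mem (hLu (P w' * a x)) (hLu (polar P (g.1 (x • u')) w')))
    convert h5 using 1
    linear_combination (norm := module) -h4
  let σ : K → K := fun x => a x / a 1
  have hB : ∀ w, polar P w u = 0 → ∀ x : K, g.1 (x • w) - σ x • g.1 w ∈ L := by
    intro w hw x
    obtain ⟨w', h1⟩ := hA w hw
    have h2 := L.sub_mem (h1 x) (L.smul_mem (σ x) (h1 1))
    convert h2 using 1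
    rw [one_smul, smul_sub, smul_smul, div_mul_cancel₀ _ ha1]; abel
  have hgL : ∀ v, g.1 v ∈ L → v ∈ L := fun v hv => by
    obtain ⟨k, hk⟩ := Submodule.mem_span_singleton.1 hv
    obtain ⟨k, rfl⟩ := α.surjective k
    rw [← hα] at hk
    exact g.1.injective hk ▸ hLu k
  have hmul : ∀ x y, a (x * y) = σ x * a y := by
    intro x y
    obtain ⟨w, hw1, -, hw⟩ := hu.exists_nonsingular h.hP h.hd
    have h1 := L.sub_mem (L.add_mem (hB (y • w) (by simp [hw1]) x) (L.smul_mem (σ x) (hB w hw1 y)))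
      (hB w hw1 (x * y))
    have h2 : (σ (x * y) - σ x * σ y) • g.1 w ∈ L := by
      convert h1 using 1
      rw [smul_smul]; module
    by_contra h3
    have h4 : σ (x * y) - σ x * σ y ≠ 0 := fun h4 => h3 (by
      have := congr_arg (· * a 1) h4
      simp only [σ, sub_mul, mul_assoc, div_mul_cancel₀ _ ha1, zero_mul] at this
      exact sub_eq_zero.1 this)
    obtain ⟨k, hk⟩ := Submodule.mem_span_singleton.1 (hgL w ((L.smul_mem_iff h4).1 h2))
    rw [← hk, Q_smul, hu.he, mul_zero] at hw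
    exact hw rfl
  have hmul' : ∀ x y, α (x * y) = σ x * α y := fun x y => eq_of_tr (F := F) fun m => by
    obtain ⟨m, rfl⟩ := a.surjective m
    rw [mul_comm, hrel, show a m * (σ x * α y) = α y * (σ x * a m) by ring, ← hmul, hrel]
    congr 1; ring
  let π : V →ₗ[K] V := (W P u u').subtype ∘ₗ hu.prW
  have hπ : ∀ v, π v = pr P u u' v := fun _ => rfl
  have hπL : ∀ v ∈ L, π v = 0 := fun v hv => by
    obtain ⟨k, rfl⟩ := Submodule.mem_span_singleton.1 hv
    simp [π, hu.prW_e]
  have hπu : ∀ v, polar P (π v) u = 0 := hu.pr_e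
  have hπu' : ∀ v, polar P (π v) u' = 0 := hu.pr_f
  let n₀ : V →ₗ[F] V :=
    { toFun := fun v => α (polar P v u') • u + a (polar P v u) • u' + π (g.1 (π v))
      map_add' := fun v w => by simp only [polar_add_left, map_add, add_smul]; abel
      map_smul' := fun c v => by
        simp only [polar_smul_left_of_tower, map_smul, LinearMap.map_smul_of_tower, smul_assoc,
          RingHom.id_apply, smul_add] }
  have hn₀ : ∀ v, n₀ v = α (polar P v u') • u + a (polar P v u) • u' + π (g.1 (π v)) :=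
    fun _ => rfl
  obtain ⟨n, hn⟩ := exists_O_of_map h.hQ n₀ fun v => by
    have h1 : P (π (g.1 (π v))) = P (g.1 (π v)) := by
      rw [hu.Q_eq (g.1 (π v)), ha, hπu, map_zero, mul_zero, zero_add, hπ]
    rw [hn₀, h.eq, Q_add, hu.Q_lin, h1, polar_comm P _ (π _), polar_add_right, polar_smul_right,
      polar_smul_right, hπu, hπu', smul_zero, smul_zero, add_zero, add_zero, map_add, hrel,
      ← h.eq, O_map, h.eq, h.eq, hu.Q_eq v, map_add, hπ]
  have hns' : ∀ (k : K) v, n.1 (k • v) = σ k • n.1 v := fun k v => by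
    have h1 := hπL _ (hB (π v) (hπu v) k)
    rw [map_sub, sub_eq_zero, π.map_smul] at h1
    rw [hn, hn, hn₀, hn₀, map_smul, h1, polar_smul_left, polar_smul_left, smul_eq_mul, smul_eq_mul,
      hmul, hmul']
    module
  have hy1 : ∀ k : K, (g * n⁻¹).1 (k • u) = k • u := fun k => by
    obtain ⟨k, rfl⟩ := α.surjective k
    have : n.1 (k • u) = α k • u := by
      rw [hn, hn₀, hπL _ (hLu k)]; simp [hu.hef, hu.he]
    rw [O_mul_apply, O_inv_apply_eq n this, hα]
  have hnu : ∀ v, polar P (n.1 v) u = a (polar P v u) := fun v => by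
    rw [hn, hn₀]; simp [hπu, hu.he, hu.hfe]
  have hy2 : ∀ v, polar P v u = 0 → (g * n⁻¹).1 v - v ∈ L := fun v hv => by
    obtain ⟨v, rfl⟩ := n.1.surjective v
    rw [hnu, map_eq_zero_iff _ a.injective] at hv
    rw [O_mul_apply, O_inv_apply_apply, hn, hn₀, hv]
    have h1 : g.1 v = α (polar P v u') • u + g.1 (π v) := by
      conv_lhs => rw [eq_add_pr (Q := P) (e := u) (f := u') v, hv]
      rw [zero_smul, add_zero, map_add, hα, hπ]
    have h2 := eq_add_pr (Q := P) (e := u) (f := u') (g.1 (π v))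
    rw [ha, hπu, map_zero, zero_smul, add_zero, ← hπ] at h2
    convert hLu (polar P (g.1 (π v)) u') using 1
    rw [h1, map_zero, zero_smul]
    linear_combination (norm := module) h2
  have hyc : g * n⁻¹ ∈ commutator (O Q) := by
    refine mem_commutator_of_cubic h.hQ h.five_le h.h2F _ (LinearMap.ext fun v => ?_)
    have h1 : polar P ((g * n⁻¹).1 v - v) u = 0 := by
      rw [polar_sub_left, h.polar_of_fix hy1, sub_self]
    obtain ⟨k, hk⟩ := Submodule.mem_span_singleton.1 (hy2 _ h1)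
    simp only [pow_three, Module.End.mul_apply, LinearMap.sub_apply, Module.End.one_apply,
      LinearEquiv.coe_coe, LinearMap.zero_apply]
    rw [← hk, hy1, sub_self]
  have hnX : n ∈ X := h.hN n (by
    simpa using mul_mem (inv_mem hyc) (h.hX hg)) fun k => ⟨σ k, hns' k⟩
  obtain ⟨w, -, e⟩ := h.eq_eich hu hZ (X.mul_mem hg (X.inv_mem hnX)) hy1 hy2
  refine hns fun k => ⟨σ k, fun v => ?_⟩
  rw [mul_inv_eq_iff_eq_mul.1 e, O_mul_apply, O_mul_apply, hns', res_apply, res_apply, map_smul]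

end caseOne

end OD

end CfsgLib.OMax.Sm
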