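import Mathlib
import Cfsg.Agent.Lib.OMax.ExtS1

/-!
Field extension subgroups of orthogonal groups, degree two and three: a non-trivial element in
the centre of the unipotent radical of a singular `K`-line forces the whole of `Ω`.
-/

set_option autoImplicit false
set_option linter.unusedSectionVars false

namespace CfsgLib.OMax.Sm

open Module CfsgLib.ClMax CfsgLib.OrthE QuadraticMap

variable {F K V : Type*} [Field F] [Field K] [Algebra F K] [AddCommGroup V]
  [Module F V] [Module K V] [IsScalarTower F K V]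
  {Q : QuadraticForm F V} {P : QuadraticForm K V} {X : Subgroup (O Q)}

namespace OD

open CfsgLib.OMax.OD (AS AS_conj)

variable [Finite K]

theorem two_or_three (h : OD Q P X) : finrank F K = 2 ∨ finrank F K = 3 := by
  have := h.hr.two_le
  have := h.hr3
  omega

theorem hasZ_all (h : OD Q P X) {R : AddSubgroup (K →ₗ[F] K)} {σ : K ≃ₐ[F] K} (hσ : σ ≠ 1)
    (hZ : HasZ R σ) (τ : K ≃ₐ[F] K) : HasZ R τ := by
  rcases h.two_or_three with h2 | h3
  · exact all_of_two h2 hσ hZ τ
  have := Fact.mk h.hr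
  obtain ⟨n, rfl⟩ := mem_powers_of_prime_card (card_gal (F := F) (K := K)) (g' := τ) hσ
  have h1 : σ ^ 3 = 1 := by rw [← h3, ← card_gal]; exact pow_card_eq_one'
  beta_reduce
  rw [← Nat.div_add_mod n 3, pow_add, pow_mul, h1, one_pow, one_mul]
  have h4 := Nat.mod_lt n (show 0 < 3 by omega)
  generalize n % 3 = m at h4
  interval_cases m
  · exact hasZ_one
  · rwa [pow_one]
  · rw [eq_inv_of_mul_eq_one_left (h1 ▸ (pow_succ σ 2).symm : σ ^ 2 * σ = 1)]; exact hZ.inv

/-- All of the centre of the unipotent radical of every singular line lies in `X`. -/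
def AllZ (h : OD Q P X) : Prop :=
  ∀ (e : V) (he : P e = 0) (ψ : K →ₗ[F] K), Skew ψ → ψ ∈ h.ZR he

theorem allZ (h : OD Q P X) {u u' : V} (hu : Hyp P u u') {ψ : K →ₗ[F] K} (hψ : ψ ∈ h.ZR hu.he)
    (h0 : ψ ≠ 0) : h.AllZ := by
  obtain ⟨σ, hσ, hZ⟩ := (h.ts hu.he hu.e_ne).exists_hasZ hψ h0
  intro e he φ hφ
  by_cases he0 : e = 0
  · exact ⟨1, X.one_mem, fun v => by simp [he0]⟩
  exact mem_of_all h.h2 (fun τ => h.hasZ_move hu.he he hu.e_ne he0 (h.hasZ_all hσ hZ τ)) hφ

theorem Q_sing (h : OD Q P X) {e : V} (he : P e = 0) (a : K) : Q (a • e) = 0 := by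
  rw [h.eq, Q_smul, he, mul_zero, map_zero]

theorem pol_sing (h : OD Q P X) {e : V} (he : P e = 0) (a b : K) : polar Q (a • e) (b • e) = 0 := by
  rw [h.pol_left]; simp [he]

theorem AllZ.eich_line {h : OD Q P X} (hA : h.AllZ) {e : V} (he : P e = 0) (a b : K) :
    eich Q (a • e) (b • e) ∈ X := by
  let T : K → K → K →ₗ[F] K := fun a b =>
    (LinearMap.toSpanSingleton F K a) ∘ₗ Algebra.trace F K ∘ₗ LinearMap.mulLeft F b
  have hT : ∀ a b y, T a b y = Algebra.trace F K (b * y) • a := fun _ _ _ => rfl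
  obtain ⟨t, ht, e1⟩ := hA e he (T a b - T b a) fun y => by
    simp only [LinearMap.sub_apply, hT, sub_mul, smul_mul_assoc, map_sub, map_smul, smul_eq_mul]
    ring
  convert ht using 1
  refine O_ext fun v => ?_
  rw [e1, eich_apply (h.Q_sing he a) (h.pol_sing he a b), h.Q_sing he, h.pol_right, h.pol_right]
  simp only [LinearMap.sub_apply, hT, sub_smul, smul_assoc, zero_mul, zero_smul]
  abel

theorem Q_sing' (h : OD Q P X) {e : V} (he : P e = 0) : Q e = 0 := by
  rw [h.eq, he, map_zero]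

theorem AllZ.line {h : OD Q P X} (hA : h.AllZ) {e : V} (he : P e = 0) (b : K) :
    b • e ∈ AS X (h.Q_sing' he) :=
  ⟨by simpa using h.pol_sing he 1 b, by simpa using hA.eich_line he 1 b⟩

theorem AllZ.opp_of_three {h : OD Q P X} (hA : h.AllZ) (hr : finrank F K ≠ 2) {u u' : V}
    (hu : Hyp P u u') {m : K} (hm : Algebra.trace F K m = 0) :
    m • u' ∈ AS X (h.Q_sing' hu.he) := by
  obtain ⟨m', hm', hm''⟩ : ∃ m' ∈ LinearMap.ker (Algebra.trace F K), m' ∉ Submodule.span F {m} := by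
    by_contra h1
    push Not at h1
    have h2 := Submodule.finrank_mono (show LinearMap.ker (Algebra.trace F K) ≤ _ from h1)
    have h3 := finrank_span_le_card (R := F) ({m} : Set K)
    have h4 := finrank_ker_tr (F := F) (K := K)
    have h5 := h.hr.two_le
    simp at h3
    omega
  rw [LinearMap.mem_ker] at hm'
  obtain ⟨φ, h1, h2⟩ := exists_dual_one_zero hm''
  obtain ⟨χ, hχ⟩ := exists_dual_lift (V := K) (tr_ne_zero (F := F) (K := K)) φ
  have h3 : ∀ z, Algebra.trace F K (z * χ 1) = φ z := fun z => by simpa using hχ z 1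
  have h4 := AS_conj (h.Q_sing' hu.he) (hA.eich_line hu.hf m m')
    (eich_apply_of_orth (by rw [h.pol_right, hu.hef, mul_one, hm])
      (by rw [h.pol_right, hu.hef, mul_one, hm'])) (hA.line hu.he (χ 1))
  rw [eich_apply (h.Q_sing hu.hf m) (h.pol_sing hu.hf m m'), h.Q_sing hu.hf, h.pol_right,
    h.pol_right, polar_smul_left, hu.hef, smul_eq_mul, mul_one, h3, h3, h1, h2] at h4
  simpa using AddSubgroup.sub_mem _ h4 (hA.line hu.he (χ 1))

theorem exists_tr_zero (h : OD Q P X) : ∃ m : K, m ≠ 0 ∧ Algebra.trace F K m = 0 := by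
  have h4 := finrank_ker_tr (F := F) (K := K)
  have h5 := h.hr.two_le
  obtain ⟨m, hm, hm0⟩ := Submodule.exists_mem_ne_zero_of_ne_bot
    (p := LinearMap.ker (Algebra.trace F K)) (fun h1 => by rw [h1, finrank_bot] at h4; omega)
  exact ⟨m, hm0, hm⟩

theorem AllZ.W_of_three {h : OD Q P X} (hA : h.AllZ) (hr : finrank F K ≠ 2) {u u' : V}
    (hu : Hyp P u u') {w : V} (h1 : polar P w u = 0) (h2 : polar P w u' = 0) :
    w ∈ AS X (h.Q_sing' hu.he) := by
  obtain ⟨m, hm0, hm⟩ := h.exists_tr_zero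
  have h3 := hA.opp_of_three hr hu hm
  have h4 := AS_conj (h.Q_sing' hu.he) (h.res_eich u (m⁻¹ • w)) (eich_apply_self _ _) h3
  rw [res_apply, map_smul, hu.eich_apply_f (by simp [h1]) (by simp [h2])] at h4
  have h5 := AddSubgroup.sub_mem _ (AddSubgroup.sub_mem _ h3 h4) (hA.line hu.he (m * P (m⁻¹ • w)))
  convert h5 using 1
  rw [smul_sub, smul_sub, smul_inv_smul₀ hm0, smul_smul]; abel

theorem AllZ.full {h : OD Q P X} (hA : h.AllZ) (hr : finrank F K ≠ 2) {u : V} (hu : P u = 0)
    (hu0 : u ≠ 0) : EFull X u := fun w h1 => by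
  obtain ⟨u', hu'⟩ := h.hP.exists_hyp hu hu0
  refine ⟨h.Q_sing' hu, h1, ?_⟩
  rw [polar_comm, h.pol] at h1
  rw [eq_add_pr (Q := P) (e := u) (f := u') w]
  exact (AddSubgroup.add_mem _ (AddSubgroup.add_mem _ (hA.line hu _) (hA.opp_of_three hr hu' h1))
    (hA.W_of_three hr hu' (hu'.pr_e w) (hu'.pr_f w))).2

theorem AllZ.le_two {h : OD Q P X} (hA : h.AllZ) (hr : finrank F K = 2) : E Q ≤ X := by
  have := h.fdK
  have := h.fdF
  obtain ⟨u, u', hu⟩ := h.hP.exists_hyp_of_three h.hd
  obtain ⟨σ, hσ, hσ'⟩ := (Nat.card_eq_two_iff' (1 : K ≃ₐ[F] K)).1 (card_gal.trans hr)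
  have htr : ∀ x, algebraMap F K (Algebra.trace F K x) = x + σ x := fun x => by
    rw [trace_eq_sum_automorphisms, Finset.sum_eq_add_of_mem 1 σ (by simp) (by simp) hσ.symm
      fun c _ hc => absurd (hσ' c hc.1) hc.2]
    rfl
  have hσσ : ∀ x, σ (σ x) = x := fun x => by
    have := htr (σ x)
    rw [tr_gal, htr] at this
    linear_combination -this
  have hneg : ∀ x, Algebra.trace F K x = 0 → σ x = -x := fun x hx => by
    have := htr x
    rw [hx, map_zero] at this
    linear_combination -this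
  obtain ⟨δ, hδ0, hδ⟩ := h.exists_tr_zero
  have hδ' := hneg δ hδ
  let ψ : K →ₗ[F] K := LinearMap.mulLeft F δ ∘ₗ σ.toLinearMap
  have hψ : ∀ x, ψ x = δ * σ x := fun _ => rfl
  obtain ⟨t, ht, e⟩ := hA u' hu.hf ψ fun x => (algebraMap F K).injective (by
    rw [htr, hψ, map_mul, map_mul, hσσ, hδ', map_zero]; ring)
  have h1 : EA X (t.1 u) (t.1 (δ • u)) :=
    EA.conj ⟨h.Q_sing' hu.he, (hA.line hu.he δ).1, (hA.line hu.he δ).2⟩ ht
  rw [e, e] at h1
  simp only [hψ, polar_smul_left, hu.hef, smul_eq_mul, mul_one, map_one, hδ'] at h1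
  have hv : P (u + δ • u') = δ := by simp [Q_add, Q_smul, hu.he, hu.hf, hu.hef]
  have hv' : ∀ y, polar P (u + δ • u') y = polar P u y + δ * polar P u' y := fun y => by simp
  have ha : polar P (u + δ • u') (δ • u + (δ * -δ) • u') = 0 := by
    simp [hu.hee, hu.hff, hu.hef, hu.hfe]
  have ha0 : polar P u' (δ • u + (δ * -δ) • u') = δ := by simp [hu.hff, hu.hfe]
  have hvu : polar P u (u + δ • u') = δ := by simp [hu.hee, hu.hef]
  generalize u + δ • u' = v at h1 hv hv' ha hvu
  generalize δ • u + (δ * -δ) • u' = a at h1 ha ha0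
  have hnd : ND P (Submodule.span K {v}) := nd_iff.2 fun x hx h2 => by
    obtain ⟨k, rfl⟩ := Submodule.mem_span_singleton.1 hx
    have := h2 v (Submodule.mem_span_singleton_self v)
    rw [polar_smul_left, polar_self', hv] at this
    rw [show k = 0 by simpa [h.h2, hδ0] using this, zero_smul]
  have hZ := nd_perp h.hP hnd
  have h2 : ∀ z, polar P v z = 0 → EA X v z := fun z hz => by
    refine irr_of_roots h.hP hZ ?_ (fun _ _ => EA.sub) (fun y hy hy0 b hb hyb w hw => ?_) h1
      (fun h3 => ?_) z (mem_perp_one.2 hz)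
    · have h3 := finrank_perp h.hP (Submodule.span K {v})
      rw [finrank_span_singleton (ne_zero_of_Q (hv ▸ hδ0))] at h3
      have := h.hd4 hr
      omega
    · have h3 := hw.conj_sub (h.res_eich y b) (eich_apply_of_orth (mem_perp_one.1 hy)
        (mem_perp_one.1 hb))
      rw [res_apply, eich_ap hy0 hyb] at h3
      exact h3.congr (by abel)
    · rw [nd_iff.1 hZ a (mem_perp_one.2 ha) fun y hy => mem_perp'.1 h3 y hy] at ha0
      exact hδ0 (by simpa using ha0.symm)
  have h3 : EFull X v := fun y hy => by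
    rw [h.pol] at hy
    obtain ⟨c, hc⟩ := exists_of_fixed h.hr hσ (y := polar P v y / (2 * δ)) (by
      rw [map_div₀, map_mul, map_ofNat, hneg _ hy, hδ', mul_neg, neg_div_neg_eq])
    refine ((h2 (y - c • v) ?_).add_self c).congr (by abel)
    have := h.h2
    rw [← algebraMap_smul K, hc, polar_sub_right, polar_smul_right, polar_self', hv, smul_eq_mul]
    field_simp; ring
  obtain ⟨w, b1, b2, b3⟩ : ∃ w, polar P w u = 0 ∧ polar P w u' = 0 ∧ Q w ≠ 0 := by
    obtain ⟨w, b1, b2, b3⟩ := hu.exists_nonsingular h.hP h.hd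
    by_contra h4
    push Not at h4
    have h5 : ∀ k : K, Algebra.trace F K (k * k * P w) = 0 := fun k => by
      rw [← Q_smul, ← h.eq]; exact h4 _ (by simp [b1]) (by simp [b2])
    refine mul_ne_zero h.h2 b3 (eq_of_tr (F := F) fun k => ?_)
    rw [show k * (2 * P w) = (k + 1) * (k + 1) * P w - k * k * P w - 1 * 1 * P w by ring, map_sub,
      map_sub, h5, h5, h5]; simp
  refine E_le_of_two h.hQ (by have := h.five_le; omega) h1.sing (by rw [O_map, h1.sing]) h3
    (h3.conj (h.res_eich u w)) ?_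
  obtain ⟨c, hc⟩ := exists_of_fixed h.hr hσ (y := δ * δ) (by rw [map_mul, hδ', neg_mul_neg])
  have hc0 : c ≠ 0 := by rintro rfl; simp [hδ0] at hc
  have h4 : polar P v w = 0 := by rw [hv', pc b1, pc b2]; simp
  rw [h.pol, res_apply, eich_ap hu.he (pc b1), polar_sub_right, polar_add_right, polar_smul_right,
    polar_smul_right, h4, pc h4, hvu, polar_self', hv, polar_comm P v u, hvu, smul_eq_mul,
    show 2 * δ + (0 - P w * δ) * δ - δ • (0 : K) = (2 : F) • δ - c • P w by
      rw [two_smul, Algebra.smul_def c, hc]; simp; ring, map_sub, map_smul, map_smul, hδ, ← h.eq]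
  simp [hc0, b3]

theorem AllZ.le {h : OD Q P X} (hA : h.AllZ) : commutator (O Q) ≤ X := by
  have : Finite F := Finite.of_injective _ (algebraMap F K).injective
  have := h.fdK
  have := h.fdF
  rw [← h.hQ.E_eq_commutator_of_finite h.five_le]
  by_cases hr : finrank F K = 2
  · exact hA.le_two hr
  obtain ⟨u, u', hu⟩ := h.hP.exists_hyp_of_three h.hd
  obtain ⟨k, hk⟩ := exists_tr_eq (F := F) (one_ne_zero (α := K)) 1
  have hk0 : k ≠ 0 := by rintro rfl; simp at hk
  exact E_le_of_two h.hQ (by have := h.five_le; omega) (h.Q_sing' hu.he) (h.Q_sing hu.hf k)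
    (hA.full hr hu.he hu.e_ne) (hA.full hr (by rw [Q_smul, hu.hf, mul_zero])
      (smul_ne_zero hk0 hu.f_ne)) (by rw [h.pol_right, hu.hef, hk]; exact one_ne_zero)

/-- If the stabiliser of a singular `K`-line is not semilinear, `X` is all of `Ω`. -/
theorem le_of_stab (h : OD Q P X) {u u' : V} (hu : Hyp P u u') {g : O Q} (hg : g ∈ X)
    (hst : ∀ k : K, g.1 (k • u) ∈ Submodule.span K {u}) (hns : ¬ SemiK K g.1) :
    commutator (O Q) ≤ X :=
  let ⟨_, hψ, h0⟩ := h.exists_ZR_ne hu hg hst hns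
  (h.allZ hu hψ h0).le

end OD

end CfsgLib.OMax.Sm
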