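import Mathlib
import Cfsg.Agent.Lib.OMax.ExtS2

/-!
Field extension subgroups of orthogonal groups, degree two and three: the geometry of the
conjugates of a singular `K`-line whose stabiliser is semilinear; dimension at least four.
-/

set_option autoImplicit false
set_option linter.unusedSectionVars false

namespace CfsgLib.OMax.Sm

open Module CfsgLib.ClMax CfsgLib.OrthE QuadraticMap

variable {F K V : Type*} [Field F] [Field K] [Algebra F K] [AddCommGroup V]
  [Module F V] [Module K V] [IsScalarTower F K V]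
  {Q : QuadraticForm F V} {P : QuadraticForm K V} {X : Subgroup (O Q)}

theorem finrank_Ln {e : V} (he : e ≠ 0) : finrank F (Ln F K e) = finrank F K := by
  have h1 : Ln F K e = LinearMap.range ((LinearMap.toSpanSingleton K V e).restrictScalars F) := by
    ext v; rw [mem_Ln]; rfl
  rw [h1]
  exact LinearMap.finrank_range_of_inj (smul_left_injective K he)

theorem fixSp_conj (t g : O Q) : fixSp (g⁻¹ * t * g) = act g⁻¹ (fixSp t) := by
  ext v
  rw [mem_act, mem_fixSp, mem_fixSp, inv_inv, O_mul_apply, O_mul_apply]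
  exact ⟨fun h => by rw [← O_apply_inv_apply g (t.1 _), h], fun h => by rw [h, O_inv_apply_apply]⟩

theorem O_pow_fix {t : O Q} {v : V} (h : t.1 v = v) (n : ℕ) : (t ^ n).1 v = v := by
  induction n with
  | zero => rfl
  | succ n ih => rw [pow_succ, O_mul_apply, h, ih]

variable (K) in
/-- The elements that are rigid on the conjugates of `K u`. -/
def Rg (X : Subgroup (O Q)) (u : V) (t : O Q) : Prop :=
  Big K t ∨ (finrank F K = 2 ∧ ∃ n, t ^ (2 * n + 1) = 1) ∨
    (finrank K V = 3 ∧ finrank F K = 3 ∧ Good K X u (fixSp t))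

theorem Rg.conj [FiniteDimensional F V] {u : V} {t : O Q} (h : Rg K X u t) {g : O Q}
    (hg : g ∈ X) : Rg K X u (g⁻¹ * t * g) := by
  rcases h with h | ⟨h1, n, h⟩ | ⟨h1, h2, h⟩
  · exact Or.inl (h.conj g)
  · refine Or.inr (Or.inl ⟨h1, n, ?_⟩)
    have := conj_pow (a := g⁻¹) (b := t) (i := 2 * n + 1)
    rw [inv_inv] at this
    rw [this, h, mul_one, inv_mul_cancel]
  · exact Or.inr (Or.inr ⟨h1, h2, fixSp_conj t g ▸ h.act (X.inv_mem hg)⟩)

namespace OD

variable [Finite K]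

theorem big_of_two (h : OD Q P X) (h9 : finrank F K = 3) (h4 : 4 ≤ finrank K V) {t : O Q} (a b : V)
    (ht : ∀ v, polar P v a = 0 → polar P v b = 0 → t.1 v = v) : Big K t := by
  have := h.fdF
  let φ : V →ₗ[F] K × K := (((polarBilin P).flip a).prod ((polarBilin P).flip b)).restrictScalars F
  have h1 : LinearMap.ker φ ≤ fixSp t := fun v hv =>
    mem_fixSp.2 (ht v (congr_arg Prod.fst hv) (congr_arg Prod.snd hv))
  have h2 := Submodule.finrank_mono h1
  have h3 := φ.finrank_range_add_finrank_ker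
  have h5 := Submodule.finrank_le (LinearMap.range φ)
  rw [finrank_prod] at h5
  rw [← finrank_mul_finrank F K V] at h3
  unfold Big
  rw [h9] at h3 h5
  omega

theorem lin_of_big (h : OD Q P X) {t : O Q} (hs : SemiK K t.1) (hb : Big K t) (k : K) (v : V) :
    t.1 (k • v) = k • t.1 v := by
  have := h.fdK
  have := h.fdF
  have : Nontrivial V := Module.nontrivial_of_finrank_pos (R := K) (by have := h.hd; omega)
  obtain ⟨σ, hσ⟩ := exists_aut_of_semiK hs
  by_cases h1 : σ = 1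
  · rw [hσ, h1]; rfl
  let b := Module.finBasis F (fixSp t)
  have h2 := linearIndependent_of_fixed h.hr h1 hσ _ (fun i => (b i : V))
    (b.linearIndependent.map' (fixSp t).subtype (Submodule.ker_subtype _))
    fun i => mem_fixSp.1 (b i).2
  have h3 := h2.fintype_card_le_finrank
  rw [Fintype.card_fin] at h3
  exact absurd hb (not_lt.2 h3)

theorem good_line (h : OD Q P X) {u e : V} (hu : P u = 0) (hu0 : u ≠ 0) (he : P e = 0)
    (he0 : e ≠ 0) : Good K X u (Ln F K e) := by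
  obtain ⟨g, hg, b, hb, h1⟩ := h.move hu0 he0 hu he
  refine ⟨_, hg, le_antisymm (fun v hv => ?_) ?_⟩
  · obtain ⟨k, rfl⟩ := mem_Ln.1 hv
    refine ⟨(k * b⁻¹) • u, smul_mem_Ln _ _, ?_⟩
    change g.1 _ = _
    rw [map_smul, h1, smul_smul, inv_mul_cancel_right₀ hb]
  · rintro _ ⟨v, hv, rfl⟩
    obtain ⟨k, rfl⟩ := mem_Ln.1 hv
    change g.1 _ ∈ _
    rw [map_smul, h1, smul_smul]
    exact smul_mem_Ln _ _

theorem rg_eich (h : OD Q P X) {u : V} (hu : P u = 0) (hu0 : u ≠ 0) (e w : V) :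
    Rg K X u (h.res (eich P e w)) := by
  have := h.fdK
  have := h.fdF
  by_cases h0 : eich P e w = 1
  · left
    have h1 : fixSp (1 : O Q) = ⊤ := eq_top_iff.2 fun v _ => mem_fixSp.2 rfl
    have h2 := h.hr.two_le
    have h3 := h.hd
    rw [h0, map_one, Big, h1, finrank_top, ← finrank_mul_finrank F K V]
    nlinarith
  obtain ⟨he, hw⟩ : P e = 0 ∧ polar P e w = 0 := by_contra fun h1 => h0 (eich_of_not h1)
  rcases h.two_or_three with h2 | h2
  · obtain ⟨p, hp⟩ := CharP.exists K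
    obtain ⟨n, hn⟩ := (CharP.char_is_prime K p).odd_of_ne_two (by
      rintro rfl; exact h.h2 (by exact_mod_cast CharP.cast_eq_zero K 2))
    exact Or.inr (Or.inl ⟨h2, n, by rw [← hn, ← map_pow, eich_pow_nat he hw, CharP.cast_eq_zero,
      zero_smul, eich_zero_right, map_one]⟩)
  by_cases h4 : 4 ≤ finrank K V
  · exact Or.inl (h.big_of_two h2 h4 e w fun _ h1 h2 => eich_apply_of_orth h1 h2)
  have h3 : finrank K V = 3 := by have := h.hd; omega
  have he0 : e ≠ 0 := by
    rintro rfl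
    exact h0 (O_ext fun v => by simp [eich_apply he hw])
  obtain ⟨f, hf⟩ := h.hP.exists_hyp he he0
  refine Or.inr (Or.inr ⟨h3, h2, ?_⟩)
  convert h.good_line hu hu0 he he0 using 1
  ext v
  rw [mem_fixSp, mem_Ln]
  refine ⟨fix_eich hf h.hP h.h2 h3 hw h0, ?_⟩
  rintro ⟨k, rfl⟩
  rw [res_apply, map_smul, eich_apply_self]

theorem exists_rot (h : OD Q P X) (U : Submodule K V)
    (hU : ∀ x ∈ U, x ≠ 0 → ∃ y ∈ U, polar P x y ≠ 0) (h2 : 2 ≤ finrank K U) {m : V}
    (hm : ∃ y ∈ U, polar P m y ≠ 0) :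
    ∃ t ∈ X, (∀ x, (∀ y ∈ U, polar P x y = 0) → t.1 x = x) ∧ (t ^ finrank F K).1 m ≠ m := by
  have := h.fdK
  obtain ⟨a, haU, ha, ham⟩ : ∃ a ∈ U, P a ≠ 0 ∧ polar P m a ≠ 0 := by
    obtain ⟨y, hy, hy'⟩ := hm
    by_cases h0 : P y = 0
    swap
    · exact ⟨y, hy, h0, hy'⟩
    obtain ⟨z, hz, hz'⟩ := hU y hy (by rintro rfl; simp at hy')
    obtain ⟨c, hc1, hc2⟩ := exists_ne_ne h.h2 (-P z / polar P y z) (-polar P m z / polar P m y)
    refine ⟨z + c • y, U.add_mem hz (U.smul_mem c hy), fun h1 => hc1 ?_, fun h1 => hc2 ?_⟩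
    · rw [Q_add, Q_smul, h0, polar_smul_right, polar_comm, smul_eq_mul] at h1
      field_simp; linear_combination h1
    · rw [polar_add_right, polar_smul_right, smul_eq_mul] at h1
      field_simp; linear_combination h1
  obtain ⟨c₀, hcU, hc0, hac⟩ : ∃ c ∈ U, c ≠ 0 ∧ polar P a c = 0 := by
    let φ : U →ₗ[K] K := polarBilin P a ∘ₗ U.subtype
    have h3 := φ.finrank_range_add_finrank_ker
    have h4 := Submodule.finrank_le (LinearMap.range φ)
    rw [finrank_self] at h4
    obtain ⟨c, hc, hc0⟩ := Submodule.exists_mem_ne_zero_of_ne_bot (p := LinearMap.ker φ)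
      (fun h1 => by rw [h1, finrank_bot] at h3; omega)
    exact ⟨c, c.2, fun h1 => hc0 (Subtype.ext h1), hc⟩
  have h2 := h.h2
  obtain ⟨c, hcU, hc, hac⟩ : ∃ c ∈ U, P c ≠ 0 ∧ polar P a c = 0 := by
    by_cases h0 : P c₀ = 0
    swap
    · exact ⟨c₀, hcU, h0, hac⟩
    obtain ⟨y, hy, hy'⟩ := hU c₀ hcU hc0
    have h1 : polar P a (y - (polar P a y / (2 * P a)) • a) = 0 := by
      rw [polar_sub_right, polar_smul_right, polar_self', smul_eq_mul]; field_simp; ring
    have h3 : polar P c₀ (y - (polar P a y / (2 * P a)) • a) ≠ 0 := by simpa [pc hac]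
    have h4 := U.sub_mem hy (U.smul_mem (polar P a y / (2 * P a)) haU)
    generalize y - (polar P a y / (2 * P a)) • a = z at h1 h3 h4
    by_cases h5 : P z = 0
    · exact ⟨c₀ + z, U.add_mem hcU h4, by rwa [Q_add, h0, h5, zero_add, zero_add],
        by simp [hac, h1]⟩
    · exact ⟨z, h4, h5, h1⟩
  obtain ⟨x, hx⟩ : ∃ x : K, ∀ d : F, algebraMap F K d * P a ≠ x * x * P c := by
    by_contra h1
    push Not at h1
    obtain ⟨y, hy⟩ := exists_not_mem_range (F := F) (K := K) h.hr.two_le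
    obtain ⟨d₁, e₁⟩ := h1 1
    obtain ⟨d₂, e₂⟩ := h1 y
    obtain ⟨d₃, e₃⟩ := h1 (y + 1)
    have h3 : algebraMap F K d₁ ≠ 0 := fun h3 => hc (by simpa [h3] using e₁.symm)
    refine hy (Submodule.mem_span_singleton.2 ⟨(d₃ - d₂ - d₁) / (2 * d₁), ?_⟩)
    rw [Algebra.smul_def, map_div₀, map_mul, map_ofNat, map_sub, map_sub, mul_one,
      div_eq_iff (mul_ne_zero h2 h3)]
    refine mul_right_cancel₀ ha ?_
    linear_combination e₃ - e₂ - e₁ - 2 * y * e₁
  have hx0 : x ≠ 0 := fun h1 => hx 0 (by simp [h1])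
  have hβ : P a + x * x * P c ≠ 0 := fun h1 => hx (-1) (by simp; linear_combination -h1)
  have hb : P (a + x • c) = P a + x * x * P c := by rw [Q_add, Q_smul]; simp [hac]
  have hbU : a + x • c ∈ U := U.add_mem haU (U.smul_mem x hcU)
  have e1 : (refl P (a + x • c) * refl P a).1 a = (2 * P a / (P a + x * x * P c) - 1) • a +
      (2 * P a / (P a + x * x * P c) * x) • c := by
    rw [O_mul_apply, refl_apply_self ha, map_neg, refl_apply, hb]
    simp only [polar_add_right, polar_smul_right, polar_self', hac, smul_zero, add_zero]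
    match_scalars <;> field_simp <;> ring
  have e2 : (refl P (a + x • c) * refl P a).1 c = (-(2 * x * P c / (P a + x * x * P c))) • a +
      (1 - 2 * x * P c / (P a + x * x * P c) * x) • c := by
    rw [O_mul_apply, refl_apply_of_orth (pc hac), refl_apply, hb]
    simp only [polar_add_right, polar_smul_right, polar_self', pc hac, zero_add, smul_eq_mul]
    match_scalars <;> field_simp <;> ring
  generalize a + x • c = b at hbU e1 e2
  refine ⟨_, h.res_sq (refl P a * refl P b), fun v hv => by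
    simp only [res_apply, O_mul_apply, refl_apply_of_orth (hv a haU),
      refl_apply_of_orth (hv b hbU)], fun h1 => ?_⟩
  have h3 : ∀ n : ℕ, (refl P a * refl P b * (refl P a * refl P b)) ^ n =
      refl P a * refl P (((refl P b * refl P a) ^ n).1 a) := fun n => by
    have h4 : refl P a * (refl P b * refl P a) ^ n * (refl P a)⁻¹ = (refl P a * refl P b) ^ n := by
      rw [← conj_pow]; congr 1; group
    have h5 : ((refl P b * refl P a) ^ n)⁻¹ = (refl P a * refl P b) ^ n := by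
      rw [← inv_pow, mul_inv_rev, refl_inv, refl_inv]
    rw [← conj_refl, h5, ← pow_two, ← pow_mul, mul_comm 2, pow_mul, pow_two]
    conv_lhs => lhs; rw [← h4, refl_inv]
    group
  rw [← map_pow, res_apply, h3, O_mul_apply] at h1
  have h4 := O_inv_apply_eq _ h1
  rw [refl_inv, refl_apply, refl_apply, sub_right_inj] at h4
  generalize refl P b * refl P a = ρ at h4 e1 e2
  generalize (P ((ρ ^ finrank F K).1 a))⁻¹ * polar P m ((ρ ^ finrank F K).1 a) = s at h4
  have hs : s ≠ 0 := by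
    rintro rfl
    simp [ha, ham, ne_zero_of_Q ha] at h4
  have h6 := congr_arg (polar P c) h4
  rw [polar_smul_right, polar_smul_right, pc hac, smul_zero, eq_comm, smul_eq_mul,
    mul_eq_zero_iff_left hs] at h6
  generalize hβ' : P a + x * x * P c = β at e1 e2 hβ
  rcases h.two_or_three with hr | hr
  · simp only [hr, pow_two, O_mul_apply, e1, e2, map_add, map_smul, polar_add_right,
      polar_smul_right, pc hac, polar_self', smul_eq_mul] at h6
    have h7 : 2 * 2 * 2 * P a * x * P c * (1 * P a - x * x * P c) = 0 := by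
      rw [← mul_zero (β ^ 2), ← h6]; field_simp; rw [← hβ']; ring
    exact hx 1 (by rw [map_one]; exact sub_eq_zero.1 (by simpa [h2, ha, hx0, hc] using h7))
  · simp only [hr, pow_three, O_mul_apply, e1, e2, map_add, map_smul, polar_add_right,
      polar_smul_right, pc hac, polar_self', smul_eq_mul] at h6
    have h7 : 2 * 2 * P a * x * P c * ((P a - 3 * (x * x * P c)) * (3 * P a - x * x * P c)) = 0 := by
      rw [← mul_zero (β ^ 3), ← h6]; field_simp; rw [← hβ']; ring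
    rcases mul_eq_zero.1 ((mul_eq_zero.1 h7).resolve_left (by simp [h2, ha, hx0, hc])) with h7 | h7
    · have h8 : (3 : K) ≠ 0 := fun h8 => ha (by rw [h8] at h7; simpa using h7)
      refine hx 3⁻¹ ?_
      rw [map_inv₀, map_ofNat, sub_eq_zero.1 h7, inv_mul_cancel_left₀ h8]
    · exact hx 3 (by rw [map_ofNat]; exact sub_eq_zero.1 h7)

theorem exists_big_move (h : OD Q P X) {u : V} (hu : P u = 0) (hu0 : u ≠ 0) {v v' : V} (hv : v ≠ 0) (hv' : v' ∉ Ln F K v) :
    ∃ t ∈ X, t.1 v = v ∧ (Rg K X u t ∧ t.1 v' ≠ v' ∨ (t ^ finrank F K).1 v' ≠ v') := by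
  have := h.fdK
  by_cases h0 : P v = 0
  · obtain ⟨z, hz⟩ := h.hP.exists_hyp h0 hv
    by_cases h1 : polar P v' v = 0
    · have h2 : pr P v z v' ≠ 0 := fun h2 => hv' (by
        rw [eq_of_pr_eq_zero h2 h1]; exact smul_mem_Ln _ _)
      obtain ⟨w, a1, a2, a3⟩ := hz.exists_orth_polar h.hP (hz.pr_e v') (hz.pr_f v') h2 1
      rw [polar_pr_of_orth a1 a2, polar_comm] at a3
      refine ⟨_, h.res_eich v w, eich_apply_self _ _, Or.inl ⟨h.rg_eich hu hu0 _ _, ?_⟩⟩
      rw [res_apply, eich_apply h0 (by rw [polar_comm, a1]), h1, a3]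
      simpa using hv
    · obtain ⟨w, a1, -, a3⟩ := hz.exists_nonsingular h.hP h.hd
      have a1' : polar P v w = 0 := by rw [polar_comm, a1]
      refine ⟨_, h.res_eich v w, eich_apply_self _ _, Or.inl ⟨h.rg_eich hu hu0 _ _, fun h2 => ?_⟩⟩
      have h3 := congr_arg (fun x => polar P x w) h2
      simp [res_apply, eich_apply h0 a1', a1', h1, a3, h.h2] at h3
  · let U := LinearMap.ker (polarBilin P v)
    have hU : ∀ x, x ∈ U ↔ polar P v x = 0 := fun _ => Iff.rfl
    have h1 : ∀ y, y - (polar P v y / (2 * P v)) • v ∈ U := fun y => by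
      have := h.h2
      rw [hU, polar_sub_right, polar_smul_right, polar_self', smul_eq_mul]; field_simp; ring
    have h2 : ∀ x ∈ U, x ≠ 0 → ∃ y ∈ U, polar P x y ≠ 0 := fun x hx hx0 => by
      obtain ⟨y, hy⟩ := h.hP.exists_eq hx0 1
      refine ⟨_, h1 y, ?_⟩
      rw [polar_sub_right, polar_smul_right, polar_comm P x v, (hU x).1 hx, polar_comm, hy]; simp
    obtain ⟨t, ht, h3, h4⟩ := h.exists_rot U h2 (by
      have h3 := (polarBilin P v).finrank_range_add_finrank_ker
      have h4 := Submodule.finrank_le (LinearMap.range (polarBilin P v))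
      rw [finrank_self] at h4
      have := h.hd
      simp only [U]
      omega) (m := v') (by
      obtain ⟨y, hy, hy'⟩ := h2 _ (h1 v') fun h3 => hv' (by
        rw [sub_eq_zero.1 h3]; exact smul_mem_Ln _ _)
      refine ⟨y, hy, ?_⟩
      rwa [polar_sub_left, polar_smul_left, (hU y).1 hy, smul_zero, sub_zero] at hy')
    exact ⟨t, ht, h3 v fun y hy => hy, Or.inr h4⟩

end OD

/-- The stabiliser in `X` of the singular line `K u` is semilinear. -/
structure C2 (Q : QuadraticForm F V) (P : QuadraticForm K V) (X : Subgroup (O Q)) (u u' : V) :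
    Prop extends OD Q P X where
  hu : Hyp P u u'
  semi : ∀ g ∈ X, (∀ k : K, g.1 (k • u) ∈ Ln F K u) → SemiK K g.1

namespace C2

variable [Finite K] {u u' : V}

theorem fix_of_lin {t g : O Q} (h1 : ∀ (k : K) v, (g⁻¹ * t * g).1 (k • v) = k • (g⁻¹ * t * g).1 v)
    {v : V} (hv : v ∈ act g (Ln F K u)) (hv0 : v ≠ 0) (hfix : t.1 v = v) {m : V}
    (hm : m ∈ act g (Ln F K u)) : t.1 m = m := by
  obtain ⟨k, hk⟩ := mem_Ln.1 (mem_act.1 hv)
  obtain ⟨k', hk'⟩ := mem_Ln.1 (mem_act.1 hm)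
  have hk0 : k ≠ 0 := by
    rintro rfl
    exact O_apply_ne_zero g⁻¹ hv0 (by rw [← hk, zero_smul])
  have h2 : (g⁻¹ * t * g).1 (k • u) = k • u := by
    rw [hk, O_mul_apply, O_mul_apply, O_apply_inv_apply, hfix]
  rw [h1] at h2
  have h3 := h1 k' u
  rw [smul_right_injective V hk0 h2, hk', O_mul_apply, O_mul_apply, O_apply_inv_apply] at h3
  exact (g⁻¹).1.injective h3

theorem semi_conj (h : C2 Q P X u u') {t g : O Q} (ht : t ∈ X) (hg : g ∈ X)
    (hst : ∀ m ∈ act g (Ln F K u), t.1 m ∈ act g (Ln F K u)) : SemiK K (g⁻¹ * t * g).1 :=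
  h.semi _ (X.mul_mem (X.mul_mem (X.inv_mem hg) ht) hg)
    fun k => mem_act.1 (hst _ (apply_mem_act.2 (smul_mem_Ln k u)))

theorem rigid_pow (h : C2 Q P X u u') {t : O Q} (ht : t ∈ X) {M : Submodule F V}
    (hM : Good K X u M) (hst : ∀ m ∈ M, t.1 m ∈ M) {v : V} (hv : v ∈ M) (hv0 : v ≠ 0)
    (hfix : t.1 v = v) {m : V} (hm : m ∈ M) : (t ^ finrank F K).1 m = m := by
  obtain ⟨g, hg, rfl⟩ := hM
  have : Nontrivial V := nontrivial_of_ne _ _ hv0
  obtain ⟨σ, hσ⟩ := exists_aut_of_semiK (h.semi_conj ht hg hst)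
  have h1 : ∀ (n : ℕ) (k : K) v,
      ((g⁻¹ * t * g) ^ n).1 (k • v) = (σ ^ n) k • ((g⁻¹ * t * g) ^ n).1 v := fun n => by
    induction n with
    | zero => intro k v; rfl
    | succ n ih => intro k v; rw [pow_succ, pow_succ, O_mul_apply, hσ, ih]; rfl
  refine fix_of_lin (g := g) (fun k v => ?_) hv hv0 (O_pow_fix hfix _) hm
  have h2 := conj_pow (a := g⁻¹) (b := t) (i := finrank F K)
  rw [inv_inv] at h2
  rw [← h2, h1, ← card_gal, pow_card_eq_one']; rfl

theorem not_good (h : C2 Q P X u u') (h3 : finrank K V = 3) (hr : finrank F K = 3) {x : O Q}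
    {σ : K ≃ₐ[F] K} (hσ : ∀ (k : K) v, x.1 (k • v) = σ k • x.1 v) (hσ1 : σ ≠ 1)
    (hG : Good K X u (fixSp x)) {e : V} (he : P e = 0) (he0 : e ≠ 0) (hxe : x.1 e = e) :
    False := by
  have := h.fdK
  have := h.fdF
  have h2 := h.h2
  have hspan : ∀ z, z ≠ 0 → ∃ y, x.1 y = y ∧ polar P z y ≠ 0 := fun z hz => by
    by_contra h1
    push Not at h1
    let b := Module.finBasis F (fixSp x)
    have h4 := linearIndependent_of_fixed h.hr hσ1 hσ _ (fun i => (b i : V))
      (b.linearIndependent.map' (fixSp x).subtype (Submodule.ker_subtype _))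
      fun i => mem_fixSp.1 (b i).2
    have h5 : finrank F (fixSp x) = finrank K V := by
      obtain ⟨g, -, e⟩ := hG
      rw [e, finrank_act, finrank_Ln h.hu.e_ne, hr, h3]
    have h6 := h4.span_eq_top_of_card_eq_finrank' (by rw [Fintype.card_fin, h5])
    have h7 : Submodule.span K (Set.range fun i => (b i : V)) ≤ LinearMap.ker (polarBilin P z) :=
      Submodule.span_le.2 (by rintro _ ⟨i, rfl⟩; exact h1 _ (mem_fixSp.1 (b i).2))
    exact hz (h.hP z fun y => h7 (h6 ▸ Submodule.mem_top))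
  have hpol : ∀ y z, x.1 y = y → x.1 z = z → σ (polar P y z) = polar P y z := fun y z hy hz =>
    eq_of_tr (F := F) fun k => by
      obtain ⟨k, rfl⟩ := σ.surjective k
      rw [← map_mul, tr_gal, ← h.pol_left, ← h.pol_left, ← O_polar x, hσ, hy, hz]
  have hval : ∀ y, x.1 y = y → σ (P y) = P y := fun y hy => mul_left_cancel₀ h2 (by
    have := hpol y y hy hy
    rwa [polar_self', map_mul, map_ofNat] at this)
  obtain ⟨f₀, hf₀, hβ⟩ := hspan e he0
  have hy₀ : x.1 ((polar P e f₀)⁻¹ • f₀) = (polar P e f₀)⁻¹ • f₀ := by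
    rw [hσ, map_inv₀, hpol _ _ hxe hf₀, hf₀]
  have hf := hyp_of_polar he (y := (polar P e f₀)⁻¹ • f₀) (by simp [polar_comm P f₀ e, hβ])
  generalize (polar P e f₀)⁻¹ • f₀ = y₀ at hf hy₀
  have hxf : x.1 (y₀ - P y₀ • e) = y₀ - P y₀ • e := by rw [map_sub, hy₀, hσ, hval _ hy₀, hxe]
  generalize y₀ - P y₀ • e = f at hf hxf
  obtain ⟨w₀, a1, a2, a3, a4⟩ := exists_gen_W hf h.hP h3
  obtain ⟨y, hy, hy'⟩ := hspan w₀ (ne_zero_of_Q a3)
  have hw : P (pr P e f y) ≠ 0 := by
    obtain ⟨c, hc⟩ := a4 y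
    rw [← polar_pr_of_orth a1 a2, hc] at hy'
    rw [hc, Q_smul]
    have : c ≠ 0 := by rintro rfl; simp at hy'
    simp [this, a3]
  have hxw : x.1 (pr P e f y) = pr P e f y := by
    rw [pr_def, map_sub, map_sub, hσ, hσ, hpol _ _ hy hxf, hpol _ _ hy hxe, hy, hxe, hxf]
  have b1 := hf.pr_e y
  have b2 := hf.pr_f y
  generalize pr P e f y = w at hw hxw b1 b2
  have hb : P (e + P w • f) = P w := by simp [Q_add, Q_smul, hf.he, hf.hf, hf.hef]
  have hbw : polar P w (e + P w • f) = 0 := by simp [b1, b2]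
  have hxb : x.1 (e + P w • f) = e + P w • f := by rw [map_add, hσ, hval _ hxw, hxe, hxf]
  have hxc : x.1 (e - P w • f) = e - P w • f := by rw [map_sub, hσ, hval _ hxw, hxe, hxf]
  have hcb : polar P (e - P w • f) (e + P w • f) = 0 := by
    simp [hf.hee, hf.hff, hf.hef, hf.hfe]
  have hcw : polar P (e - P w • f) w = 0 := by simp [pc b1, pc b2]
  have hc0 : e - P w • f ≠ 0 := ne_zero_of_polar (Q := P) (y := f) (by simp [hf.hef, hf.hff])
  generalize e + P w • f = b at hb hbw hxb hcb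
  generalize e - P w • f = c at hxc hcb hcw hc0
  have hj : refl P w * refl P b = refl P (b - w) * refl P b * (refl P (b - w) * refl P b) := by
    conv_lhs => rw [← OrthE.refl_sub_apply (Q := P) (x := b) (y := w) hb (by
      rw [Q_sub, hb, pc hbw]; simpa [← two_mul, h2] using hw), ← conj_refl, refl_inv]
    group
  have hr' : ∀ a, x.1 a = a → ∀ y, x.1 y = y → x.1 ((refl P a).1 y) = (refl P a).1 y :=
    fun a ha y hy => by
      rw [refl_apply, map_sub, hσ, map_mul, map_inv₀, hval _ ha, hpol _ _ hy ha, hy, ha]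
  have h4 := h.rigid_pow (t := h.res (refl P w * refl P b)) (hj ▸ h.res_sq _) hG
    (fun m hm => mem_fixSp.2 (hr' _ hxw _ (hr' _ hxb _ (mem_fixSp.1 hm)))) (mem_fixSp.2 hxc) hc0
    (by rw [OD.res_apply, O_mul_apply, refl_apply_of_orth hcb, refl_apply_of_orth hcw])
    (mem_fixSp.2 hxw)
  simp only [hr, pow_three, OD.res_apply, O_mul_apply, refl_apply_of_orth hbw, refl_apply_self hw,
    map_neg, neg_neg] at h4
  have h5 := congr_arg (polar P w) h4
  rw [polar_neg_right, polar_self'] at h5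
  exact mul_ne_zero h2 (mul_ne_zero h2 hw) (by linear_combination -h5)

theorem rigid (h : C2 Q P X u u') {t : O Q} (ht : t ∈ X) (hb : Rg K X u t) {M : Submodule F V}
    (hM : Good K X u M) (hst : ∀ m ∈ M, t.1 m ∈ M) {v : V} (hv : v ∈ M) (hv0 : v ≠ 0)
    (hfix : t.1 v = v) {m : V} (hm : m ∈ M) : t.1 m = m := by
  have := h.fdF
  rcases hb with hb | ⟨h1, n, hb⟩ | ⟨h1, h2, hb⟩
  · obtain ⟨g, hg, rfl⟩ := hM
    exact fix_of_lin (h.lin_of_big (h.semi_conj ht hg hst) (hb.conj g)) hv hv0 hfix hm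
  · have h2 := h.rigid_pow ht hM hst hv hv0 hfix hm
    have h3 := congr_arg (fun s : O Q => s.1 m) hb
    beta_reduce at h3
    rwa [pow_succ', pow_mul, O_mul_apply, O_pow_fix (h1 ▸ h2)] at h3
  · obtain ⟨g, hg, rfl⟩ := hM
    have : Nontrivial V := nontrivial_of_ne _ _ hv0
    obtain ⟨σ, hσ⟩ := exists_aut_of_semiK (h.semi_conj ht hg hst)
    by_cases h3 : σ = 1
    · exact fix_of_lin (by simpa [h3] using hσ) hv hv0 hfix hm
    obtain ⟨k, hk⟩ := mem_Ln.1 (mem_act.1 hv)
    exact (h.not_good h1 h2 hσ h3 (fixSp_conj t g ▸ hb.act (X.inv_mem hg)) (e := (g⁻¹).1 v)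
      (by rw [← hk, Q_smul, h.hu.he, mul_zero]) (O_apply_ne_zero g⁻¹ hv0)
      (by rw [O_mul_apply, O_mul_apply, O_apply_inv_apply, hfix])).elim

theorem flexM (h : C2 Q P X u u') {M : Submodule F V} (hM : Good K X u M) {v m₀ : V} (hv : v ∉ M)
    (horth : ∀ m ∈ M, polar Q m v = 0) (hm₀ : m₀ ∈ M) :
    ∃ t ∈ X, Rg K X u t ∧ (∀ m ∈ M, t.1 m = m) ∧ t.1 v = v + m₀ := by
  have := h.fdF
  have hu := h.hu
  obtain ⟨g, hg, rfl⟩ := hM
  obtain ⟨v, rfl⟩ := g.1.surjective v
  obtain ⟨m₀, rfl⟩ := g.1.surjective m₀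
  rw [apply_mem_act] at hv hm₀
  obtain ⟨k, rfl⟩ := mem_Ln.1 hm₀
  have h0 : polar P v u = 0 := eq_of_tr (F := F) fun c => by
    rw [polar_comm, ← h.pol_left, ← O_polar g, horth _ (apply_mem_act.2 (smul_mem_Ln c u))]; simp
  have h1 : pr P u u' v ≠ 0 := fun h1 => hv (by
    rw [eq_of_pr_eq_zero h1 h0]; exact smul_mem_Ln _ _)
  obtain ⟨w, a1, a2, a3⟩ := hu.exists_orth_polar h.hP (hu.pr_e v) (hu.pr_f v) h1 k
  rw [polar_pr_of_orth a1 a2, polar_comm] at a3
  refine ⟨g⁻¹⁻¹ * h.res (eich P u w) * g⁻¹,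
    X.mul_mem (X.mul_mem (X.inv_mem (X.inv_mem hg)) (h.res_eich _ _)) (X.inv_mem hg),
    (h.rg_eich hu.he hu.e_ne u w).conj (X.inv_mem hg), fun m hm => ?_, ?_⟩
  · obtain ⟨c, hc⟩ := mem_Ln.1 (mem_act.1 hm)
    rw [inv_inv, O_mul_apply, O_mul_apply, ← hc, OD.res_apply, map_smul, eich_apply_self, hc,
      O_apply_inv_apply]
  · rw [inv_inv, O_mul_apply, O_mul_apply, O_inv_apply_apply, OD.res_apply,
      eich_apply hu.he (by rw [polar_comm, a1]), h0, a3]
    simp

theorem exists_meet (h : C2 Q P X u u') {g : O Q} (hg : g ∈ X) (hns : ¬ SemiK K g.1) :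
    ∃ M, Good K X u M ∧ M ≠ Ln F K u ∧ u ∈ M := by
  have := h.fdF
  have hu := h.hu
  have hv0 : g.1 u ≠ 0 := O_apply_ne_zero g hu.e_ne
  obtain ⟨k, hk⟩ : ∃ k : K, g.1 (k • u) ∉ Ln F K (g.1 u) := by
    by_contra h1
    push Not at h1
    choose s hs using fun k => mem_Ln.1 (h1 k)
    have h2 : Function.Surjective s := Finite.surjective_of_injective fun a b hab =>
      smul_left_injective K hu.e_ne (g.1.injective (by beta_reduce; rw [← hs, ← hs, hab]))
    have h3 : polar P (g.1 u) (g.1 u) = 0 := eq_of_tr (F := F) fun c => by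
      obtain ⟨c, rfl⟩ := h2 c
      rw [← h.pol_left, hs, O_polar, h.pol_left, hu.hee]; simp
    rw [polar_self'] at h3
    obtain ⟨n, hn, b, -, h4⟩ := h.move hv0 hu.e_ne ((mul_eq_zero.1 h3).resolve_left h.h2) hu.he
    have h5 := h.semi _ (X.mul_mem hn hg) fun k => by
      rw [O_mul_apply, ← hs, OD.res_apply, map_smul, h4, smul_smul]; exact smul_mem_Ln _ _
    refine hns fun k => ?_
    obtain ⟨k', hk'⟩ := h5 k
    exact ⟨k', fun v => n.1.injective (by rw [n.1.map_smul k']; exact hk' v)⟩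
  obtain ⟨t, ht, h1, h2⟩ := h.exists_big_move hu.he hu.e_ne hv0 hk
  have hs : g⁻¹ * t * g ∈ X := X.mul_mem (X.mul_mem (X.inv_mem hg) ht) hg
  have hsu : (g⁻¹ * t * g).1 u = u := by rw [O_mul_apply, O_mul_apply, h1, O_inv_apply_apply]
  refine ⟨_, (good_self u).act hs, fun h3 => ?_, ⟨u, self_mem_Ln u, hsu⟩⟩
  have h4 : ∀ m ∈ act g (Ln F K u), t.1 m ∈ act g (Ln F K u) := fun m hm => by
    rw [mem_act, ← h3, ← O_apply_inv_apply g m, ← O_mul_apply, ← O_mul_apply]
    exact apply_mem_act.2 (mem_act.1 hm)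
  have h5 := apply_mem_act (g := g).2 (self_mem_Ln (F := F) (K := K) u)
  have h6 := apply_mem_act (g := g).2 (smul_mem_Ln (F := F) k u)
  exact h2.elim (fun h2 => h2.2 (h.rigid ht h2.1 ((good_self u).act hg) h4 h5 hv0 h1 h6))
    fun h2 => h2 (h.rigid_pow ht ((good_self u).act hg) h4 h5 hv0 h1 h6)

end C2

/-- `D` is the largest dimension of the intersection of two distinct conjugates, attained by
`K u` and `M`. -/
structure C3 (Q : QuadraticForm F V) (P : QuadraticForm K V) (X : Subgroup (O Q)) (u u' : V)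
    (D : ℕ) (M : Submodule F V) : Prop extends C2 Q P X u u' where
  max : ∀ M M', Good K X u M → Good K X u M' → D < finrank F ↥(M ⊓ M') → M = M'
  pos : 0 < D
  good : Good K X u M
  ne : M ≠ Ln F K u
  dim : finrank F ↥(Ln F K u ⊓ M) = D

theorem C2.exists_c3 [Finite K] {u u' : V} (h : C2 Q P X u u') {g : O Q} (hg : g ∈ X)
    (hns : ¬ SemiK K g.1) : ∃ D M, C3 Q P X u u' D M := by
  have := h.fdF
  obtain ⟨M₀, h1, h2, h3⟩ := h.exists_meet hg hns
  have hP : ∃ n, ∃ M M', Good K X u M ∧ Good K X u M' ∧ M ≠ M' ∧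
      finrank F V - finrank F ↥(M ⊓ M') = n := ⟨_, _, _, h1, good_self u, h2, rfl⟩
  classical
  obtain ⟨M, M', hM, hM', hne, hn⟩ := Nat.find_spec hP
  have hmax : ∀ N N', Good K X u N → Good K X u N' → N ≠ N' →
      finrank F ↥(N ⊓ N') ≤ finrank F ↥(M ⊓ M') := fun N N' a b c => by
    have h4 := Nat.find_min' hP ⟨N, N', a, b, c, rfl⟩
    have h5 := Submodule.finrank_le (N ⊓ N')
    have h6 := Submodule.finrank_le (M ⊓ M')
    omega
  obtain ⟨k, hk, rfl⟩ := hM
  refine ⟨finrank F ↥(act k (Ln F K u) ⊓ M'), act k⁻¹ M', h, fun N N' a b c => ?_, ?_,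
    hM'.act (X.inv_mem hk), fun h4 => hne ?_, ?_⟩
  · by_contra h4
    exact absurd (hmax N N' a b h4) (not_le.2 c)
  · refine lt_of_lt_of_le ?_ (hmax _ _ h1 (good_self u) h2)
    exact finrank_pos_iff_exists_ne_zero.2
      ⟨⟨u, h3, self_mem_Ln u⟩, fun h4 => h.hu.e_ne (congr_arg Subtype.val h4)⟩
  · rw [← h4, ← act_mul, mul_inv_cancel, act_one]
  · rw [← finrank_act k⁻¹ (act k _ ⊓ M'), act_inf, act_inv_act]

namespace C3

variable [Finite K] {u u' : V} {D : ℕ} {M : Submodule F V}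

theorem stab (h : C3 Q P X u u' D M) {N : Submodule F V} (hN : Good K X u N) {t : O Q}
    (ht : t ∈ X) {U : Submodule F V} (hU : D < finrank F U) (h1 : U ≤ N) (h2 : U ≤ act t N) :
    ∀ m ∈ N, t.1 m ∈ N := fun m hm => by
  have := h.fdF
  rw [h.max N _ hN (hN.act ht) (lt_of_lt_of_le hU (Submodule.finrank_mono (le_inf h1 h2)))]
  exact apply_mem_act.2 hm

theorem exists_mem (h : C3 Q P X u u' D M) {U : Submodule F V} (hU : D ≤ finrank F U) :
    ∃ m ∈ U, m ≠ 0 := Submodule.exists_mem_ne_zero_of_ne_bot fun h1 => by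
  have := h.pos
  rw [h1, finrank_bot] at hU; omega

theorem lt_sup (h : C3 Q P X u u' D M) {U : Submodule F V} (hU : D ≤ finrank F U) {v : V}
    (hv : v ∉ U) : D < finrank F ↥(U ⊔ Submodule.span F {v}) := by
  have := h.fdF
  refine lt_of_le_of_lt hU (Submodule.finrank_lt_finrank_of_lt (lt_of_le_of_ne le_sup_left ?_))
  intro h1
  exact hv (h1 ▸ Submodule.mem_sup_right (Submodule.mem_span_singleton_self v))

theorem opp (h : C3 Q P X u u' D M) {N N' : Submodule F V} (hN : Good K X u N)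
    (hN' : Good K X u N') (hd : D ≤ finrank F ↥(N ⊓ N')) {v : V} (hv : v ∈ N')
    (horth : ∀ m ∈ N, polar Q m v = 0) : v ∈ N := by
  by_contra h1
  obtain ⟨m, hm, hm0⟩ := h.exists_mem hd
  obtain ⟨t, ht, hb, h2, h3⟩ := h.flexM hN h1 horth hm.1
  have h4 := h.stab hN' ht (h.lt_sup hd (v := v) fun h4 => h1 h4.1)
    (sup_le inf_le_right ((Submodule.span_singleton_le_iff_mem _ _).2 hv))
    (sup_le (fun x hx => h2 x hx.1 ▸ apply_mem_act.2 hx.2)
      ((Submodule.span_singleton_le_iff_mem _ _).2 (by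
        have : t.1 (v - m) = v := by rw [map_sub, h3, h2 m hm.1, add_sub_cancel_right]
        exact this ▸ apply_mem_act.2 (N'.sub_mem hv hm.2))))
  have h5 := h.rigid ht hb hN' h4 hm.2 hm0 (h2 m hm.1) hv
  rw [h3] at h5
  exact hm0 (by simpa using h5)

theorem polar_ne (h : C3 Q P X u u' D M) {v : V} (hv : v ∈ M) (hv' : v ∉ Ln F K u) :
    polar P v u ≠ 0 := fun h1 =>
  hv' (h.opp (good_self u) h.good h.dim.ge hv fun m hm => by
    obtain ⟨k, rfl⟩ := mem_Ln.1 hm
    rw [h.pol_left, polar_comm, h1]; simp)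

theorem not_four (h : C3 Q P X u u' D M) (h4 : 4 ≤ finrank K V) : False := by
  have := h.fdF
  have := h.fdK
  obtain ⟨v, hv, hv'⟩ := h.good.exists_not_mem (good_self u) h.ne
  have hb := h.polar_ne hv hv'
  set b := polar P v u with hbdef
  have hu := hyp_of_polar h.hu.he (y := b⁻¹ • v) (by simp [← hbdef, hb])
  set z := b⁻¹ • v - P (b⁻¹ • v) • u with hz
  have hvz : v = b • z + (b * P (b⁻¹ • v)) • u := by
    rw [hz, smul_sub, smul_inv_smul₀ hb, smul_smul]; abel
  have hvW : ∀ y ∈ W P u z, polar P v y = 0 := fun y hy => by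
    rw [hvz, polar_comm]; simp [hy.1, hy.2]
  have hW := hu.finrank_eq
  obtain ⟨m₀, hm₀, hm0⟩ := h.exists_mem h.dim.ge
  have hM : ∀ m ∈ M, ∀ y ∈ W P u z, polar P m y = 0 := by
    intro m hm
    by_contra h1
    push Not at h1
    obtain ⟨t, ht, h2, h3⟩ := h.exists_rot (W P u z) (fun x hx hx0 => by
      obtain ⟨y, a1, a2, a3⟩ := hu.exists_orth_polar h.hP hx.1 hx.2 hx0 1
      exact ⟨y, ⟨a1, a2⟩, by rw [polar_comm, a3]; exact one_ne_zero⟩) (by omega) h1
    have h5 : ∀ x ∈ Ln F K u, t.1 x = x := fun x hx => h2 x fun y hy => by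
      obtain ⟨k, rfl⟩ := mem_Ln.1 hx
      rw [polar_comm]; simp [hy.1]
    have h6 := h.stab h.good ht (h.lt_sup h.dim.ge (v := v) fun h4 => hv' h4.1)
      (sup_le inf_le_right ((Submodule.span_singleton_le_iff_mem _ _).2 hv))
      (sup_le (fun x hx => h5 x hx.1 ▸ apply_mem_act.2 hx.2)
        ((Submodule.span_singleton_le_iff_mem _ _).2 (h2 v hvW ▸ apply_mem_act.2 hv)))
    exact h3 (h.rigid_pow ht h.good h6 hm₀.2 hm0 (h5 _ hm₀.1) hm)
  obtain ⟨s, rfl⟩ := mem_Ln.1 hm₀.1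
  have hs : s ≠ 0 := by rintro rfl; simp at hm0
  obtain ⟨w, hw, hw0, hw'⟩ : ∃ w ∈ W P u z, w ≠ 0 ∧ (P w * b) • u ∈ M := by
    obtain ⟨⟨w, x⟩, h1, h2⟩ := exists_singular
      ((QW P u z).prod (-(s / b) • (QuadraticMap.sq : QuadraticForm K K)))
      (by rw [finrank_prod, finrank_self]; omega)
    simp only [QuadraticMap.prod_apply, QW_apply, smul_apply, QuadraticMap.sq_apply,
      smul_eq_mul] at h2
    by_cases hx : x = 0
    · refine ⟨w, w.2, fun h3 => h1 (Prod.ext (Subtype.ext h3) hx), ?_⟩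
      rw [show P w = 0 by simpa [hx] using h2]; simp
    · have h3 : P (x⁻¹ • w : V) * b = s := by
        rw [Q_smul, show P w = s / b * (x * x) by linear_combination h2]; field_simp
      refine ⟨x⁻¹ • w, Submodule.smul_mem _ _ w.2, fun h4 => ?_, h3 ▸ hm₀.2⟩
      rw [h4] at h3
      exact hs (by simpa using h3.symm)
  have hw1 : polar P u w = 0 := by rw [polar_comm, hw.1]
  have ht := h.res_eich u w
  have h1 : (h.res (eich P u w)).1 v = v - b • w - (P w * b) • u := by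
    rw [OD.res_apply, eich_apply h.hu.he hw1, hvW w hw]; simp [hbdef]
  have h2 := h.opp h.good (h.good.act ht) (h.dim.ge.trans (Submodule.finrank_mono
    (le_inf inf_le_right fun x hx => by
      obtain ⟨k, rfl⟩ := mem_Ln.1 hx.1
      have : (h.res (eich P u w)).1 (k • u) = k • u := by
        rw [OD.res_apply, map_smul, eich_apply_self]
      exact this ▸ apply_mem_act.2 hx.2))) (apply_mem_act.2 hv) fun m hm => by
    have h3 : ∀ x ∈ M, polar Q m x = 0 := fun x hx => by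
      obtain ⟨g, -, e⟩ := h.good
      rw [e, mem_act] at hm hx
      obtain ⟨k, hk⟩ := mem_Ln.1 hm
      obtain ⟨k', hk'⟩ := mem_Ln.1 hx
      rw [← O_polar g⁻¹, ← hk, ← hk', h.pol_sing h.hu.he]
    rw [h1, polar_sub_right, polar_sub_right, h3 _ hv, h3 _ hw', h.pol_right, hM m hm w hw]
    simp
  rw [h1] at h2
  have h3 : b • w ∈ M := by
    convert M.sub_mem (M.sub_mem hv hw') h2 using 1
    abel
  obtain ⟨y, a1, a2, a3⟩ := hu.exists_orth_polar h.hP hw.1 hw.2 hw0 1
  have h5 := hM _ h3 y ⟨a1, a2⟩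
  rw [polar_comm] at h5
  simp [a3, hb] at h5

end C3

end CfsgLib.OMax.Sm
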