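import Mathlib
import Cfsg.Agent.Lib.ClMax.ExtBasic

/-!
Field-level lemmas for the field extension subgroups of orthogonal groups: groups of skew
`F`-linear maps `K → K` that are stable under `ψ ↦ c² ψ c²`.
-/

set_option autoImplicit false

namespace CfsgLib.OMax

open Module CfsgLib.ClMax

variable {F K : Type*} [Field F] [Field K] [Algebra F K] [Finite K]

theorem exists_pow_of_gal [Fintype F] (σ : K ≃ₐ[F] K) :
    ∃ i < finrank F K, ∀ x, σ x = x ^ Fintype.card F ^ i := by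
  obtain ⟨n, hn⟩ := (FiniteField.bijective_frobeniusAlgEquivOfAlgebraic_pow F K).2 σ
  refine ⟨n, n.2, fun x => ?_⟩
  rw [← hn]
  simp only [AlgEquiv.coe_pow, FiniteField.coe_frobeniusAlgEquivOfAlgebraic_iterate]

theorem two_pow_add_le {q e i j : ℕ} (hq : 3 ≤ q) (hi : i < e) (hj : j < e) (hij : i ≠ j) :
    2 * (q ^ i + q ^ j) ≤ q ^ e - 1 := by
  wlog h : i < j generalizing i j
  · rw [add_comm]; exact this hj hi hij.symm (by omega)
  obtain ⟨k, rfl⟩ : ∃ k, e = k + 2 := ⟨e - 2, by omega⟩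
  have h1 : q ^ i ≤ q ^ k := Nat.pow_le_pow_right (by omega) (by omega)
  have h2 : q ^ j ≤ q ^ (k + 1) := Nat.pow_le_pow_right (by omega) (by omega)
  have h3 : 0 < q ^ k := by positivity
  have h4 : q ^ (k + 2) = q * q * q ^ k := by ring
  have h5 : q ^ (k + 1) = q * q ^ k := by ring
  have h6 : (2 * q + 3) * q ^ k ≤ q * q * q ^ k := Nat.mul_le_mul_right _ (by nlinarith)
  have h7 : (2 * q + 3) * q ^ k = 2 * (q * q ^ k) + 3 * q ^ k := by ring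
  omega

/-- The squares of the product characters determine the unordered pair of distinct
automorphisms. -/
theorem gal_pair_eq_sq (h2 : (2 : K) ≠ 0) {σ τ σ' τ' : K ≃ₐ[F] K} (hst : σ ≠ τ) (hst' : σ' ≠ τ')
    (h : ∀ c, c ≠ 0 → (σ c * τ c) ^ 2 = (σ' c * τ' c) ^ 2) :
    σ = σ' ∧ τ = τ' ∨ σ = τ' ∧ τ = σ' := by
  have : Finite F := Finite.of_injective _ (algebraMap F K).injective
  have := Fintype.ofFinite F
  have := Fintype.ofFinite K
  have hq : 3 ≤ Fintype.card F := by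
    have h1 : 1 < Fintype.card F := Fintype.one_lt_card
    by_contra h3
    have h4 : Fintype.card F = 2 := by omega
    have h5 := FiniteField.cast_card_eq_zero F
    rw [h4] at h5
    apply h2
    rw [← map_ofNat (algebraMap F K) 2, show (2 : F) = 0 by exact_mod_cast h5, map_zero]
  obtain ⟨i, hi, ei⟩ := exists_pow_of_gal σ
  obtain ⟨j, hj, ej⟩ := exists_pow_of_gal τ
  obtain ⟨i', hi', ei'⟩ := exists_pow_of_gal σ'
  obtain ⟨j', hj', ej'⟩ := exists_pow_of_gal τ'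
  have hij : i ≠ j := by
    rintro rfl; exact hst (AlgEquiv.ext fun x => by rw [ei, ej])
  have hij' : i' ≠ j' := by
    rintro rfl; exact hst' (AlgEquiv.ext fun x => by rw [ei', ej'])
  set q := Fintype.card F
  obtain ⟨g, hg⟩ := IsCyclic.exists_ofOrder_eq_natCard (α := Kˣ)
  have hN : orderOf g = q ^ finrank F K - 1 := by
    rw [hg, Nat.card_units, Nat.card_eq_fintype_card, Module.card_eq_pow_finrank (K := F)]
  have h1 : g ^ (2 * (q ^ i + q ^ j)) = g ^ (2 * (q ^ i' + q ^ j')) := by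
    apply Units.ext
    have := h g g.ne_zero
    rw [ei, ej, ei', ej', ← pow_add, ← pow_add, ← pow_mul, ← pow_mul] at this
    simpa [mul_comm] using this
  rw [pow_eq_pow_iff_modEq, hN] at h1
  have b1 := two_pow_add_le hq hi hj hij
  have b2 := two_pow_add_le hq hi' hj' hij'
  have p1 : 0 < q ^ i + q ^ j := by positivity
  have p2 : 0 < q ^ i' + q ^ j' := by positivity
  have h3 : q ^ i + q ^ j = q ^ i' + q ^ j' := by
    have := h1.eq_of_abs_lt (by rw [abs_lt]; constructor <;> omega)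
    omega
  refine gal_pair_eq fun c _ => ?_
  rw [ei, ej, ei', ej', ← pow_add, ← pow_add, h3]

/-- Extraction of the component of a map on a pair `σ, σ⁻¹`. -/
theorem comp_mem (h2 : (2 : K) ≠ 0) (R : AddSubgroup (K →ₗ[F] K))
    (hT : ∀ ψ ∈ R, ∀ c : K, c ≠ 0 → ∃ ψ' ∈ R, ∀ x, ψ' x = c ^ 2 * ψ (c ^ 2 * x))
    {ψ : K →ₗ[F] K} (hψ : ψ ∈ R) {A : (K ≃ₐ[F] K) → K} (hA : ∀ x, ψ x = ∑ τ, A τ * τ x)
    (h1 : A 1 = 0) {σ : K ≃ₐ[F] K} (hσ : σ ≠ 1) (k : K) :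
    ∃ ψ' ∈ R, ∀ x, ψ' x = k * A σ * σ x + σ⁻¹ k * A σ⁻¹ * σ⁻¹ x := by
  classical
  have := Fintype.ofFinite K
  obtain ⟨p, hp⟩ := CharP.exists K
  have : Fact p.Prime := ⟨CharP.char_is_prime K p⟩
  let _ := ZMod.algebra K p
  let ι : (K ≃ₐ[F] K) →* (K ≃ₐ[ZMod p] K) :=
    { toFun := fun τ => AlgEquiv.ofRingEquiv (f := τ.toRingEquiv) fun x => by
        obtain ⟨n, rfl⟩ := ZMod.natCast_zmod_surjective x
        simp
      map_one' := rfl
      map_mul' := fun _ _ => rfl }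
  have hι : ∀ τ x, ι τ x = τ x := fun _ _ => rfl
  have hinj : Function.Injective ι := fun τ τ' h => AlgEquiv.ext fun x => by rw [← hι, h, hι]
  choose ψc hψc hψc' using fun c : Kˣ => hT ψ hψ c c.ne_zero
  let n : Kˣ → ℕ := fun c => (Algebra.trace (ZMod p) K (-k * ((c * σ c) ^ 2)⁻¹)).val
  have hn : ∀ c : Kˣ, (n c : K) = ∑ ρ : K ≃ₐ[ZMod p] K, ρ (-k * ((c * σ c) ^ 2)⁻¹) := fun c => by
    rw [← trace_eq_sum_automorphisms, ← map_natCast (algebraMap (ZMod p) K)]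
    simp [n]
  refine ⟨∑ c, n c • ψc c, R.sum_mem fun c _ => R.nsmul_mem (hψc c) _, fun x => ?_⟩
  have hχ : ∀ (τ : K ≃ₐ[F] K) (ρ : K ≃ₐ[ZMod p] K), τ ≠ 1 →
      ∑ c : Kˣ, ((c : K) * τ c) ^ 2 * ((ρ c * ρ (σ c)) ^ 2)⁻¹ =
        if (ρ = 1 ∧ τ = σ ∨ ρ = ι σ⁻¹ ∧ τ = σ⁻¹) then -1 else 0 := by
    intro τ ρ hτ
    let χ : Kˣ →* K :=
      { toFun := fun c => ((c : K) * τ c) ^ 2 * ((ρ c * ρ (σ c)) ^ 2)⁻¹
        map_one' := by simp
        map_mul' := fun c d => by simp only [Units.val_mul, map_mul, mul_pow, mul_inv]; ring }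
    have h3 : χ = 1 ↔ (ρ = 1 ∧ τ = σ ∨ ρ = ι σ⁻¹ ∧ τ = σ⁻¹) := by
      constructor
      · intro h
        have h4 := gal_pair_eq_sq (F := ZMod p) h2 (σ := 1) (τ := ι τ) (σ' := ρ) (τ' := ρ * ι σ)
          (fun h => hτ (hinj (by rw [← h, map_one])))
          (fun h => hσ (hinj (by rw [map_one]; exact (left_eq_mul.1 h)))) (fun z hz => by
            have h4 := DFunLike.congr_fun h (Units.mk0 z hz)
            simp only [χ, MonoidHom.coe_mk, OneHom.coe_mk, MonoidHom.one_apply,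
              Units.val_mk0] at h4
            have h5 : (ρ z * ρ (σ z)) ^ 2 ≠ 0 := by simpa using hz
            exact (mul_inv_eq_one₀ h5).1 h4)
        rcases h4 with ⟨rfl, h4⟩ | ⟨h4, h5⟩
        · exact Or.inl ⟨rfl, hinj (by simpa using h4)⟩
        · have h6 : ρ = ι σ⁻¹ := by rw [map_inv]; exact eq_inv_of_mul_eq_one_left h4.symm
          exact Or.inr ⟨h6, hinj (h5.trans h6)⟩
      · intro h
        ext c
        simp only [χ, MonoidHom.coe_mk, OneHom.coe_mk, MonoidHom.one_apply]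
        have h5 : (ρ c * ρ (σ c)) ^ 2 ≠ 0 := by simp
        refine (mul_inv_eq_one₀ h5).2 ?_
        rcases h with ⟨rfl, rfl⟩ | ⟨rfl, rfl⟩
        · rfl
        · rw [hι, hι, mul_comm]
          simp
    have h4 := sum_units_char χ
    by_cases h : (ρ = 1 ∧ τ = σ ∨ ρ = ι σ⁻¹ ∧ τ = σ⁻¹)
    · rw [if_pos h]; rw [if_pos (h3.2 h)] at h4; exact h4
    · rw [if_neg h]; rw [if_neg (mt h3.1 h)] at h4; exact h4
  have h5 : ∀ c : Kˣ, (n c • ψc c) x = ∑ τ : K ≃ₐ[F] K, ∑ ρ : K ≃ₐ[ZMod p] K,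
      -(ρ k * A τ * τ x) * (((c : K) * τ c) ^ 2 * ((ρ c * ρ (σ c)) ^ 2)⁻¹) := by
    intro c
    rw [LinearMap.smul_apply, nsmul_eq_mul, hn, hψc', hA, Finset.mul_sum, Finset.mul_sum]
    refine Finset.sum_congr rfl fun τ _ => ?_
    rw [Finset.sum_mul]
    refine Finset.sum_congr rfl fun ρ _ => ?_
    simp only [map_mul, map_neg, map_inv₀, map_pow]
    ring
  rw [LinearMap.sum_apply]
  simp only [h5]
  rw [Finset.sum_comm]
  have h6 : ∀ τ : K ≃ₐ[F] K, ∑ c : Kˣ, ∑ ρ : K ≃ₐ[ZMod p] K,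
      -(ρ k * A τ * τ x) * (((c : K) * τ c) ^ 2 * ((ρ c * ρ (σ c)) ^ 2)⁻¹) =
      (if τ = σ then k * A σ * σ x else 0) +
        if τ = σ⁻¹ then σ⁻¹ k * A σ⁻¹ * σ⁻¹ x else 0 := by
    intro τ
    by_cases hτ : τ = 1
    · subst hτ
      simp [h1, hσ.symm, (inv_ne_one.2 hσ).symm]
    rw [Finset.sum_comm]
    simp only [← Finset.mul_sum, hχ τ _ hτ]
    have h7 : ∀ ρ : K ≃ₐ[ZMod p] K, -(ρ k * A τ * τ x) *
        (if (ρ = 1 ∧ τ = σ ∨ ρ = ι σ⁻¹ ∧ τ = σ⁻¹) then -1 else 0) =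
        (if ρ = 1 then (if τ = σ then k * A σ * σ x else 0) else 0) +
          if ρ = ι σ⁻¹ then (if τ = σ⁻¹ then σ⁻¹ k * A σ⁻¹ * σ⁻¹ x else 0) else 0 := by
      intro ρ
      have h8 : (1 : K ≃ₐ[ZMod p] K) ≠ ι σ⁻¹ := fun h =>
        hσ (inv_eq_one.1 (hinj (by rw [← h, map_one])))
      have h8' : ι σ⁻¹ k = σ⁻¹ k := hι _ _
      generalize ι σ⁻¹ = ρ₀ at h8 h8'
      generalize σ⁻¹ = σ' at h8'
      by_cases h9 : ρ = 1
      · subst h9
        by_cases h10 : τ = σ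
        · simp [h8, h10]
        · simp [h8, h10]
      · by_cases h10 : ρ = ρ₀
        · subst h10
          by_cases h11 : τ = σ'
          · subst h11; simp [h9, h8']
          · simp [h9, h11]
        · simp [h9, h10]
    simp only [h7, Finset.sum_add_distrib, Finset.sum_ite_eq', Finset.mem_univ, if_true]
  simp only [h6, Finset.sum_add_distrib, Finset.sum_ite_eq', Finset.mem_univ, if_true]

theorem tr_ne_zero : Algebra.trace F K ≠ 0 := by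
  have := (traceForm_nondegenerate_tfae (K := F) (L := K)).out 0 1
  exact this.1 inferInstance

theorem eq_of_tr {a b : K} (h : ∀ k, Algebra.trace F K (k * a) = Algebra.trace F K (k * b)) :
    a = b :=
  sub_eq_zero.1 (eq_zero_of_forall_mul (tr_ne_zero (F := F)) fun k => by
    rw [mul_sub, map_sub, h, sub_self])

omit [Finite K] in
theorem tr_gal (σ : K ≃ₐ[F] K) (x : K) : Algebra.trace F K (σ x) = Algebra.trace F K x :=
  Algebra.trace_eq_of_algEquiv σ x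

theorem exists_tr_eq {a : K} (ha : a ≠ 0) (c : F) : ∃ k, Algebra.trace F K (k * a) = c := by
  obtain ⟨z, hz⟩ := DFunLike.ne_iff.1 (tr_ne_zero (F := F) (K := K))
  have hz' : Algebra.trace F K z ≠ 0 := hz
  refine ⟨(c / Algebra.trace F K z) • z * a⁻¹, ?_⟩
  rw [inv_mul_cancel_right₀ ha, map_smul, smul_eq_mul, div_mul_cancel₀ _ hz']

/-- Skew maps for the trace form. -/
def Skew (ψ : K →ₗ[F] K) : Prop := ∀ x, Algebra.trace F K (ψ x * x) = 0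

omit [Finite K] in
theorem Skew.bilin {ψ : K →ₗ[F] K} (h : Skew ψ) (x y : K) :
    Algebra.trace F K (ψ x * y) = -Algebra.trace F K (ψ y * x) := by
  have h1 := h (x + y)
  rw [map_add, add_mul, mul_add, mul_add, map_add, map_add, map_add, h, h] at h1
  linear_combination h1

theorem Skew.coeff {ψ : K →ₗ[F] K} (h : Skew ψ) {A : (K ≃ₐ[F] K) → K}
    (hA : ∀ x, ψ x = ∑ τ, A τ * τ x) (σ : K ≃ₐ[F] K) : A σ⁻¹ = -σ⁻¹ (A σ) := by
  have key := gal_coeff_eq_zero (F := F) (A := fun τ => A τ + τ (A τ⁻¹)) (fun y => by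
    refine eq_of_tr (F := F) fun x => ?_
    have h1 := h.bilin x y
    have h2 : Algebra.trace F K (ψ x * y) =
        Algebra.trace F K (x * ∑ τ : K ≃ₐ[F] K, τ (A τ⁻¹) * τ y) := by
      rw [hA, Finset.sum_mul, Finset.mul_sum, map_sum, map_sum]
      refine Fintype.sum_equiv (Equiv.inv _) _ _ fun τ => ?_
      rw [← tr_gal τ⁻¹]
      simp only [Equiv.inv_apply, inv_inv, map_mul]
      congr 1
      rw [← AlgEquiv.mul_apply, inv_mul_cancel, AlgEquiv.one_apply]; ring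
    rw [h2, hA y, mul_comm _ x] at h1
    simp only [add_mul, Finset.sum_add_distrib, mul_add, map_add, mul_zero, map_zero]
    linear_combination h1) σ⁻¹
  rw [inv_inv] at key
  linear_combination key

/-- `R` contains all the maps `c σ - σ⁻¹ c`. -/
def HasZ (R : AddSubgroup (K →ₗ[F] K)) (σ : K ≃ₐ[F] K) : Prop :=
  ∀ c : K, ∃ ψ ∈ R, ∀ x, ψ x = c * σ x - σ⁻¹ (c * x)

variable {R : AddSubgroup (K →ₗ[F] K)}

omit [Finite K] in
theorem hasZ_one : HasZ R 1 := fun c => ⟨0, R.zero_mem, fun x => by simp⟩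

omit [Finite K] in
theorem HasZ.inv {σ : K ≃ₐ[F] K} (h : HasZ R σ) : HasZ R σ⁻¹ := fun c => by
  obtain ⟨ψ, hψ, e⟩ := h (σ c)
  refine ⟨-ψ, R.neg_mem hψ, fun x => ?_⟩
  rw [LinearMap.neg_apply, e, inv_inv, map_mul, map_mul, ← AlgEquiv.mul_apply σ⁻¹ σ,
    inv_mul_cancel, AlgEquiv.one_apply]
  ring

/-- A group of skew maps stable under the torus. -/
structure TS (R : AddSubgroup (K →ₗ[F] K)) : Prop where
  h2 : (2 : K) ≠ 0
  skew : ∀ ψ ∈ R, Skew ψ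
  tor : ∀ ψ ∈ R, ∀ c : K, c ≠ 0 → ∃ ψ' ∈ R, ∀ x, ψ' x = c ^ 2 * ψ (c ^ 2 * x)

theorem Skew.coeff_one (h2 : (2 : K) ≠ 0) {ψ : K →ₗ[F] K} (h : Skew ψ) {A : (K ≃ₐ[F] K) → K}
    (hA : ∀ x, ψ x = ∑ τ, A τ * τ x) : A 1 = 0 := by
  have h1 := h.coeff hA 1
  rw [inv_one, AlgEquiv.one_apply] at h1
  exact (mul_eq_zero.1 (show 2 * A 1 = 0 by linear_combination h1)).resolve_left h2

theorem TS.hasZ (h : TS R) {ψ : K →ₗ[F] K} (hψ : ψ ∈ R) {A : (K ≃ₐ[F] K) → K}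
    (hA : ∀ x, ψ x = ∑ τ, A τ * τ x) {σ : K ≃ₐ[F] K} (hσ : A σ ≠ 0) : HasZ R σ := by
  by_cases h1 : σ = 1
  · rw [h1]; exact hasZ_one
  intro c
  obtain ⟨ψ', hψ', e⟩ := comp_mem h.h2 R h.tor hψ hA ((h.skew ψ hψ).coeff_one h.h2 hA) h1
    (c * (A σ)⁻¹)
  refine ⟨ψ', hψ', fun x => ?_⟩
  have h3 : σ⁻¹ (A σ) ≠ 0 := by simpa using hσ
  rw [e, (h.skew ψ hψ).coeff hA σ, map_mul, map_mul, map_inv₀]
  field_simp
  ring

theorem TS.exists_hasZ (h : TS R) {ψ : K →ₗ[F] K} (hψ : ψ ∈ R) (h0 : ψ ≠ 0) :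
    ∃ σ, σ ≠ 1 ∧ HasZ R σ := by
  obtain ⟨A, hA⟩ := exists_gal_coeff ψ
  obtain ⟨σ, hσ⟩ : ∃ σ, A σ ≠ 0 := by
    by_contra h1
    push Not at h1
    exact h0 (LinearMap.ext fun x => by simp [hA, h1])
  refine ⟨σ, ?_, h.hasZ hψ hA hσ⟩
  rintro rfl
  exact hσ ((h.skew ψ hψ).coeff_one h.h2 hA)

theorem mem_of_supp (h2 : (2 : K) ≠ 0) {ψ : K →ₗ[F] K} (hψ : Skew ψ) {A : (K ≃ₐ[F] K) → K}
    (hA : ∀ x, ψ x = ∑ τ, A τ * τ x) (h : ∀ σ, A σ ≠ 0 → HasZ R σ) : ψ ∈ R := by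
  have h1 : ∀ σ : K ≃ₐ[F] K, ∃ φ ∈ R, ∀ x, φ x = A σ / 2 * σ x - σ⁻¹ (A σ / 2 * x) := fun σ => by
    by_cases h0 : A σ = 0
    · exact ⟨0, R.zero_mem, fun x => by simp [h0]⟩
    · exact h σ h0 _
  choose φ hφ e using h1
  convert R.sum_mem (t := Finset.univ) fun σ _ => hφ σ using 1
  ext x
  have h3 : ∑ σ : K ≃ₐ[F] K, σ⁻¹ (A σ / 2 * x) = -∑ σ : K ≃ₐ[F] K, A σ / 2 * σ x := by
    rw [← Finset.sum_neg_distrib]
    refine Fintype.sum_equiv (Equiv.inv _) _ _ fun σ => ?_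
    rw [Equiv.inv_apply, hψ.coeff hA σ, map_mul, map_div₀, map_ofNat]
    ring
  rw [LinearMap.sum_apply]
  simp only [e, Finset.sum_sub_distrib, h3, hA, sub_neg_eq_add, ← Finset.sum_add_distrib]
  refine Finset.sum_congr rfl fun σ _ => ?_
  field_simp
  ring

theorem mem_of_all (h2 : (2 : K) ≠ 0) (h : ∀ σ, HasZ R σ) {ψ : K →ₗ[F] K} (hψ : Skew ψ) :
    ψ ∈ R :=
  let ⟨_, hA⟩ := exists_gal_coeff ψ
  mem_of_supp h2 hψ hA fun σ _ => h σ

theorem TS.der (h : TS R) {ψ : K →ₗ[F] K} (hψ : ψ ∈ R) (k : K) :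
    ∃ ψ' ∈ R, ∀ x, ψ' x = k * ψ x + ψ (k * x) := by
  obtain ⟨A, hA⟩ := exists_gal_coeff ψ
  refine ⟨LinearMap.mulLeft F k ∘ₗ ψ + ψ ∘ₗ LinearMap.mulLeft F k,
    mem_of_supp h.h2 (fun x => ?_) (A := fun τ => (k + τ k) * A τ) (fun x => ?_)
      fun σ hσ => h.hasZ hψ hA (right_ne_zero_of_mul hσ), fun x => rfl⟩
  · simp only [LinearMap.add_apply, LinearMap.comp_apply, LinearMap.mulLeft_apply, add_mul,
      map_add]
    rw [(h.skew ψ hψ).bilin (k * x) x, show k * ψ x * x = ψ x * (k * x) by ring, add_neg_cancel]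
  · simp only [LinearMap.add_apply, LinearMap.comp_apply, LinearMap.mulLeft_apply, hA,
      Finset.mul_sum, ← Finset.sum_add_distrib, map_mul]
    exact Finset.sum_congr rfl fun τ _ => by ring

theorem TS.step (h : TS R) {D D' : K →ₗ[F] K}
    (hD : ∀ ψ ∈ R, ∃ ψ' ∈ R, ∀ x, ψ' x = D (ψ x) + ψ (D' x)) {B : (K ≃ₐ[F] K) → K}
    (hB : ∀ x, D x = ∑ τ, B τ * τ x) {δ σ : K ≃ₐ[F] K} (hδ : δ ≠ 1) (hδ' : B δ ≠ 0) (hσ : σ ≠ 1)
    (hZ : HasZ R σ) : HasZ R (δ * σ) := by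
  classical
  by_cases h1 : δ * σ = 1
  · rw [h1]; exact hasZ_one
  obtain ⟨B', hB'⟩ := exists_gal_coeff D'
  by_contra hcon
  have key : ∀ c, B δ * δ c - B (δ * σ * σ) * (δ * σ) c + σ (B' (σ⁻¹ * (δ * σ))) * c -
      σ⁻¹ (B' (σ * (δ * σ))) * σ⁻¹ c = 0 := by
    intro c
    obtain ⟨ψ, hψ, e⟩ := hZ c
    obtain ⟨ψ', hψ', e'⟩ := hD ψ hψ
    by_contra h3
    refine hcon (h.hasZ hψ' (A := fun ρ => B (ρ * σ⁻¹) * (ρ * σ⁻¹) c - B (ρ * σ) * ρ c +
      σ (B' (σ⁻¹ * ρ)) * c - σ⁻¹ (B' (σ * ρ)) * σ⁻¹ c) (fun x => ?_) (by simpa using h3))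
    have e1 : D (c * σ x) = ∑ ρ : K ≃ₐ[F] K, B (ρ * σ⁻¹) * (ρ * σ⁻¹) c * ρ x := by
      rw [hB]
      refine Fintype.sum_equiv (Equiv.mulRight σ) _ _ fun n => ?_
      simp [mul_assoc]
    have e2 : D (σ⁻¹ (c * x)) = ∑ ρ : K ≃ₐ[F] K, B (ρ * σ) * ρ c * ρ x := by
      rw [hB]
      refine Fintype.sum_equiv (Equiv.mulRight σ⁻¹) _ _ fun n => ?_
      simp [mul_assoc]
    have e3 : c * σ (D' x) = ∑ ρ : K ≃ₐ[F] K, σ (B' (σ⁻¹ * ρ)) * c * ρ x := by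
      rw [hB', map_sum, Finset.mul_sum]
      refine Fintype.sum_equiv (Equiv.mulLeft σ) _ _ fun n => ?_
      simp only [Equiv.coe_mulLeft, inv_mul_cancel_left, map_mul, AlgEquiv.mul_apply]; ring
    have e4 : σ⁻¹ (c * D' x) = ∑ ρ : K ≃ₐ[F] K, σ⁻¹ (B' (σ * ρ)) * σ⁻¹ c * ρ x := by
      rw [hB', map_mul, map_sum, Finset.mul_sum]
      refine Fintype.sum_equiv (Equiv.mulLeft σ⁻¹) _ _ fun n => ?_
      simp only [Equiv.coe_mulLeft, mul_inv_cancel_left, map_mul, AlgEquiv.mul_apply]; ring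
    rw [e', e, e, map_sub, e1, e2, e3, e4]
    simp only [sub_mul, add_mul, Finset.sum_add_distrib, Finset.sum_sub_distrib]
    ring
  have h4 := gal_coeff_eq_zero (F := F) (A := fun ρ => (if ρ = δ then B δ else 0) -
    (if ρ = δ * σ then B (δ * σ * σ) else 0) + (if ρ = 1 then σ (B' (σ⁻¹ * (δ * σ))) else 0) -
    (if ρ = σ⁻¹ then σ⁻¹ (B' (σ * (δ * σ))) else 0)) (fun c => by
      simp only [add_mul, sub_mul, ite_mul, zero_mul, Finset.sum_add_distrib,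
        Finset.sum_sub_distrib, Finset.sum_ite_eq', Finset.mem_univ, if_true, AlgEquiv.one_apply]
      exact key c) δ
  have h5 : δ ≠ σ⁻¹ := fun h => h1 (by rw [h, inv_mul_cancel])
  have h6 : δ ≠ δ * σ := fun h => hσ (left_eq_mul.1 h)
  simp only [if_true, if_neg h5, if_neg h6, if_neg hδ, sub_zero, add_zero] at h4
  exact hδ' h4

theorem all_of_step (hr : (finrank F K).Prime) {Z : (K ≃ₐ[F] K) → Prop} (h1 : Z 1)
    (hinv : ∀ σ, Z σ → Z σ⁻¹) {δ : K ≃ₐ[F] K} (hδ : δ ≠ 1)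
    (hstep : ∀ σ, σ ≠ 1 → Z σ → Z (δ * σ)) {σ : K ≃ₐ[F] K} (hσ : σ ≠ 1) (hZ : Z σ) (τ) : Z τ := by
  have := Fact.mk hr
  have hpow : ∀ τ : K ≃ₐ[F] K, ∃ n : ℕ, δ ^ n = τ := fun τ =>
    mem_powers_of_prime_card (card_gal (F := F) (K := K)) (g' := τ) hδ
  have key : ∀ σ, σ ≠ 1 → Z σ → ∀ n : ℕ, (Z (δ ^ n * σ) ∧ δ ^ n * σ ≠ 1) ∨
      ∃ m < n, δ ^ (m + 1) * σ = 1 ∧ Z δ⁻¹ := by
    intro σ hσ hZ n
    induction n with
    | zero => exact Or.inl ⟨by simpa using hZ, by simpa using hσ⟩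
    | succ n ih =>
      rcases ih with ⟨h2, h3⟩ | ⟨m, hm, h2⟩
      · by_cases h4 : δ ^ (n + 1) * σ = 1
        · refine Or.inr ⟨n, by omega, h4, ?_⟩
          rw [pow_succ', mul_assoc] at h4
          rwa [eq_inv_of_mul_eq_one_right h4] at h2
        · exact Or.inl ⟨by rw [pow_succ', mul_assoc]; exact hstep _ h3 h2, h4⟩
      · exact Or.inr ⟨m, by omega, h2⟩
  have hZδ : Z δ := by
    obtain ⟨n, hn⟩ := hpow σ⁻¹
    rcases key σ hσ hZ n with ⟨-, h2⟩ | ⟨m, -, -, h2⟩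
    · exact absurd (by rw [hn, inv_mul_cancel]) h2
    · simpa using hinv _ h2
  obtain ⟨n, rfl⟩ := hpow τ
  induction n with
  | zero => simpa using h1
  | succ n ih =>
    rw [pow_succ']
    by_cases h2 : δ ^ n = 1
    · rwa [h2, mul_one]
    · exact hstep _ h2 ih

/-- The skew weight lemma. -/
theorem TS.all (h : TS R) (hr : (finrank F K).Prime) {σ : K ≃ₐ[F] K} (hσ : σ ≠ 1)
    (hZ : HasZ R σ) (α β : K ≃ₗ[F] K) (hα : ¬ Semi (α : K →ₗ[F] K))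
    (h1 : ∀ ψ ∈ R, ∃ ψ' ∈ R, ∀ x, ψ' x = α (ψ (β x)))
    (h2 : ∀ ψ ∈ R, ∃ ψ' ∈ R, ∀ x, ψ' x = α.symm (ψ (β.symm x))) (τ) : HasZ R τ := by
  obtain ⟨k, hk⟩ : ∃ k, ∀ k', ∃ x, α (k * x) ≠ k' * α x := by
    by_contra h3
    push Not at h3
    exact hα h3
  let D : K →ₗ[F] K := (α : K →ₗ[F] K) ∘ₗ LinearMap.mulLeft F k ∘ₗ (α.symm : K →ₗ[F] K)
  let D' : K →ₗ[F] K := (β.symm : K →ₗ[F] K) ∘ₗ LinearMap.mulLeft F k ∘ₗ (β : K →ₗ[F] K)
  obtain ⟨B, hB⟩ := exists_gal_coeff D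
  obtain ⟨δ, hδ, hδ'⟩ : ∃ δ, δ ≠ 1 ∧ B δ ≠ 0 := by
    by_contra h3
    push Not at h3
    obtain ⟨x, hx⟩ := hk (B 1)
    apply hx
    have h4 := hB (α x)
    rw [Finset.sum_eq_single 1 (fun τ _ hτ => by simp [h3 τ hτ]) (by simp)] at h4
    simpa [D] using h4
  refine all_of_step hr hasZ_one (fun σ => HasZ.inv) hδ
    (fun σ hσ => h.step (D := D) (D' := D') (fun ψ hψ => ?_) hB hδ hδ' hσ) hσ hZ τ
  obtain ⟨ψ₁, hψ₁, e₁⟩ := h2 ψ hψ
  obtain ⟨ψ₂, hψ₂, e₂⟩ := h.der hψ₁ k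
  obtain ⟨ψ₃, hψ₃, e₃⟩ := h1 ψ₂ hψ₂
  exact ⟨ψ₃, hψ₃, fun x => by simp [e₃, e₂, e₁, D, D']⟩

theorem all_of_two (hr : finrank F K = 2) {σ : K ≃ₐ[F] K} (hσ : σ ≠ 1) (hZ : HasZ R σ) (τ) :
    HasZ R τ := by
  by_cases h : τ = 1
  · rw [h]; exact hasZ_one
  obtain ⟨ρ, -, hρ⟩ := (Nat.card_eq_two_iff' (1 : K ≃ₐ[F] K)).1 (card_gal.trans hr)
  rwa [hρ τ h, ← hρ σ hσ]

theorem exists_of_fixed (hr : (finrank F K).Prime) {σ : K ≃ₐ[F] K} (hσ : σ ≠ 1) {y : K}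
    (hy : σ y = y) : ∃ c : F, algebraMap F K c = y := by
  have := Fact.mk hr
  refine (IsGalois.mem_range_algebraMap_iff_fixed y).2 fun τ => ?_
  obtain ⟨n, rfl⟩ := mem_powers_of_prime_card (card_gal (F := F) (K := K)) (g' := τ) hσ
  induction n with
  | zero => rfl
  | succ n ih => simp only [pow_succ, AlgEquiv.mul_apply, hy] at ih ⊢; exact ih

theorem finrank_ker_tr : finrank F (LinearMap.ker (Algebra.trace F K)) + 1 = finrank F K := by
  have h1 := (Algebra.trace F K).finrank_range_add_finrank_ker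
  have h3 : LinearMap.range (Algebra.trace F K) = ⊤ := LinearMap.range_eq_top.2 fun c =>
    let ⟨k, hk⟩ := exists_tr_eq (one_ne_zero (α := K)) c
    ⟨k * 1, hk⟩
  rw [h3, finrank_top, finrank_self] at h1
  omega

/-- Additive Hilbert 90. -/
theorem exists_sub_eq (hr : (finrank F K).Prime) {σ : K ≃ₐ[F] K} (hσ : σ ≠ 1) {z : K}
    (hz : Algebra.trace F K z = 0) : ∃ y, y - σ y = z := by
  let T : K →ₗ[F] K := LinearMap.id - σ.toLinearMap
  have h1 : LinearMap.range T ≤ LinearMap.ker (Algebra.trace F K) := by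
    rintro _ ⟨y, rfl⟩
    simp [T, tr_gal]
  have h2 : LinearMap.ker T ≤ Submodule.span F {(1 : K)} := fun y hy => by
    have h3 : σ y = y := (sub_eq_zero.1 hy).symm
    obtain ⟨c, rfl⟩ := exists_of_fixed hr hσ h3
    exact Submodule.mem_span_singleton.2 ⟨c, (Algebra.algebraMap_eq_smul_one c).symm⟩
  have h3 := Submodule.finrank_mono h2
  rw [finrank_span_singleton one_ne_zero] at h3
  have h4 := T.finrank_range_add_finrank_ker
  have h5 := finrank_ker_tr (F := F) (K := K)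
  have h6 := Submodule.eq_of_le_of_finrank_le h1 (by omega)
  have h7 : z ∈ LinearMap.range T := h6 ▸ hz
  exact h7

theorem HasZ.flex (hr : (finrank F K).Prime) {σ : K ≃ₐ[F] K} (hσ : σ ≠ 1) (hZ : HasZ R σ)
    {x k : K} (hx : x ≠ 0) (hk : Algebra.trace F K (k * x) = 0) : ∃ ψ ∈ R, ψ x = k := by
  obtain ⟨y, hy⟩ := exists_sub_eq hr (inv_ne_one.2 hσ) hk
  have h1 : σ x ≠ 0 := by simpa using hx
  obtain ⟨ψ, hψ, e⟩ := hZ (y * (x * σ x)⁻¹)
  refine ⟨ψ, hψ, mul_right_cancel₀ hx ?_⟩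
  have h2 : σ⁻¹ (σ x) = x := by rw [← AlgEquiv.mul_apply, inv_mul_cancel, AlgEquiv.one_apply]
  have h3 : y * (x * σ x)⁻¹ * x = y * (σ x)⁻¹ := by field_simp
  rw [e, ← hy, h3, map_mul, map_inv₀, h2]
  field_simp

/-- A cubic unipotent semilinear map forces degree at most three. -/
theorem eq_of_cubic (hr : (finrank F K).Prime) (h2 : finrank F K ≠ 2) (h3 : finrank F K ≠ 3)
    {c : K} {σ : K ≃ₐ[F] K}
    (hq : ∀ x, c * σ (c * σ (c * σ x)) - 3 * (c * σ (c * σ x)) + 3 * (c * σ x) - x = 0) (x : K) :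
    c * σ x = x := by
  classical
  by_cases hσ : σ = 1
  · subst hσ
    have h1 := hq 1
    simp only [AlgEquiv.one_apply, mul_one] at h1
    have h4 : (c - 1) ^ 3 = 0 := by linear_combination h1
    rw [sub_eq_zero.1 (pow_eq_zero_iff three_ne_zero |>.1 h4)]; simp
  exfalso
  have key := gal_coeff_eq_zero (F := F) (A := fun ρ =>
    (if ρ = σ * σ * σ then c * σ (c * σ c) else 0) - (if ρ = σ * σ then 3 * (c * σ c) else 0) +
      (if ρ = σ then 3 * c else 0) - (if ρ = 1 then 1 else 0)) (fun x => by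
    simp only [add_mul, sub_mul, ite_mul, one_mul, zero_mul, Finset.sum_add_distrib,
      Finset.sum_sub_distrib, Finset.sum_ite_eq', Finset.mem_univ, if_true]
    have := hq x
    simp only [map_mul] at this
    simp only [AlgEquiv.mul_apply, AlgEquiv.one_apply, map_mul]
    linear_combination this) 1
  have := Fact.mk hr
  have h1 : orderOf σ = finrank F K := by
    have h2 := orderOf_dvd_natCard σ
    rw [card_gal] at h2
    exact ((Nat.dvd_prime hr).1 h2).resolve_left fun h => hσ (orderOf_eq_one_iff.1 h)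
  have h4 : (1 : K ≃ₐ[F] K) ≠ σ * σ := fun h =>
    h2 (h1 ▸ orderOf_eq_prime (by rw [sq, ← h]) hσ)
  have h5 : (1 : K ≃ₐ[F] K) ≠ σ * σ * σ := fun h =>
    h3 (h1 ▸ orderOf_eq_prime (p := 3) (by rw [pow_three', ← h]) hσ)
  simp [h4, h5, Ne.symm hσ] at key

end CfsgLib.OMax
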