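import Mathlib
import Cfsg.Agent.Lib.SUMax.Mono3

/-!
Groups of isometries containing the even sign changes and the three-cycles of an orthonormal
frame, in which the stabiliser of a point of the frame is monomial.
-/

set_option autoImplicit false

namespace CfsgLib.OMax

open CfsgLib.Forms CfsgLib.ClMax CfsgLib.RootMax CfsgLib.SUMax Module

variable {F : Type*} [Field F] {σ : F →+* F} {V : Type*} [AddCommGroup V] [Module F V]
  {P : PQ σ V} {X : Subgroup (V ≃ₗ[F] V)} {ι : Type*} {e : ι → V}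

/-- The rigid situation. -/
structure Rig (P : PQ σ V) (e : ι → V) (X : Subgroup (V ≃ₗ[F] V)) : Prop where
  fr : Frame P e
  h2 : (2 : F) ≠ 0
  hX : X ≤ P.isom
  i2 : ∀ a b, a ≠ b → ∃ d ∈ X, Mon e d ∧ I2 P (e a) (e b) d
  c3 : ∀ c d f, c ≠ d → c ≠ f → d ≠ f → ∃ z ∈ X, ∀ v, z v = v + P.B (e c) v • (e d - e c) +
    P.B (e d) v • (e f - e d) + P.B (e f) v • (e c - e f)
  st : ∀ g ∈ X, ∀ i, IsPt e (g (e i)) F → Mon e g

namespace Rig

variable [Fintype ι] [FiniteDimensional F V] (h : Rig P e X)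
include h

theorem wb {g : V ≃ₗ[F] V} (hg : g ∈ X) {a : ι} (J : Finset ι) (hJ : J.card + 5 ≤ Fintype.card ι)
    (hz : ∀ l, l ∉ J → P.B (e l) (g (e a)) = 0) : Mon e g := by
  classical
  have hi := h.hX (X.inv_mem hg)
  have hB : ∀ l v, P.B (e l) (g v) = P.B (g⁻¹ (e l)) v := fun l v => by
    rw [← hi.B_eq, inv_apply_apply]
  have hA : ∀ {c d}, c ∉ J → d ∉ J → c ≠ d → ∀ i, IsPt e (e i - (2 * P.B (g⁻¹ (e c)) (e i)) •
      g⁻¹ (e c) - (2 * P.B (g⁻¹ (e d)) (e i)) • g⁻¹ (e d)) F := fun {c d} hc hd hcd i => by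
    obtain ⟨m, hm, -, e1⟩ := h.i2 c d hcd
    simpa [e1 _, inv_apply_apply, hB] using h.st _ (X.mul_mem (X.mul_mem (X.inv_mem hg) hm) hg) a
      (by simpa [e1 _, hz c hc, hz d hd, inv_apply_apply] using isPt_self a) i
  have hC : ∀ S T : Finset ι, (∀ c ∈ S, ∀ l, l ∉ T → P.B (e l) (g⁻¹ (e c)) = 0) →
      S.card ≤ T.card := fun S T hS => by
    rw [← h.fr.finrank_span S, ← h.fr.finrank_span T, ← LinearEquiv.finrank_map_eq g⁻¹]
    refine Submodule.finrank_mono ?_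
    rw [Submodule.map_span, Submodule.span_le]
    rintro _ ⟨_, ⟨c, hc, rfl⟩, rfl⟩
    exact h.fr.mem_span.2 (hS c hc)
  by_contra hg'
  have np : ∀ c, ¬ IsPt e (g⁻¹ (e c)) F := fun c hc =>
    hg' (by simpa using h.fr.mon_inv (h.st _ (X.inv_mem hg) c hc))
  have two : ∀ {c d i}, c ∉ J → d ∉ J → P.B (g⁻¹ (e c)) (e i) ≠ 0 → P.B (g⁻¹ (e d)) (e i) = 0 →
      ∃ j, j ≠ i ∧ P.B (e j) (g⁻¹ (e c)) ≠ 0 ∧ ∀ l, l ≠ i → l ≠ j → P.B (e l) (g⁻¹ (e c)) = 0 := by
    intro c d i hc hd h1 h3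
    obtain ⟨j, t, h4⟩ := hA hc hd (by rintro rfl; exact h1 h3) i
    have h5 : ∀ l, l ≠ i → l ≠ j → P.B (e l) (g⁻¹ (e c)) = 0 := fun l a1 a2 => by
      have := congrArg (P.B (e l)) h4
      simp only [h3, map_sub, map_smul, h.fr.orth a1, h.fr.orth a2, smul_eq_mul] at this
      exact mul_left_cancel₀ (mul_ne_zero h.h2 h1) (by linear_combination -this)
    obtain ⟨j', a1, a2⟩ := h.fr.exists_two (np c) i
    obtain rfl : j' = j := by by_contra h0; exact a2 (h5 j' a1 h0)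
    exact ⟨j', a1, a2, h5⟩
  have hJ' : 5 ≤ Jᶜ.card := by rw [Finset.card_compl]; omega
  by_cases h1 : ∃ c d i, c ∉ J ∧ d ∉ J ∧ P.B (g⁻¹ (e c)) (e i) ≠ 0 ∧ P.B (g⁻¹ (e d)) (e i) = 0
  · obtain ⟨c, d, i, hc, hd, h1, h3⟩ := h1
    have hcd : c ≠ d := by rintro rfl; exact h1 h3
    obtain ⟨j, hji, h4, h5⟩ := two hc hd h1 h3
    have h4' : P.B (g⁻¹ (e c)) (e j) ≠ 0 := fun h0 => h4 (P.B_eq_zero_comm.1 h0)
    have h6 : ∀ v, P.B (g⁻¹ (e c)) v =
        P.B (g⁻¹ (e c)) (e i) * P.B (e i) v + P.B (g⁻¹ (e c)) (e j) * P.B (e j) v := fun v => by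
      rw [h.fr.B_eq, Finset.sum_eq_add i j hji.symm
        (fun l _ hl => by rw [P.B_eq_zero_comm.1 (h5 l hl.1 hl.2), zero_mul]) (by simp) (by simp)]
    have h7 : ∀ f, f ∉ J → f ≠ c → f ≠ d → ∀ l, l ∉ ({i, j} : Finset ι) →
        P.B (e l) (g⁻¹ (e f)) = 0 := fun f hf hfc hfd l hl => by
      have a1 : P.B (e i) (g⁻¹ (e f)) ≠ 0 := fun a1 => by
        obtain ⟨z, hz', e1⟩ := h.c3 c d f hcd hfc.symm hfd.symm
        have a2 := h.fr.pt_two (h.st _ (X.mul_mem (X.mul_mem (X.inv_mem hg) hz') hg) a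
          (by simpa [e1 _, hz c hc, hz d hd, hz f hf, inv_apply_apply] using isPt_self a) i) hji
        have a3 := h6 (g⁻¹ (e d))
        have a4 := h6 (g⁻¹ (e c))
        rw [hi.B_eq, h.fr.orth hcd, P.B_eq_zero_comm.1 h3, mul_zero, zero_add, eq_comm,
          mul_eq_zero, or_iff_right h4'] at a3
        rw [hi.B_eq, h.fr.unit] at a4
        simp only [LinearEquiv.mul_apply, e1, hB, h3, P.B_eq_zero_comm.1 a1, map_add, map_smul,
          map_sub, inv_apply_apply, a3, P.B_eq_zero_comm.1 h3, h.fr.unit, h.fr.orth hji,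
          smul_eq_mul] at a2
        rcases a2 with a2 | a2
        · exact mul_ne_zero h1 h4 (by linear_combination -a2)
        · exact mul_ne_zero h4' h4 (by linear_combination a2 - a4)
      have a2 : P.B (e j) (g⁻¹ (e f)) ≠ 0 := fun a2 => by
        have := h6 (g⁻¹ (e f))
        rw [hi.B_eq, h.fr.orth hfc.symm, a2, mul_zero, add_zero] at this
        exact mul_ne_zero h1 a1 this.symm
      simp only [Finset.mem_insert, Finset.mem_singleton, not_or] at hl
      by_contra a3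
      obtain ⟨j', -, -, a4⟩ := two hf hc (fun h0 => a3 (P.B_eq_zero_comm.1 h0))
        (P.B_eq_zero_comm.1 (h5 l hl.1 hl.2))
      by_cases a5 : i = j'
      · exact a2 (a4 j (Ne.symm hl.2) (a5 ▸ hji))
      · exact a1 (a4 i (Ne.symm hl.1) a5)
    have h8 := hC (Jᶜ.erase d) {i, j} fun f hf l hl => by
      simp only [Finset.mem_erase, Finset.mem_compl] at hf
      by_cases hfc : f = c
      · subst hfc; exact h5 l (fun h0 => hl (by simp [h0])) fun h0 => hl (by simp [h0])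
      · exact h7 f hf.2 hfc hf.1 l hl
    have := Finset.card_le_two (a := i) (b := j)
    have := Finset.pred_card_le_card_erase (s := Jᶜ) (a := d)
    omega
  push Not at h1
  obtain ⟨c, d, f, hc, hd, hf, hcd, hcf, hdf⟩ := Finset.two_lt_card_iff.1
    (show 2 < Jᶜ.card by omega)
  rw [Finset.mem_compl] at hc hd hf
  obtain ⟨i, -, h3⟩ := h.fr.exists_two (np c) c
  obtain ⟨j, r, a1⟩ := hA hc hd hcd i
  obtain ⟨k, s, a2⟩ := hA hc hf hcf i
  obtain ⟨l, t, a3⟩ := hA hd hf hdf i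
  have h8 := hC Jᶜ {i, j, k, l} fun b hb m hm => by
    simp only [Finset.mem_insert, Finset.mem_singleton, not_or] at hm
    by_contra h0
    have b1 := congrArg (P.B (e m)) a1
    have b2 := congrArg (P.B (e m)) a2
    have b3 := congrArg (P.B (e m)) a3
    simp only [map_sub, map_smul, smul_eq_mul, h.fr.orth hm.1, h.fr.orth hm.2.1,
      h.fr.orth hm.2.2.1, h.fr.orth hm.2.2.2] at b1 b2 b3
    refine mul_ne_zero h.h2 (mul_ne_zero h.h2 (mul_ne_zero
      (fun h0 => h3 (P.B_eq_zero_comm.1 h0)) fun h4 => h1 b c m (Finset.mem_compl.1 hb) hc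
        (fun h5 => h0 (P.B_eq_zero_comm.1 h5)) (P.B_eq_zero_comm.1 h4))) ?_
    linear_combination b3 - b1 - b2
  have := Finset.card_le_four (a := i) (b := j) (c := k) (d := l)
  omega

theorem mon_cl (hι : 9 ≤ Fintype.card ι) {k j : V ≃ₗ[F] V} (hk : k ∈ X) {a b : ι} (hab : a ≠ b)
    (hj : I2 P (k (e a)) (k (e b)) j) (hj' : Mon e j) : Mon e k := by
  classical
  obtain ⟨S, h3, hS⟩ := h.fr.exists_moved hj' (hj.sub_mem (Z := Submodule.span F {k (e a), k (e b)})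
    (Submodule.subset_span (by simp)) (Submodule.subset_span (by simp)))
  have h4 := SUMax.finrank_span_pair_le (F := F) (k (e a)) (k (e b))
  refine h.wb hk (a := a) S (by omega) fun l hl => ?_
  have h5 := congrArg (P.B (k (e a))) (hS l hl)
  rw [hj] at h5
  simp only [P.B_sub_right, P.B_smul_right, (h.hX hk).B_eq, h.fr.unit, h.fr.orth hab] at h5
  exact P.B_eq_zero_comm.1 (mul_left_cancel₀ h.h2 (by linear_combination -h5))

theorem mon_cent (hι : 7 ≤ Fintype.card ι) {y j : V ≃ₗ[F] V} (hy : y ∈ X) {a b : ι} (hab : a ≠ b)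
    (hj : I2 P (e a) (e b) j) (hc : y * j = j * y) : Mon e y := by
  classical
  refine h.wb hy (a := a) {a, b}
    (le_trans (add_le_add_left Finset.card_le_two 5) hι) fun l hl => ?_
  simp only [Finset.mem_insert, Finset.mem_singleton, not_or] at hl
  have h5 := congrArg (fun g : V ≃ₗ[F] V => P.B (e l) (g (e a))) hc
  simp only [LinearEquiv.mul_apply, hj (e a), hj (y (e a)), map_sub, map_smul, smul_eq_mul, h.fr.unit,
    h.fr.orth hab.symm, h.fr.orth hl.1, h.fr.orth hl.2] at h5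
  exact mul_left_cancel₀ h.h2 (by linear_combination -h5)

theorem exists_cl [Finite F] (hι : 9 ≤ Fintype.card ι) {g : V ≃ₗ[F] V} (hg : g ∈ X)
    (hg' : ¬ Mon e g) {s t a b : ι} (hst' : s ≠ t) (hab : a ≠ b) :
    ∃ k ∈ movedIn X (Submodule.span F {e s, e t, g (e a), g (e b)}), Mon e (k⁻¹ * g) ∧
      ∃ u w, I2 P u w k := by
  classical
  have : Finite V := Module.finite_of_finite F
  have : Finite (V ≃ₗ[F] V) := Finite.of_injective (fun g : V ≃ₗ[F] V => (g : V → V))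
    DFunLike.coe_injective
  obtain ⟨i, hi, hi1, hi2⟩ := h.i2 _ _ hst'
  obtain ⟨i', hi', hi1', hi2'⟩ := h.i2 _ _ hab
  have hj := hi2'.conj (h.hX hg)
  have hii := hi2.sq (h.fr.unit s) (h.fr.unit t) (h.fr.orth hst')
  have hii' := hi2'.sq (h.fr.unit a) (h.fr.unit b) (h.fr.orth hab)
  have mcl := fun {k j : V ≃ₗ[F] V} (hk : k ∈ X) {a b : ι} (hab : a ≠ b)
    (hj : I2 P (k (e a)) (k (e b)) j) => h.mon_cl (by omega) hk hab hj
  have hiM : i ∈ movedIn X (Submodule.span F {e s, e t, g (e a), g (e b)}) :=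
    ⟨hi, hi2.sub_mem (Submodule.subset_span (by simp)) (Submodule.subset_span (by simp))⟩
  rcases dihedral_cases hii (t := g * i' * g⁻¹) (by
      rw [show g * i' * g⁻¹ * (g * i' * g⁻¹) = g * (i' * i') * g⁻¹ by group, hii']; simp) _ hiM
    ⟨X.mul_mem (X.mul_mem hg hi') (X.inv_mem hg),
      hj.sub_mem (Submodule.subset_span (by simp)) (Submodule.subset_span (by simp))⟩ with
    ⟨u, hu, e1⟩ | ⟨w, hw, hw1, e1, e2, ⟨u, hu, e3⟩, ⟨u', hu', e4⟩⟩
  · have hk := Subgroup.mul_mem _ (Subgroup.mul_mem _ hu hiM) (Subgroup.inv_mem _ hu)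
    refine ⟨_, hk, ?_, _, _, hi2.conj (h.hX hu.1)⟩
    generalize u * i * u⁻¹ = k at hk e1
    have h3 := X.mul_mem (X.inv_mem hk.1) hg
    refine mcl h3 hab (hi2'.conj (h.hX h3)) ?_
    rwa [show k⁻¹ * g * i' * (k⁻¹ * g)⁻¹ = k⁻¹ * (g * i' * g⁻¹) * k by group, ← e1,
      show k⁻¹ * (k * i * k⁻¹) * k = i by group]
  exfalso
  have cl : ∀ {x u : V ≃ₗ[F] V}, u ∈ X → x = u * i * u⁻¹ ∨ x = u * (g * i' * g⁻¹) * u⁻¹ →
      ∃ k ∈ X, ∃ c d, c ≠ d ∧ I2 P (k (e c)) (k (e d)) x := by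
    rintro x u hu (rfl | rfl)
    · exact ⟨u, hu, s, t, hst', hi2.conj (h.hX hu)⟩
    · exact ⟨u * g, X.mul_mem hu hg, a, b, hab, hj.conj (h.hX hu)⟩
  obtain ⟨k, hk, c, d, hcd, hc⟩ := cl hu.1 e3
  obtain ⟨k', hk', c', d', hcd', hc'⟩ := cl hu'.1 e4.symm
  have h3 := mcl hk hcd hc ((h.mon_cent (by omega) hw.1 hst' hi2 e1).mul hi1)
  obtain ⟨c₀, γ, h4⟩ := h3 c
  obtain ⟨d₀, δ, h4'⟩ := h3 d
  have hw' := X.mul_mem (X.mul_mem (X.inv_mem hg) hw.1) hg
  have h5 := h.mon_cent (by omega) hw' hab hi2' (by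
    rw [show g⁻¹ * w * g * i' = g⁻¹ * (w * (g * i' * g⁻¹)) * g by group, e2]; group)
  have h6 : I2 P ((g⁻¹ * k') (e c')) ((g⁻¹ * k') (e d')) (g⁻¹ * w * g * i') := by
    have := hc'.conj (h.hX (X.inv_mem hg))
    rwa [show g⁻¹ * (w * (g * i' * g⁻¹)) * g⁻¹⁻¹ = g⁻¹ * w * g * i' by group] at this
  have hk'' := X.mul_mem (X.inv_mem hg) hk'
  have h7 := h.fr.diag_of (h.hX hk'') (mcl hk'' hcd' h6 (h5.mul hi1')) hcd' h6
  have h8 := h.fr.diag_of (k := 1) (PQ.IsIso.id P) isPt_self hab hi2'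
  obtain ⟨f, hf⟩ : ∃ f, w (g (e f)) = -g (e f) := by
    by_contra h0
    push Not at h0
    suffices h1 : g⁻¹ * w * g = 1 by
      exact hw1 (by rw [show w = g * (g⁻¹ * w * g) * g⁻¹ by group, h1]; simp)
    refine h.fr.eq_one fun l => ?_
    have h9 : (g⁻¹ * w * g) (e l) = e l ∨ (g⁻¹ * w * g) (e l) = -e l := by
      have := h7 l
      rw [LinearEquiv.mul_apply] at this
      rcases h8 l with h1 | h1 <;> rw [h1] at this
      · exact this
      · simpa [neg_eq_iff_eq_neg, or_comm] using this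
    refine h9.resolve_right fun h1 => h0 l ?_
    simpa [apply_inv_apply] using congrArg g h1
  refine hg' (h.wb hg (a := f) {s, t, c₀, d₀} ?_ fun l hl => ?_)
  · have := Finset.card_le_four (a := s) (b := t) (c := c₀) (d := d₀)
    omega
  · simp only [not_or, Finset.mem_insert, Finset.mem_singleton] at hl
    have h9 : w (e l) = e l := by
      simpa [hi2 (e l), h.fr.orth (Ne.symm hl.1), h.fr.orth (Ne.symm hl.2.1), h4, h4',
        h.fr.orth (Ne.symm hl.2.2.1), h.fr.orth (Ne.symm hl.2.2.2)] using hc (e l)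
    have := (h.hX hw.1).B_eq (e l) (g (e f))
    rw [h9, hf, map_neg] at this
    exact mul_left_cancel₀ h.h2 (by linear_combination -this)

theorem mon_of_odd [Finite F] (hι : 9 ≤ Fintype.card ι) {g : V ≃ₗ[F] V} (hg : g ∈ X) :
    Mon e g := by
  classical
  by_contra hg'
  obtain ⟨f⟩ : Nonempty (Fin 9 ↪ ι) := Function.Embedding.nonempty_of_card_le (by simpa using hι)
  have hB : ∀ i j, P.B (e (f i)) (e (f j)) = if i = j then 1 else 0 := fun i j => by
    split_ifs with hij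
    · rw [hij, h.fr.unit]
    · exact h.fr.orth (f.injective.ne hij)
  obtain ⟨k, ⟨hk, -⟩, h3, u, w, hkI⟩ := h.exists_cl hι hg hg'
    (f.injective.ne (show (0 : Fin 9) ≠ 1 by simp)) (f.injective.ne (show (0 : Fin 9) ≠ 1 by simp))
  have hk' : ¬ Mon e k := fun h0 => hg' (by simpa using h0.mul h3)
  obtain ⟨W, hW⟩ : ∃ W, W = Submodule.span F {u, w} := ⟨_, rfl⟩
  have hW2 : finrank F W ≤ 2 := hW ▸ SUMax.finrank_span_pair_le u w
  have hu : u ∈ W := hW ▸ Submodule.subset_span (by simp)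
  have hw : w ∈ W := hW ▸ Submodule.subset_span (by simp)
  have hkW := hkI.sub_mem hu hw
  have nf : ∀ c, k (e c) ≠ e c := fun c hc => hk' (h.st k hk c (hc.symm ▸ isPt_self c))
  have four : ∀ s t a b : Fin 9, s ≠ t → a ≠ b → ∃ α β γ δ : F,
      α • e (f s) + β • e (f t) + γ • e (f a) + δ • e (f b) ∈ W ∧
        ¬ (α = 0 ∧ β = 0 ∧ γ = 0 ∧ δ = 0) := by
    intro s t a b hst' hab
    obtain ⟨j, hj, h4, u', w', hjI⟩ := h.exists_cl hι hk hk'
      (f.injective.ne hst') (f.injective.ne hab)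
    have h5 := SUMax.finrank_span_pair_le (F := F) u' w'
    have h6 := Submodule.finrank_add_le_finrank_add_finrank (Submodule.span F {u', w'}) W
    have h7 : j⁻¹ * k ∈ movedIn X (Submodule.span F {u', w'} ⊔ W) :=
      Subgroup.mul_mem _ (Subgroup.inv_mem _ ⟨hj.1, hjI.sub_mem
        (Submodule.mem_sup_left (Submodule.subset_span (by simp)))
        (Submodule.mem_sup_left (Submodule.subset_span (by simp)))⟩)
        ⟨hk, fun v => Submodule.mem_sup_right (hkW v)⟩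
    obtain ⟨S, h8, hS⟩ := h.fr.exists_moved h4 h7.2
    obtain ⟨c, hc⟩ := exists_notMem _ (lt_of_le_of_lt h8 (by omega))
    have h9 : k (e c) = j (e c) := by simpa [apply_inv_apply] using congrArg j (hS c hc)
    have h10 := hj.2 (e c)
    rw [← h9] at h10
    simp only [Submodule.mem_span_insert, Submodule.mem_span_singleton] at h10
    obtain ⟨α, _, ⟨β, _, ⟨γ, _, ⟨δ, rfl⟩, rfl⟩, rfl⟩, h10⟩ := h10
    refine ⟨α, β, γ, δ, ?_, ?_⟩
    · convert W.sub_mem (W.sub_mem (hkW (e c)) (W.smul_mem γ (hkW (e (f a)))))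
        (W.smul_mem δ (hkW (e (f b)))) using 1
      rw [h10]; module
    · rintro ⟨rfl, rfl, rfl, rfl⟩
      exact nf c (by simpa [sub_eq_zero] using h10)
  obtain ⟨α, β, γ, δ, h4, h5⟩ := four 0 1 2 3 (by simp) (by simp)
  obtain ⟨α', β', γ', δ', h4', h5'⟩ := four 4 5 6 7 (by simp) (by simp)
  have h6 : ∀ y ∈ W, P.B (e (f 8)) y = 0 := by
    intro y hy
    by_contra hy'
    obtain ⟨x, hx⟩ : ∃ x, x = α • e (f 0) + β • e (f 1) + γ • e (f 2) + δ • e (f 3) := ⟨_, rfl⟩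
    obtain ⟨x', hx'⟩ : ∃ x, x = α' • e (f 4) + β' • e (f 5) + γ' • e (f 6) + δ' • e (f 7) :=
      ⟨_, rfl⟩
    have c1 : x ≠ 0 := fun h0 => h5 ⟨by simpa [hx, hB] using congrArg (P.B (e (f 0))) h0,
      by simpa [hx, hB] using congrArg (P.B (e (f 1))) h0,
      by simpa [hx, hB] using congrArg (P.B (e (f 2))) h0,
      by simpa [hx, hB] using congrArg (P.B (e (f 3))) h0⟩
    have c2 : x' ∉ Submodule.span F {x} := fun h0 => by
      obtain ⟨t, h0⟩ := Submodule.mem_span_singleton.1 h0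
      exact h5' ⟨by simpa [hx, hx', hB, eq_comm] using congrArg (P.B (e (f 4))) h0,
        by simpa [hx, hx', hB, eq_comm] using congrArg (P.B (e (f 5))) h0,
        by simpa [hx, hx', hB, eq_comm] using congrArg (P.B (e (f 6))) h0,
        by simpa [hx, hx', hB, eq_comm] using congrArg (P.B (e (f 7))) h0⟩
    have c3 : y ∉ Submodule.span F {x} ⊔ Submodule.span F {x'} := fun h0 => hy'
      ((show _ ≤ LinearMap.ker (P.B (e (f 8))) from sup_le
        ((Submodule.span_singleton_le_iff_mem _ _).2 (by simp [hx, hB]))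
        ((Submodule.span_singleton_le_iff_mem _ _).2 (by simp [hx', hB]))) h0)
    have c4 := Submodule.finrank_mono (show Submodule.span F {x} ⊔ Submodule.span F {x'} ⊔
      Submodule.span F {y} ≤ W by simp [hx, hx', h4, h4', hy])
    rw [Submodule.finrank_sup_span_singleton c3, Submodule.finrank_sup_span_singleton c2,
      finrank_span_singleton c1] at c4
    omega
  exact nf (f 8) (by
    simp [hkI (e (f 8)), P.B_eq_zero_comm.1 (h6 u hu), P.B_eq_zero_comm.1 (h6 w hw)])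

end Rig

end CfsgLib.OMax
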