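import Mathlib
import Cfsg.Agent.Lib.OMax.Spin
import Cfsg.Agent.Lib.OMax.FrameR
import Cfsg.Agent.Lib.Asch.Proj
import Cfsg.Agent.Lib.OrthE.Normal

/-!
Groups of isometries of the standard quadratic form over a prime field which contain the monomial
part of `Ω`, a reflection in a basis vector and a reflection in a vector of large support.
-/

set_option autoImplicit false

namespace CfsgLib.OMax

open CfsgLib.Forms CfsgLib.ClMax CfsgLib.RootMax CfsgLib.OrthE CfsgLib.SUMax Module QuadraticMap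
open Matrix Finset

variable {F : Type*} [Field F] {κ : Type*} [DecidableEq κ]

theorem EA.smul {V : Type*} [AddCommGroup V] [Module F V] {Q : QuadraticForm F V}
    {N : Subgroup (O Q)} (hF : (Nat.card F).Prime) {x a : V} (h : EA N x a) (c : F) :
    EA N x (c • a) := by
  have := Fact.mk hF
  obtain ⟨n, rfl⟩ := mem_multiples_of_prime_card (G := F) rfl one_ne_zero (g' := c)
  simp only [nsmul_eq_mul, mul_one]
  exact ⟨h.sing, by simp [h.orth], eich_pow h.sing h.orth n ▸ N.pow_mem h.mem n⟩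

theorem EA.of_smul {V : Type*} [AddCommGroup V] [Module F V] {Q : QuadraticForm F V}
    {N : Subgroup (O Q)} (hF : (Nat.card F).Prime) {x a : V} {c : F} (h : EA N x (c • a))
    (hc : c ≠ 0) : EA N x a := by
  simpa [hc] using h.smul hF c⁻¹

theorem rc_of_spec {V : Type*} [AddCommGroup V] [Module F V] {Q : QuadraticForm F V}
    {N : Subgroup (O Q)} (h2 : (2 : F) ≠ 0) {y f : V} (hv : RC N (y + f)) (hf : Q f ≠ 0)
    (hyf : polar Q y f = 0) {g : O Q} (hg : g ∈ N) (g1 : g.1 y = y) (g2 : g.1 f = -f) {s : F}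
    (hs : s * Q (y + f) = 4 * Q f) (h : s = 1 ∨ s ^ 2 - 3 * s + 1 = 0) : RC N f := by
  have e : Q (y + f) = Q y + Q f := by rw [Q_add, hyf, add_zero]
  have key : ∀ A B : F, RC N (A • y + B • f) →
      RC N ((A - (2 * A - s * (A + B) / 2)) • y + (-B - (2 * A - s * (A + B) / 2)) • f) := by
    intro A B h
    refine (hv.rf (h.conj hg)).congr ?_
    have : (Q (y + f))⁻¹ * polar Q (y + f) (g.1 (A • y + B • f)) = 2 * A - s * (A + B) / 2 := by
      simp only [map_add, map_smul, g1, g2, polar_add_left, polar_add_right, polar_smul_right,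
        polar_neg_right, polar_self', hyf, pc hyf, smul_eq_mul]
      have := hv.1
      field_simp
      linear_combination (A + B) * hs - 4 * A * e
    rw [this, map_add, map_smul, map_smul, g1, g2]
    module
  have h1 := key 1 1 (by simpa using hv)
  rcases h with rfl | h
  · refine (h1.congr (u := (-2 : F) • f) ?_).of_smul
    match_scalars <;> field_simp <;> ring
  · refine ((key _ _ h1).congr (u := (4 - 2 * s) • f) ?_).of_smul
    match_scalars <;> field_simp <;> linear_combination 4 * h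

theorem Spec.eq_one (h2 : (2 : F) ≠ 0) {s t : F} (hs : Spec s) (ht : Spec t) (h : s + t = 2) :
    s = 1 := by
  unfold Spec at *
  grind

theorem four_eq (h2 : (2 : F) ≠ 0) {a b c d : F} (a1 : c = d ∨ (a = b ∧ c + d = 2 * a))
    (a2 : a = b ∨ (c = d ∧ a + b = 2 * c)) (a3 : b = d ∨ (a = c ∧ b + d = 2 * a))
    (a4 : a = c ∨ (b = d ∧ a + c = 2 * b)) (a5 : b = c ∨ (a = d ∧ b + c = 2 * a))
    (a6 : a = d ∨ (b = c ∧ a + d = 2 * b)) : b = a ∧ c = a ∧ d = a := by
  grind

/-- The standard basis. -/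
def bv (i : κ) : κ → F := Pi.single i 1

@[simp] theorem bv_apply (i j : κ) : (bv i : κ → F) j = if j = i then 1 else 0 := Pi.single_apply ..

@[simp] theorem bv_dot [Fintype κ] (i : κ) (v : κ → F) : bv i ⬝ᵥ v = v i := by simp [bv]

@[simp] theorem dot_bv [Fintype κ] (i : κ) (v : κ → F) : v ⬝ᵥ bv i = v i := by simp [bv]

/-- Restriction to a set of coordinates. -/
def rs (K : Finset κ) (v : κ → F) : κ → F := fun i => if i ∈ K then v i else 0

@[simp] theorem rs_apply (K : Finset κ) (v : κ → F) (i : κ) :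
    rs K v i = if i ∈ K then v i else 0 := rfl

variable [Fintype κ]

theorem rs_dot (K : Finset κ) (v w : κ → F) : rs K v ⬝ᵥ w = ∑ i ∈ K, v i * w i := by
  simp [dotProduct]

theorem rs_dot_rs (K : Finset κ) (v : κ → F) : rs K v ⬝ᵥ rs K v = ∑ i ∈ K, v i * v i := by
  rw [rs_dot]; exact sum_congr rfl fun i hi => by simp [hi]

theorem rs_eq_sum (K : Finset κ) (v : κ → F) : rs K v = ∑ i ∈ K, v i • bv i := by
  ext j; simp [Finset.sum_apply]

/-- The support. -/
noncomputable def sp (v : κ → F) : Finset κ := by classical exact univ.filter fun i => v i ≠ 0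

omit [DecidableEq κ] in
@[simp] theorem mem_sp {v : κ → F} {i : κ} : i ∈ sp v ↔ v i ≠ 0 := by simp [sp]

theorem rs_sp (v : κ → F) : rs (sp v) v = v := by
  ext i; by_cases h : v i = 0 <;> simp [h]

theorem card_dvd_iff (hF : (Nat.card F).Prime) {n : ℕ} : Nat.card F ∣ n ↔ (n : F) = 0 := by
  rw [← ((Nat.dvd_prime hF).1 (addOrderOf_dvd_natCard (1 : F))).resolve_left (by simp),
    addOrderOf_dvd_iff_nsmul_eq_zero, nsmul_one]

/-- The standard form over a prime field of odd order. -/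
structure Std (Q : QuadraticForm F (κ → F)) : Prop where
  hF : (Nat.card F).Prime
  h2 : (2 : F) ≠ 0
  h7 : 7 ≤ Fintype.card κ
  B : ∀ u v, polar Q u v = u ⬝ᵥ v

variable {Q : QuadraticForm F (κ → F)} {N : Subgroup (O Q)}

namespace Std

variable (h : Std Q)
include h

theorem fin : Finite F := Nat.finite_of_card_ne_zero h.hF.ne_zero

theorem Q_eq (v : κ → F) : Q v = 2⁻¹ * (v ⬝ᵥ v) := by
  rw [← h.B, polar_self', inv_mul_cancel_left₀ h.h2]

theorem Q_bv (i : κ) : Q (bv i) = 2⁻¹ := by simp [h.Q_eq]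

theorem Q_bv_ne (i : κ) : Q (bv i) ≠ 0 := by simp [h.Q_bv, h.h2]

theorem Q_zero {v : κ → F} : Q v = 0 ↔ v ⬝ᵥ v = 0 := by simp [h.Q_eq, h.h2]

theorem hQ : Nondeg Q := fun x hx => funext fun i => by simpa [h.B] using hx (bv i)

theorem five : 5 ≤ finrank F (κ → F) := by have := h.h7; simp; omega

theorem frame : Frame (ofQuad Q) (bv : κ → κ → F) :=
  ⟨fun i => by simp [ofQuad_B, h.B], fun hij => by simp [ofQuad_B, h.B, hij.symm],
    fun v hv => funext fun i => by simpa [ofQuad_B, h.B] using hv i⟩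

theorem out (s : Finset κ) (hs : s.card ≤ 6) : ∃ l, l ∉ s := exists_notMem s (by have := h.h7; omega)

theorem refl_bv (i : κ) (v : κ → F) : (refl Q (bv i)).1 v = v - (2 * v i) • bv i := by
  simp [refl_ap, h.Q_bv, h.B]

theorem Q_sw {a b : κ} (hab : a ≠ b) : Q (bv a - bv b) = 1 := by
  simp [Q_sub, h.Q_bv, h.B, hab.symm, ← two_mul, h.h2]

theorem refl_sw {a b : κ} (hab : a ≠ b) (v : κ → F) :
    (refl Q (bv a - bv b)).1 v = v - (v a - v b) • (bv a - bv b) := by
  simp [refl_ap, h.Q_sw hab, h.B]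

theorem sw_bv {a b : κ} (hab : a ≠ b) (i : κ) :
    (refl Q (bv a - bv b)).1 (bv i) = bv (Equiv.swap a b i) := by
  rw [h.refl_sw hab, Equiv.swap_apply_def]
  split_ifs with h1 h2
  · simp [h1, hab.symm]
  · simp [h2, hab]
  · simp [Ne.symm h1, Ne.symm h2]

theorem mon_bv (i : κ) : Mon bv (refl Q (bv i)).1 := fun j => by
  by_cases hij : i = j
  · exact ⟨j, -1, by rw [hij, refl_apply_self (h.Q_bv_ne j), neg_one_smul]⟩
  · exact ⟨j, 1, by simp [h.refl_bv, hij]⟩

theorem mon_sw {a b : κ} (hab : a ≠ b) : Mon bv (refl Q (bv a - bv b)).1 := fun j =>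
  ⟨_, 1, by rw [h.sw_bv hab, one_smul]⟩

theorem bv_mem (i j : κ) : refl Q (bv i) * refl Q (bv j) ∈ commutator (O Q) :=
  refl_mul_refl_mem' h.hQ (h.Q_bv_ne i) (by rw [h.Q_bv, h.Q_bv])

theorem sw_mem {a b c d : κ} (hab : a ≠ b) (hcd : c ≠ d) :
    refl Q (bv a - bv b) * refl Q (bv c - bv d) ∈ commutator (O Q) :=
  refl_mul_refl_mem' h.hQ (by simp [h.Q_sw hab]) (by rw [h.Q_sw hab, h.Q_sw hcd])

end Std

/-- `N` contains the monomial part of `Ω` and the reflections in the basis vectors. -/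
structure FN (N : Subgroup (O Q)) : Prop extends Std Q where
  mon : ∀ g ∈ commutator (O Q), Mon bv g.1 → g ∈ N
  rc : ∀ i, RC N (bv i)

namespace FN

variable (h : FN N)
include h

theorem sw {a b c d : κ} (hab : a ≠ b) (hcd : c ≠ d) :
    ∃ g ∈ N, ∀ i, g.1 (bv i) = bv (Equiv.swap a b (Equiv.swap c d i)) :=
  ⟨_, h.mon _ (h.sw_mem hab hcd) ((h.mon_sw hab).mul (h.mon_sw hcd)), fun i => by
    rw [O_mul_apply, h.sw_bv hcd, h.sw_bv hab]⟩

theorem sg (K : Finset κ) : ∃ g ∈ N, ∀ v, g.1 v = v - (2 : F) • rs K v := by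
  induction K using Finset.induction_on with
  | empty => exact ⟨1, N.one_mem, fun v => by ext; simp⟩
  | insert i K hi ih =>
    obtain ⟨g, hg, e⟩ := ih
    refine ⟨_, N.mul_mem (h.rc i).2 hg, fun v => ?_⟩
    rw [O_mul_apply, h.refl_bv, e]
    ext j
    by_cases hj : j = i <;> simp [hj, hi]

/-- A singular part of a root. -/
theorem ea_rs {v : κ → F} (hv : RC N v) {K : Finset κ} (hK : ∑ i ∈ K, v i * v i = 0) {l : κ}
    (hl : l ∉ K) (h0 : v l ≠ 0) : EA N (rs K v) (bv l) := by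
  obtain ⟨g, hg, e⟩ := h.sg K
  have h1 := hv.ea (x := (-2 : F) • rs K v) (by simp [Q_smul, h.Q_zero.2 (rs_dot_rs K v ▸ hK)])
    (by simp [h.B, rs_dot, hK]) ((hv.conj hg).congr (by rw [e]; module))
  have h2 := ((h1.of_smul_left (neg_ne_zero.2 h.h2)).of_smul h.hF
    (neg_ne_zero.2 h.h2)).of_smul h.hF (inv_ne_zero hv.1)
  refine ((h2.conj_sub (h.rc l).2 (by simp [h.refl_bv, hl])).congr
    (a' := (-(2 * v l)) • bv l) (by rw [h.refl_bv]; module)).of_smul h.hF (by simp [h.h2, h0])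

/-- The final step. -/
theorem E_le_of_ea {i j k l : κ} (hij : i ≠ j) (hik : i ≠ k) (hjk : j ≠ k) (hl : l ∉ ({i, j, k} :
    Finset κ)) {a b c : F} (ha : a ≠ 0) (h1 : EA N (a • bv i + b • bv j + c • bv k) (bv l)) :
    E Q ≤ N := by
  have h0 : a * a + b * b + c * c = 0 := by
    simpa [hij, hik, hjk, hij.symm, hik.symm, hjk.symm] using h.Q_zero.1 h1.sing
  have h2 : ∀ m, m ∉ ({i, j, k} : Finset κ) → EA N (a • bv i + b • bv j + c • bv k) (bv m) := by
    intro m hm
    by_cases hml : m = l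
    · exact hml ▸ h1
    obtain ⟨n, hn⟩ := h.out {i, j, k, l, m} (card_le_five.trans (by omega))
    simp only [mem_insert, mem_singleton, not_or] at hl hm hn
    obtain ⟨g, hg, e⟩ := h.sw (Ne.symm hml) (Ne.symm hn.2.2.2.2)
    simpa [e, Equiv.swap_apply_def, Ne.symm hl.1, Ne.symm hl.2.1, Ne.symm hl.2.2, Ne.symm hm.1,
      Ne.symm hm.2.1, Ne.symm hm.2.2, Ne.symm hn.1, Ne.symm hn.2.1, Ne.symm hn.2.2.1,
      Ne.symm hml, Ne.symm hn.2.2.2.1] using h1.conj hg
  obtain ⟨m, hm⟩ := h.out {i, j, k, l} (card_le_four.trans (by omega))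
  have h3 := h2 m (fun h0 => hm (by simp only [mem_insert, mem_singleton] at h0 ⊢; tauto))
  simp only [mem_insert, mem_singleton, not_or] at hl hm
  obtain ⟨g, hg, e⟩ := h.sw (Ne.symm hl.1) hjk
  have h4 : EA N (a • bv l - b • bv k + c • bv j) (bv m) := by
    have := (h3.conj hg).conj (h.rc k).2
    simp only [map_add, map_smul, e, Equiv.swap_apply_def, h.refl_bv] at this
    simp only [hij, hik, hjk, hij.symm, hik.symm, hjk.symm, hl, hm, if_true, if_false, bv_apply,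
      Ne.symm hl.1, Ne.symm hl.2.1, Ne.symm hl.2.2, Ne.symm hm.2.2.1, Pi.add_apply,
      Pi.smul_apply] at this
    convert this using 1 <;> module
  have h5 := h1.move h4 (by
    simp [h.B, hij, hik, hjk, hjk.symm, Ne.symm hl.1, Ne.symm hl.2.1, Ne.symm hl.2.2, mul_comm])
    (by simp [h.B, Ne.symm hm.1, Ne.symm hm.2.1, Ne.symm hm.2.2.1])
  have h6 : EA N (a • bv i + b • bv j + c • bv k) (c • bv j - b • bv k) := by
    refine (((h5.add (h3.smul h.hF a)).add (h1.smul h.hF (2⁻¹ * a * a))).congr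
      (a' := (-(2⁻¹ * a)) • (c • bv j - b • bv k)) ?_).of_smul h.hF (by simp [h.h2, ha])
    simp only [h.B, h.Q_bv, bv_dot, dot_bv, Pi.add_apply, Pi.sub_apply, Pi.smul_apply, bv_apply,
      Ne.symm hm.2.2.2, hl, if_true, if_false]
    module
  have h7 : EFull N (a • bv i + b • bv j + c • bv k) := fun v hv => by
    have e1 : a * v i + b * v j + c * v k = 0 := by simpa [h.B] using hv
    refine (((EA.sum h1.sing {i, j, k}ᶜ fun n hn => (h2 n (mem_compl.1 hn)).smul h.hF (v n)).add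
      (h6.smul h.hF ((b * v k - c * v j) / (a * a)))).add_self (v i / a)).congr ?_
    rw [← rs_eq_sum]
    ext n
    by_cases a1 : n = i
    · simp [a1, hij, hik, ha]
    by_cases a2 : n = j
    · simp [a2, hjk, hij.symm]; field_simp; linear_combination b * e1 - v j * h0
    by_cases a3 : n = k
    · simp [a3, hjk.symm, hik.symm]; field_simp; linear_combination c * e1 - v k * h0
    · simp [a1, a2, a3]
  have := h.five
  refine E_le_of_two h.hQ (by omega) h1.sing (by rw [O_map, h1.sing]) h7 (h7.conj (h.rc i).2) ?_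
  simp only [h.refl_bv, h.B, dotProduct_sub, h.Q_zero.1 h1.sing]
  simp [hij, hik, h.h2, ha]

theorem E_le_of_rs {v : κ → F} (hv : RC N v) {i j k l : κ} (hij : i ≠ j) (hik : i ≠ k)
    (hjk : j ≠ k) (hl : l ∉ ({i, j, k} : Finset κ)) (hi : v i ≠ 0) (h0 : v l ≠ 0)
    (hK : v i * v i + v j * v j + v k * v k = 0) : E Q ≤ N := by
  refine h.E_le_of_ea hij hik hjk hl hi (b := v j) (c := v k) ?_
  have := h.ea_rs hv (K := {i, j, k}) (by simp [hij, hik, hjk, ← add_assoc, hK]) hl h0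
  simpa [rs_eq_sum, hij, hik, hjk, ← add_assoc] using this

variable (h3 : (3 : F) ≠ 0)
include h3

theorem E_le_of_full {i j k : κ} (hij : i ≠ j) (hik : i ≠ k) (hjk : j ≠ k)
    (h1 : Full N (Submodule.span F {bv i, bv j, bv k})) : E Q ≤ N := by
  have := h.fin
  have hm : ∀ a b c : F, a • bv i + b • bv j + c • bv k ∈
      Submodule.span F ({bv i, bv j, bv k} : Set (κ → F)) :=
    fun a b c => Submodule.mem_span_triple.2 ⟨a, b, c, rfl⟩
  obtain ⟨l, hl⟩ := h.out {i, j, k} (card_le_three.trans (by omega))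
  simp only [mem_insert, mem_singleton, not_or] at hl
  by_cases h5 : (5 : F) = 0
  · refine h.E_le_of_ea hij (Ne.symm hl.1) (Ne.symm hl.2.1) (l := k)
      (by simp [hik.symm, hjk.symm, Ne.symm hl.2.2]) one_ne_zero (b := 2) (c := 0) ?_
    simpa using h1.1 _ (hm 1 2 0) _ (hm 0 0 1)
      (h.Q_zero.2 (by simp [hij, hij.symm]; linear_combination h5))
      (by simp [h.B, hik.symm, hjk.symm]) (by simpa using h.Q_bv_ne k)
  obtain ⟨b, c, e⟩ := Orth.exists_sq_add_sq_eq (F := F) one_ne_zero one_ne_zero (-1)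
  obtain ⟨m, hm1⟩ := h.out {i, j, k, l} (card_le_four.trans (by omega))
  obtain ⟨n, hn⟩ := h.out {i, j, k, l, m} (card_le_five.trans (by omega))
  simp only [mem_insert, mem_singleton, not_or] at hm1 hn
  obtain ⟨g, hg, e1⟩ := h.sw (Ne.symm hl.1) hn.2.2.2.2
  have h4 : (4 : F) ≠ 0 := fun h0 => h.h2 (pow_eq_zero_iff two_ne_zero |>.1 (by
    linear_combination h0))
  have h6 := (h1.2 _ (hm 4 0 0) _ (hm 5 (3 * c) (-(3 * b))) (by
    simp [h.Q_eq, hij, hik, hjk, hij.symm, hik.symm, hjk.symm, h.h2]; linear_combination 9 * e)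
    (by simpa using (h.rc i).smul h4)).conj hg
  simp only [map_add, map_smul, e1, Equiv.swap_apply_def, hij.symm, hik.symm, Ne.symm hl.2.1,
    Ne.symm hl.2.2, Ne.symm hm1.1, Ne.symm hm1.2.1, Ne.symm hm1.2.2.1, Ne.symm hn.1,
    Ne.symm hn.2.1, Ne.symm hn.2.2.1, if_true, if_false] at h6
  have h7 := h1.1 _ (hm 1 b c) _ (hm 0 c (-b))
    (h.Q_zero.2 (by simp [hij, hik, hjk, hij.symm, hik.symm, hjk.symm]; linear_combination e))
    (by simp [h.B, hij, hik, hjk, hij.symm, hik.symm, hjk.symm, mul_comm])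
    (fun h0 => by
      have := h.Q_zero.1 h0
      simp [hjk, hjk.symm] at this
      exact one_ne_zero (α := F) (by linear_combination e - this))
  have h8 := h7.conj_sub h6.2 (refl_apply_of_orth (by
    simp [h.B, hjk, hij.symm, hik.symm, hjk.symm, hl]; ring))
  rw [refl_ap, sub_sub_cancel_left, ← neg_smul] at h8
  refine h.E_le_of_ea hij hik hjk (l := l) (by simp [hl]) one_ne_zero
    ((((h8.of_smul h.hF ?_).sub (h7.smul h.hF 3)).congr (a' := (5 : F) • bv l)
      (by module)).of_smul h.hF h5)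
  refine neg_ne_zero.2 (mul_ne_zero (inv_ne_zero h6.1) fun h0 => h3 ?_)
  simp [h.B, hjk, hjk.symm, Ne.symm hl.2.1, Ne.symm hl.2.2] at h0
  linear_combination 3 * e - h0

theorem E_le_three {i j k : κ} (hij : i ≠ j) (hik : i ≠ k) (hjk : j ≠ k) {a b c : F} (ha : a ≠ 0)
    (hb : b ≠ 0) (hc : c ≠ 0) (hv : RC N (a • bv i + b • bv j + c • bv k)) : E Q ≤ N := by
  have := h.fin
  obtain ⟨m, hm⟩ := h.out {i, j, k} (card_le_three.trans (by omega))
  obtain ⟨n, hn⟩ := h.out {i, j, k, m} (card_le_four.trans (by omega))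
  simp only [mem_insert, mem_singleton, not_or] at hm hn
  refine h.E_le_of_full h3 hij hik hjk (spin_D (h.Q_bv_ne i) (h.Q_bv_ne j) (h.Q_bv_ne k)
    (by simp [h.B, hij.symm]) (by simp [h.B, hik.symm]) (by simp [h.B, hjk.symm]) h.h2 h.hF h.hQ
    (h.rc i) (h.rc j) hv (Submodule.mem_span_triple.2 ⟨a, b, c, rfl⟩)
    (by simp [h.B, hij.symm, hik.symm, ha]) (by simp [h.B, hij, hjk.symm, hb])
    (by simp [h.B, hik, hjk, hc])
    (by rw [h.Q_bv, h.Q_bv]) (by rw [h.Q_bv, h.Q_bv]) (refl_mul_self (bv n - bv m))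
    (fun w hw => ?_) (h.mon _ (h.sw_mem hik hn.2.2.2) ((h.mon_sw hik).mul (h.mon_sw hn.2.2.2)))
    (h.mon _ (h.sw_mem hjk hn.2.2.2) ((h.mon_sw hjk).mul (h.mon_sw hn.2.2.2))))
  obtain ⟨r, s, t, rfl⟩ := Submodule.mem_span_triple.1 hw
  simp [h.refl_sw hn.2.2.2, hm, hn]

theorem E_le_two {i j : κ} (hij : i ≠ j) {a b : F} (ha : a ≠ 0) (hb : b ≠ 0)
    (hab : a * a ≠ b * b) (hv : RC N (a • bv i + b • bv j)) : E Q ≤ N := by
  obtain ⟨k, hk⟩ := h.out {i, j} (card_le_two.trans (by omega))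
  simp only [mem_insert, mem_singleton, not_or] at hk
  obtain ⟨g, hg, e⟩ := h.sw hij (Ne.symm hk.2)
  have h1 := (hv.rf (hv.conj hg)).smul hv.1
  have h4 : Q (a • bv i + b • bv j) = 2⁻¹ * (a * a + b * b) := by simp [h.Q_eq, hij, hij.symm]
  refine h.E_le_three h3 hij (Ne.symm hk.1) (Ne.symm hk.2) (a := -(a * a * b))
    (b := 2⁻¹ * a * (a * a - b * b)) (c := Q (a • bv i + b • bv j) * b) (by simp [ha, hb])
    (by simp [ha, h.h2, sub_eq_zero, hab]) (mul_ne_zero hv.1 hb) (h1.congr ?_)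
  simp only [map_add, map_smul, e, Equiv.swap_apply_def, hij, Ne.symm hk.1, hk, if_true, if_false,
    h.B, smul_sub, smul_smul, mul_inv_cancel_left₀ hv.1]
  simp only [h4, add_dotProduct, smul_dotProduct, bv_dot, Pi.add_apply, Pi.smul_apply, bv_apply,
    hij, Ne.symm hk.1, Ne.symm hk.2, if_true, if_false]
  have := h.h2
  match_scalars <;> field_simp <;> ring

omit h3 in
theorem cases_T {i j : κ} (hij : i ≠ j) {a b : F} (ha : a ≠ 0) (hb : b ≠ 0) {f : κ → F}
    (hi : f i = 0) (hj : f j = 0) (hf : f ⬝ᵥ f ≠ 0) (hv : RC N (a • bv i + b • bv j + f)) :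
    Full N (Submodule.span F {bv i, bv j, f}) ∨ RC N f ∨
      (a * a = b * b ∧ f ⬝ᵥ f = 2 * (a * a)) := by
  have := h.fin
  have h2 := h.h2
  have h0 : Q f ≠ 0 := h.Q_zero.not.2 hf
  refine (spin_T (h.Q_bv_ne i) (h.Q_bv_ne j) h0 (by simp [h.B, hij.symm]) (by simp [h.B, hi])
    (by simp [h.B, hj]) h.h2 h.hF h.hQ (h.rc i) (h.rc j) hv
    (Submodule.mem_span_triple.2 ⟨a, b, 1, by simp⟩) (by simp [h.B, hij.symm, hi, ha])
    (by simp [h.B, hij, hj, hb]) (by simp [h.B, hi, hj, hf])).imp_right fun h1 => ?_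
  have a1 := h1 (bv i) (by simp)
  have a2 := h1 (bv j) (by simp)
  have a3 := h1 f (by simp)
  have e : Q (a • bv i + b • bv j + f) = 2⁻¹ * (a * a + b * b + f ⬝ᵥ f) := by
    simp [h.Q_eq, hij, hij.symm, hi, hj]
  have h4 := hv.1
  have h5 : a * a + b * b + f ⬝ᵥ f ≠ 0 := fun h0 => h4 (by rw [e, h0, mul_zero])
  by_cases h6 : polar Q f (a • bv i + b • bv j + f) ^ 2 /
    (Q f * Q (a • bv i + b • bv j + f)) = 2
  · have h7 := a1.eq_one h2 a2
    have h8 := a2.eq_one h2 a1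
    simp only [h.B, e, h.Q_bv, h.Q_eq f, bv_dot, dotProduct_add, dotProduct_smul, dot_bv, hi, hj,
      bv_apply, hij, hij.symm, if_true, if_false, smul_eq_mul, mul_zero, mul_one, zero_add,
      add_zero] at h6 h7 h8
    field_simp at h6 h7 h8
    grind
  · obtain ⟨g, hg, e1⟩ := h.sg {i, j}ᶜ
    refine Or.inl (rc_of_spec h2 hv h0 (by simp [h.B, hi, hj]) hg ?_ ?_ ?_
      (a3.imp_right fun h7 => h7.resolve_left h6))
    · rw [e1]; ext l; by_cases h7 : l = i <;> by_cases h8 : l = j <;> simp [h7, h8]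
    · rw [e1]; ext l; by_cases h7 : l = i <;> by_cases h8 : l = j <;> simp [h7, h8, hi, hj]; ring
    · simp only [h.B, h.Q_eq f, dotProduct_add, dotProduct_smul, dot_bv, hi, hj, smul_zero,
        zero_add]
      field_simp; ring

theorem E_le_four {i j k l : κ} (hij : i ≠ j) (hik : i ≠ k) (hil : i ≠ l) (hjk : j ≠ k)
    (hjl : j ≠ l) (hkl : k ≠ l) {a b c d : F} (ha : a ≠ 0) (hb : b * b = a * a)
    (hc : c * c = a * a) (hd : d * d = a * a)
    (hv : RC N (a • bv i + b • bv j + c • bv k + d • bv l)) : E Q ≤ N := by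
  obtain ⟨m, hm⟩ := h.out {i, j, k, l} (card_le_four.trans (by omega))
  obtain ⟨n, hn⟩ := h.out {i, j, k, l, m} (card_le_five.trans (by omega))
  obtain ⟨o, ho⟩ := h.out {i, j, k, l, m, n} card_le_six
  simp only [mem_insert, mem_singleton, not_or] at hm hn ho
  obtain ⟨g, hg, e⟩ := h.sw hm.2.2.2 ho.2.2.2.2.2
  have h2 := h.h2
  have b0 : b ≠ 0 := by rintro rfl; simp [ha] at hb
  have c0 : c ≠ 0 := by rintro rfl; simp [ha] at hc
  have d0 : d ≠ 0 := by rintro rfl; simp [ha] at hd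
  have h1 : RC N ((3 * d) • bv l + (-(2 * d)) • bv m + (a • bv i + b • bv j + c • bv k)) := by
    refine ((hv.rf (hv.conj hg)).smul (neg_ne_zero.2 h2)).congr ?_
    have : (Q (a • bv i + b • bv j + c • bv k + d • bv l))⁻¹ * polar Q
        (a • bv i + b • bv j + c • bv k + d • bv l) (a • bv i + b • bv j + c • bv k + d • bv m) =
        3 / 2 := by
      simp [h.Q_eq, h.B, hij, hik, hil, hjk, hjl, hkl, hij.symm, hik.symm, hil.symm, hjk.symm,
        hjl.symm, hkl.symm, hm, hb, hc, hd]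
      rw [show a * a + a * a + a * a + a * a = 2 * 2 * (a * a) by ring]
      field_simp; ring
    simp only [map_add, map_smul, e, Equiv.swap_apply_def, hil, hjl, hkl, Ne.symm hm.1,
      Ne.symm hm.2.1, Ne.symm hm.2.2.1, Ne.symm hm.2.2.2, Ne.symm hn.1, Ne.symm hn.2.1,
      Ne.symm hn.2.2.1, Ne.symm hn.2.2.2.1, Ne.symm ho.1, Ne.symm ho.2.1, Ne.symm ho.2.2.1,
      Ne.symm ho.2.2.2.1, if_true, if_false, this]
    match_scalars <;> field_simp <;> ring
  by_cases h5 : (5 : F) = 0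
  · exact h.E_le_of_rs h1 hil (Ne.symm hn.1) (Ne.symm hn.2.2.2.1) (l := j)
      (by simp [hij.symm, hjl, Ne.symm hn.2.1]) (by simp [hij, hik, hil, Ne.symm hm.1, ha])
      (by simp [hij.symm, hjk, hjl, Ne.symm hm.2.1, b0]) (by
        simp [hij, hik, hil, hil.symm, hjl.symm, hkl.symm, Ne.symm hm.1, Ne.symm hm.2.2.2, hn]
        linear_combination 9 * hd + 2 * a * a * h5)
  by_cases h7 : (7 : F) = 0
  · exact h.E_le_of_rs h1 hil (Ne.symm hm.1) (Ne.symm hm.2.2.2) (l := j)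
      (by simp [hij.symm, hjl, Ne.symm hm.2.1]) (by simp [hij, hik, hil, Ne.symm hm.1, ha])
      (by simp [hij.symm, hjk, hjl, Ne.symm hm.2.1, b0]) (by
        simp [hij, hik, hil, hil.symm, hjl.symm, hkl.symm, Ne.symm hm.1, Ne.symm hm.2.2.2, hm]
        linear_combination 13 * hd + 2 * a * a * h7)
  rcases h.cases_T (Ne.symm hm.2.2.2) (mul_ne_zero h3 d0) (neg_ne_zero.2 (mul_ne_zero h2 d0))
    (by simp [hil.symm, hjl.symm, hkl.symm]) (by simp [hm]) (fun h0 => by
      simp [hij, hik, hjk, hij.symm, hik.symm, hjk.symm, hb, hc] at h0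
      exact mul_ne_zero h3 (mul_ne_zero ha ha) (by linear_combination h0)) h1 with h4 | h4 | h4
  · refine h.E_le_two h3 (Ne.symm hm.2.2.2) h3 (b := 2 * 2) (mul_ne_zero h2 h2)
      (fun h0 => h7 (by linear_combination -h0)) (h4.2 _ (Submodule.smul_mem _ 5
      (Submodule.subset_span (by simp))) _ (Submodule.mem_span_triple.2 ⟨3, 2 * 2, 0, by simp⟩)
      ?_ ((h.rc l).smul h5))
    simp [h.Q_eq, hm, Ne.symm hm.2.2.2, h2]; norm_num
  · exact h.E_le_three h3 hij hik hjk ha b0 c0 h4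
  · exact absurd (by linear_combination h4.1) (mul_ne_zero h5 (mul_ne_zero d0 d0))

theorem E_le_big {v : κ → F} (hv : RC N v) (hs : 3 ≤ (sp v).card) : E Q ≤ N := by
  have h2 := h.h2
  induction hn : (sp v).card using Nat.strong_induction_on generalizing v with | _ s ih
  subst hn
  by_contra hE
  replace ih : ∀ w, RC N w → 3 ≤ (sp w).card → (sp v).card ≤ (sp w).card :=
    fun w h1 h4 => not_lt.1 fun h5 => hE (ih _ h5 h1 h4 rfl)
  have R : ∀ K ⊆ sp v, ∀ l ∈ sp v, l ∉ K → 2 ≤ K.card → K.card + 1 < (sp v).card →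
      ∑ i ∈ K, v i * v i ≠ 0 := fun K hK l hl hlK a1 a2 a3 => by
    have a4 : sp (bv l - Q (bv l) • rs K v) = insert l K := by
      ext m
      by_cases hm : m = l
      · simp [hm, hlK]
      · simpa [hm, h.Q_bv, h2] using fun h0 => mem_sp.1 (hK h0)
    have := ih _ ((h.ea_rs hv a3 hlK (mem_sp.1 hl)).rc (h.rc l))
    rw [a4, card_insert_of_notMem hlK] at this
    omega
  rcases hs.eq_or_lt with h4 | h4
  · obtain ⟨i, j, k, hij, hik, hjk, e⟩ := card_eq_three.1 h4.symm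
    refine hE (h.E_le_three h3 hij hik hjk (a := v i) (b := v j) (c := v k)
      (mem_sp.1 (by simp [e])) (mem_sp.1 (by simp [e])) (mem_sp.1 (by simp [e])) (hv.congr ?_))
    conv_lhs => rw [← rs_sp v, e, rs_eq_sum]
    simp [hij, hik, hjk, add_assoc]
  have T : ∀ i ∈ sp v, ∀ j ∈ sp v, i ≠ j → RC N (rs (sp v \ {i, j}) v) ∨
      (v i * v i = v j * v j ∧ ∑ l ∈ sp v \ {i, j}, v l * v l = 2 * (v i * v i)) := by
    intro i hi j hj hij
    have a1 : (sp v \ {i, j}).card + 2 = (sp v).card := by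
      rw [← card_pair hij, card_sdiff_add_card_eq_card (by simp [insert_subset_iff, hi, hj, -mem_sp])]
    have a2 := R _ sdiff_subset i hi (show i ∉ sp v \ {i, j} by simp) (by omega) (by omega)
    rw [← rs_dot_rs] at a2 ⊢
    refine (h.cases_T hij (mem_sp.1 hi) (mem_sp.1 hj) (by simp) (by simp) a2 (hv.congr ?_)).elim
      (fun a3 => Or.inl ?_) id
    · ext l
      by_cases b1 : l = i
      · simp [b1, hij]
      by_cases b2 : l = j
      · simp [b2, hij.symm]
      · by_cases b3 : v l = 0 <;> simp [b1, b2, b3]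
    generalize hf : rs (sp v \ {i, j}) v = f at a2 a3
    have fi : f i = 0 := by simp [← hf]
    have hm : ∀ a c : F, a • bv i + c • f ∈ Submodule.span F {bv i, bv j, f} :=
      fun a c => Submodule.mem_span_triple.2 ⟨a, 0, c, by simp⟩
    by_cases a4 : IsSquare (f ⬝ᵥ f)
    · obtain ⟨r, hr⟩ := a4
      simpa using a3.2 _ (hm r 0) _ (hm 0 1) (by simp [h.Q_eq, hr])
        (by simpa using (h.rc i).smul fun h0 => a2 (by simp [hr, h0]))
    obtain ⟨t, t0, t1⟩ := BigS.exists_ne ⟨2, h2, fun h0 => h3 (by linear_combination h0)⟩ 1 a2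
    have a5 : sp ((1 - t * t * (f ⬝ᵥ f)) • bv i + (2 * t) • f) = insert i (sp v \ {i, j}) := by
      ext m
      by_cases hm : m = i
      · simpa [hm, fi, sub_eq_zero] using fun h0 => a4 ⟨t⁻¹, by field_simp; linear_combination -h0⟩
      · simp [hm, ← hf, h2, t0, and_comm]
    have := ih _ (a3.2 _ (hm (1 + t * t * (f ⬝ᵥ f)) 0) _ (hm (1 - t * t * (f ⬝ᵥ f)) (2 * t))
      (by simp [h.Q_eq, fi, h2]; ring) (by simpa using (h.rc i).smul t1))
    rw [a5, card_insert_of_notMem (by simp)] at this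
    omega
  rcases (Nat.succ_le_of_lt h4).eq_or_lt with h4 | h4
  · obtain ⟨i, j, k, l, hij, hik, hil, hjk, hjl, hkl, e⟩ := card_eq_four.1 h4.symm
    have T' : ∀ i j k l, i ≠ j → i ≠ k → i ≠ l → j ≠ k → j ≠ l → k ≠ l → sp v = {i, j, k, l} →
        v k * v k = v l * v l ∨ (v i * v i = v j * v j ∧
          v k * v k + v l * v l = 2 * (v i * v i)) := fun i j k l hij hik hil hjk hjl hkl e => by
      have a1 : sp v \ {i, j} = {k, l} := by
        rw [e, ← insert_empty_eq j, sdiff_insert, sdiff_insert, sdiff_empty, erase_right_comm,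
          erase_insert (by simp [hij, hik, hil]), erase_insert (by simp [hjk, hjl])]
      refine (T i (by simp [e]) j (by simp [e]) hij).imp (fun a2 => ?_)
        fun a2 => by rwa [a1, sum_pair hkl] at a2
      rw [a1, rs_eq_sum, sum_pair hkl] at a2
      by_contra a3
      exact hE (h.E_le_two h3 hkl (mem_sp.1 (by simp [e])) (mem_sp.1 (by simp [e])) a3 a2)
    have a1 := T' i j k l hij hik hil hjk hjl hkl e
    have a2 := T' k l i j hkl hik.symm hjk.symm hil.symm hjl.symm hij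
      (by rw [e]; ext; simp only [mem_insert, mem_singleton, or_comm, or_left_comm])
    have a3 := T' i k j l hik hij hil hjk.symm hkl hjl
      (by rw [e]; ext; simp only [mem_insert, mem_singleton, or_comm, or_left_comm])
    have a4 := T' j l i k hjl hij.symm hjk hil.symm hkl.symm hik
      (by rw [e]; ext; simp only [mem_insert, mem_singleton, or_comm, or_left_comm])
    have a5 := T' i l j k hil hij hik hjl.symm hkl.symm hjk
      (by rw [e]; ext; simp only [mem_insert, mem_singleton, or_comm, or_left_comm])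
    have a6 := T' j k i l hjk hij.symm hjl hik.symm hkl hil
      (by rw [e]; ext; simp only [mem_insert, mem_singleton, or_comm, or_left_comm])
    obtain ⟨a7, a8, a9⟩ := four_eq h2 a1 a2 a3 a4 a5 a6
    refine hE (h.E_le_four h3 hij hik hil hjk hjl hkl (mem_sp.1 (by simp [e])) a7 a8 a9
      (hv.congr ?_))
    conv_lhs => rw [← rs_sp v, e, rs_eq_sum]
    simp [hij, hik, hil, hjk, hjl, hkl, add_assoc]
  have T' : ∀ i ∈ sp v, ∀ j ∈ sp v, i ≠ j → v i * v i = v j * v j ∧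
      ∑ l ∈ sp v \ {i, j}, v l * v l = 2 * (v i * v i) := fun i hi j hj hij => by
    refine (T i hi j hj hij).resolve_left fun a1 => ?_
    have a2 : sp (rs (sp v \ {i, j}) v) = sp v \ {i, j} := by ext; simp [and_comm, and_assoc]
    have a3 : (sp v \ {i, j}).card + 2 = (sp v).card := by
      rw [← card_pair hij, card_sdiff_add_card_eq_card (by simp [insert_subset_iff, hi, hj, -mem_sp])]
    have := ih _ a1
    rw [a2] at this
    omega
  obtain ⟨i, hi, j, hj, hij⟩ := one_lt_card.1 (show 1 < (sp v).card by omega)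
  have a1 : ∀ K ⊆ sp v, i ∉ K → ∑ l ∈ K, v l * v l = K.card * (v i * v i) := fun K hK hiK => by
    rw [sum_congr rfl fun l hl => (T' i hi l (hK hl) fun h0 => hiK (h0 ▸ hl)).1.symm]
    simp
  have a2 := (T' i hi j hj hij).2
  have a3 : (sp v \ {i, j}).card + 2 = (sp v).card := by
    rw [← card_pair hij, card_sdiff_add_card_eq_card (by simp [insert_subset_iff, hi, hj, -mem_sp])]
  rw [a1 _ sdiff_subset (by simp)] at a2
  have a4 := Nat.le_of_dvd (by omega) ((card_dvd_iff h.hF (n := (sp v \ {i, j}).card - 2)).2 (by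
    rw [Nat.cast_sub (by omega), sub_eq_zero]
    exact_mod_cast mul_right_cancel₀ (mul_self_ne_zero.2 (mem_sp.1 hi)) a2))
  obtain ⟨K, hK, a5⟩ := exists_subset_card_eq (s := sp v \ {i, j}) (n := Nat.card F) (by omega)
  have a6 : i ∉ K := fun h0 => by simpa using hK h0
  refine R K (hK.trans sdiff_subset) i hi a6 (a5 ▸ h.hF.two_le) (by omega) ?_
  rw [a1 K (hK.trans sdiff_subset) a6, a5, (card_dvd_iff h.hF).1 dvd_rfl, zero_mul]

omit h3

theorem sq_eq_one (h3 : (3 : F) = 0) {x : F} (hx : x ≠ 0) : x * x = 1 := by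
  have := h.fin
  have := Fintype.ofFinite F
  have h1 := FiniteField.pow_card_sub_one_eq_one x hx
  rwa [← Nat.card_eq_fintype_card, (Nat.prime_dvd_prime_iff_eq h.hF Nat.prime_three).1
    ((card_dvd_iff h.hF).2 (by exact_mod_cast h3)), pow_two] at h1

theorem E_le_of_sp {v : κ → F} (hv : RC N v) {i j k : κ} (hij : i ≠ j) (hik : i ≠ k) (hjk : j ≠ k)
    (hi : v i ≠ 0) (hj : v j ≠ 0) (hk : v k ≠ 0) : E Q ≤ N := by
  by_cases h3 : (3 : F) = 0
  · have h1 : v i * v i + v j * v j + v k * v k = 0 := by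
      rw [h.sq_eq_one h3 hi, h.sq_eq_one h3 hj, h.sq_eq_one h3 hk, ← h3]; norm_num
    by_cases h4 : ∃ l, l ∉ ({i, j, k} : Finset κ) ∧ v l ≠ 0
    · obtain ⟨l, hl, h4⟩ := h4
      exact h.E_le_of_rs hv hij hik hjk hl hi h4 h1
    · push Not at h4
      refine absurd (h.Q_zero.2 ?_) hv.1
      rw [dotProduct, ← sum_subset (subset_univ {i, j, k}) fun l _ hl => by simp [h4 l hl]]
      simpa [hij, hik, hjk, add_assoc] using h1
  · exact h.E_le_big h3 hv (two_lt_card_iff.2 ⟨i, j, k, by simp [*]⟩)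

/-- A non-monomial element forces all Eichler transformations. -/
theorem E_le {g : O Q} (hg : g ∈ N) (hn : ¬ Mon bv g.1) : E Q ≤ N := by
  by_contra hE
  obtain ⟨a, ha⟩ := not_forall.1 hn
  obtain ⟨i, -, hi⟩ := h.frame.exists_two ha a
  obtain ⟨j, hij, hj⟩ := h.frame.exists_two ha i
  simp only [ofQuad_B, h.B, bv_dot] at hi hj
  have h1 : ∀ v, RC N v → v i ≠ 0 → v j ≠ 0 → ∀ k, k ≠ i → k ≠ j → v k = 0 :=
    fun v hv a1 a2 k a3 a4 => by_contra fun a5 => hE (h.E_le_of_sp hv hij.symm a3.symm a4.symm a1 a2 a5)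
  have h4 := (h.rc a).conj hg
  have h5 : g.1 (bv a) = g.1 (bv a) i • bv i + g.1 (bv a) j • bv j := by
    ext k
    by_cases a1 : k = i
    · simp [a1, hij.symm]
    by_cases a2 : k = j
    · simp [a2, hij]
    · simp [a1, a2, h1 _ h4 hi hj k]
  have h6 : ∀ b, g.1 (bv a) i * g.1 (bv b) i + g.1 (bv a) j * g.1 (bv b) j =
      if a = b then 1 else 0 := fun b => by
    rw [← bv_apply (F := F), ← bv_dot a (bv b), ← h.B, ← O_polar g, h.B]
    conv_rhs => rw [h5]
    simp
  have h7 : g.1 (bv a) i * g.1 (bv a) i = g.1 (bv a) j * g.1 (bv a) j := by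
    by_cases h3 : (3 : F) = 0
    · rw [h.sq_eq_one h3 hi, h.sq_eq_one h3 hj]
    · by_contra a1
      exact hE (h.E_le_two h3 hij.symm hi hj a1 (h4.congr h5))
  obtain ⟨k, hk⟩ := h.out {i, j} (card_le_two.trans (by omega))
  simp only [mem_insert, mem_singleton, not_or] at hk
  obtain ⟨b, hb⟩ : ∃ b, g.1 (bv b) k ≠ 0 := by
    by_contra! h0
    have := congrFun (O_apply_inv_apply g (bv k)) k
    rw [← rs_sp (g⁻¹.1 (bv k)), rs_eq_sum, map_sum] at this
    simp [Finset.sum_apply, h0] at this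
  have hab : a ≠ b := by rintro rfl; exact hb (h1 _ h4 hi hj k hk.1 hk.2)
  have h8 : RC N (bv a - bv b) := (h.rc a).of_mul (by simp [h.Q_sw hab]) (h.mon _
    (refl_mul_mem_of_sq h.hQ (h.Q_bv_ne a) (by simp [h.Q_sw hab]) ⟨g.1 (bv a) i, by
      have := h6 a
      have h2 := h.h2
      rw [h.Q_bv, h.Q_sw hab]; field_simp; simp at this; linear_combination -h7 - this⟩)
    ((h.mon_bv a).mul (h.mon_sw hab)))
  have h9 := h6 b
  rw [if_neg hab] at h9
  have h10 := h1 _ ((h.rc b).conj hg)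
  refine hb (neg_eq_zero.1 ?_)
  have := h1 _ (h8.conj hg) (fun h0 => ?_) (fun h0 => ?_) k hk.1 hk.2
  · simpa [h1 _ h4 hi hj k hk.1 hk.2] using this
  · simp only [map_sub, Pi.sub_apply, sub_eq_zero] at h0
    refine hb (h10 (h0 ▸ hi) (fun a1 => ?_) k hk.1 hk.2)
    simp [a1, ← h0, hi] at h9
  · simp only [map_sub, Pi.sub_apply, sub_eq_zero] at h0
    refine hb (h10 (fun a1 => ?_) (h0 ▸ hj) k hk.1 hk.2)
    simp [a1, ← h0, hj] at h9

end FN

namespace Std

variable (h : Std Q) {X : Subgroup (O Q)}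
include h

theorem pt_mem {i : κ} {v : κ → F} (hv : IsPt bv v F) (h0 : v ≠ 0) :
    refl Q (bv i) * refl Q v ∈ commutator (O Q) ∧ Mon bv (refl Q (bv i) * refl Q v).1 := by
  obtain ⟨j, c, rfl⟩ := hv
  rw [refl_smul (by rintro rfl; simp at h0)]
  exact ⟨h.bv_mem i j, (h.mon_bv i).mul (h.mon_bv j)⟩

theorem exists_neg (hn : Odd (Fintype.card κ)) (i : κ) :
    ∃ s ∈ commutator (O Q), ∀ v, s.1 v = -(refl Q (bv i)).1 v := by
  have key : ∀ K : Finset κ, ∃ g : O Q, (∀ v, g.1 v = v - (2 : F) • rs K v) ∧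
      (Even K.card → g ∈ commutator (O Q)) ∧
      (¬ Even K.card → refl Q (bv i) * g ∈ commutator (O Q)) := fun K => by
    induction K using Finset.induction_on with
    | empty => exact ⟨1, fun v => by ext; simp, fun _ => Subgroup.one_mem _, by simp⟩
    | insert j K hj ih =>
      obtain ⟨g, e, h1, h2⟩ := ih
      rw [card_insert_of_notMem hj, Nat.even_add_one, not_not]
      refine ⟨refl Q (bv j) * g, fun v => ?_, fun h3 => ?_, fun h3 => ?_⟩
      · rw [O_mul_apply, h.refl_bv, e]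
        ext l
        by_cases hl : l = j <;> simp [hl, hj]
      · simpa [mul_assoc, ← mul_assoc (refl Q (bv i)), refl_mul_self] using
          Subgroup.mul_mem _ (h.bv_mem j i) (h2 h3)
      · exact mul_assoc _ _ g ▸ Subgroup.mul_mem _ (h.bv_mem i j) (h1 h3)
  obtain ⟨g, e, h1, -⟩ := key (univ.erase i)
  refine ⟨g, h1 (by rw [card_erase_of_mem (mem_univ i)]; exact Nat.Odd.sub_odd hn odd_one),
    fun v => ?_⟩
  rw [e, h.refl_bv]
  ext l
  by_cases hl : l = i <;> simp [hl] <;> ring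

theorem E_le (hn : Odd (Fintype.card κ) ∨ 9 ≤ Fintype.card κ) (hX : X ≤ commutator (O Q))
    (hH : ∀ g ∈ commutator (O Q), Mon bv g.1 → g ∈ X) {g : O Q} (hg : g ∈ X) (hg' : ¬ Mon bv g.1) :
    E Q ≤ X := by
  have := h.fin
  have key : ∀ i, ∀ k ∈ X, ¬ Mon bv k.1 → refl Q (bv i) * refl Q (k.1 (bv i)) ∈ X → E Q ≤ X := by
    intro i k hk hk' h0 y hy
    obtain ⟨N, -, h2, h3, h4⟩ := exists_hat h.hQ h.five hX (h.Q_bv_ne i)
    have h5 : FN N := ⟨h, fun g a1 a2 => h2 g (hH g a1 a2) (by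
      have := h.pt_mem (i := i) (a2 i) (O_apply_ne_zero g (h.frame.ne_zero i))
      exact hH _ this.1 this.2), fun j => h3 _ (h.Q_bv_ne j)
        (hH _ (h.bv_mem i j) ((h.mon_bv i).mul (h.mon_bv j)))⟩
    exact h4 y (h5.E_le (h2 k hk h0) hk' hy) (E_eq h.hQ h.five ▸ hy)
  rcases hn with hn | hn
  · obtain ⟨i, -⟩ := h.out ∅ (by simp)
    obtain ⟨s, hs, e⟩ := h.exists_neg hn i
    have h1 := hH s hs fun j => by
      obtain ⟨l, c, hc⟩ := h.mon_bv i j
      exact ⟨l, -c, by rw [e, hc, neg_smul]⟩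
    refine key i g hg hg' ?_
    convert X.mul_mem h1 (X.mul_mem (X.mul_mem hg h1) (X.inv_mem hg)) using 1
    exact O_ext fun v => by simp [← conj_refl, O_mul_apply, e]
  by_contra hE
  refine hg' (Rig.mon_of_odd (P := ofQuad Q) (X := X.map (O Q).subtype) ⟨h.frame, h.h2, ?_,
    fun a b hab => ?_, fun c d f hcd hcf hdf => ?_, ?_⟩ hn ⟨g, hg, rfl⟩)
  · rw [ofQuad_isom]; exact Subgroup.map_subtype_le _
  · have h1 := (h.mon_bv a).mul (h.mon_bv b)
    refine ⟨_, ⟨_, hH _ (h.bv_mem a b) h1, rfl⟩, h1, fun v => ?_⟩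
    change (refl Q (bv a)).1 ((refl Q (bv b)).1 v) = _
    simp [h.refl_bv, ofQuad_B, h.B, hab, sub_right_comm]
  · refine ⟨_, ⟨_, hH _ (h.sw_mem hcd hdf) ((h.mon_sw hcd).mul (h.mon_sw hdf)), rfl⟩, fun v => ?_⟩
    change (refl Q (bv c - bv d)).1 ((refl Q (bv d - bv f)).1 v) = _
    simp only [h.refl_sw hcd, h.refl_sw hdf, ofQuad_B, h.B, bv_dot, Pi.sub_apply, Pi.smul_apply,
      bv_apply, hcd, hcf, hdf, if_true, if_false]
    module
  · rintro _ ⟨k, hk, rfl⟩ i hi
    by_contra hk'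
    have := h.pt_mem (i := i) hi (O_apply_ne_zero k (h.frame.ne_zero i))
    exact hE (key i k hk hk' (hH _ this.1 this.2))

end Std

open Cfsg.Geo in
/-- Maximality of the stabiliser of an orthogonal frame in `Ω` over a prime field. -/
theorem omega_frame [Fintype F] (hF : (Fintype.card F).Prime) (h2 : (2 : F) ≠ 0) {ι : Type}
    [Fintype ι] [DecidableEq ι] (Q : QuadraticForm F (ι → F)) (hQ : Nondeg Q)
    (h7 : 7 ≤ Fintype.card ι) (h8 : Fintype.card ι ≠ 8) {t : ℕ} {D : Fin t → Submodule F (ι → F)}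
    (hD : IsOrthogonalMDecomposition (⇑Q) 1 D) :
    IsMaximalIn (omegaGL (⇑Q)) (decompositionStabilizer D ⊓ omegaGL (⇑Q)) := by
  have h := od_of hQ hD.decomp
  have hd := hD.decomp.decomp.finrank_eq
  have ht : Fintype.card (Fin t) = Fintype.card ι := by
    simpa using Asch.card_eq_of_decomp hD.decomp.decomp
  have h5 : 5 ≤ finrank F (ι → F) := by simp; omega
  let o : Fin t := ⟨0, by simp at ht; omega⟩
  obtain ⟨u, hu, hu0⟩ := Submodule.exists_mem_ne_zero_of_ne_bot (h.ne o)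
  have sp1 : ∀ {i} {a}, a ∈ D i → a ≠ 0 → ∀ v ∈ D i, ∃ c : F, c • a = v := fun {i a} ha h0 v hv => by
    obtain ⟨c, hc⟩ := (finrank_eq_one_iff_of_nonzero' (⟨a, ha⟩ : D i) (by simpa using h0)).1 (hd i)
      ⟨v, hv⟩
    exact ⟨c, congrArg Subtype.val hc⟩
  have u0 : Q u ≠ 0 := fun h0 => hu0 (nd_iff.1 (h.nd o) u hu fun y hy => by
    obtain ⟨c, rfl⟩ := sp1 hu hu0 y hy
    simp [pself h0])
  choose f hf using hD.isometric o
  have b1 : ∀ i, Q (f i ⟨u, hu⟩ : ι → F) = Q u := fun i => hf i _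
  have b2 : ∀ i, (f i ⟨u, hu⟩ : ι → F) ∈ D i := fun i => (f i _).2
  obtain ⟨b, hb⟩ : ∃ b : Fin t → ι → F, ∀ i, b i = f i ⟨u, hu⟩ := ⟨_, fun _ => rfl⟩
  simp only [← hb] at b1 b2
  have b0 : ∀ i, b i ≠ 0 := fun i => ne_zero_of_Q (b1 i ▸ u0)
  let Q' := weightedSumSquares F fun _ : Fin t => (2 : F)⁻¹
  have hS : Std Q' := ⟨by rwa [Nat.card_eq_fintype_card], h2, ht ▸ h7, fun x y => by
    simp only [Q', polar, weightedSumSquares_apply, dotProduct, ← sum_sub_distrib]
    exact sum_congr rfl fun i _ => by simp; field_simp; ring⟩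
  have hζ := inv_ne_zero (mul_ne_zero h2 u0)
  obtain ⟨e, e1, e2⟩ := exists_equiv_of_family (Q := (2 * Q u)⁻¹ • Q) hS.hQ b
    (fun i => (hS.Q_bv i).symm ▸ by simp [b1]; field_simp)
    (fun i j => by
      rw [hS.B, QuadraticMap.coeFn_smul, polar_smul]
      by_cases hij : i = j
      · simp [hij, b1, -polar_self, polar_self']; field_simp
      · simp [h.polar_eq hij (b2 i) (b2 j), hij]) (by simp [← ht])
  let Φ : O Q' ≃* O Q := (OCongr e e1).trans (MulEquiv.subgroupCongr (Subgroup.ext fun g =>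
    forall_congr' fun v => by simp [u0, h2]))
  have hΦ : ∀ g i, (Φ g).1 (b i) = e (g.1 (bv i)) := fun g i => by
    rw [← e2]; exact congrArg (fun v => e (g.1 v)) (e.symm_apply_apply _)
  have hM : ∀ g, PD D (Φ g) ↔ Mon bv g.1 := fun g => forall_congr' fun i => exists_congr fun j =>
    ⟨fun h1 => by
      obtain ⟨c, hc⟩ := sp1 (b2 j) (b0 j) _ (h1 _ (b2 i))
      exact ⟨c, e.injective (by rw [← hΦ, ← hc, map_smul, ← e2]; rfl)⟩, fun ⟨c, hc⟩ v hv => by
      obtain ⟨d, rfl⟩ := sp1 (b2 i) (b0 i) v hv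
      rw [map_smul, hΦ, hc, map_smul]
      exact (D j).smul_mem _ ((D j).smul_mem _ (e2 j ▸ b2 j))⟩
  have hC : ∀ g, Φ g ∈ commutator (O Q) ↔ g ∈ commutator (O Q') := fun g => by
    rw [← Subgroup.mem_map_iff_mem (f := Φ.toMonoidHom) Φ.injective, map_commutator_eq,
      MonoidHom.range_eq_top.2 Φ.surjective]
    rfl
  have := hS.fin
  refine isMaximalIn_omega_dec (by omega) h ?_ fun X hX hH g hg hn y hy => ?_
  · by_contra! h0
    obtain ⟨i, j, k, -, -, -, hij, hik, hjk⟩ := two_lt_card_iff.1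
      (show 2 < (univ : Finset (Fin t)).card by rw [card_univ]; omega)
    obtain ⟨l, hl⟩ := hS.out {i, j, k} (card_le_three.trans (by omega))
    simp only [mem_insert, mem_singleton, not_or] at hl
    obtain ⟨r, s, h1⟩ := Orth.exists_sq_add_sq_eq (F := F) one_ne_zero one_ne_zero (-1)
    have a1 := h.polar_eq hij (b2 i) (b2 j)
    have a2 := h.polar_eq hik (b2 i) (b2 k)
    have a3 := h.polar_eq hjk (b2 j) (b2 k)
    have a4 := h.polar_eq hl.1 (b2 l) (b2 i)
    have a5 := h.polar_eq hl.2.1 (b2 l) (b2 j)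
    have a6 := h.polar_eq hl.2.2 (b2 l) (b2 k)
    have hx : Q (b i + r • b j + s • b k) = 0 := by
      simp only [Q_add, Q_smul, polar_add_left, polar_smul_left, polar_smul_right, a1, a2, a3, b1,
        smul_zero]
      linear_combination Q u * h1
    have hx' : polar Q (b i + r • b j + s • b k) (b l) = 0 := by simp [pc a4, pc a5, pc a6]
    refine h.not_inD hl.1 (v := (eich Q (b i + r • b j + s • b k) (b l)).1 (b l)) ?_ ?_
      ((h0 _ _ hx hx').inD ⟨l, b2 l⟩) <;>
      simp [eich_ap hx hx', hx', h.pr_of_mem (b2 _), h.pr_of_ne hl.1 (b2 _),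
        h.pr_of_ne hl.2.1 (b2 _), h.pr_of_ne hl.2.2 (b2 _), h.pr_of_ne hij (b2 _),
        h.pr_of_ne hik (b2 _), h.pr_of_ne (Ne.symm hl.1) (b2 _), b0, b1, u0, h2]
  obtain ⟨g, rfl⟩ := Φ.surjective g
  obtain ⟨y, rfl⟩ := Φ.surjective y
  rw [E_eq hQ h5, hC, ← E_eq hS.hQ hS.five] at hy
  exact hS.E_le (X := X.comap Φ.toMonoidHom) (by rw [ht, Nat.odd_iff]; omega)
    (fun g hg => (hC g).1 (hX hg)) (fun g h1 h2 => hH _ ((hC g).2 h1) ((hM g).2 h2)) hg
    (fun h1 => hn ((hM g).2 h1)) hy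

end CfsgLib.OMax
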