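import Mathlib
import Cfsg.Agent.Lib.OMax.TenSp

/-!
Overgroups of the stabiliser of a tensor decomposition `Sp ⊗ Sp` of an orthogonal space: the case
in which the algebra is scalar, and the maximality theorem.
-/

set_option autoImplicit false

namespace CfsgLib.OMax

open Module CfsgLib.ClMax CfsgLib.ClMax.Ten CfsgLib.OrthE QuadraticMap

variable {F U W V : Type*} [Field F] [AddCommGroup U] [Module F U] [AddCommGroup W]
  [Module F W] [AddCommGroup V] [Module F V] {τ : U →ₗ[F] W →ₗ[F] V}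
  {f : LinearMap.BilinForm F U} {k : LinearMap.BilinForm F W} {Q : QuadraticForm F V}
  {h : IsTensorProduct τ}

namespace SpSp

variable {X : Subgroup (V ≃ₗ[F] V)} (H : SpSp f k Q h X) [FiniteDimensional F U]
  [FiniteDimensional F W]
include H

omit [FiniteDimensional F W] in
theorem exists_pair (α : U ≃ₗ[F] U) : ∃ u u', f (α u) (α u') = 1 := by
  have : Nontrivial U := Module.nontrivial_of_finrank_pos (R := F) (by have := H.ha; omega)
  obtain ⟨u, hu⟩ := exists_ne (0 : U)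
  obtain ⟨y, hy⟩ := exists_B_eq_one H.a₁ H.n₁ hu
  exact ⟨α.symm y, α.symm u, by simpa using hy⟩

omit [FiniteDimensional F U] in
theorem exists_partner {x : W} (hx : x ≠ 0) : ∃ y, k x y = 1 ∧ k y x = -1 := by
  obtain ⟨y, hy⟩ := exists_B_eq_one H.a₂ H.n₂ hx
  exact ⟨-y, by rw [map_neg, H.a₂.neg_eq, hy], by simp [hy]⟩

variable (hE : ∀ e ∈ H.alg, ∃ c : F, ∀ u, e u = c • u)
include hE

/-- Every element of `X` fixing `(U ⊗ x)^⊥` pointwise comes from a transvection of `W`. -/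
theorem zs {x : W} (hx0 : x ≠ 0) {g : V ≃ₗ[F] V} (hg : g ∈ X)
    (hf : ∀ v, cR h (k x) v = 0 → g v = v) : ∃ d : F, ∀ v, g v = v + τ (d • cR h (k x) v) x := by
  have h00 := H.a₂.self_eq_zero
  obtain ⟨x', hxx', hx'x⟩ := H.exists_partner hx0
  let m : End F U := -cR h (k x') ∘ₗ ((g : V →ₗ[F] V) - LinearMap.id) ∘ₗ τ.flip x'
  have hm : ∀ u, g (τ u x') = τ u x' + τ (m u) x := fun u => by
    obtain ⟨y, hy⟩ := H.exists_eq_tau hx0 (v := g (τ u x') - τ u x') fun u' c hc => by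
      rw [polar_sub_right, ← hf (τ u' c) (by simp [hc]), H.pol hg, hf (τ u' c) (by simp [hc]),
        sub_self]
    have : m u = y := by
      change -cR h (k x') (g (τ u x') - τ u x') = y
      rw [hy]; simp [hx'x]
    rw [this, ← hy]; abel
  have hs : ∀ p r, f (m p) r = f p (m r) := fun p r => by
    have := H.pol hg (τ p x') (τ r x')
    simp only [hm, polar_add_left, polar_add_right, H.eq, h00, hxx', hx'x] at this
    linear_combination this
  have e : ∀ v, g v = v + τ (m (cR h (k x) v)) x := fun v => by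
    have := hf (v - τ (cR h (k x) v) x') (by simp [hxx'])
    rw [map_sub, hm] at this
    linear_combination (norm := module) this
  have hz : ∀ w, UIn X (nR h m (k w) w) := fun w => by
    by_cases hw : w = 0
    · exact uIn_zero.of_eq (by ext v; simp [hw])
    obtain ⟨β, hβ, -, h2⟩ := exists_isom_move H.a₂ H.n₂ ⊥ (u := x) (u' := w) (by simpa)
      (by simpa) (by simp +contextual)
    obtain ⟨t, ht, e1, e2⟩ := H.right hβ
    exact (uIn_of_apply (N := nR h m (k x) x) hg e).conj' ht fun v => by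
      rw [← h2]; simp only [nR_apply, e2, e1]
  obtain ⟨c, hc⟩ := hE m ⟨m, hs, fun w y h0 => by
    have h1 := alt_zero H.a₂ h0
    refine (((hz (w + y)).sub (hz w) ?_ ?_).sub (hz y) ?_ ?_).of_eq ?_ <;> ext v <;>
      simp [h00, h0, h1]
    abel⟩
  exact ⟨c, fun v => by rw [e, hc]⟩

theorem eq_cR {x : W} (hx0 : x ≠ 0) {t : V ≃ₗ[F] V} (ht : t ∈ X) {χ : V →ₗ[F] U}
    (e : ∀ v, cR h (k x) v = 0 → t v = v + τ (χ v) x) (h0 : ∀ u, χ (τ u x) = 0) :
    ∃ c', ∀ y, k x y = 0 → ∀ u, χ (τ u y) = k c' y • u := by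
  have h00 := H.a₂.self_eq_zero
  have key : ∀ y, k x y = 0 → ∃ c : F, ∀ u, χ (τ u y) = c • u := fun y hy => by
    by_cases hyx : y ∈ Submodule.span F {x}
    · obtain ⟨c, rfl⟩ := Submodule.mem_span_singleton.1 hyx
      exact ⟨0, fun u => by simp [h0]⟩
    have hy' := alt_zero H.a₂ hy
    obtain ⟨e', he'⟩ := alt_exists_adj H.a₁ H.n₁ (χ ∘ₗ τ.flip y)
    have he'' : ∀ p r, f (χ (τ p y)) r = f p (e' r) := he'
    have h1 : ∀ u, t (τ u y) = τ u y + τ (χ (τ u y)) x := fun u => e _ (by simp [hy])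
    have h2 : ∀ v, cR h (k y) v = cR h (k y) (t v) + e' (cR h (k x) (t v)) := fun v =>
      alt_ext H.n₁ fun u => by
        rw [← H.B_tau, ← H.pol ht, h1, polar_add_left, H.B_tau, H.B_tau, he'', map_add]
    obtain ⟨s, hs, e1⟩ := H.exists_tv y 1
    have h3 : UIn X (nR h 1 (k y) y) := uIn_of_apply hs fun v => by simp [e1]
    have h4 : UIn X (nR h 1 (k y) y + (sN k h (χ ∘ₗ τ.flip y) e' x y +
        nR h ((χ ∘ₗ τ.flip y) * e') (k x) x)) := h3.conj' ht fun v => by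
      rw [nR_apply, End.one_apply, h1, h2 v]
      simp
      abel
    have h5 := h4.sub h3 (by ext v; simp [h00, hy]) (by ext v; simp [h00])
    rw [add_sub_cancel_left] at h5
    obtain ⟨x', h6, h7⟩ := alt_dual_one H.a₂ H.n₂ hyx
    obtain ⟨z, h8, h9, h10, h11⟩ := alt_orth_three H.hb k x y x' x
    have h12 := H.comm_step _ hy (x := -x') (by simp [h10]) (by simp [alt_zero H.a₂ h7]) h8 h9
      (by rw [map_neg, H.a₂.neg_eq, h6]) h5 (H.one (by simp [h10]))
    rw [mul_one, one_mul] at h12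
    exact hE _ (H.mem_alg_of_one he' hx0 h11 h8 h12)
  obtain ⟨u₀, u₁, hu⟩ := H.exists_pair 1
  simp only [LinearEquiv.coe_one, id_eq] at hu
  obtain ⟨c', hc'⟩ := alt_exists_eq H.n₂ (f u₀ ∘ₗ χ ∘ₗ τ u₁)
  refine ⟨c', fun y hy u => ?_⟩
  obtain ⟨c, hc⟩ := key y hy
  rw [hc']
  simp [hc, hu]

theorem exists_sim {x x' : W} (hx0 : x ≠ 0) (hx'0 : x' ≠ 0) {g : V ≃ₗ[F] V} (hg : g ∈ X)
    {α : U ≃ₗ[F] U} (e : ∀ u, g (τ u x) = τ (α u) x') :
    ∃ ν : F, ν ≠ 0 ∧ ∀ u u', f (α u) (α u') = ν * f u u' := by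
  obtain ⟨t, ht, e1⟩ := H.exists_tv x 1
  have h1 : ∀ u v, f (α u) (cR h (k x') (g v)) = f u (cR h (k x) v) := fun u v => by
    rw [← H.B_tau, ← e, H.pol hg, H.B_tau]
  obtain ⟨d, hd⟩ := H.zs hE hx'0 (X.mul_mem (X.mul_mem hg ht) (X.inv_mem hg)) fun v hv => by
    obtain ⟨v, rfl⟩ := g.surjective v
    have : cR h (k x) v = 0 := alt_ext H.n₁ fun u => by rw [← h1, hv]; simp
    simp [e1, this]
  obtain ⟨y, hy, -⟩ := H.exists_partner hx0
  have h2 : ∀ u u', f (α u) (α u') = d * f u u' := fun u u' => by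
    have h3 := hd (g (τ u' y))
    simp only [LinearEquiv.mul_apply, inv_apply_apply, e1, map_add, e, cR_apply, hy, one_smul,
      add_right_inj] at h3
    have h4 := congrArg (f (α u)) (left_inj h hx'0 h3)
    simpa only [map_smul, h1, cR_apply, hy, one_smul, smul_eq_mul] using h4
  obtain ⟨u, u', hu⟩ := H.exists_pair α
  exact ⟨d, fun h0 => by simpa [hu, h0] using h2 u u', h2⟩

theorem map_orth {x x' : W} (hx0 : x ≠ 0) (hx'0 : x' ≠ 0) {g : V ≃ₗ[F] V} (hg : g ∈ X)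
    {α : U ≃ₗ[F] U} (e : ∀ u, g (τ u x) = τ (α u) x') {c : W} (hxc : k x c = 0) :
    ∃ c', ∀ u, g (τ u c) = τ (α u) c' := by
  have h00 := H.a₂.self_eq_zero
  by_cases hcx : c ∈ Submodule.span F {x}
  · obtain ⟨s, rfl⟩ := Submodule.mem_span_singleton.1 hcx
    exact ⟨s • x', fun u => by simp [e]⟩
  have hcx' := alt_zero H.a₂ hxc
  obtain ⟨ν, hν0, hs⟩ := H.exists_sim hE hx0 hx'0 hg e
  have e' : ∀ u, g⁻¹ (τ u x') = τ (α.symm u) x := fun u => g.injective (by
    rw [apply_inv_apply, e, α.apply_symm_apply])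
  have h1 : ∀ v, cR h (k x') v = 0 → cR h (k x) (g⁻¹ v) = 0 := fun v hv =>
    alt_ext H.n₁ fun u => by
      rw [← H.B_tau, ← H.pol hg, apply_inv_apply, e, H.B_tau, hv]; simp
  let ρ : V →ₗ[F] U := cR h (k c) ∘ₗ (g⁻¹ : V ≃ₗ[F] V)
  have hρ : ∀ u v, f u (ρ v) = polar Q (g (τ u c)) v := fun u v => by
    rw [← apply_inv_apply g v, H.pol hg, H.B_tau, apply_inv_apply]; rfl
  have hρ0 : ∀ u, ρ (τ u x') = 0 := fun u => by
    change cR h (k c) (g⁻¹ _) = 0
    simp [e', hcx']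
  obtain ⟨E, hE', e1⟩ := (H.one hxc).exists
  obtain ⟨c', hc'⟩ := H.eq_cR hE hx'0 (X.mul_mem (X.mul_mem hg hE') (X.inv_mem hg))
    (χ := (α : U →ₗ[F] U) ∘ₗ ρ) (fun v hv => by
      rw [LinearEquiv.mul_apply, LinearEquiv.mul_apply, e1, sN_apply, h1 v hv]
      simp [e, ρ]) (fun u => by simp [hρ0])
  simp only [LinearMap.comp_apply, LinearEquiv.coe_coe] at hc'
  obtain ⟨u₀, u₁, hu⟩ := H.exists_pair α
  have hu0 : α u₀ ≠ 0 := by intro h0; simp [h0] at hu
  have h2 : k c' x' = 0 := by simpa [hρ0, hu0] using (hc' x' (h00 _) (α u₀)).symm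
  obtain ⟨y, -, hy'⟩ := H.exists_partner hx'0
  obtain ⟨z, rfl⟩ : ∃ z, c' = ν • z := ⟨ν⁻¹ • c', by simp [hν0]⟩
  simp only [map_smul, LinearMap.smul_apply, smul_eq_mul, mul_eq_zero, hν0, false_or] at hc' h2
  let γ : End F U := -cR h (k y) ∘ₗ ((g : V →ₗ[F] V) ∘ₗ τ.flip c - τ.flip z ∘ₗ (α : U →ₗ[F] U))
  have hγ : ∀ u, g (τ u c) = τ (α u) z + τ (γ u) x' := fun u => by
    obtain ⟨a, ha⟩ := H.exists_eq_tau hx'0 (v := g (τ u c) - τ (α u) z) fun u' w hw => by
      rw [polar_comm, polar_sub_left, ← hρ, H.eq]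
      have h3 := hs u (ρ (τ u' w))
      rw [hc' w hw, map_smul, smul_eq_mul] at h3
      exact mul_left_cancel₀ hν0 (by linear_combination -h3)
    have : γ u = a := by
      change -cR h (k y) (g (τ u c) - τ (α u) z) = a
      rw [ha]; simp [hy']
    rw [this, ← ha]; abel
  have hzx : z ∉ Submodule.span F {x'} := fun h3 => hcx (by
    obtain ⟨s, rfl⟩ := Submodule.mem_span_singleton.1 h3
    have h4 : τ u₀ c = τ (α.symm (s • α u₀ + γ u₀)) x := g.injective (by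
      rw [hγ, e]; simp)
    exact mem_span_of_eq (Ten.flip h) (w := α.symm (s • α u₀ + γ u₀)) (w' := u₀)
      (by rintro rfl; simp at hu0) h4)
  obtain ⟨w, hw, hw'⟩ := alt_dual_one H.a₂ H.n₂ hzx
  have hw1 : k z w = -1 := by rw [← H.a₂.neg_eq, hw]
  have hw2 := alt_zero H.a₂ hw'
  obtain ⟨t, ht, e2⟩ := H.exists_tv c 1
  obtain ⟨t', ht', e3⟩ := H.exists_tv z (-ν)
  obtain ⟨a, ha⟩ := H.eq_cR hE hx'0
    (X.mul_mem ht' (X.mul_mem (X.mul_mem hg ht) (X.inv_mem hg))) (χ := γ ∘ₗ ρ) (fun v hv => by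
      have h3 : α (ρ v) = ν • cR h (k z) v := alt_ext H.n₁ fun u => by
        obtain ⟨u, rfl⟩ := α.surjective u
        rw [hs, hρ, hγ, polar_add_left, H.B_tau, H.B_tau, hv]; simp
      rw [LinearEquiv.mul_apply, LinearEquiv.mul_apply, LinearEquiv.mul_apply, e2, map_add,
        apply_inv_apply, hγ, e3]
      rw [show cR h (k c) (g⁻¹ v) = ρ v from rfl]
      simp only [map_add, map_smul, h3, cR_apply, h00, h2, LinearMap.smul_apply,
        LinearMap.comp_apply, zero_smul, smul_zero, add_zero]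
      module) (fun u => by simp [hρ0])
  refine ⟨z - (k a w / ν) • x', fun u => ?_⟩
  have h3 := ha w hw2 (α u)
  have h4 : ρ (τ (α u) w) = -ν • u := α.injective (by rw [hc' w hw2, hw1, map_smul]; simp)
  simp only [LinearMap.comp_apply, h4, map_smul] at h3
  have h5 : γ u = -(k a w / ν) • α u := by
    rw [← div_neg, div_eq_inv_mul, mul_smul, ← h3, inv_smul_smul₀ (neg_ne_zero.2 hν0)]
  simp [hγ, h5, sub_eq_add_neg]

theorem mem_of_map {x x' : W} (hx0 : x ≠ 0) (hx'0 : x' ≠ 0) {g : V ≃ₗ[F] V} (hg : g ∈ X)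
    (hs : ∀ u, ∃ u', g (τ u x) = τ u' x') : g ∈ Kron τ := by
  have : Nontrivial U := Module.nontrivial_of_finrank_pos (R := F) (by have := H.ha; omega)
  obtain ⟨θ₀, hθ₀⟩ := exists_dual_one_of_ne (F := F) hx'0
  let α₀ : U →ₗ[F] U := cR h θ₀ ∘ₗ (g : V →ₗ[F] V) ∘ₗ τ.flip x
  have hα₀ : ∀ u, g (τ u x) = τ (α₀ u) x' := fun u => by
    obtain ⟨u', hu'⟩ := hs u
    have : α₀ u = u' := by simp [α₀, hu', hθ₀]
    rw [this, hu']
  have hinj : Function.Injective α₀ := by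
    rw [← LinearMap.ker_eq_bot, LinearMap.ker_eq_bot']
    intro u hu
    have := hα₀ u
    rw [hu, map_zero, LinearMap.zero_apply, LinearEquiv.map_eq_zero_iff] at this
    by_contra h0
    exact ne_zero h h0 hx0 this
  let α := LinearEquiv.ofInjectiveEndo α₀ hinj
  have hα : ∀ u, g (τ u x) = τ (α u) x' := hα₀
  refine mem_Kron_of h α fun z => ?_
  obtain ⟨c, hxc, hzc, hc⟩ := alt_orth_two (by have := H.hb; omega) k x z 0
  have hc0 : c ≠ 0 := by simpa using hc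
  obtain ⟨c', hc'⟩ := H.map_orth hE hx0 hx'0 hg hα hxc
  refine H.map_orth hE hc0 ?_ hg hc' (alt_zero H.a₂ hzc)
  rintro rfl
  obtain ⟨u₀, hu₀⟩ := exists_ne (0 : U)
  have := hc' u₀
  rw [map_zero, LinearEquiv.map_eq_zero_iff] at this
  exact ne_zero h hu₀ hc0 this

theorem mem_of_conj {g t : V ≃ₗ[F] V} (hg : g ∈ X) {w : W} (hw0 : w ≠ 0)
    (ht : ∀ x, t x = x + τ (cR h (k w) x) w) (hs : g⁻¹ * t * g ∈ Kron τ) : g ∈ Kron τ := by
  have : Nontrivial U := Module.nontrivial_of_finrank_pos (R := F) (by have := H.ha; omega)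
  have e : ∀ x, (g⁻¹ * t * g) x = x + g.symm (τ (cR h (k w) (g x)) w) := fun x => by
    change g.symm (t (g x)) = _
    rw [ht, map_add, LinearEquiv.symm_apply_apply]
  obtain ⟨β, hβ⟩ := right_of_fix h (M := U) (by have := H.hab; omega) hs
    (cR h (k w) ∘ₗ (g : V →ₗ[F] V)) (fun x hx => by
      have : cR h (k w) (g x) = 0 := hx
      simp [e, this])
  obtain ⟨z, hz⟩ : ∃ z, β z - z ≠ 0 := by
    by_contra h'
    push Not at h'
    obtain ⟨u₀, hu₀⟩ := exists_ne (0 : U)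
    obtain ⟨y, hy, -⟩ := H.exists_partner hw0
    have h1 : g⁻¹ * t * g = 1 := equiv_ext h fun u z => by rw [hβ, sub_eq_zero.1 (h' z)]; rfl
    have h2 := e (g.symm (τ u₀ y))
    rw [h1] at h2
    simp [hy] at h2
    exact ne_zero h hu₀ hw0 h2
  refine H.mem_of_map hE hz hw0 hg fun u => ⟨cR h (k w) (g (τ u z)), ?_⟩
  rw [map_sub, ← hβ, e]; simp

theorem mem_of_inter (n : ℕ) : ∀ {g : V ≃ₗ[F] V}, g ∈ X → ∀ {w w' : W}, w ≠ 0 → w' ≠ 0 →
    ∀ D : Submodule F U, finrank F U ≤ finrank F D + n →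
    (∀ u ∈ D, ∃ u', g (τ u w) = τ u' w') → g ∈ Kron τ := by
  induction n with
  | zero =>
    intro g hg w w' hw hw' D hD hs
    have : D = ⊤ := Submodule.eq_top_of_finrank_eq (le_antisymm D.finrank_le (by simpa using hD))
    exact H.mem_of_map hE hw hw' hg fun u => hs u (by simp [this])
  | succ n ih =>
    intro g hg w w' hw hw' D hD hs
    by_cases hDt : D = ⊤
    · exact H.mem_of_map hE hw hw' hg fun u => hs u (by simp [hDt])
    obtain ⟨u₁, hu₁⟩ : ∃ u₁, u₁ ∉ D := by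
      by_contra h'; push Not at h'; exact hDt (eq_top_iff.2 fun x _ => h' x)
    obtain ⟨z, hz, h0⟩ := exists_ne_zero_map_eq_zero ((k.flip w').prod
      ((cR h).flip (g (τ u₁ w)) ∘ₗ k)) (by
        have := H.hab
        simp only [finrank_prod, finrank_self]; omega)
    have h1 : k z w' = 0 := congrArg Prod.fst h0
    have h2 : cR h (k z) (g (τ u₁ w)) = 0 := congrArg Prod.snd h0
    obtain ⟨t, ht, ht'⟩ := H.exists_tv z 1
    simp only [one_smul] at ht'
    refine H.mem_of_conj hE hg hz ht' (ih (X.mul_mem (X.mul_mem (X.inv_mem hg) ht) hg) hw hw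
      (D ⊔ Submodule.span F {u₁}) ?_ ?_)
    · have : D < D ⊔ Submodule.span F {u₁} := lt_of_le_of_ne le_sup_left fun e =>
        hu₁ (e ▸ Submodule.mem_sup_right (Submodule.mem_span_singleton_self _))
      have := Submodule.finrank_lt_finrank_of_lt this
      omega
    · intro u hu
      obtain ⟨y, hy, y', hy', rfl⟩ := Submodule.mem_sup.1 hu
      obtain ⟨a, rfl⟩ := Submodule.mem_span_singleton.1 hy'
      obtain ⟨y'', hy''⟩ := hs y hy
      refine ⟨y + a • u₁, ?_⟩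
      change g.symm (t (g _)) = _
      rw [g.symm_apply_eq]
      simp [ht', hy'', h1, h2]

theorem le_Kron : X ≤ Kron τ := fun _ hg => by
  have : Nontrivial W := Module.nontrivial_of_finrank_pos (R := F) (by have := H.hb; omega)
  obtain ⟨w, hw⟩ := exists_ne (0 : W)
  exact H.mem_of_inter hE (finrank F U) hg hw hw ⊥ (by omega) fun u hu => ⟨0, by simp_all⟩

omit hE in
theorem E_le (hq : (∃ c : F, c ≠ 0 ∧ c ≠ 1) ∨ 4 ≤ finrank F U) (hX : ¬ X ≤ Kron τ) :
    E Q ≤ X.subgroupOf (O Q) := by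
  by_cases hE : ∀ e ∈ H.alg, ∃ c : F, ∀ u, e u = c • u
  · exact absurd (H.le_Kron hE) hX
  · push Not at hE
    obtain ⟨e, he, hns⟩ := hE
    exact H.E_le_of_rankOne (rankOne_of_spAlg H.a₁ H.n₁ H.alg H.mul_mem_alg H.conj_mem_alg hq he
      (fun ⟨c, hc⟩ => by obtain ⟨u, hu⟩ := hns c; exact hu (hc u)))

end SpSp

end CfsgLib.OMax
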