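import Mathlib
import Cfsg.Agent.Lib.OMax.Dec
import Cfsg.Agent.Lib.OMax.TenSp2
import Cfsg.Agent.Lib.NonMax.Tens

/-!
Clauses shared by the lists of geometric maximal subgroups of `Ω` in dimensions 7 to 12.
-/

set_option autoImplicit false

namespace CfsgLib.OMax

open CfsgLib.Forms CfsgLib.ClMax CfsgLib.RootMax CfsgLib.OrthE Module QuadraticMap Cfsg.Geo

variable {F : Type*} [Field F]

theorem omega_nd_low [Finite F] {ι : Type} [Fintype ι] [DecidableEq ι]
    (Q : QuadraticForm F (ι → F)) (hQ : Nondeg Q) (h7 : 7 ≤ Fintype.card ι)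
    {W : Submodule F (ι → F)} (hW0 : W ≠ ⊥) (hW1 : W ≠ ⊤) (hW : IsNondegenerateOn (polar Q) W)
    (h3 : ¬ (Fintype.card ι = 7 ∧ finrank F W = 3))
    (hm : 2 * finrank F W ≠ Fintype.card ι ∨ (¬ IsPlusTypeOn (⇑Q) ⊤ ∧ Even (finrank F W)))
    (hex : finrank F W = 2 → IsPlusTypeOn (⇑Q) W → 4 ≤ Nat.card F)
    (hex' : finrank F W + 2 ≠ Fintype.card ι) :
    IsMaximalIn (omegaGL (⇑Q)) (subspaceStabilizer W ⊓ omegaGL (⇑Q)) := by
  by_cases h5 : 5 ≤ finrank F W ∨ finrank F W + 5 ≤ Fintype.card ι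
  · refine omega_stab_nd Q hQ hW0 hW1 hW h5
      (hm.elim (hmove_of_dim hQ) fun h => hmove_of_minus hQ h.1 hW h.2) ?_
    rintro U (rfl | rfl) h2 hp
    · exact hex h2 hp
    · have h1 := finrank_perp hQ W
      rw [finrank_fintype_fun_eq_card] at h1
      exact absurd (h2 ▸ h1) hex'
  · refine omega_stab_four Q hQ ?_ hW (by omega)
    by_cases h : Fintype.card ι = 7
    · exact Or.inl h
    · exact Or.inr ⟨by omega, hm.elim (fun h' => absurd (by omega) h') fun h' => h'.1⟩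

theorem ne_bot_of_finrank {ι : Type} {W : Submodule F (ι → F)} {k : ℕ} (h : finrank F W = k + 1) :
    W ≠ ⊥ := fun h0 => by rw [h0, finrank_bot] at h; omega

theorem ne_top_of_finrank {ι : Type} [Fintype ι] {W : Submodule F (ι → F)}
    (h : finrank F W ≠ Fintype.card ι) : W ≠ ⊤ := fun h0 => by
  rw [h0, finrank_top, finrank_fintype_fun_eq_card] at h; exact h rfl

theorem omegaOdd_nd_even [Fintype F] (hodd : Odd (Fintype.card F)) {m : ℕ} (hm : 3 ≤ m)
    (W : Submodule F (Unit ⊕ (Fin m ⊕ Fin m) → F)) (hW0 : W ≠ ⊥) (he : Even (finrank F W))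
    (hW : IsNondegenerateOn (polar (Cfsg.quadFormOdd m F)) W)
    (hex : ¬ (Fintype.card F = 3 ∧ finrank F W = 2 ∧ IsPlusTypeOn (Cfsg.quadFormOdd m F) W)) :
    IsMaximalIn (omegaGL (Cfsg.quadFormOdd m F))
      (subspaceStabilizer W ⊓ omegaGL (Cfsg.quadFormOdd m F)) := by
  rw [quadFormOdd_eq] at hW hex ⊢
  obtain ⟨k, hk⟩ := he
  have hc : Fintype.card (Unit ⊕ (Fin m ⊕ Fin m)) = 2 * m + 1 := by simp; omega
  refine omega_nd_low _ (nondeg_qOdd (two_ne_zero_of_odd hodd) m) (by omega) hW0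
    (ne_top_of_finrank (by omega)) hW (by omega) (Or.inl (by omega)) (fun h2 hp => ?_) (by omega)
  rw [Nat.card_eq_fintype_card]
  obtain ⟨l, hl⟩ := hodd
  have h1 : 1 < Fintype.card F := Fintype.one_lt_card
  have h3 : Fintype.card F ≠ 3 := fun h => hex ⟨h, h2, hp⟩
  omega

section even

variable [Fintype F] {n : ℕ} {Q : (Fin n → F) → F} (hQ : IsNondegenerateQuadraticForm Q)
include hQ

theorem low_odd (h8 : 8 ≤ n) (he : Even n) (W : Submodule F (Fin n → F)) (hW0 : W ≠ ⊥)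
    (hW1 : W ≠ ⊤) (ho : Odd (finrank F W)) (h2 : 2 * finrank F W ≠ n)
    (hW : IsNondegenerateOn (polar Q) W) :
    IsMaximalIn (omegaGL Q) (subspaceStabilizer W ⊓ omegaGL Q) := by
  obtain ⟨k, hk⟩ := he
  obtain ⟨l, hl⟩ := ho
  exact omega_nd_low (toQF hQ) (toQF_nondeg hQ) (by simp; omega) hW0 hW1 hW (by simp; omega)
    (Or.inl (by simpa)) (fun h => by omega) (by simp; omega)

theorem low_two_minus (h8 : 8 ≤ n) (W : Submodule F (Fin n → F)) (h2 : finrank F W = 2)
    (hW : IsNondegenerateOn (polar Q) W) (hm : ¬ IsPlusTypeOn Q W) :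
    IsMaximalIn (omegaGL Q) (subspaceStabilizer W ⊓ omegaGL Q) :=
  omega_nd_low (toQF hQ) (toQF_nondeg hQ) (by simp; omega) (ne_bot_of_finrank h2)
    (ne_top_of_finrank (by simp; omega)) hW (by simp; omega)
    (Or.inl (by simp; omega)) (fun _ h => absurd h hm) (by simp; omega)

theorem low_two_plus (h8 : 8 ≤ n) (h4 : 4 ≤ Fintype.card F) (W : Submodule F (Fin n → F))
    (h2 : finrank F W = 2) (hW : IsNondegenerateOn (polar Q) W) (_ : IsPlusTypeOn Q W) :
    IsMaximalIn (omegaGL Q) (subspaceStabilizer W ⊓ omegaGL Q) :=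
  omega_nd_low (toQF hQ) (toQF_nondeg hQ) (by simp; omega) (ne_bot_of_finrank h2)
    (ne_top_of_finrank (by simp; omega)) hW (by simp; omega)
    (Or.inl (by simp; omega)) (fun _ _ => by rwa [Nat.card_eq_fintype_card]) (by simp; omega)

theorem low_four (h8 : 8 < n ∨ (8 = n ∧ ¬ IsPlusTypeOn Q ⊤)) (W : Submodule F (Fin n → F))
    (h4 : finrank F W = 4) (hW : IsNondegenerateOn (polar Q) W) :
    IsMaximalIn (omegaGL Q) (subspaceStabilizer W ⊓ omegaGL Q) :=
  omega_nd_low (toQF hQ) (toQF_nondeg hQ) (by simp; omega) (ne_bot_of_finrank h4)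
    (ne_top_of_finrank (by simp; omega)) hW (by simp; omega)
    (h8.elim (fun h => Or.inl (by simp; omega)) fun h => Or.inr ⟨h.2, by rw [h4]; decide⟩)
    (fun h => by omega) (by simp; omega)

theorem low_six (h8 : 8 < n) (hm : ¬ IsPlusTypeOn Q ⊤) (W : Submodule F (Fin n → F))
    (h6 : finrank F W = 6) (hW : IsNondegenerateOn (polar Q) W) :
    IsMaximalIn (omegaGL Q) (subspaceStabilizer W ⊓ omegaGL Q) :=
  omega_nd_low (toQF hQ) (toQF_nondeg hQ) (by simp; omega) (ne_bot_of_finrank h6)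
    (ne_top_of_finrank (by simp; omega)) hW (by simp; omega)
    (Or.inr ⟨hm, by rw [h6]; decide⟩) (fun h => by omega) (by simp; omega)

end even

open CfsgLib.ClMax.Ten in
theorem low_tensor_sp [Fintype F] {n : ℕ} (hn : 12 ≤ n) (Q : (Fin n → F) → F) (hQ : Cfsg.Geo.IsNondegenerateQuadraticForm Q) (n₁ n₂ : ℕ) (h12 : n₁ < n₂) (hex : ¬ (Fintype.card F = 2 ∧ n₁ = 2)) (e : (Fin n) ≃ Fin n₁ × Fin n₂) (P : Matrix.GeneralLinearGroup (Fin n) F) (f₁ : (Fin n₁ → F) → (Fin n₁ → F) → F) (f₂ : (Fin n₂ → F) → (Fin n₂ → F) → F) (hf₁ : Cfsg.Geo.IsSymplecticForm f₁) (hf₂ : Cfsg.Geo.IsSymplecticForm f₂) (hT : Cfsg.Geo.IsTensorFormStructure id (QuadraticMap.polar Q) f₁ f₂ e P) (hpure : (∀ (x₁ : Fin n₁ → F) (x₂ : Fin n₂ → F), Q (Matrix.mulVec (P : Matrix (Fin n) (Fin n) F) ((fun a : Fin n₁ × Fin n₂ => x₁ a.1 * x₂ a.2) ∘ e)) = 0)) : Cfsg.Geo.IsMaximalIn (Cfsg.Geo.omegaGL Q) (Cfsg.Geo.tensorProductSubgroup n₁ n₂ e P ⊓ Cfsg.Geo.omegaGL Q) := by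
  obtain ⟨c, hc, hτ⟩ := NonMax.tau_form (σ := RingHom.id F) (Asch.isSesq0_of_bilin hf₁.bilinear)
    (Asch.isSesq0_of_bilin hf₂.bilinear) hT
  have hcard : n = n₁ * n₂ := by simpa using Fintype.card_congr e
  obtain ⟨a, ha⟩ : Even n₁ := by simpa using Asch.even_card_of_symplectic hf₁
  obtain ⟨b, hb⟩ : Even n₂ := by simpa using Asch.even_card_of_symplectic hf₂
  have ha0 : a ≠ 0 := by rintro rfl; subst ha; omega
  have hb5 : 5 ≤ n₂ := by
    by_contra h5
    have h1 : n₂ = 4 := by omega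
    have h2 : n₁ = 2 := by omega
    rw [h1, h2] at hcard
    omega
  have hN := bilinOf_nondegenerate hf₁.bilinear hf₁.nondegenerate
  have H : TenQ (c • bilinOf hf₁.bilinear) (bilinOf hf₂.bilinear) (toQF hQ)
      (isTensorProduct_tauOf e P) :=
    ⟨fun x => by simp [bilinOf_apply, hf₁.alternating],
      ⟨fun x hx => hN.1 x fun y => by simpa [hc] using hx y,
        fun x hx => hN.2 x fun y => by simpa [hc] using hx y⟩,
      hf₂.alternating, bilinOf_nondegenerate hf₂.bilinear hf₂.nondegenerate, toQF_nondeg hQ,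
      hτ, hpure⟩
  have h5 : 5 ≤ finrank F (Fin n → F) := by simp; omega
  refine isMaximalIn_omega (Q := toQF hQ) H.hQ (by simp; omega) _
    (fun g => g.1 ∈ Kron (tauOf e P)) (fun g k hk => by
      rw [tensorProductSubgroup_eq, ← hk]; rfl) ?_ fun X _ hX g hg hg' => ?_
  · have : Nontrivial (Fin n₁ → F) := Module.nontrivial_of_finrank_pos (R := F) (by simp; omega)
    obtain ⟨u, hu⟩ := exists_ne (0 : Fin n₁ → F)
    obtain ⟨u', hu'⟩ := exists_B_eq_one H.a₁ H.n₁ hu
    have : Nontrivial (Fin n₂ → F) := Module.nontrivial_of_finrank_pos (R := F) (by simp; omega)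
    obtain ⟨w, hw⟩ := exists_ne (0 : Fin n₂ → F)
    obtain ⟨y, h1, -, h2⟩ := alt_orth_two (by simp; omega) (bilinOf hf₂.bilinear) w w w
    obtain ⟨z, h3, h4⟩ := alt_dual_one H.a₂ H.n₂ h2
    have h0 : QuadraticMap.polar (toQF hQ) (tauOf e P u w) (tauOf e P u y) = 0 := by
      rw [H.eq, h1, mul_zero]
    refine ⟨_, _, H.pure u w, h0, fun hK => ?_⟩
    obtain ⟨β, hβ⟩ := right_of_fix (isTensorProduct_tauOf e P) (M := F × F) (by simp; omega) hK
      (((toQF hQ).polarBilin (tauOf e P u w)).prod ((toQF hQ).polarBilin (tauOf e P u y)))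
      fun x hx => by
        have h6 : QuadraticMap.polar (toQF hQ) _ x = 0 := congrArg Prod.fst hx
        have h7 : QuadraticMap.polar (toQF hQ) _ x = 0 := congrArg Prod.snd hx
        rw [eich_ap (H.pure u w) h0, h6, h7]; simp
    have h6 := hβ u z
    have h7 := hβ u' z
    rw [eich_ap (H.pure u w) h0, H.eq, H.eq, H.pure] at h6 h7
    rw [H.a₁.self_eq_zero] at h6
    simp only [zero_mul, sub_zero, zero_smul, add_zero] at h6
    rw [← right_inj (isTensorProduct_tauOf e P) hu h6, ← H.a₁.neg_eq, hu', ← H.a₂.neg_eq z y, h3,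
      alt_zero H.a₂ h4] at h7
    exact Ten.ne_zero (isTensorProduct_tauOf e P) hu hw (by simpa using h7)
  · have H' : SpSp _ _ _ (isTensorProduct_tauOf e P) (X.map (O (toQF hQ)).subtype) :=
      { H with
        ha := by simp; omega
        hab := by simp; omega
        hb := by simpa
        hX := Subgroup.map_subtype_le _
        hK := fun g h1 h2 => ⟨g, hX g (E_eq H.hQ h5 ▸ h1) h2, rfl⟩ }
    have := H'.E_le ?_ fun h1 => hg' (h1 ⟨g, hg, rfl⟩)
    · rwa [Subgroup.subgroupOf, Subgroup.comap_map_eq_self_of_injective Subtype.val_injective]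
        at this
    by_cases h2 : n₁ = 2
    · left
      classical
      have h3 : 2 < Fintype.card F := lt_of_le_of_ne Fintype.one_lt_card fun h => hex ⟨h.symm, h2⟩
      by_contra h4
      push Not at h4
      have : (Finset.univ : Finset F) ⊆ {0, 1} := fun c _ => by
        by_cases hc : c = 0 <;> simp [hc, h4 c]
      have := (Finset.card_le_card this).trans Finset.card_le_two
      rw [Finset.card_univ] at this
      omega
    · right; simp; omega

end CfsgLib.OMax
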