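import Mathlib
import Cfsg.Agent.Lib.OMax.Dec
import Cfsg.Agent.Lib.SUMax.MonoField

/-!
Non-degenerate planes: conics, irreducibility under reflections, and a pigeonhole lemma.
-/

set_option autoImplicit false

namespace CfsgLib.OMax

open CfsgLib.Forms CfsgLib.ClMax CfsgLib.RootMax CfsgLib.OrthE Module QuadraticMap

theorem pigeon_two {A B T : Type*} [DecidableEq T] (s : Finset A) (s' : Finset B) (t : Finset T)
    (f : A → T) (g : B → T) (hf : ∀ a ∈ s, f a ∈ t) (hg : ∀ a ∈ s', g a ∈ t)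
    (f2 : ∀ y, (s.filter fun a => f a = y).card ≤ 2)
    (g2 : ∀ y, (s'.filter fun a => g a = y).card ≤ 2) (h : 2 * t.card < s.card + s'.card) :
    ∃ a ∈ s, ∃ b ∈ s', f a = g b := by
  by_contra hc
  push Not at hc
  have h1 := Finset.card_le_mul_card_image s 2 fun y _ => f2 y
  have h2 := Finset.card_le_mul_card_image s' 2 fun y _ => g2 y
  have h3 : Disjoint (s.image f) (s'.image g) := Finset.disjoint_left.2 fun y hy hy' => by
    obtain ⟨a, ha, rfl⟩ := Finset.mem_image.1 hy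
    obtain ⟨b, hb, e⟩ := Finset.mem_image.1 hy'
    exact hc a ha b hb e.symm
  have h4 := Finset.card_le_card (show s.image f ∪ s'.image g ⊆ t from
    Finset.union_subset (Finset.image_subset_iff.2 hf) (Finset.image_subset_iff.2 hg))
  rw [Finset.card_union_of_disjoint h3] at h4
  omega

theorem exists_not_mem_list {α : Type*} [Finite α] (l : List α) (h : l.length < Nat.card α) :
    ∃ s, s ∉ l := by
  classical
  have := Fintype.ofFinite α
  obtain ⟨t, -, ht⟩ := Finset.exists_mem_notMem_of_card_lt_card (s := l.toFinset)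
    (t := (Finset.univ : Finset α)) (lt_of_le_of_lt l.toFinset_card_le (by
      rwa [Finset.card_univ, ← Nat.card_eq_fintype_card]))
  exact ⟨t, by simpa using ht⟩

variable {F V : Type*} [Field F] [AddCommGroup V] [Module F V] {Q : QuadraticForm F V}

theorem quad_roots {a : F} (ha : a ≠ 0) (b c : F) :
    ∃ r₁ r₂ : F, ∀ s, a * s ^ 2 + b * s + c = 0 → s = r₁ ∨ s = r₂ := by
  by_cases h : ∃ r, a * r ^ 2 + b * r + c = 0
  · obtain ⟨r, hr⟩ := h
    refine ⟨r, -b / a - r, fun s hs => ?_⟩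
    by_cases e : s = r
    · exact Or.inl e
    · right
      have : a * (s + r) + b = 0 :=
        mul_left_cancel₀ (sub_ne_zero.2 e) (by linear_combination hs - hr)
      field_simp
      linear_combination this
  · exact ⟨0, 0, fun s hs => (h ⟨s, hs⟩).elim⟩

theorem indep_of_not_mem {p z : V} (hp : p ≠ 0) (hz : z ∉ Submodule.span F {p}) {a b : F}
    (h : a • z + b • p = 0) : a = 0 ∧ b = 0 := by
  by_cases ha : a = 0
  · subst ha
    exact ⟨rfl, by simpa [hp] using h⟩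
  · refine (hz (Submodule.mem_span_singleton.2 ⟨-(b / a), smul_right_injective V ha ?_⟩)).elim
    simp only [smul_smul]
    rw [show a * -(b / a) = -b by field_simp]
    linear_combination (norm := module) -h

theorem refl_sub_apply {p y : V} (h : Q y = Q p) (h0 : Q (p - y) ≠ 0) :
    (refl Q (p - y)).1 p = y := by
  have : polar Q (p - y) p = Q (p - y) := by
    rw [polar_sub_left, polar_self', Q_sub, h, polar_comm Q y p]; ring
  rw [refl_ap, this, inv_mul_cancel₀ h0, one_smul, sub_sub_cancel]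

/-- A non-degenerate plane. -/
structure Pl (Q : QuadraticForm F V) (Z : Submodule F V) : Prop where
  nd : ND Q Z
  two : finrank F Z = 2

/-- No non-zero singular vectors. -/
def Aniso (Q : QuadraticForm F V) (Z : Submodule F V) : Prop := ∀ x ∈ Z, Q x = 0 → x = 0

/-- Each non-singular vector has an independent non-orthogonal vector of the same norm. -/
def Rich (Q : QuadraticForm F V) (Z : Submodule F V) : Prop :=
  ∀ p ∈ Z, Q p ≠ 0 → ∃ y ∈ Z, Q y = Q p ∧ y ∉ Submodule.span F {p} ∧ polar Q p y ≠ 0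

/-- Additive irreducibility under the reflections of `Z`. -/
def RIrr (Q : QuadraticForm F V) (Z : Submodule F V) : Prop :=
  ∀ P : V → Prop, (∀ u v, P u → P v → P (u - v)) →
    (∀ c ∈ Z, Q c ≠ 0 → ∀ a ∈ Z, P a → P ((refl Q c).1 a)) →
    ∀ p ∈ Z, p ≠ 0 → P p → ∀ z ∈ Z, P z

namespace Pl

variable [FiniteDimensional F V] {Z : Submodule F V} (h : Pl Q Z)
include h

theorem span {p y z : V} (hp : p ∈ Z) (hp0 : p ≠ 0) (hy : y ∈ Z)
    (hyp : y ∉ Submodule.span F {p}) (hz : z ∈ Z) : ∃ α β : F, z = α • p + β • y := by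
  have h1 : Submodule.span F {p} ⊔ Submodule.span F {y} = Z :=
    Submodule.eq_of_le_of_finrank_le (sup_le ((Submodule.span_singleton_le_iff_mem _ _).2 hp)
      ((Submodule.span_singleton_le_iff_mem _ _).2 hy)) (by
        rw [Submodule.finrank_sup_span_singleton hyp, finrank_span_singleton hp0, h.two])
  rw [← h1] at hz
  obtain ⟨a, ha, b, hb, rfl⟩ := Submodule.mem_sup.1 hz
  obtain ⟨α, rfl⟩ := Submodule.mem_span_singleton.1 ha
  obtain ⟨β, rfl⟩ := Submodule.mem_span_singleton.1 hb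
  exact ⟨α, β, rfl⟩

theorem eq_zero {p y z : V} (hp : p ∈ Z) (hp0 : p ≠ 0) (hy : y ∈ Z)
    (hyp : y ∉ Submodule.span F {p}) (hz : z ∈ Z) (h1 : polar Q z p = 0) (h2 : polar Q z y = 0) :
    z = 0 := nd_iff.1 h.nd z hz fun w hw => by
  obtain ⟨α, β, rfl⟩ := h.span hp hp0 hy hyp hw
  simp [h1, h2]

theorem exists_out (p : V) : ∃ z ∈ Z, z ∉ Submodule.span F {p} :=
  SetLike.not_le_iff_exists.1 fun hh => by
    have h1 := Submodule.finrank_mono hh
    have := SUMax.finrank_span_one_le (F := F) p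
    have := h.two
    omega

theorem polar_ne {e p : V} (he : e ∈ Z) (he0 : e ≠ 0) (hes : Q e = 0) (hp : p ∈ Z)
    (hs : Q p ≠ 0) : polar Q e p ≠ 0 := fun h0 =>
  he0 (h.eq_zero he he0 hp (fun hh => by
    obtain ⟨c, rfl⟩ := Submodule.mem_span_singleton.1 hh
    exact hs (by simp [Q_smul, hes])) he (pself hes) h0)

theorem Q_sub_ne {p y : V} (hp : p ∈ Z) (hy : y ∈ Z) (hs : Q p ≠ 0) (e : Q y = Q p) (hne : y ≠ p) :
    Q (p - y) ≠ 0 := fun h0 =>
  h.polar_ne (Z.sub_mem hp hy) (sub_ne_zero.2 hne.symm) h0 hp hs (by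
    rw [Q_sub, e] at h0
    rw [polar_sub_left, polar_self', polar_comm Q y p]
    linear_combination h0)

theorem polar_two_ne {p z : V} (hp : p ∈ Z) (hs : Q p ≠ 0) (hz : z ∈ Z)
    (hzp : z ∉ Submodule.span F {p}) (h2 : (2 : F) = 0) : polar Q z p ≠ 0 := fun h0 =>
  ne_zero_of_Q hs (h.eq_zero hp (ne_zero_of_Q hs) hz hzp hp (by simp [h2]) (pc h0))

theorem rich [Finite F] (hc : 7 ≤ Nat.card F ∨ (Aniso Q Z ∧ Nat.card F ≠ 3)) : Rich Q Z := by
  intro p hp hs
  have hp0 := ne_zero_of_Q hs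
  obtain ⟨z, hz, hzp⟩ := h.exists_out p
  have hc0 : ∀ s : F, z + s • p ∉ Submodule.span F {p} := fun s hh => hzp (by
    simpa using Submodule.sub_mem _ hh
      (Submodule.smul_mem _ s (Submodule.mem_span_singleton_self p)))
  suffices ∃ s : F, Q (z + s • p) ≠ 0 ∧ polar Q (z + s • p) p ≠ 0 ∧
      polar Q (z + s • p) p ^ 2 ≠ 2 * Q p * Q (z + s • p) by
    obtain ⟨s, h1, h2, h3⟩ := this
    have hm := Z.add_mem hz (Z.smul_mem s hp)
    have hn := hc0 s
    generalize z + s • p = c at h1 h2 h3 hm hn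
    refine ⟨(refl Q c).1 p, ?_, O_map _ _, fun hh => hn ?_, fun h0 => h3 ?_⟩
    · rw [refl_ap]; exact Z.sub_mem hp (Z.smul_mem _ hm)
    · rw [refl_ap] at hh
      have := Submodule.sub_mem _ (Submodule.mem_span_singleton_self p) hh
      rwa [sub_sub_cancel, Submodule.smul_mem_iff _ (mul_ne_zero (inv_ne_zero h1) h2)] at this
    · rw [refl_ap, polar_sub_right, polar_smul_right, polar_self', polar_comm Q p c,
        smul_eq_mul] at h0
      field_simp at h0
      linear_combination -h0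
  have hQc : ∀ s : F, Q (z + s • p) = Q p * s ^ 2 + polar Q z p * s + Q z := fun s => by
    rw [Q_add, Q_smul, polar_smul_right, smul_eq_mul]; ring
  have hPc : ∀ s : F, polar Q (z + s • p) p = polar Q z p + s * (2 * Q p) := fun s => by
    rw [polar_add_left, polar_smul_left, polar_self', smul_eq_mul]
  obtain ⟨r₁, r₂, hr⟩ := quad_roots hs (polar Q z p) (Q z)
  have hA : Aniso Q Z → ∀ s : F, Q (z + s • p) ≠ 0 := fun hA s h0 =>
    hc0 s (by rw [hA _ (Z.add_mem hz (Z.smul_mem s hp)) h0]; exact Submodule.zero_mem _)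
  by_cases h2 : (2 : F) = 0
  · have hb := h.polar_two_ne hp hs hz hzp h2
    suffices ∃ s : F, Q (z + s • p) ≠ 0 by
      obtain ⟨s, h1⟩ := this
      exact ⟨s, h1, by simpa [hPc, h2] using hb, by simpa [hPc, h2] using hb⟩
    rcases hc with hc | hc
    · obtain ⟨s, h1⟩ := exists_not_mem_list [r₁, r₂] (by simp only [List.length]; omega)
      exact ⟨s, fun h0 => h1 (by simpa using hr s (hQc s ▸ h0))⟩
    · exact ⟨0, hA hc.1 0⟩
  obtain ⟨r₃, r₄, hr'⟩ := quad_roots (mul_ne_zero h2 (pow_ne_zero 2 hs)) (2 * polar Q z p * Q p)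
    (polar Q z p ^ 2 - 2 * Q p * Q z)
  have fin : ∀ s : F, Q (z + s • p) ≠ 0 → s ≠ -(polar Q z p / (2 * Q p)) → s ≠ r₃ → s ≠ r₄ →
      ∃ s : F, Q (z + s • p) ≠ 0 ∧ polar Q (z + s • p) p ≠ 0 ∧
      polar Q (z + s • p) p ^ 2 ≠ 2 * Q p * Q (z + s • p) := fun s h1 h3 h4 h5 =>
    ⟨s, h1, fun h0 => h3 (by rw [hPc] at h0; field_simp; linear_combination h0),
      fun h0 => (hr' s (by rw [hPc, hQc] at h0; linear_combination h0)).elim h4 h5⟩
  rcases hc with hc | hc
  · obtain ⟨s, h1⟩ := exists_not_mem_list [r₁, r₂, -(polar Q z p / (2 * Q p)), r₃, r₄]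
      (by simp only [List.length]; omega)
    simp only [List.mem_cons, List.not_mem_nil, or_false, not_or] at h1
    exact fin s (fun h0 => (hr s (hQc s ▸ h0)).elim h1.1 h1.2.1) h1.2.2.1 h1.2.2.2.1 h1.2.2.2.2
  · obtain ⟨s, h1⟩ := exists_not_mem_list [-(polar Q z p / (2 * Q p)), r₃, r₄] (by
      have := Fintype.ofFinite F
      have h3 := Finite.one_lt_card (α := F)
      have h4 := FiniteField.cast_card_eq_zero F
      rw [← Nat.card_eq_fintype_card] at h4
      have h5 : Nat.card F ≠ 2 := fun e => h2 (by rw [e] at h4; exact_mod_cast h4)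
      have := hc.2
      simp only [List.length]; omega)
    simp only [List.mem_cons, List.not_mem_nil, or_false, not_or] at h1
    exact fin s (hA hc.1 s) h1.1 h1.2.1 h1.2.2

theorem exists_conic [Finite F] (hA : Aniso Q Z) {a : F} (ha : a ≠ 0) :
    ∃ s : Finset V, Nat.card F + 1 ≤ s.card ∧ ∀ y ∈ s, y ∈ Z ∧ Q y = a := by
  classical
  have := Fintype.ofFinite F
  obtain ⟨p, hp, rfl⟩ := quad_exists_eq h.nd h.two.ge a
  have hp0 := ne_zero_of_Q ha
  obtain ⟨z, hz, hzp⟩ := h.exists_out p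
  have hm : ∀ s : F, z + s • p ∈ Z := fun s => Z.add_mem hz (Z.smul_mem s hp)
  have hQ : ∀ s : F, Q (z + s • p) ≠ 0 := fun s h0 =>
    one_ne_zero (indep_of_not_mem hp0 hzp (a := 1) (b := s) (by simpa using hA _ (hm s) h0)).1
  have hP : ∀ s : F, polar Q (z + s • p) p = 0 → (2 : F) ≠ 0 := fun s h0 h2 =>
    h.polar_two_ne hp ha hz hzp h2 (by simpa [h2] using h0)
  refine ⟨insert (-p) (Finset.univ.image fun s : F => (refl Q (z + s • p)).1 p), ?_, ?_⟩
  · rw [Finset.card_insert_of_notMem, Finset.card_image_of_injective, Finset.card_univ,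
      Nat.card_eq_fintype_card]
    · intro s s' e
      simp only [refl_ap] at e
      obtain ⟨h1, h2⟩ := indep_of_not_mem hp0 hzp
        (a := (Q (z + s • p))⁻¹ * polar Q (z + s • p) p - (Q (z + s' • p))⁻¹ * polar Q (z + s' • p) p)
        (b := (Q (z + s • p))⁻¹ * polar Q (z + s • p) p * s -
          (Q (z + s' • p))⁻¹ * polar Q (z + s' • p) p * s') (by
            linear_combination (norm := module) -e)
      by_cases h0 : polar Q (z + s • p) p = 0
      · have h3 : polar Q (z + s' • p) p = 0 := by simpa [h0, hQ s', -polar_add_left] using h1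
        have h4 := hP s h0
        rw [polar_add_left, polar_smul_left, polar_self', smul_eq_mul] at h0 h3
        exact mul_right_cancel₀ (mul_ne_zero h4 ha) (by linear_combination h0 - h3)
      · rw [← sub_eq_zero.1 h1] at h2
        exact mul_left_cancel₀ (mul_ne_zero (inv_ne_zero (hQ s)) h0) (sub_eq_zero.1 h2)
    · simp only [Finset.mem_image, Finset.mem_univ, true_and, not_exists]
      intro s e
      rw [refl_ap] at e
      obtain ⟨h1, h2⟩ := indep_of_not_mem hp0 hzp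
        (a := (Q (z + s • p))⁻¹ * polar Q (z + s • p) p)
        (b := (Q (z + s • p))⁻¹ * polar Q (z + s • p) p * s - 2) (by
            linear_combination (norm := module) -e)
      rw [h1] at h2
      exact hP s (by simpa [hQ s, -polar_add_left] using h1) (by linear_combination -h2)
  · intro y hy
    rcases Finset.mem_insert.1 hy with rfl | hy
    · exact ⟨Z.neg_mem hp, Q_neg Q p⟩
    · obtain ⟨s, -, rfl⟩ := Finset.mem_image.1 hy
      exact ⟨by rw [refl_ap]; exact Z.sub_mem hp (Z.smul_mem _ (hm s)), O_map _ _⟩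

theorem fiber_le (hA : Aniso Q Z) {p : V} (hp : p ∈ Z) (hp0 : p ≠ 0) {a : F} {s : Finset V}
    (hs : ∀ y ∈ s, y ∈ Z ∧ Q y = a) (r : V → Prop) [DecidablePred r]
    (hr : ∀ y ∈ s, ∀ y' ∈ s, r y → r y' → polar Q p y = polar Q p y') : (s.filter r).card ≤ 2 := by
  by_contra hc
  obtain ⟨x, y, z, hx, hy, hz, hxy, hxz, hyz⟩ := Finset.two_lt_card_iff.1 (not_le.1 hc)
  rw [Finset.mem_filter] at hx hy hz
  have h1 := hr x hx.1 y hy.1 hx.2 hy.2
  have h2 := hr x hx.1 z hz.1 hx.2 hz.2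
  obtain ⟨x1, x2⟩ := hs x hx.1
  obtain ⟨y1, y2⟩ := hs y hy.1
  obtain ⟨z1, z2⟩ := hs z hz.1
  have hn : y - x ≠ 0 := sub_ne_zero.2 hxy.symm
  by_cases h3 : z - x ∈ Submodule.span F {y - x}
  swap
  · exact hp0 (h.eq_zero (Z.sub_mem y1 x1) hn (Z.sub_mem z1 x1) h3 hp (by simp [h1]) (by simp [h2]))
  obtain ⟨μ, hμ⟩ := Submodule.mem_span_singleton.1 h3
  have h4 : Q (y - x) ≠ 0 := fun h0 => hn (hA _ (Z.sub_mem y1 x1) h0)
  obtain ⟨n, rfl⟩ : ∃ n, y = x + n := ⟨y - x, by abel⟩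
  rw [add_sub_cancel_left] at hμ h4
  obtain rfl : z = x + μ • n := by rw [hμ]; abel
  rw [Q_add, x2] at y2 z2
  rw [Q_smul, polar_smul_right, smul_eq_mul] at z2
  have h5 : μ * (μ - 1) * Q n = 0 := by linear_combination z2 - μ * y2
  rcases mul_eq_zero.1 ((mul_eq_zero.1 h5).resolve_right h4) with h6 | h6
  · exact hxz (by simp [h6])
  · exact hyz (by rw [sub_eq_zero.1 h6, one_smul])

theorem conic_of {P : V → Prop} (hR : ∀ c ∈ Z, Q c ≠ 0 → ∀ a ∈ Z, P a → P ((refl Q c).1 a))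
    {p y : V} (hp : p ∈ Z) (hs : Q p ≠ 0) (hP : P p) (hy : y ∈ Z) (e : Q y = Q p) : P y := by
  by_cases hne : y = p
  · exact hne ▸ hP
  have h1 := h.Q_sub_ne hp hy hs e hne
  exact refl_sub_apply e h1 ▸ hR _ (Z.sub_mem hp hy) h1 p hp hP

theorem rirr_aniso [Finite F] (hA : Aniso Q Z) (hR : Rich Q Z) : RIrr Q Z := by
  classical
  have := Fintype.ofFinite F
  intro P hsub hr
  have key : ∀ p ∈ Z, p ≠ 0 → P p → ∀ c : F, P (c • p) := by
    intro p hp hp0 hP c
    have hs : Q p ≠ 0 := fun h0 => hp0 (hA p hp h0)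
    obtain ⟨s, h1, h2⟩ := h.exists_conic hA hs
    have h3 : ∀ y ∈ s, P (((Q p)⁻¹ * polar Q p y) • p) := fun y hy => by
      have h4 := h.conic_of hr hp hs hP (h2 y hy).1 (h2 y hy).2
      simpa [refl_ap] using hsub _ _ h4 (hr p hp hs y (h2 y hy).1 h4)
    obtain ⟨y, hy, y', hy', e⟩ := pigeon_two s s Finset.univ (fun y => (Q p)⁻¹ * polar Q p y)
      (fun y => (Q p)⁻¹ * polar Q p y + c) (by simp) (by simp)
      (fun t => h.fiber_le hA hp hp0 h2 _ fun y _ y' _ e e' =>
        mul_left_cancel₀ (inv_ne_zero hs) (e.trans e'.symm))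
      (fun t => h.fiber_le hA hp hp0 h2 _ fun y _ y' _ e e' =>
        mul_left_cancel₀ (inv_ne_zero hs) (add_right_cancel (e.trans e'.symm)))
      (by rw [Finset.card_univ, ← Nat.card_eq_fintype_card]; omega)
    have := hsub _ _ (h3 y hy) (h3 y' hy')
    rwa [← sub_smul, e, add_sub_cancel_left] at this
  intro p hp hp0 hP z hz
  have hs : Q p ≠ 0 := fun h0 => hp0 (hA p hp h0)
  obtain ⟨y, hy, e, h1, -⟩ := hR p hp hs
  obtain ⟨α, β, rfl⟩ := h.span hp hp0 hy h1 hz
  simpa using hsub _ _ (key p hp hp0 hP α)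
    (key y hy (ne_zero_of_Q (e ▸ hs)) (h.conic_of hr hp hs hP hy e) (-β))

/-- The singular components of a non-singular vector of a hyperbolic plane. -/
theorem exists_split (hA : ¬ Aniso Q Z) {p : V} (hp : p ∈ Z) (hs : Q p ≠ 0) :
    ∃ e ∈ Z, ∃ f ∈ Z, Q e = 0 ∧ Q f = 0 ∧ polar Q e f = Q p ∧ p = e + f := by
  simp only [Aniso, not_forall] at hA
  obtain ⟨x, hx, hxs, hx0⟩ := hA
  have h1 := h.polar_ne hx hx0 hxs hp hs
  refine ⟨_, Z.smul_mem (Q p / polar Q x p) hx, _, Z.sub_mem hp (Z.smul_mem (Q p / polar Q x p) hx),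
    by simp [Q_smul, hxs], ?_, by simp [Q_smul, hxs, h1], by abel⟩
  rw [Q_sub, Q_smul, hxs, polar_smul_right, polar_comm Q p x]
  simp [h1]

theorem rirr_hyp [Finite F] (hA : ¬ Aniso Q Z) (hc : 5 ≤ Nat.card F) : RIrr Q Z := by
  intro P hsub hr
  have hadd : ∀ u v, P u → P v → P (u + v) := fun u v hu hv => by
    simpa using hsub _ _ hu (hsub _ _ (hsub _ _ hv hv) hv)
  have k1 : ∀ e ∈ Z, ∀ f ∈ Z, Q e = 0 → Q f = 0 → polar Q e f = 1 → P e → ∀ c : F, P (c • f) := by
    intro e he f hf hes hfs hef hP c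
    by_cases hc0 : c = 0
    · simpa [hc0] using hsub _ _ hP hP
    have h1 : Q (e - c • f) ≠ 0 := by simpa [Q_sub, Q_smul, hes, hfs, hef] using hc0
    exact refl_sub_apply (by simp [Q_smul, hes, hfs]) h1 ▸
      hr _ (Z.sub_mem he (Z.smul_mem c hf)) h1 e he hP
  have k2 : ∀ e ∈ Z, e ≠ 0 → Q e = 0 → P e → ∀ z ∈ Z, P z := by
    intro e he he0 hes hP z hz
    obtain ⟨f, hf, hfs, hef⟩ := exists_partner h.nd he he0 hes
    obtain ⟨α, β, rfl⟩ := h.span he he0 hf (fun hh => by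
      obtain ⟨c, rfl⟩ := Submodule.mem_span_singleton.1 hh
      simp [pself hes] at hef) hz
    exact hadd _ _ (k1 f hf e he hfs hes (by rwa [polar_comm]) (by
      simpa using k1 e he f hf hes hfs hef hP 1) α) (k1 e he f hf hes hfs hef hP β)
  intro p hp hp0 hP
  by_cases hs : Q p = 0
  · exact k2 p hp hp0 hs hP
  obtain ⟨e, he, f, hf, hes, hfs, hef, hpe⟩ := h.exists_split hA hp hs
  have k3 : ∀ l : F, l ≠ 0 → P (l • e + l⁻¹ • f) := fun l hl =>
    h.conic_of hr hp hs hP (Z.add_mem (Z.smul_mem _ he) (Z.smul_mem _ hf)) (by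
      simp [Q_add, Q_smul, hes, hfs, hef, hl])
  obtain ⟨r₁, r₂, hr'⟩ := quad_roots (one_ne_zero (α := F)) 1 1
  obtain ⟨s, h1⟩ := exists_not_mem_list [0, -1, r₁, r₂] (by simp only [List.length]; omega)
  simp only [List.mem_cons, List.not_mem_nil, or_false, not_or] at h1
  have h2 : 1 + s ≠ 0 := fun h0 => h1.2.1 (by linear_combination h0)
  have h3 := hsub _ _ (hadd _ _ (k3 1 one_ne_zero) (k3 s h1.1)) (k3 _ h2)
  refine k2 ((1 + s⁻¹ - (1 + s)⁻¹) • f) (Z.smul_mem _ hf) (smul_ne_zero (fun h0 => ?_) ?_)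
    (by simp [Q_smul, hfs]) (by convert h3 using 1; simp only [inv_one]; module)
  · have h4 := h1.1
    field_simp at h0
    exact (hr' s (by linear_combination h0)).elim h1.2.2.1 h1.2.2.2
  · rintro rfl
    exact hs (by simpa using hef.symm)

/-- The pigeonhole lemma for two anisotropic planes. -/
theorem exists_pair [Finite F] (hA : Aniso Q Z) {Z' : Submodule F V} (h' : Pl Q Z')
    (hA' : Aniso Q Z') {p p' : V} (hp : p ∈ Z) (hp0 : p ≠ 0) (hp' : p' ∈ Z') (hp0' : p' ≠ 0)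
    {a a' : F} (ha : a ≠ 0) (ha' : a' ≠ 0) : ∃ y ∈ Z, ∃ y' ∈ Z', Q y = a ∧ Q y' = a' ∧ y ≠ p ∧
      y' ≠ p' ∧ Q (p - y) + Q (p' - y') = 0 := by
  classical
  have := Fintype.ofFinite F
  obtain ⟨s, h1, h2⟩ := h.exists_conic hA ha
  obtain ⟨s', h1', h2'⟩ := h'.exists_conic hA' ha'
  have h3 : ∀ y ∈ s.erase p, y ∈ Z ∧ Q y = a := fun y hy => h2 y (Finset.mem_of_mem_erase hy)
  have h3' : ∀ y ∈ s'.erase p', y ∈ Z' ∧ Q y = a' := fun y hy => h2' y (Finset.mem_of_mem_erase hy)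
  obtain ⟨y, hy, y', hy', e⟩ := pigeon_two (s.erase p) (s'.erase p') (Finset.univ.erase 0)
    (fun y => Q (p - y)) (fun y => -Q (p' - y))
    (fun y hy => Finset.mem_erase.2 ⟨fun h0 => Finset.ne_of_mem_erase hy
      (sub_eq_zero.1 (hA _ (Z.sub_mem hp (h3 y hy).1) h0)).symm, Finset.mem_univ _⟩)
    (fun y hy => Finset.mem_erase.2 ⟨fun h0 => Finset.ne_of_mem_erase hy
      (sub_eq_zero.1 (hA' _ (Z'.sub_mem hp' (h3' y hy).1) (neg_eq_zero.1 h0))).symm,
      Finset.mem_univ _⟩)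
    (fun t => h.fiber_le hA hp hp0 h3 _ fun y hy y' hy' e e' => by
      rw [Q_sub, (h3 _ hy).2] at e
      rw [Q_sub, (h3 _ hy').2] at e'
      linear_combination e' - e)
    (fun t => h'.fiber_le hA' hp' hp0' h3' _ fun y hy y' hy' e e' => by
      rw [Q_sub, (h3' _ hy).2] at e
      rw [Q_sub, (h3' _ hy').2] at e'
      linear_combination e - e')
    (by
      have := Finset.pred_card_le_card_erase (s := s) (a := p)
      have := Finset.pred_card_le_card_erase (s := s') (a := p')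
      have := Finite.one_lt_card (α := F)
      rw [Finset.card_erase_of_mem (Finset.mem_univ _), Finset.card_univ,
        ← Nat.card_eq_fintype_card]
      omega)
  exact ⟨y, (h3 y hy).1, y', (h3' y' hy').1, (h3 y hy).2, (h3' y' hy').2,
    Finset.ne_of_mem_erase hy, Finset.ne_of_mem_erase hy', by linear_combination e⟩

end Pl

end CfsgLib.OMax
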