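import Mathlib
import Cfsg.Agent.Lib.OMax.PlaneA

/-!
Orthogonal decompositions into planes: the case in which no reflection class grows.
-/

set_option autoImplicit false

namespace CfsgLib.OMax

open CfsgLib.Forms CfsgLib.ClMax CfsgLib.RootMax CfsgLib.OrthE Module QuadraticMap

variable {F V : Type*} [Field F] [AddCommGroup V] [Module F V] {Q : QuadraticForm F V}
  {X N : Subgroup (O Q)} {ι : Type*} {D : ι → Submodule F V}

theorem refl_two_sub (x y v : V) : (refl Q x * refl Q y).1 v - v ∈ Submodule.span F {x, y} := by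
  rw [O_mul_apply, refl_ap, refl_ap]
  generalize (Q y)⁻¹ * polar Q y v = a
  generalize (Q x)⁻¹ * polar Q x _ = b
  exact Submodule.mem_span_pair.2 ⟨-b, -a, by module⟩

theorem orth_of_refl_two {x y d : V} (hx : Q x ≠ 0) (hy : Q y ≠ 0)
    (hxy : y ∉ Submodule.span F {x}) (h : (refl Q x * refl Q y).1 d = d) :
    polar Q x d = 0 ∧ polar Q y d = 0 := by
  have h1 := O_inv_apply_eq (refl Q x) (x := (refl Q y).1 d) h
  rw [refl_inv, refl_ap, refl_ap] at h1
  obtain ⟨h2, h3⟩ := indep_of_not_mem (ne_zero_of_Q hx) hxy (a := (Q y)⁻¹ * polar Q y d)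
    (b := -((Q x)⁻¹ * polar Q x d)) (by linear_combination (norm := module) h1)
  exact ⟨by simpa [hx] using h3, by simpa [hy] using h2⟩

theorem not_mem_span_map (g : O Q) {x y : V} (h : y ∉ Submodule.span F {x}) :
    g.1 y ∉ Submodule.span F {g.1 x} := fun hh => by
  obtain ⟨c, hc⟩ := Submodule.mem_span_singleton.1 hh
  exact h (Submodule.mem_span_singleton.2 ⟨c, g.1.injective (by rwa [map_smul])⟩)

theorem conj_refl_two (g : O Q) (x y : V) :
    g * (refl Q x * refl Q y) * g⁻¹ = refl Q (g.1 x) * refl Q (g.1 y) := by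
  rw [← conj_refl, ← conj_refl, conj_mul]

theorem le_map_of_inj [FiniteDimensional F V] (L : V →ₗ[F] V) {S W : Submodule F V}
    (hS : ∀ v ∈ S, L v = 0 → v = 0) (hW : ∀ v ∈ S, L v ∈ W) (hd : finrank F W ≤ finrank F S) :
    W ≤ S.map L := by
  have h1 : Function.Injective (L.domRestrict S) :=
    (injective_iff_map_eq_zero _).2 fun v hv => Subtype.ext (hS v v.2 hv)
  have h2 := LinearMap.finrank_range_of_inj h1
  rw [LinearMap.range_domRestrict] at h2
  exact (Submodule.eq_of_le_of_finrank_le (by rintro _ ⟨v, hv, rfl⟩; exact hW v hv)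
    (h2 ▸ hd)).ge

/-- An orthogonal decomposition into at least five planes with enough reflections. -/
structure PlD (Q : QuadraticForm F V) (D : ι → Submodule F V) : Prop where
  od : OrD Q D
  two : ∀ i, finrank F (D i) = 2
  rich : ∀ i, Rich Q (D i)
  five : 5 ≤ Nat.card ι

namespace PlD

variable [FiniteDimensional F V] (h : PlD Q D)
include h

omit [FiniteDimensional F V] in
theorem pl (i : ι) : Pl Q (D i) := ⟨h.od.nd i, h.two i⟩

omit [FiniteDimensional F V] in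
theorem finite : Finite ι := Nat.finite_of_card_ne_zero (by have := h.five; omega)

omit [FiniteDimensional F V] in
theorem exists_out (l : List ι) (hl : l.length ≤ 4) : ∃ m, m ∉ l :=
  have := h.finite
  exists_not_mem_list l (by have := h.five; omega)

theorem finrank_sup {i j : ι} (hij : i ≠ j) : finrank F ↥(D i ⊔ D j) = 4 := by
  have := Submodule.finrank_sup_add_finrank_inf_eq (D i) (D j)
  rw [((h.od.nd i).mono_right (h.od.orth i j hij)).eq_bot, finrank_bot, h.two, h.two] at this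
  omega

omit [FiniteDimensional F V] in
theorem sup_le_perp {i j m : ι} (hi : m ≠ i) (hj : m ≠ j) : D i ⊔ D j ≤ perp Q (D m) :=
  sup_le (h.od.orth m i hi) (h.od.orth m j hj)

theorem five_le : 5 ≤ finrank F V := by
  obtain ⟨i, -⟩ := h.exists_out [] (by simp)
  obtain ⟨j, hj⟩ := h.exists_out [i] (by simp)
  obtain ⟨m, hm⟩ := h.exists_out [i, j] (by simp)
  simp only [List.mem_cons, List.not_mem_nil, or_false, not_or] at hj hm
  have h1 := Submodule.finrank_mono (h.sup_le_perp hm.1 hm.2)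
  have := finrank_perp h.od.hQ (D m)
  rw [h.finrank_sup (Ne.symm hj)] at h1
  rw [h.two] at this
  omega

theorem exists_two [Finite F] (i : ι) {d : F} (hd : d ≠ 0) : ∃ p ∈ D i, ∃ y ∈ D i, Q p = d ∧
    Q y = d ∧ y ∉ Submodule.span F {p} ∧ polar Q p y ≠ 0 := by
  obtain ⟨p, hp, rfl⟩ := quad_exists_eq (h.od.nd i) (h.two i).ge d
  obtain ⟨y, hy, h1⟩ := h.rich i p hp hd
  exact ⟨p, hp, y, hy, rfl, h1⟩

/-- A vector of prescribed norm not orthogonal to a given one. -/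
theorem exists_not_orth [Finite F] {i : ι} {d : F} (hd : d ≠ 0) {v : V} (hv : h.od.pr i v ≠ 0) :
    ∃ c ∈ D i, Q c = d ∧ polar Q c v ≠ 0 := by
  obtain ⟨p, hp, y, hy, h1, h2, h3, -⟩ := h.exists_two i hd
  by_contra hc
  push Not at hc
  exact hv ((h.pl i).eq_zero hp (ne_zero_of_Q (h1 ▸ hd)) hy h3 (h.od.pr_mem i v)
    (pc ((h.od.polar_pr hp v).trans (hc p hp h1))) (pc ((h.od.polar_pr hy v).trans (hc y hy h2))))

theorem conn [Finite F] : Conn Q D := by
  intro y d hd hy i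
  obtain ⟨p, hp, p', hp', h1, h2, h3, h4⟩ := h.exists_two i hd
  obtain ⟨j, hj⟩ := hy i p ⟨hp, h1 ▸ hd, h1 ▸ IsSquare.mul_self _⟩
  obtain ⟨l, hl⟩ := hy i p' ⟨hp', h2 ▸ hd, h2 ▸ IsSquare.mul_self _⟩
  obtain rfl := h.od.eq_of_polar hj hl (by rwa [O_polar])
  refine ⟨j, fun v hv => ?_⟩
  obtain ⟨α, β, rfl⟩ := (h.pl i).span hp (ne_zero_of_Q (h1 ▸ hd)) hp' h3 hv
  simpa using (D j).add_mem ((D j).smul_mem α hj) ((D j).smul_mem β hl)

theorem supp_two {x y : V} (hx : Q x ≠ 0) (hy : Q y ≠ 0) (hxy : y ∉ Submodule.span F {x})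
    (hM : PD D (refl Q x * refl Q y)) {j j' : ι} (hjj : j ≠ j') (hj : h.od.pr j x ≠ 0)
    (hj' : h.od.pr j' x ≠ 0) {m : ι} (hm : m ≠ j) (hm' : m ≠ j') :
    Submodule.span F {x, y} ≤ perp Q (D m) := by
  have hP := RootMax.finrank_span_pair_le (F := F) x y
  have hxP : x ∈ Submodule.span F {x, y} := Submodule.subset_span (by simp)
  have key : ∀ l, h.od.pr l x ≠ 0 → (∃ l', ∀ m, m ≠ l → m ≠ l' →
      Submodule.span F {x, y} ≤ perp Q (D m)) ∨ ∃ p ∈ Submodule.span F {x, y}, p ∈ D l ∧ p ≠ 0 := by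
    intro l hl
    obtain ⟨l', hl'⟩ := hM l
    by_cases e : l' = l
    · subst e
      right
      by_contra hc
      push Not at hc
      refine hl (h.od.pr_eq_zero.2 fun d hd => pc (orth_of_refl_two hx hy hxy ?_).1)
      exact sub_eq_zero.1 (hc _ (refl_two_sub x y d) ((D l').sub_mem (hl' d hd) hd))
    · refine Or.inl ⟨l', fun m h1 h2 => (le_map_of_inj
        (((refl Q x * refl Q y).1 : V →ₗ[F] V) - LinearMap.id) (S := D l) (fun v hv h0 => ?_)
        (fun v _ => refl_two_sub x y v) (by rwa [h.two])).trans ?_⟩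
      · exact h.od.eq_zero_of_mem e
          ((show (refl Q x * refl Q y).1 v = v from sub_eq_zero.1 h0) ▸ hl' v hv) hv
      · rintro _ ⟨v, hv, rfl⟩
        exact Submodule.sub_mem _ (h.od.orth m l' h2 (hl' v hv)) (h.od.orth m l h1 hv)
  rcases key j hj with ⟨l, hl⟩ | ⟨p, hp, p1, p2⟩
  · by_cases e : j' = l
    · exact hl m hm (e ▸ hm')
    · exact absurd (h.od.pr_eq_zero.2 (hl j' hjj.symm e hxP)) hj'
  rcases key j' hj' with ⟨l, hl⟩ | ⟨p', hp', p1', p2'⟩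
  · by_cases e : j = l
    · exact hl m hm' (e ▸ hm)
    · exact absurd (h.od.pr_eq_zero.2 (hl j hjj e hxP)) hj
  have h1 : p' ∉ Submodule.span F {p} := fun hh =>
    p2' (h.od.eq_zero_of_mem hjj ((Submodule.span_singleton_le_iff_mem _ _).2 p1 hh) p1')
  rw [← Submodule.eq_of_le_of_finrank_le (S₁ := Submodule.span F {p} ⊔ Submodule.span F {p'})
    (sup_le ((Submodule.span_singleton_le_iff_mem _ _).2 hp)
      ((Submodule.span_singleton_le_iff_mem _ _).2 hp')) (by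
        rwa [Submodule.finrank_sup_span_singleton h1, finrank_span_singleton p2])]
  exact sup_le ((Submodule.span_singleton_le_iff_mem _ _).2 (h.od.orth m j hm p1))
    ((Submodule.span_singleton_le_iff_mem _ _).2 (h.od.orth m j' hm' p1'))

theorem exists_two_pr {x : V} (hx : ¬ InD D x) :
    ∃ j j', j ≠ j' ∧ h.od.pr j x ≠ 0 ∧ h.od.pr j' x ≠ 0 := by
  obtain ⟨i, -⟩ := h.exists_out [] (by simp)
  obtain ⟨j, -, hj⟩ := h.od.exists_pr_ne (fun hh => hx ⟨i, hh⟩)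
  obtain ⟨j', hjj, hj'⟩ := h.od.exists_pr_ne (fun hh => hx ⟨j, hh⟩)
  exact ⟨j, j', hjj.symm, hj, hj'⟩

theorem mem_sup_of_perp {i j : ι} (hij : i ≠ j) {v : V}
    (hv : ∀ m, m ≠ i → m ≠ j → v ∈ perp Q (D m)) : v ∈ D i ⊔ D j := by
  have : v - h.od.pr j v ∈ D i := h.od.mem_of_perp fun m hm => by
    by_cases e : m = j
    · exact e ▸ h.od.sub_pr j v
    · exact Submodule.sub_mem _ (hv m hm e) (h.od.orth m j e (h.od.pr_mem j v))
  simpa using Submodule.add_mem_sup this (h.od.pr_mem j v)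

omit [FiniteDimensional F V] in
theorem ext {g k : O Q} (e : ∀ i, ∀ v ∈ D i, g.1 v = k.1 v) : g = k := O_ext fun v => by
  have hu : v ∈ iSup D := h.od.top ▸ Submodule.mem_top
  induction hu using Submodule.iSup_induction' with
  | mem j x hx => exact e j x hx
  | zero => simp
  | add x y _ _ hx hy => simp [hx, hy]

theorem refl_two_mem (hH : ∀ g ∈ commutator (O Q), PD D g → g ∈ X) {a b : V} (ha : InD D a)
    (hb : InD D b) (h0 : Q a ≠ 0) (hab : Q b = Q a) : refl Q a * refl Q b ∈ X :=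
  hH _ (refl_mul_refl_mem' h.od.hQ h0 hab) ((h.od.pd_refl ha).mul (h.od.pd_refl hb))

variable [Finite F] (hH : ∀ g ∈ commutator (O Q), PD D g → g ∈ X)
  (hr : ∀ u v, InD D u → Q u ≠ 0 → Q v ≠ 0 → refl Q u * refl Q v ∈ X → InD D v)
include hH hr

theorem wb {g : O Q} (hg : g ∈ X) {u : V} (hu : InD D u) (hu0 : Q u ≠ 0) {l m o : ι} (hlm : l ≠ m)
    (hlo : l ≠ o) (hmo : m ≠ o) (hl : g⁻¹.1 u ∈ perp Q (D l)) (hm : g⁻¹.1 u ∈ perp Q (D m))
    (ho : g⁻¹.1 u ∈ perp Q (D o)) : PD D g := by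
  obtain ⟨a, ha, a1⟩ := quad_exists_eq (h.od.nd l) (h.two l).ge 1
  have a0 : Q a ≠ 0 := a1 ▸ one_ne_zero
  refine h.od.pd_of_inD h.conn hH hr hg ⟨l, ha⟩ a0 ?_
  by_contra hn
  obtain ⟨j, j', hjj, hj, hj'⟩ := h.exists_two_pr hn
  have key : ∀ k, l ≠ k → g⁻¹.1 u ∈ perp Q (D k) → ∀ b ∈ D k, Q b = 1 →
      g.1 a ∈ D j ⊔ D j' ∧ g.1 b ∈ D j ⊔ D j' := by
    intro k hlk hk b hb b1
    have b0 : Q b ≠ 0 := b1 ▸ one_ne_zero
    have h1 : PD D (refl Q (g.1 a) * refl Q (g.1 b)) := by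
      refine h.od.pd_of_inD h.conn hH hr ?_ hu hu0 ?_
      · rw [← conj_refl_two]
        exact X.mul_mem (X.mul_mem hg (h.refl_two_mem hH ⟨l, ha⟩ ⟨k, hb⟩ a0 (b1.trans a1.symm)))
          (X.inv_mem hg)
      · rwa [O_mul_apply, refl_apply_of_orth ((O_polar_inv_left g u b).symm.trans (pc (hk b hb))),
          refl_apply_of_orth ((O_polar_inv_left g u a).symm.trans (pc (hl a ha)))]
    have h2 := fun m => h.supp_two (by rwa [O_map]) (by rwa [O_map]) (not_mem_span_map g fun hh =>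
      ne_zero_of_Q b0 (h.od.eq_zero_of_mem hlk
        ((Submodule.span_singleton_le_iff_mem _ _).2 ha hh) hb)) h1 hjj hj hj' (m := m)
    exact ⟨h.mem_sup_of_perp hjj fun m h3 h4 => h2 m h3 h4 (Submodule.subset_span (by simp)),
      h.mem_sup_of_perp hjj fun m h3 h4 => h2 m h3 h4 (Submodule.subset_span (by simp))⟩
  have key2 : ∀ k, l ≠ k → g⁻¹.1 u ∈ perp Q (D k) → g.1 a ∈ D j ⊔ D j' ∧
      ∀ v ∈ D k, g.1 v ∈ D j ⊔ D j' := by
    intro k hlk hk
    obtain ⟨p, hp, y, hy, h1, h2, h3, -⟩ := h.exists_two k (one_ne_zero (α := F))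
    refine ⟨(key k hlk hk p hp h1).1, fun v hv => ?_⟩
    obtain ⟨α, β, rfl⟩ := (h.pl k).span hp (ne_zero_of_Q (h1 ▸ one_ne_zero)) hy h3 hv
    simpa using Submodule.add_mem _ (Submodule.smul_mem _ α (key k hlk hk p hp h1).2)
      (Submodule.smul_mem _ β (key k hlk hk y hy h2).2)
  obtain ⟨v, hv, e⟩ := le_map_of_inj (g.1 : V →ₗ[F] V) (S := D m ⊔ D o) (W := D j ⊔ D j')
    (fun v _ h0 => by simpa using h0) (fun v hv => by
      obtain ⟨b, hb, c, hc, rfl⟩ := Submodule.mem_sup.1 hv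
      simpa using Submodule.add_mem _ ((key2 m hlm hm).2 b hb) ((key2 o hlo ho).2 c hc))
    (by rw [h.finrank_sup hjj, h.finrank_sup hmo]) (key2 m hlm hm).1
  obtain rfl : v = a := g.1.injective e
  exact ne_zero_of_Q a0 (Submodule.disjoint_def.1 (h.od.nd l) v ha (h.sup_le_perp hlm hlo hv))

theorem pd_of_two {k : O Q} (hk : k ∈ X) {a b : V} (ha : InD D a) (a0 : Q a ≠ 0) (b0 : Q b ≠ 0)
    (hab : b ∉ Submodule.span F {a}) (hM : PD D (refl Q (k.1 a) * refl Q (k.1 b))) : PD D k := by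
  by_cases hn : InD D (k.1 a)
  · exact h.od.pd_of_inD h.conn hH hr hk ha a0 hn
  have := h.finite
  obtain ⟨j, j', hjj, hj, hj'⟩ := h.exists_two_pr hn
  have h1 : ∀ m, m ∉ [j, j'] → k⁻¹⁻¹.1 a ∈ perp Q (D m) := fun m hm => by
    simp only [List.mem_cons, List.not_mem_nil, or_false, not_or] at hm
    exact h.supp_two (by rwa [O_map]) (by rwa [O_map]) (not_mem_span_map k hab) hM hjj hj hj'
      hm.1 hm.2 (Submodule.subset_span (by simp))
  obtain ⟨l, hl⟩ := h.exists_out [j, j'] (by simp)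
  obtain ⟨m, hm⟩ := h.exists_out [l, j, j'] (by simp)
  obtain ⟨o, ho⟩ := h.exists_out [m, l, j, j'] (by simp)
  rw [List.mem_cons, not_or] at hm ho
  rw [List.mem_cons, not_or] at ho
  simpa using h.od.pd_inv (h.wb hH hr (X.inv_mem hk) ha a0 (Ne.symm hm.1) (Ne.symm ho.2.1)
    (Ne.symm ho.1) (h1 l hl) (h1 m hm.2) (h1 o ho.2.2))

/-- A pair of vectors of norm one in different members. -/
def Std (Q : QuadraticForm F V) (D : ι → Submodule F V) (a b : V) : Prop :=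
  ∃ i j, i ≠ j ∧ a ∈ D i ∧ b ∈ D j ∧ Q a = 1 ∧ Q b = 1

omit [FiniteDimensional F V] [Finite F] hH hr in
theorem std_facts {a b : V} (hs : Std Q D a b) : InD D a ∧ InD D b ∧ Q a ≠ 0 ∧ Q b ≠ 0 ∧
    Q b = Q a ∧ b ∉ Submodule.span F {a} ∧
    refl Q a * refl Q b * (refl Q a * refl Q b) = 1 := by
  obtain ⟨i, j, hij, ha, hb, a1, b1⟩ := hs
  refine ⟨⟨i, ha⟩, ⟨j, hb⟩, a1 ▸ one_ne_zero, b1 ▸ one_ne_zero, b1.trans a1.symm, fun hh =>
    ne_zero_of_Q (b1 ▸ one_ne_zero) (h.od.eq_zero_of_mem hij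
      ((Submodule.span_singleton_le_iff_mem _ _).2 ha hh) hb), ?_⟩
  have h1 := conj_refl (refl Q a) b
  rw [refl_apply_of_orth (h.od.polar_eq hij.symm hb ha), refl_inv] at h1
  rw [← mul_assoc, h1, refl_mul_self]

theorem four_refl {w k : O Q} (hw : w ∈ X) (hk : k ∈ X) {a b a' b' : V} (hs : Std Q D a b)
    (hs' : Std Q D a' b') (hc : w * (refl Q a * refl Q b) = refl Q a * refl Q b * w)
    (e : w * (refl Q a * refl Q b) = k * (refl Q a' * refl Q b') * k⁻¹) :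
    ∃ c d, InD D c ∧ InD D d ∧ w = refl Q c * refl Q d * (refl Q a * refl Q b) := by
  obtain ⟨h1, h2, h3, h4, -, h5, h6⟩ := h.std_facts hs
  obtain ⟨h1', h2', h3', h4', -, h5', -⟩ := h.std_facts hs'
  have p1 := (h.od.pd_refl h1).mul (h.od.pd_refl h2)
  have p2 : PD D w := h.pd_of_two hH hr hw h1 h3 h4 h5 (by
    rwa [← conj_refl_two, hc, mul_inv_cancel_right])
  rw [conj_refl_two] at e
  have p3 : PD D k := h.pd_of_two hH hr hk h1' h3' h4' h5' (e ▸ p2.mul p1)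
  exact ⟨_, _, p3.inD h1', p3.inD h2', by rw [← e, mul_assoc, h6, mul_one]⟩

theorem exists_swap_inv {g : O Q} (hg : g ∈ X) (hn : ¬ PD D g) {a b a' b' : V} (hs : Std Q D a b)
    (hs' : Std Q D a' b') : ∃ x y, refl Q x * refl Q y ∈ X ∧
      refl Q x * refl Q y * (refl Q a * refl Q b) * (refl Q x * refl Q y)⁻¹ =
        g * (refl Q a' * refl Q b') * g⁻¹ := by
  have : Finite V := Module.finite_of_finite F
  have : Finite (O Q) := Finite.of_injective (fun g : O Q => (g.1 : V → V))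
    fun _ _ e => O_ext (congrFun e)
  obtain ⟨h1, h2, h3, h4, h7, h5, h6⟩ := h.std_facts hs
  obtain ⟨h1', h2', h3', h4', h7', h5', h6'⟩ := h.std_facts hs'
  have m1 := h.refl_two_mem hH h1 h2 h3 h7
  have m2 := h.refl_two_mem hH h1' h2' h3' h7'
  rcases SUMax.dihedral_cases h6 (t := g * (refl Q a' * refl Q b') * g⁻¹) (by
      rw [conj_mul, h6', mul_one, mul_inv_cancel]) X m1
      (X.mul_mem (X.mul_mem hg m2) (X.inv_mem hg)) with
    ⟨u, hu, e⟩ | ⟨w, hw, hw1, e1, e2, ⟨u, hu, e3⟩, ⟨u', hu', e4⟩⟩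
  · refine ⟨u.1 a, u.1 b, ?_, ?_⟩ <;> rw [← conj_refl_two]
    exacts [X.mul_mem (X.mul_mem hu m1) (X.inv_mem hu), e]
  exfalso
  obtain ⟨c, d, c1, d1, e5⟩ : ∃ c d, InD D c ∧ InD D d ∧
      w = refl Q c * refl Q d * (refl Q a * refl Q b) := by
    rcases e3 with e3 | e3
    · exact h.four_refl hH hr hw hu hs hs e1 e3
    · exact h.four_refl hH hr hw (X.mul_mem hu hg) hs hs' e1 (by rw [e3]; group)
  have hw' := X.mul_mem (X.mul_mem (X.inv_mem hg) hw) hg
  have e6 : g⁻¹ * w * g * (refl Q a' * refl Q b') = refl Q a' * refl Q b' * (g⁻¹ * w * g) := by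
    rw [show g⁻¹ * w * g * (refl Q a' * refl Q b') =
      g⁻¹ * (w * (g * (refl Q a' * refl Q b') * g⁻¹)) * g by group, e2]; group
  obtain ⟨c', d', ⟨i₁, c1'⟩, ⟨i₂, d1'⟩, e7⟩ : ∃ c d, InD D c ∧ InD D d ∧
      g⁻¹ * w * g = refl Q c * refl Q d * (refl Q a' * refl Q b') := by
    have e8 : g⁻¹ * w * g * (refl Q a' * refl Q b') =
      g⁻¹ * (w * (g * (refl Q a' * refl Q b') * g⁻¹)) * g := by group
    rcases e4 with e4 | e4
    · exact h.four_refl hH hr hw' (X.mul_mem (X.mul_mem (X.inv_mem hg) hu') hg) hs' hs' e6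
        (by rw [e8, e4]; group)
    · exact h.four_refl hH hr hw' (X.mul_mem (X.inv_mem hg) hu') hs' hs e6 (by rw [e8, e4]; group)
  obtain ⟨i₃, a1'⟩ := id h1'
  obtain ⟨i₄, b1'⟩ := id h2'
  obtain ⟨l, hl⟩ := h.exists_out [i₁, i₂, i₃, i₄] (by simp)
  simp only [List.mem_cons, List.not_mem_nil, or_false, not_or] at hl
  have f1 : ∀ v ∈ D l, w.1 (g.1 v) = g.1 v := fun v hv => by
    have : (g⁻¹ * w * g).1 v = v := by
      simp only [e7, O_mul_apply, refl_apply_of_orth (h.od.polar_eq hl.1 hv c1'),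
        refl_apply_of_orth (h.od.polar_eq hl.2.1 hv d1'),
        refl_apply_of_orth (h.od.polar_eq hl.2.2.1 hv a1'),
        refl_apply_of_orth (h.od.polar_eq hl.2.2.2 hv b1')]
    simpa [O_mul_apply, O_apply_inv_apply] using congrArg g.1 this
  have f2 : ∀ m, ∀ v ∈ D m, w.1 v ∈ D m := fun m v hv => by
    rw [e5]
    exact h.od.refl_mem c1.choose_spec m _ (h.od.refl_mem d1.choose_spec m _
      (h.od.refl_mem h1.choose_spec m _ (h.od.refl_mem h2.choose_spec m _ hv)))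
  obtain ⟨m, v, hv, v1, v2⟩ : ∃ m, ∃ v ∈ D m, Q v = 1 ∧ w.1 v ≠ v := by
    by_contra hc
    push Not at hc
    refine hw1 (h.ext fun m v hv => ?_)
    obtain ⟨p, hp, y, hy, p1, y1, h8, -⟩ := h.exists_two m (one_ne_zero (α := F))
    obtain ⟨α, β, rfl⟩ := (h.pl m).span hp (ne_zero_of_Q (p1 ▸ one_ne_zero)) hy h8 hv
    simp [hc m p hp p1, hc m y hy y1, O_one_apply]
  have f3 := (h.pl m).Q_sub_ne hv (f2 m v hv) (v1 ▸ one_ne_zero) (O_map _ _) v2
  have f4 : ∀ z ∈ D l, polar Q (v - w.1 v) (g.1 z) = 0 := fun z hz => by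
    rw [polar_sub_left, ← O_polar w v, f1 z hz, sub_self]
  obtain ⟨p, hp, y, hy, p1, y1, h8, -⟩ := h.exists_two l (one_ne_zero (α := F))
  have p0 : Q p ≠ 0 := p1 ▸ one_ne_zero
  refine hn (h.pd_of_two hH hr hg ⟨l, hp⟩ p0 (y1 ▸ one_ne_zero) h8
    (h.od.pd_of_inD h.conn hH hr ?_ ⟨m, (D m).sub_mem hv (f2 m v hv)⟩ f3 ?_))
  · rw [← conj_refl_two]
    exact X.mul_mem (X.mul_mem hg (h.refl_two_mem hH ⟨l, hp⟩ ⟨l, hy⟩ p0 (y1.trans p1.symm)))
      (X.inv_mem hg)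
  · rw [O_mul_apply, refl_apply_of_orth (f4 y hy), refl_apply_of_orth (f4 p hp)]
    exact ⟨m, (D m).sub_mem hv (f2 m v hv)⟩

theorem rigid {g : O Q} (hg : g ∈ X) : PD D g := by
  by_contra hn
  have := h.finite
  obtain ⟨i₁, -⟩ := h.exists_out [] (by simp)
  obtain ⟨i₂, n2⟩ := h.exists_out [i₁] (by simp)
  obtain ⟨i₃, n3⟩ := h.exists_out [i₁, i₂] (by simp)
  obtain ⟨i₄, n4⟩ := h.exists_out [i₁, i₂, i₃] (by simp)
  obtain ⟨i₅, n5⟩ := h.exists_out [i₁, i₂, i₃, i₄] (by simp)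
  simp only [List.mem_cons, List.not_mem_nil, or_false, not_or] at n2 n3 n4 n5
  choose a ha a1 using fun i => quad_exists_eq (h.od.nd i) (h.two i).ge 1
  have a0 : ∀ i, Q (a i) ≠ 0 := fun i => a1 i ▸ one_ne_zero
  have s1 : Std Q D (a i₁) (a i₂) := ⟨_, _, Ne.symm n2, ha _, ha _, a1 _, a1 _⟩
  have s2 : Std Q D (a i₃) (a i₄) := ⟨_, _, Ne.symm n4.2.2, ha _, ha _, a1 _, a1 _⟩
  obtain ⟨x, y, j1, e1⟩ := h.exists_swap_inv hH hr hg hn s1 s1
  obtain ⟨x', y', j2, e2⟩ := h.exists_swap_inv hH hr hg hn s2 s1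
  obtain ⟨h1, h2, -, -, -, h5, -⟩ := h.std_facts s1
  obtain ⟨h1', h2', -, -, -, -, -⟩ := h.std_facts s2
  set j := refl Q x * refl Q y with hj
  set j' := refl Q x' * refl Q y' with hj'
  have e3 : j'⁻¹ * j * (refl Q (a i₁) * refl Q (a i₂)) * (j'⁻¹ * j)⁻¹ =
      refl Q (a i₃) * refl Q (a i₄) := by
    rw [show j'⁻¹ * j * (refl Q (a i₁) * refl Q (a i₂)) * (j'⁻¹ * j)⁻¹ =
      j'⁻¹ * (j * (refl Q (a i₁) * refl Q (a i₂)) * j⁻¹) * j' by group, e1, ← e2]; group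
  have p1 : PD D (j'⁻¹ * j) := h.pd_of_two hH hr (X.mul_mem (X.inv_mem j2) j1) h1 (a0 _) (a0 _) h5
    (by rw [← conj_refl_two, e3]; exact (h.od.pd_refl h1').mul (h.od.pd_refl h2'))
  have hW : ∀ v, (j'⁻¹ * j).1 v - v ∈ Submodule.span F {x, y} ⊔ Submodule.span F {y', x'} := by
    intro v
    have k1 := refl_two_sub (Q := Q) y' x' (j.1 v)
    rw [← refl_inv y', ← refl_inv x', ← mul_inv_rev] at k1
    have := Submodule.add_mem_sup (refl_two_sub (Q := Q) x y v) k1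
    rwa [add_comm, sub_add_sub_cancel] at this
  generalize j'⁻¹ * j = k at e3 p1 hW
  have key : ∀ i, i = i₁ ∨ i = i₂ → ∀ v ∈ D i, k.1 v ∈ D i₃ ⊔ D i₄ := by
    intro i hi
    obtain ⟨l, hl⟩ := p1 i
    by_cases l3 : l = i₃
    · exact fun v hv => Submodule.mem_sup_left (l3 ▸ hl v hv)
    by_cases l4 : l = i₄
    · exact fun v hv => Submodule.mem_sup_right (l4 ▸ hl v hv)
    obtain ⟨d, hd, d1⟩ := exists_polar_eq (h.od.nd i) (ha i) (ne_zero_of_Q (a0 i)) 1
    have h3 := congrArg (fun s : O Q => s.1 (k.1 d)) e3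
    simp only [O_mul_apply, O_inv_apply_apply,
      refl_apply_of_orth (h.od.polar_eq l3 (hl d hd) (ha i₃)),
      refl_apply_of_orth (h.od.polar_eq l4 (hl d hd) (ha i₄))] at h3
    have h4 := orth_of_refl_two (a0 _) (a0 _) h5 (k.1.injective h3)
    rcases hi with rfl | rfl
    · exact absurd (d1.symm.trans h4.1) one_ne_zero
    · exact absurd (d1.symm.trans h4.2) one_ne_zero
  have key2 : ∀ v ∈ D i₁ ⊔ D i₂, k.1 v ∈ D i₃ ⊔ D i₄ := fun v hv => by
    obtain ⟨b, hb, c, hc, rfl⟩ := Submodule.mem_sup.1 hv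
    simpa using Submodule.add_mem _ (key _ (Or.inl rfl) b hb) (key _ (Or.inr rfl) c hc)
  have h6 : Submodule.span F {x, y} ≤ perp Q (D i₅) := by
    refine (le_sup_left.trans (le_map_of_inj ((k.1 : V →ₗ[F] V) - LinearMap.id)
      (S := D i₁ ⊔ D i₂) (fun v hv h0 => ?_) (fun v _ => hW v) ?_)).trans ?_
    · have h7 : v ∈ D i₃ ⊔ D i₄ := (show k.1 v = v from sub_eq_zero.1 h0) ▸ key2 v hv
      refine h.od.eq_zero fun m => ?_
      by_cases m1 : m = i₁
      · exact m1 ▸ h.sup_le_perp (Ne.symm n3.1) (Ne.symm n4.1) h7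
      by_cases m2 : m = i₂
      · exact m2 ▸ h.sup_le_perp (Ne.symm n3.2) (Ne.symm n4.2.1) h7
      · exact h.sup_le_perp m1 m2 hv
    · have := Submodule.finrank_add_le_finrank_add_finrank (Submodule.span F {x, y})
        (Submodule.span F {y', x'})
      have := RootMax.finrank_span_pair_le (F := F) x y
      have := RootMax.finrank_span_pair_le (F := F) y' x'
      rw [h.finrank_sup (Ne.symm n2)]
      omega
    · rintro _ ⟨v, hv, rfl⟩
      exact Submodule.sub_mem _ (h.sup_le_perp n5.2.2.1 n5.2.2.2 (key2 v hv))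
        (h.sup_le_perp n5.1 n5.2.1 hv)
  have p2 : PD D j := h.od.pd_of_inD h.conn hH hr j1 ⟨i₅, ha i₅⟩ (a0 _) ⟨i₅, by
    rw [hj, O_mul_apply, refl_apply_of_orth (h6 (Submodule.subset_span (by simp)) _ (ha i₅)),
      refl_apply_of_orth (h6 (Submodule.subset_span (by simp)) _ (ha i₅))]
    exact ha i₅⟩
  refine hn (h.pd_of_two hH hr hg h1 (a0 _) (a0 _) h5 ?_)
  rw [← conj_refl_two, ← e1]
  exact (p2.mul ((h.od.pd_refl h1).mul (h.od.pd_refl h2))).mul (h.od.pd_inv p2)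

end PlD

end CfsgLib.OMax
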