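import Mathlib
import Cfsg.Agent.Lib.OMax.PlaneR

/-!
Orthogonal decompositions into planes: swaps, and the passage from one root element to all.
-/

set_option autoImplicit false

namespace CfsgLib.OMax

open CfsgLib.Forms CfsgLib.ClMax CfsgLib.RootMax CfsgLib.OrthE Module QuadraticMap

variable {F V : Type*} [Field F] [AddCommGroup V] [Module F V] {Q : QuadraticForm F V}
  {X N : Subgroup (O Q)} {ι : Type*} {D : ι → Submodule F V}

theorem RC.ea_sub {v w : V} (hv : RC N v) (hw : RC N w) (e : Q w = Q v) (h0 : Q (w - v) = 0) :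
    EA N (w - v) ((Q v)⁻¹ • v) := by
  refine hv.ea h0 ?_ (by simpa using hw)
  have := Q_add Q (w - v) v
  rw [sub_add_cancel, h0, e] at this
  linear_combination -this

theorem EA.rc_of {x a c : V} (h : EA N x a) (hc : RC N c) (hcx : polar Q x c = 0)
    (hca : polar Q c a ≠ 0) : ∃ μ : F, μ ≠ 0 ∧ RC N (μ • c - Q (μ • c) • x) := by
  have h1 := (h.conj_sub hc.2 (refl_apply_of_orth hcx)).neg
  rw [refl_ap, neg_sub, sub_sub_cancel] at h1
  have h2 := mul_ne_zero (inv_ne_zero hc.1) hca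
  exact ⟨_, h2, h1.rc (hc.smul h2)⟩

/-- An involution exchanging two members and fixing their common complement. -/
structure IsSwap (D : ι → Submodule F V) (i j : ι) (σ : O Q) : Prop where
  sq : ∀ v, σ.1 (σ.1 v) = v
  left : ∀ v ∈ D i, σ.1 v ∈ D j
  right : ∀ v ∈ D j, σ.1 v ∈ D i
  fix : ∀ v ∈ perp Q (D i), v ∈ perp Q (D j) → σ.1 v = v

theorem IsSwap.symm {i j : ι} {σ : O Q} (h : IsSwap D i j σ) : IsSwap D j i σ :=
  ⟨h.sq, h.right, h.left, fun v h1 h2 => h.fix v h2 h1⟩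

theorem IsSwap.inv {i j : ι} {σ : O Q} (h : IsSwap D i j σ) : σ⁻¹ = σ :=
  inv_eq_of_mul_eq_one_right (O_ext h.sq)

/-- All members are isometric. -/
def Isom (Q : QuadraticForm F V) (D : ι → Submodule F V) : Prop :=
  ∀ i j, ∃ e : D i ≃ₗ[F] D j, ∀ w : D i, Q (e w : V) = Q w

namespace PlD

variable [FiniteDimensional F V] (h : PlD Q D)
include h

omit [FiniteDimensional F V] in
theorem swap_fix {i j l : ι} {σ : O Q} (hσ : IsSwap D i j σ) (hi : i ≠ l) (hj : j ≠ l) {v : V}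
    (hv : v ∈ D l) : σ.1 v = v := hσ.fix v (h.od.orth i l hi hv) (h.od.orth j l hj hv)

omit [FiniteDimensional F V] in
theorem swap_pd {i j : ι} {σ : O Q} (hσ : IsSwap D i j σ) : PD D σ := fun l => by
  by_cases hi : i = l
  · exact ⟨j, hi ▸ hσ.left⟩
  by_cases hj : j = l
  · exact ⟨i, hj ▸ hσ.right⟩
  · exact ⟨l, fun v hv => (h.swap_fix hσ hi hj hv).symm ▸ hv⟩

theorem swap_sub {i j : ι} (hij : i ≠ j) {σ : O Q} (hσ : IsSwap D i j σ) (v : V) :
    σ.1 v - v = (σ.1 (h.od.pr j v) - h.od.pr i v) + (σ.1 (h.od.pr i v) - h.od.pr j v) := by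
  have := hσ.fix (v - h.od.pr i v - h.od.pr j v)
    (Submodule.sub_mem _ (h.od.sub_pr i v) (h.od.orth i j hij (h.od.pr_mem j v))) (by
      rw [sub_right_comm]
      exact Submodule.sub_mem _ (h.od.sub_pr j v) (h.od.orth j i hij.symm (h.od.pr_mem i v)))
  rw [map_sub, map_sub] at this
  linear_combination (norm := module) this

theorem swap_facts {i j : ι} (hij : i ≠ j) {σ : O Q} (hσ : IsSwap D i j σ) (v : V) :
    σ.1 v - v ∈ D i ⊔ D j ∧ h.od.pr j (σ.1 v - v) = σ.1 (h.od.pr i v) - h.od.pr j v ∧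
      Q (σ.1 v - v) = 2 * Q (σ.1 (h.od.pr i v) - h.od.pr j v) := by
  have h1 := (D i).sub_mem (hσ.right _ (h.od.pr_mem j v)) (h.od.pr_mem i v)
  have h2 := (D j).sub_mem (hσ.left _ (h.od.pr_mem i v)) (h.od.pr_mem j v)
  rw [h.swap_sub hij hσ]
  refine ⟨Submodule.add_mem_sup h1 h2, by
    rw [map_add, h.od.pr_of_mem h2, h.od.pr_of_ne hij.symm h1, zero_add], ?_⟩
  rw [Q_add, h.od.polar_eq hij h1 h2, ← O_map σ, map_sub, hσ.sq, ← Q_neg, neg_sub]; ring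

omit [FiniteDimensional F V] in
theorem swap_mul_mem {i j k : ι} (hij : i ≠ j) (hik : i ≠ k) (hjk : j ≠ k) {σ τ : O Q}
    (hσ : IsSwap D i j σ) (hτ : IsSwap D j k τ) : σ * τ ∈ commutator (O Q) := by
  have e : σ * τ * σ = τ * σ * τ := h.ext fun l v hv => by
    simp only [O_mul_apply]
    by_cases h1 : l = i
    · subst h1
      rw [h.swap_fix hτ hij.symm hik.symm hv,
        h.swap_fix hσ hik hjk (hτ.left _ (hσ.left _ hv))]
    by_cases h2 : l = j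
    · subst h2
      rw [h.swap_fix hτ hij.symm hik.symm (hσ.right _ hv), h.swap_fix hσ hik hjk (hτ.left _ hv),
        hσ.sq, hτ.sq]
    by_cases h3 : l = k
    · subst h3
      rw [h.swap_fix hσ hik hjk hv,
        h.swap_fix hτ hij.symm hik.symm (hσ.right _ (hτ.right _ hv))]
    · simp only [h.swap_fix hσ (Ne.symm h1) (Ne.symm h2) hv,
        h.swap_fix hτ (Ne.symm h2) (Ne.symm h3) hv]
  have h1 := Subgroup.commutator_mem_commutator (Subgroup.mem_top τ) (Subgroup.mem_top σ)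
  rwa [commutatorElement_def, hσ.inv, hτ.inv, ← e, mul_assoc, show σ * σ = 1 from O_ext hσ.sq,
    mul_one] at h1

theorem exists_isSwap (hI : Isom Q D) {i j : ι} (hij : i ≠ j) : ∃ σ : O Q, IsSwap D i j σ := by
  obtain ⟨e, he⟩ := hI i j
  obtain ⟨g, g1, g2, g3⟩ := exists_swap h.od.hQ (h.od.nd i) (h.od.nd j) (h.od.orth i j hij) e he
  refine ⟨g, fun v => ?_, fun v hv => (g1 ⟨v, hv⟩).symm ▸ (e ⟨v, hv⟩).2,
    fun v hv => (g2 ⟨v, hv⟩).symm ▸ (e.symm ⟨v, hv⟩).2, g3⟩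
  suffices g * g = 1 from congrArg (fun s : O Q => s.1 v) this
  refine h.ext fun l v hv => ?_
  rw [O_mul_apply, O_one_apply]
  by_cases hi : i = l
  · subst hi; rw [g1 ⟨v, hv⟩, g2, e.symm_apply_apply]
  by_cases hj : j = l
  · subst hj; rw [g2 ⟨v, hv⟩, g1, e.apply_symm_apply]
  · simp only [g3 v (h.od.orth i l hi hv) (h.od.orth j l hj hv)]

theorem exists_isSwap_eq (hI : Isom Q D) {i j : ι} (hij : i ≠ j) {p y : V} (hp : p ∈ D i)
    (hy : y ∈ D j) (h0 : Q p ≠ 0) (e : Q y = Q p) : ∃ σ : O Q, IsSwap D i j σ ∧ σ.1 p = y := by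
  obtain ⟨σ, hσ⟩ := h.exists_isSwap hI hij
  by_cases hne : y = σ.1 p
  · exact ⟨σ, hσ, hne.symm⟩
  have h1 := hσ.left p hp
  have h2 : Q y = Q (σ.1 p) := by rw [O_map, e]
  have h3 := (h.pl j).Q_sub_ne h1 hy (by rwa [O_map]) h2 hne
  have h4 := (D j).sub_mem h1 hy
  have h5 := refl_sub_apply h2 h3
  generalize σ.1 p - y = c at h3 h4 h5
  have r1 : ∀ v ∈ perp Q (D j), (refl Q c).1 v = v := fun v hv => refl_apply_of_orth (pc (hv c h4))
  have r2 : ∀ v, (refl Q c).1 ((refl Q c).1 v) = v := fun v =>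
    congrArg (fun s : O Q => s.1 v) (refl_mul_self c)
  refine ⟨refl Q c * σ * refl Q c, ⟨fun v => ?_, fun v hv => ?_, fun v hv => ?_, fun v v1 v2 => ?_⟩,
    ?_⟩ <;> simp only [O_mul_apply]
  · rw [r2, hσ.sq, r2]
  · exact h.od.refl_mem h4 _ _ (hσ.left _ (h.od.refl_mem h4 _ _ hv))
  · exact h.od.refl_mem h4 _ _ (hσ.right _ (h.od.refl_mem h4 _ _ hv))
  · rw [r1 v v2, hσ.fix v v1 v2, r1 v v2]
  · rw [r1 p (h.od.orth j i hij.symm hp), h5]

theorem refl_pr {i : ι} {v y : V} (hy : y ∈ D i) (e : Q y = Q (h.od.pr i v))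
    (h0 : Q (h.od.pr i v - y) ≠ 0) :
    (refl Q (h.od.pr i v - y)).1 v = v - h.od.pr i v + y := by
  have h1 := refl_apply_of_orth (pc (h.od.sub_pr i v _ ((D i).sub_mem (h.od.pr_mem i v) hy)))
  rw [map_sub, refl_sub_apply e h0] at h1
  linear_combination (norm := module) h1

variable [Finite F] (hN : ∀ g ∈ commutator (O Q), PD D g → g ∈ N)
include hN

theorem rc_adjust {v : V} (hv : RC N v) {g : O Q} (hg : PD D g) {m : ι}
    (hm : g.1 v ∈ perp Q (D m)) : RC N (g.1 v) := by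
  obtain ⟨r, r1, r2, -⟩ := exists_adjust h.od.hQ h.five_le (h.od.nd m) (h.two m).ge g
  exact (hv.conj (hN _ r1 (PD.mul (fun l => ⟨l, h.od.mem_of_fix r2 l⟩) hg))).congr (r2 _ hm)

theorem mem_of_two (h2 : (2 : F) = 0) {u : V} (hu : InD D u) (hu' : RC N u) {g : O Q}
    (hg : PD D g) : g ∈ N := by
  have := h.finite
  have h1 : Subgroup.closure {refl Q u} ⊔ commutator (O Q) = ⊤ :=
    eq_top_of_refl_of_siegel h.od.hQ _ (fun v hv => by
      have h3 := Subgroup.mul_mem_sup (Subgroup.mem_closure_singleton_self (refl Q u))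
        (refl_mul_mem_of_sq h.od.hQ hu'.1 hv (Orth.isSquare_of_charTwo h2 _))
      rwa [← mul_assoc, refl_mul_self, one_mul] at h3)
    fun u v _ _ _ => Subgroup.mem_sup_right (eich_mem h.od.hQ h.five_le u v)
  obtain ⟨r, hr, k, hk, rfl⟩ := Subgroup.mem_sup_of_normal_right.1 (h1 ▸ Subgroup.mem_top g)
  have h3 : r ∈ N ∧ PD D r := by
    clear hg
    induction hr using Subgroup.closure_induction with
    | mem a ha => exact ha ▸ ⟨hu'.2, h.od.pd_refl hu⟩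
    | one => exact ⟨N.one_mem, fun i => ⟨i, fun _ hv => hv⟩⟩
    | mul a b _ _ ha hb => exact ⟨N.mul_mem ha.1 hb.1, ha.2.mul hb.2⟩
    | inv a _ ha => exact ⟨N.inv_mem ha.1, h.od.pd_inv ha.2⟩
  exact N.mul_mem h3.1 (hN k hk (by simpa using (h.od.pd_inv h3.2).mul hg))

variable (hI : Isom Q D)
include hI

theorem exists_move {i k o : ι} (hik : i ≠ k) (hio : o ≠ i) (hko : o ≠ k) :
    ∃ s ∈ N, (∀ v ∈ D i, s.1 v ∈ D k) ∧ (∀ v ∈ D o, s.1 v ∈ D o) ∧
      ∀ l, i ≠ l → k ≠ l → o ≠ l → ∀ v ∈ D l, s.1 v = v := by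
  obtain ⟨σ, hσ⟩ := h.exists_isSwap hI hik
  obtain ⟨r, r1, r2, r3⟩ := exists_adjust h.od.hQ h.five_le (h.od.nd o) (h.two o).ge σ
  refine ⟨_, hN _ r1 (PD.mul (fun l => ⟨l, h.od.mem_of_fix r2 l⟩) (h.swap_pd hσ)),
    fun v hv => ?_, fun v hv => ?_, fun l h1 h2 h3 v hv => ?_⟩ <;> rw [O_mul_apply]
  · exact h.od.mem_of_fix r2 _ _ (hσ.left v hv)
  · exact r3 _ ((h.swap_fix hσ hio.symm hko.symm hv).symm ▸ hv)
  · rw [h.swap_fix hσ h1 h2 hv, r2 v (h.od.orth o l h3 hv)]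

variable (hR : ∀ i, RIrr Q (D i))
include hR

theorem ea_out {i j m : ι} (hi : m ≠ i) (hj : m ≠ j) {x a : V} (hx : x ∈ D i ⊔ D j)
    (ha : EA N x a) (hm : h.od.pr m a ≠ 0) {l : ι} (li : l ≠ i) (lj : l ≠ j) :
    ∀ z ∈ D l, EA N x z := by
  have step : ∀ {l o c c' a}, l ≠ i → l ≠ j → o ≠ i → o ≠ j → c ∈ D l → c' ∈ D o → Q c ≠ 0 →
      Q c' = Q c → EA N x a → EA N x ((refl Q c).1 ((refl Q c').1 a)) := by
    intro l o c c' a h1 h2 h3 h4 hc hc' c0 e ha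
    exact ha.conj_fix (h.refl_two_mem hN ⟨l, hc⟩ ⟨o, hc'⟩ c0 e) (by
      rw [O_mul_apply, refl_apply_of_orth (pc (h.sup_le_perp h3 h4 hx c' hc')),
        refl_apply_of_orth (pc (h.sup_le_perp h1 h2 hx c hc))])
  have irr : ∀ l, l ≠ i → l ≠ j → ∀ p ∈ D l, p ≠ 0 → EA N x p → ∀ z ∈ D l, EA N x z := by
    intro l h1 h2
    obtain ⟨o, ho⟩ := h.exists_out [i, j, l] (by simp)
    simp only [List.mem_cons, List.not_mem_nil, or_false, not_or] at ho
    refine hR l _ (fun _ _ => EA.sub) fun c hc c0 a ha h3 => ?_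
    obtain ⟨c', hc', e⟩ := quad_exists_eq (h.od.nd o) (h.two o).ge (Q c)
    have := step h1 h2 ho.1 ho.2.1 hc hc' c0 e h3
    rwa [refl_apply_of_orth (h.od.polar_eq (Ne.symm ho.2.2) ha hc')] at this
  obtain ⟨o, ho⟩ := h.exists_out [i, j, m] (by simp)
  obtain ⟨o', ho'⟩ := h.exists_out [i, j, m, o] (by simp)
  simp only [List.mem_cons, List.not_mem_nil, or_false, not_or] at ho ho'
  obtain ⟨c, hc, c1, c2⟩ := h.exists_not_orth one_ne_zero hm
  obtain ⟨c', hc', c1'⟩ := quad_exists_eq (h.od.nd o) (h.two o).ge 1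
  obtain ⟨d', hd', d1'⟩ := quad_exists_eq (h.od.nd o') (h.two o').ge 1
  obtain ⟨d, hd, d1, d2⟩ := h.exists_not_orth one_ne_zero (i := m) (v := c) (by
    rw [h.od.pr_of_mem hc]; exact ne_zero_of_Q (c1 ▸ one_ne_zero))
  have h1 : EA N x (polar Q c a • c + polar Q c' a • c') :=
    (ha.sub (step hi hj ho.1 ho.2.1 hc hc' (c1 ▸ one_ne_zero) (c1'.trans c1.symm) ha)).congr (by
      simp [refl_ap, c1, c1', h.od.polar_eq (Ne.symm ho.2.2) hc hc', sub_sub, add_comm])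
  have h2 : EA N x ((polar Q c a * polar Q d c) • d) :=
    (h1.sub (step hi hj ho'.1 ho'.2.1 hd hd' (d1 ▸ one_ne_zero) (d1'.trans d1.symm) h1)).congr (by
      simp [refl_ap, d1, d1', h.od.polar_eq (Ne.symm ho.2.2) hd hc',
        h.od.polar_eq ho'.2.2.1 hd' hc, h.od.polar_eq ho'.2.2.2 hd' hc'])
  have d0 := ne_zero_of_Q (d1 ▸ one_ne_zero : Q d ≠ 0)
  have h3 := irr m hi hj _ ((D m).smul_mem _ hd) (smul_ne_zero (mul_ne_zero c2 d2) d0) h2
  by_cases e : m = l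
  · exact e ▸ h3
  obtain ⟨n, hn⟩ := h.exists_out [i, j, m, l] (by simp)
  simp only [List.mem_cons, List.not_mem_nil, or_false, not_or] at hn
  obtain ⟨s, s1, s2, -, s3⟩ := h.exists_move hN hI e hn.2.2.1 hn.2.2.2
  refine irr l li lj _ (s2 d hd) (O_apply_ne_zero s d0) ((h3 d hd).conj_fix s1 ?_)
  obtain ⟨b, hb, b', hb', rfl⟩ := Submodule.mem_sup.1 hx
  rw [map_add, s3 i hi li hn.1 b hb, s3 j hj lj hn.2.1 b' hb']

theorem E_le_of_ea {i j m : ι} (hij : i ≠ j) (hi : m ≠ i) (hj : m ≠ j) {x a : V}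
    (hx : x ∈ D i ⊔ D j) (hx0 : x ≠ 0) (ha : EA N x a) (hm : h.od.pr m a ≠ 0) : E Q ≤ N := by
  have h1 := fun l => h.ea_out hN hI hR hi hj hx ha hm (l := l)
  obtain ⟨l, hl⟩ := h.exists_out [i, j, m] (by simp)
  obtain ⟨o, ho⟩ := h.exists_out [i, j, m, l] (by simp)
  simp only [List.mem_cons, List.not_mem_nil, or_false, not_or] at hl ho
  have sup : ∀ {x i j}, (∀ z ∈ D i, EA N x z) → (∀ z ∈ D j, EA N x z) →
      ∀ z ∈ D i ⊔ D j, EA N x z := fun h1 h2 z hz => by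
    obtain ⟨b, hb, b', hb', rfl⟩ := Submodule.mem_sup.1 hz
    exact (h1 b hb).add (h2 b' hb')
  obtain ⟨s, s1, s2, s3, s4⟩ := h.exists_move hN hI hi.symm ho.1 ho.2.2.1
  obtain ⟨s', s1', s2', s3', s4'⟩ := h.exists_move hN hI (Ne.symm hl.2.1) ho.2.1 ho.2.2.2
  obtain ⟨c, hc, c0⟩ := (D o).ne_bot_iff.1 (h.od.ne o)
  have hz : s.1 (s'.1 x) ∈ D m ⊔ D l := by
    obtain ⟨b, hb, b', hb', rfl⟩ := Submodule.mem_sup.1 hx
    rw [map_add, map_add, s4' i hij.symm hl.1 ho.1 b hb,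
      s4 l (Ne.symm hl.1) (Ne.symm hl.2.2) ho.2.2.2 _ (s2' b' hb')]
    exact Submodule.add_mem_sup (s2 b hb) (s2' b' hb')
  have hz0 := O_apply_ne_zero s (O_apply_ne_zero s' hx0)
  have h2 := fun k => h.ea_out hN hI hR ho.2.2.1 ho.2.2.2 hz
    (((h1 o ho.1 ho.2.1 c hc).conj s1').conj s1) (by
      rw [h.od.pr_of_mem (s3 _ (s3' c hc))]
      exact O_apply_ne_zero s (O_apply_ne_zero s' c0)) (l := k)
  generalize s.1 (s'.1 x) = z at hz hz0 h2
  have h3 := sup (h2 i hi.symm (Ne.symm hl.1)) (h2 j hj.symm (Ne.symm hl.2.1))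
  have h4 := sup (h1 m hi hj) (h1 l hl.1 hl.2.1)
  have orth : ∀ u ∈ D m ⊔ D l, ∀ w ∈ D i ⊔ D j, polar Q u w = 0 := fun u hu w hw => by
    obtain ⟨b, hb, b', hb', rfl⟩ := Submodule.mem_sup.1 hu
    rw [polar_add_left, mem_perp.1 (h.sup_le_perp hi hj hw) b hb,
      mem_perp.1 (h.sup_le_perp hl.1 hl.2.1 hw) b' hb', add_zero]
  obtain ⟨a₀, ha₀, a1⟩ : ∃ a₀ ∈ D m ⊔ D l, polar Q z a₀ = 1 := by
    obtain ⟨a₀, -, a1⟩ := exists_polar_eq (nd_top h.od.hQ) trivial hz0 1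
    refine ⟨_, Submodule.add_mem_sup (h.od.pr_mem m a₀) (h.od.pr_mem l a₀), ?_⟩
    obtain ⟨b, hb, b', hb', rfl⟩ := Submodule.mem_sup.1 hz
    simpa [h.od.polar_pr hb, h.od.polar_pr hb', h.od.polar_eq (Ne.symm hl.2.2) hb (h.od.pr_mem l _),
      h.od.polar_eq hl.2.2 hb' (h.od.pr_mem m _)] using a1
  have full : EFull N x := by
    intro v hv
    obtain ⟨b, hb, h5⟩ : ∃ b ∈ D i ⊔ D j, EA N x (v - b) := by
      have hu : v ∈ iSup D := h.od.top ▸ Submodule.mem_top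
      clear hv
      induction hu using Submodule.iSup_induction' with
      | mem k w hw =>
        by_cases e1 : k = i
        · exact ⟨w, Submodule.mem_sup_left (e1 ▸ hw), by simpa using EA.zero ha.sing⟩
        by_cases e2 : k = j
        · exact ⟨w, Submodule.mem_sup_right (e2 ▸ hw), by simpa using EA.zero ha.sing⟩
        · exact ⟨0, Submodule.zero_mem _, by simpa using h1 k e1 e2 w hw⟩
      | zero => exact ⟨0, Submodule.zero_mem _, by simpa using EA.zero ha.sing⟩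
      | add a b _ _ ha hb =>
        obtain ⟨a', h3, h4⟩ := ha
        obtain ⟨b', h5, h6⟩ := hb
        exact ⟨a' + b', Submodule.add_mem _ h3 h5, (h4.add h6).congr (by abel)⟩
    have h6 := (h4 a₀ ha₀).move (h3 b hb) (orth z hz x hx) (pc (by simpa [hv] using h5.orth))
    rw [a1, one_smul] at h6
    generalize polar Q b a₀ - _ = κ at h6
    simpa using h5.add ((h4 _ (Submodule.smul_mem _ κ hz)).sub h6)
  obtain ⟨k, hk, k0⟩ : ∃ k, k ≠ m ∧ h.od.pr k x ≠ 0 := h.od.exists_pr_ne fun hh =>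
    hx0 (Submodule.disjoint_def.1 (h.od.nd m) x hh (h.sup_le_perp hi hj hx))
  obtain ⟨d, hd, d1, d2⟩ := h.exists_not_orth one_ne_zero k0
  obtain ⟨d', hd', d1'⟩ := quad_exists_eq (h.od.nd m) (h.two m).ge 1
  have h5 := full.conj (h.refl_two_mem hN ⟨k, hd⟩ ⟨m, hd'⟩ (d1 ▸ one_ne_zero) (d1'.trans d1.symm))
  rw [O_mul_apply, refl_apply_of_orth (pc (h.sup_le_perp hi hj hx d' hd'))] at h5
  refine E_le_of_two h.od.hQ (by have := h.five_le; omega) ha.sing (by rw [O_map, ha.sing]) full h5 ?_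
  simpa [refl_ap, ha.sing, d1, polar_comm Q x d] using d2

theorem E_le_of_sing (hB : BigS F) {j : ι} {v : V} (hv : RC N v) (hj : v ∉ D j)
    (h0 : h.od.pr j v ≠ 0) (hs : Q (h.od.pr j v) = 0) : E Q ≤ N := by
  obtain ⟨i, x, hx, hx0, w, hw, h1⟩ := h.od.gd_sing hN hB hv hj h0 hs
  obtain ⟨m, hm, m0⟩ := h.od.exists_pr_ne hw
  obtain ⟨l, hl⟩ := h.exists_out [i, m] (by simp)
  simp only [List.mem_cons, List.not_mem_nil, or_false, not_or] at hl
  exact h.E_le_of_ea hN hI hR (Ne.symm hl.1) hm (Ne.symm hl.2) (Submodule.mem_sup_left hx) hx0 h1 m0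

theorem E_le_of_pair {i j m : ι} (hij : i ≠ j) (hi : m ≠ i) (hj : m ≠ j) {v : V} {g : O Q}
    (hv : RC N v) (hw : RC N (g.1 v)) (hx : g.1 v - v ∈ D i ⊔ D j) (hx0 : g.1 v - v ≠ 0)
    (h0 : Q (g.1 v - v) = 0) (hm : h.od.pr m v ≠ 0) : E Q ≤ N :=
  h.E_le_of_ea hN hI hR hij hi hj hx hx0 (hv.ea_sub hw (O_map _ _) h0) (by
    simpa [hv.1] using hm)

end PlD

end CfsgLib.OMax
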