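import Mathlib
import Cfsg.Agent.Lib.OMax.PlaneN
import Cfsg.Agent.Lib.Asch.Proj

/-!
Stabilisers in `Ω` of orthogonal decompositions into at least five isometric planes.
-/

set_option autoImplicit false

namespace CfsgLib.OMax

open CfsgLib.Forms CfsgLib.ClMax CfsgLib.RootMax CfsgLib.OrthE Module QuadraticMap

variable {F V : Type*} [Field F] [AddCommGroup V] [Module F V] {Q : QuadraticForm F V}
  {X N : Subgroup (O Q)} {ι : Type*} {D : ι → Submodule F V}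

theorem exists_good_torus [Finite F] (h2 : (2 : F) ≠ 0) (h7 : 7 ≤ Nat.card F) {m : F} :
    ∃ l : F, l ≠ 0 ∧ l ≠ 1 ∧ l ≠ -1 ∧ 2 - (l + l⁻¹) ≠ m ∧ 2 * (2 - (l + l⁻¹)) ≠ m := by
  rcases h7.eq_or_lt with h7 | h7
  · have := Fintype.ofFinite F
    have h4 := FiniteField.cast_card_eq_zero F
    rw [← Nat.card_eq_fintype_card, ← h7] at h4
    push_cast at h4
    have i2 : (2 : F)⁻¹ = 4 := inv_eq_of_mul_eq_one_right (by linear_combination h4)
    have i3 : (3 : F)⁻¹ = 5 := inv_eq_of_mul_eq_one_right (by linear_combination 2 * h4)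
    have n1 : ∀ a b : F, a * b = 1 → a ≠ 0 := fun a b h => left_ne_zero_of_mul_eq_one h
    by_cases hm : m = 3 ∨ m = 6
    · refine ⟨3, n1 3 5 (by linear_combination 2 * h4), fun h => h2 (by linear_combination h),
        fun h => n1 4 2 (by linear_combination h4) (by linear_combination h), ?_, ?_⟩ <;> rw [i3] <;>
        rcases hm with rfl | rfl <;> intro h
      · exact h2 (by linear_combination -h - h4)
      · exact n1 5 3 (by linear_combination 2 * h4) (by linear_combination -h - h4)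
      · exact one_ne_zero (α := F) (by linear_combination -h - 2 * h4)
      · exact n1 4 2 (by linear_combination h4) (by linear_combination -h - 2 * h4)
    · push Not at hm
      refine ⟨2, h2, fun h => one_ne_zero (α := F) (by linear_combination h),
        fun h => n1 3 5 (by linear_combination 2 * h4) (by linear_combination h), ?_, ?_⟩ <;> rw [i2]
      · exact fun h => hm.1 (by linear_combination -h - h4)
      · exact fun h => hm.2 (by linear_combination -h - 2 * h4)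
  obtain ⟨r₁, r₂, h1⟩ := quad_roots (one_ne_zero (α := F)) (m - 2) 1
  obtain ⟨r₃, r₄, h3⟩ := quad_roots h2 (m - 4) 2
  obtain ⟨l, hl⟩ := exists_not_mem_list [0, 1, -1, r₁, r₂, r₃, r₄]
    (by simp only [List.length]; omega)
  simp only [List.mem_cons, List.not_mem_nil, or_false, not_or] at hl
  obtain ⟨l0, l1, l2, l3, l4, l5, l6⟩ := hl
  have e := mul_inv_cancel₀ l0
  exact ⟨l, l0, l1, l2, fun h => (h1 l (by linear_combination -l * h - e)).elim l3 l4,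
    fun h => (h3 l (by linear_combination -l * h - 2 * e)).elim l5 l6⟩

namespace PlD

variable [FiniteDimensional F V] (h : PlD Q D)
include h

theorem exists_neg (h2 : (2 : F) ≠ 0) [Finite F] (j : ι) :
    ∃ n : O Q, (∀ v ∈ D j, n.1 v = -v) ∧ ∀ v ∈ perp Q (D j), n.1 v = v := by
  obtain ⟨p, hp, p1⟩ := quad_exists_eq (h.od.nd j) (h.two j).ge 1
  have p0 : Q p ≠ 0 := p1 ▸ one_ne_zero
  obtain ⟨c, hc, c0, c1⟩ := exists_orth_not_mem h.od.hQ (D j) ⊥ [p] (by simp [h.two])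
  have c2 := c1 p (by simp)
  have c3 : Q c ≠ 0 := fun h0 => (h.pl j).polar_ne hc (by simpa using c0) h0 hp p0 (pc c2)
  refine ⟨refl Q p * refl Q c, fun v hv => ?_, fun v hv => by
    rw [O_mul_apply, refl_apply_of_orth (pc (hv c hc)), refl_apply_of_orth (pc (hv p hp))]⟩
  obtain ⟨α, β, rfl⟩ := (h.pl j).span hp (ne_zero_of_Q p0) hc (fun hh => by
    obtain ⟨t, rfl⟩ := Submodule.mem_span_singleton.1 hh
    exact c0 (by simpa [h2, p0, p1] using Or.inl (show t = 0 by simpa [h2, p1] using c2))) hv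
  simp only [O_mul_apply, map_add, map_smul, map_neg, refl_apply_of_orth c2, refl_apply_self p0,
    refl_apply_self c3, refl_apply_of_orth (pc c2)]
  module

theorem refl_two_facts {i j : ι} (hij : i ≠ j) {v y y' : V} (hy : y ∈ D i) (hy' : y' ∈ D j)
    (e : Q y = Q (h.od.pr i v)) (e' : Q y' = Q (h.od.pr j v)) (h0 : Q (h.od.pr i v - y) ≠ 0)
    (h0' : Q (h.od.pr j v - y') ≠ 0) :
    (refl Q (h.od.pr i v - y) * refl Q (h.od.pr j v - y')).1 v =
      v + (y - h.od.pr i v) + (y' - h.od.pr j v) := by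
  have h1 := (D i).sub_mem (h.od.pr_mem i v) hy
  rw [O_mul_apply, h.refl_pr hy' e' h0', map_add, map_sub, h.refl_pr hy e h0,
    refl_apply_of_orth (h.od.polar_eq hij.symm hy' h1),
    refl_apply_of_orth (h.od.polar_eq hij.symm (h.od.pr_mem j v) h1)]
  abel

variable [Finite F] (hN : ∀ g ∈ commutator (O Q), PD D g → g ∈ N) (hI : Isom Q D)
include hN hI

theorem exists_three {v : V} (hv : RC N v) (hn : ¬ InD D v)
    (hs : ∀ l, h.od.pr l v ≠ 0 → Q (h.od.pr l v) ≠ 0) : ∃ w, RC N w ∧ ∃ i j k, i ≠ j ∧ k ≠ i ∧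
      k ≠ j ∧ h.od.pr i w ≠ 0 ∧ h.od.pr j w ≠ 0 ∧ h.od.pr k w ≠ 0 := by
  obtain ⟨i, j, hij, hi, hj⟩ := h.exists_two_pr hn
  by_cases h3 : ∃ k, k ≠ i ∧ k ≠ j ∧ h.od.pr k v ≠ 0
  · obtain ⟨k, h1, h2, h3⟩ := h3
    exact ⟨v, hv, i, j, k, hij, h1, h2, hi, hj, h3⟩
  push Not at h3
  obtain ⟨k, hk⟩ := h.exists_out [i, j] (by simp)
  obtain ⟨m, hm⟩ := h.exists_out [i, j, k] (by simp)
  simp only [List.mem_cons, List.not_mem_nil, or_false, not_or] at hk hm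
  obtain ⟨p, hp, p', hp', rfl⟩ := Submodule.mem_sup.1
    (h.mem_sup_of_perp hij fun m h1 h2 => h.od.pr_eq_zero.1 (h3 m h1 h2))
  have e1 : h.od.pr i (p + p') = p := by simp [h.od.pr_of_mem hp, h.od.pr_of_ne hij hp']
  have e2 : h.od.pr j (p + p') = p' := by simp [h.od.pr_of_mem hp', h.od.pr_of_ne hij.symm hp]
  have p0 := hs i hi
  rw [e1] at hi p0
  rw [e2] at hj
  obtain ⟨y, hy, y1, y2, y3⟩ := h.rich i p hp p0
  obtain ⟨σ, hσ⟩ := h.exists_isSwap hI (Ne.symm hk.2)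
  have h4 := (h.pl i).Q_sub_ne hp hy p0 y1 fun e => y2 (by
    rw [e]; exact Submodule.mem_span_singleton_self p)
  have h5 := (D i).sub_mem hp hy
  have h6 := hσ.left p' hp'
  have e3 : (refl Q (p - y) * σ).1 (p + p') = y + σ.1 p' := by
    rw [O_mul_apply, map_add, map_add, h.swap_fix hσ hij.symm hk.1 hp, refl_sub_apply y1 h4,
      refl_apply_of_orth (h.od.polar_eq hk.1 h6 h5)]
  have h7 := h.rc_adjust hN hv ((h.od.pd_refl ⟨i, h5⟩).mul (h.swap_pd hσ)) (m := m)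
    (e3 ▸ h.sup_le_perp hm.1 hm.2.2 (Submodule.add_mem_sup hy h6))
  rw [e3] at h7
  have h8 : (Q (y + σ.1 p'))⁻¹ * polar Q (y + σ.1 p') (p + p') ≠ 0 :=
    mul_ne_zero (inv_ne_zero h7.1) (by
      simpa [h.od.polar_eq hij hy hp', h.od.polar_eq hk.1 h6 hp, h.od.polar_eq hk.2 h6 hp',
        polar_comm Q y p] using y3)
  have h9 := h7.rf hv
  generalize (Q (y + σ.1 p'))⁻¹ * _ = κ at h8 h9
  refine ⟨_, h9, i, j, k, hij, hk.1, hk.2, fun h0 => y2 ?_, ?_, ?_⟩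
  · simp only [map_sub, map_smul, e1, map_add, h.od.pr_of_mem hy, h.od.pr_of_ne (Ne.symm hk.1) h6,
      add_zero, sub_eq_zero] at h0
    rw [← Submodule.smul_mem_iff _ h8, ← h0]
    exact Submodule.mem_span_singleton_self p
  · simpa [e2, h.od.pr_of_ne hij.symm hy, h.od.pr_of_ne (Ne.symm hk.2) h6] using hj
  · simpa [h.od.pr_of_ne hk.1 hy, h.od.pr_of_mem h6, h.od.pr_of_ne hk.1 hp,
      h.od.pr_of_ne hk.2 hp', h8] using hj

theorem exists_double {d : F} (hd : d ≠ 0) (hC : ∀ k, ∀ c ∈ D k, Q c = d → RC N c) {i j k l m : ι}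
    (hij : i ≠ j) (hki : k ≠ i) (hkj : k ≠ j) (hl : l ∉ [i, j, k]) (hm : m ∉ [i, j, k, l]) {v y y' : V}
    (hv : RC N v) (hk : h.od.pr k v ≠ 0) (hy : y ∈ D j) (hy' : y' ∈ D m)
    (i0 : Q (h.od.pr i v) ≠ 0) (l0 : Q (h.od.pr l v) ≠ 0) (e : Q y = Q (h.od.pr i v))
    (e' : Q y' = Q (h.od.pr l v)) (h0 : Q (y - h.od.pr j v) + Q (y' - h.od.pr m v) = 0) :
    ∃ w, RC N w ∧ h.od.pr k w ≠ 0 ∧ ∃ μ : F, μ ≠ 0 ∧ h.od.pr j w = μ • (y - h.od.pr j v) ∧
      h.od.pr m w = μ • (y' - h.od.pr m v) := by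
  simp only [List.mem_cons, List.not_mem_nil, or_false, not_or] at hl hm
  obtain ⟨σ, hσ, s1⟩ := h.exists_isSwap_eq hI hij (h.od.pr_mem i v) hy i0 e
  obtain ⟨σ', hσ', s1'⟩ := h.exists_isSwap_eq hI (Ne.symm hm.2.2.2) (h.od.pr_mem l v) hy' l0 e'
  obtain ⟨τ, hτ⟩ := h.exists_isSwap hI (Ne.symm hl.2.1)
  have h1 := Subgroup.mul_mem _ (h.swap_mul_mem hij (Ne.symm hl.1) (Ne.symm hl.2.1) hσ hτ)
    (h.swap_mul_mem (Ne.symm hl.2.1) (Ne.symm hm.2.1) (Ne.symm hm.2.2.2) hτ hσ')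
  rw [mul_assoc, ← mul_assoc τ, show τ * τ = 1 from O_ext hτ.sq, one_mul] at h1
  have h2 := hv.conj (hN _ h1 ((h.swap_pd hσ).mul (h.swap_pd hσ')))
  obtain ⟨a1, a2, a3⟩ := h.swap_facts hij hσ v
  obtain ⟨b1, b2, b3⟩ := h.swap_facts (Ne.symm hm.2.2.2) hσ' v
  rw [s1] at a2 a3
  rw [s1'] at b2 b3
  have e1 : (σ * σ').1 v - v = (σ.1 v - v) + (σ'.1 v - v) := by
    have := hσ.fix _ (h.sup_le_perp (Ne.symm hl.1) (Ne.symm hm.1) b1)
      (h.sup_le_perp (Ne.symm hl.2.1) (Ne.symm hm.2.1) b1)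
    rw [map_sub] at this
    rw [O_mul_apply]
    linear_combination (norm := module) this
  have b4 := h.od.pr_eq_zero.2 (h.sup_le_perp (Ne.symm hl.2.1) (Ne.symm hm.2.1) b1)
  have a4 := h.od.pr_eq_zero.2 (h.sup_le_perp hm.1 hm.2.1 a1)
  have h3 := hv.ea_sub h2 (O_map _ _) (by
    obtain ⟨b, hb, b', hb', e2⟩ := Submodule.mem_sup.1 a1
    rw [e1, Q_add, a3, b3, ← e2, polar_add_left,
      mem_perp.1 (h.sup_le_perp (Ne.symm hl.1) (Ne.symm hm.1) b1) b hb,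
      mem_perp.1 (h.sup_le_perp (Ne.symm hl.2.1) (Ne.symm hm.2.1) b1) b' hb']
    linear_combination 2 * h0)
  have h4 : (σ * σ').1 v - v ∈ perp Q (D k) := e1 ▸ Submodule.add_mem _
    (h.sup_le_perp hki hkj a1) (h.sup_le_perp (Ne.symm hl.2.2) (Ne.symm hm.2.2.1) b1)
  obtain ⟨c, hc, c1, c2⟩ := h.exists_not_orth hd hk
  obtain ⟨μ, μ0, h5⟩ := h3.rc_of (hC k c hc c1) (pc (h4 c hc)) (by simpa [hv.1] using c2)
  have c0 := ne_zero_of_Q (c1 ▸ hd)
  refine ⟨_, h5, ?_, -Q (μ • c), by simp [Q_smul, μ0, c1, hd], ?_, ?_⟩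
  · rw [map_sub, map_smul, map_smul, h.od.pr_eq_zero.2 h4, h.od.pr_of_mem hc]
    simp [μ0, c0]
  · rw [map_sub, map_smul, map_smul, e1, map_add, a2, b4, h.od.pr_of_ne hkj.symm hc]
    simp
  · rw [map_sub, map_smul, map_smul, e1, map_add, a4, b2, h.od.pr_of_ne hm.2.2.1 hc]
    simp

variable (hR : ∀ i, RIrr Q (D i))
include hR

theorem E_le_swap {i j k : ι} (hij : i ≠ j) (hki : k ≠ i) (hkj : k ≠ j) {v y : V} (hv : RC N v)
    (hk : h.od.pr k v ≠ 0) (hy : y ∈ D j) (i0 : Q (h.od.pr i v) ≠ 0) (e : Q y = Q (h.od.pr i v))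
    (hne : y ≠ h.od.pr j v) (h0 : 2 * Q (y - h.od.pr j v) = 0)
    (hrc : ∀ σ : O Q, IsSwap D i j σ → RC N (σ.1 v)) : E Q ≤ N := by
  obtain ⟨σ, hσ, s1⟩ := h.exists_isSwap_eq hI hij (h.od.pr_mem i v) hy i0 e
  obtain ⟨a1, a2, a3⟩ := h.swap_facts hij hσ v
  rw [s1] at a2 a3
  exact h.E_le_of_pair hN hI hR hij hki hkj hv (hrc σ hσ) a1
    (fun e => hne (sub_eq_zero.1 (by rw [← a2, e, map_zero]))) (a3.trans h0) hk

theorem E_le_neg (h2 : (2 : F) ≠ 0) {i j k : ι} (hij : i ≠ j) (hki : k ≠ i) (hkj : k ≠ j) {v : V}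
    (hv : RC N v) (hk : h.od.pr k v ≠ 0) (i0 : h.od.pr i v ≠ 0)
    (h0 : Q (h.od.pr i v) + Q (h.od.pr j v) = 0) : E Q ≤ N := by
  have := h.finite
  obtain ⟨n, n1, n2⟩ := h.exists_neg h2 i
  obtain ⟨τ, hτ⟩ := h.exists_isSwap hI hij
  have n3 : PD D n := fun l => ⟨l, h.od.mem_of_fix n2 l⟩
  have h1 := Subgroup.commutator_mem_commutator (Subgroup.mem_top n) (Subgroup.mem_top τ)
  have h3 : n⁻¹ = n := inv_eq_of_mul_eq_one_right (h.ext fun l v hv => by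
    by_cases e : i = l
    · subst e; rw [O_mul_apply, n1 v hv, map_neg, n1 v hv, neg_neg, O_one_apply]
    · rw [O_mul_apply, n2 v (h.od.orth i l e hv), n2 v (h.od.orth i l e hv), O_one_apply])
  rw [commutatorElement_def, h3, hτ.inv] at h1
  have hp := h.od.pr_mem i v
  have hp' := h.od.pr_mem j v
  have e : (n * τ * n * τ).1 v - v = (-2 : F) • (h.od.pr i v + h.od.pr j v) := by
    have c1 := Submodule.sub_mem _ (h.od.sub_pr i v) (h.od.orth i j hij hp')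
    have c2 := Submodule.sub_mem _ (h.od.sub_pr j v) (h.od.orth j i hij.symm hp)
    rw [sub_right_comm] at c2
    have e1 : v = h.od.pr i v + h.od.pr j v + (v - h.od.pr i v - h.od.pr j v) := by abel
    generalize v - h.od.pr i v - h.od.pr j v = c at c1 c2 e1
    conv_lhs => rw [e1]
    simp only [O_mul_apply, map_add, map_neg, hτ.fix c c1 c2, n2 c c1, hτ.sq, n1 _ hp,
      n1 _ (hτ.right _ hp'), n2 _ (h.od.orth i j hij hp'), n2 _ (h.od.orth i j hij (hτ.left _ hp))]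
    module
  refine h.E_le_of_pair hN hI hR hij hki hkj hv (hv.conj (hN _ h1
    (((n3.mul (h.swap_pd hτ)).mul n3).mul (h.swap_pd hτ)))) ?_ ?_ ?_ hk <;> rw [e]
  · exact Submodule.smul_mem _ _ (Submodule.add_mem_sup hp hp')
  · refine smul_ne_zero (neg_ne_zero.2 h2) fun e1 => i0 ?_
    simpa [h.od.pr_of_mem hp, h.od.pr_of_ne hij hp'] using congrArg (h.od.pr i) e1
  · rw [Q_smul, Q_add, h0, h.od.polar_eq hij hp hp']; simp

variable {d : F} (hd : d ≠ 0) (hC : ∀ k, ∀ c ∈ D k, Q c = d → RC N c)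
include hd hC

theorem E_le_two (h2 : (2 : F) = 0) {i j k : ι} (hij : i ≠ j) (hki : k ≠ i) (hkj : k ≠ j) {v : V}
    (hv : RC N v) (hk : h.od.pr k v ≠ 0) (i0 : Q (h.od.pr i v) ≠ 0) : E Q ≤ N := by
  obtain ⟨p, hp, y, hy, p1, y1, h1, -⟩ := h.exists_two j i0
  obtain ⟨c, hc, c1⟩ := quad_exists_eq (h.od.nd i) (h.two i).ge d
  have key := fun y hy e hne => h.E_le_swap hN hI hR hij hki hkj hv hk (y := y) hy i0 e hne
    (by simp [h2]) fun σ hσ => hv.conj (h.mem_of_two hN h2 ⟨i, hc⟩ (hC i c hc c1) (h.swap_pd hσ))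
  by_cases e : p = h.od.pr j v
  · exact key y hy y1 fun e' => h1 (by rw [e', e]; exact Submodule.mem_span_singleton_self _)
  · exact key p hp p1 e

theorem E_le_aniso (h2 : (2 : F) ≠ 0) (hA : ∀ i, Aniso Q (D i)) {i j k : ι} (hij : i ≠ j)
    (hki : k ≠ i) (hkj : k ≠ j) {v : V} (hv : RC N v) (hi : h.od.pr i v ≠ 0) (hj : h.od.pr j v ≠ 0)
    (hk : h.od.pr k v ≠ 0) : E Q ≤ N := by
  have hs : ∀ {l}, h.od.pr l v ≠ 0 → Q (h.od.pr l v) ≠ 0 := fun h0 h1 =>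
    h0 (hA _ _ (h.od.pr_mem _ v) h1)
  have hq : ∀ {l y}, y ∈ D l → y ≠ h.od.pr l v → Q (h.od.pr l v - y) ≠ 0 := fun hy h0 h1 =>
    h0 (sub_eq_zero.1 (hA _ _ (Submodule.sub_mem _ (h.od.pr_mem _ v) hy) h1)).symm
  by_cases hz : ∃ m, h.od.pr m v = 0
  · obtain ⟨m, hm⟩ := hz
    obtain ⟨y, hy, y', hy', e, e', n1, n2, h0⟩ := (h.pl i).exists_pair (hA i) (h.pl j) (hA j)
      (h.od.pr_mem i v) hi (h.od.pr_mem j v) hj (hs hi) (hs hj)
    have e1 := h.refl_two_facts hij hy hy' e e' (hq hy n1) (hq hy' n2)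
    have h1 := (D i).sub_mem hy (h.od.pr_mem i v)
    have h3 := (D j).sub_mem hy' (h.od.pr_mem j v)
    have e2 := sub_eq_of_eq_add' (e1.trans (add_assoc _ _ _))
    refine h.E_le_of_pair hN hI hR hij hki hkj hv (h.rc_adjust hN hv
      ((h.od.pd_refl ⟨i, (D i).sub_mem (h.od.pr_mem i v) hy⟩).mul
        (h.od.pd_refl ⟨j, (D j).sub_mem (h.od.pr_mem j v) hy'⟩)) (m := m) ?_) ?_ ?_ ?_ hk
    · rw [e1, add_assoc]
      exact Submodule.add_mem _ (h.od.pr_eq_zero.1 hm) (h.sup_le_perp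
        (show m ≠ i from fun e => hi (e ▸ hm)) (show m ≠ j from fun e => hj (e ▸ hm)) (Submodule.add_mem_sup h1 h3))
    · exact e2 ▸ Submodule.add_mem_sup h1 h3
    · rw [e2]
      exact fun e3 => n1 (sub_eq_zero.1 (by
        simpa [-map_sub, h.od.pr_of_mem h1, h.od.pr_of_ne hij h3] using congrArg (h.od.pr i) e3))
    · rw [e2, Q_add, h.od.polar_eq hij h1 h3, ← Q_neg, neg_sub, ← Q_neg Q (y' - _), neg_sub, h0,
        add_zero]
  push Not at hz
  obtain ⟨l, hl⟩ := h.exists_out [i, j, k] (by simp)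
  obtain ⟨m, hm⟩ := h.exists_out [i, j, k, l] (by simp)
  obtain ⟨y, hy, y', hy', e, e', n1, n2, h0⟩ := (h.pl j).exists_pair (hA j) (h.pl m) (hA m)
    (h.od.pr_mem j v) hj (h.od.pr_mem m v) (hz m) (hs hi) (hs (hz l))
  rw [← Q_neg, neg_sub, ← Q_neg Q (_ - y'), neg_sub] at h0
  obtain ⟨w, w1, w2, μ, μ0, w3, w4⟩ := h.exists_double hN hI hd hC hij hki hkj hl hm hv hk hy hy'
    (hs hi) (hs (hz l)) e e' h0
  simp only [List.mem_cons, List.not_mem_nil, or_false, not_or] at hm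
  exact h.E_le_neg hN hI hR h2 (Ne.symm hm.2.1) hkj (Ne.symm hm.2.2.1) w1 w2
    (w3 ▸ smul_ne_zero μ0 (sub_ne_zero.2 n1)) (by
      rw [w3, w4, Q_smul, Q_smul, ← mul_add, h0, mul_zero])

theorem E_le_ne (hB : BigS F) (hA : ∀ i, ¬ Aniso Q (D i)) {i j k : ι} (hij : i ≠ j)
    (hki : k ≠ i) (hkj : k ≠ j) {v : V} (hv : RC N v) (hi : h.od.pr i v ≠ 0) (hj : h.od.pr j v ≠ 0)
    (hk : h.od.pr k v ≠ 0) (hne : Q (h.od.pr i v) ≠ Q (h.od.pr j v)) : E Q ≤ N := by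
  by_cases hs : ∃ l, h.od.pr l v ≠ 0 ∧ Q (h.od.pr l v) = 0
  · obtain ⟨l, h1, h2⟩ := hs
    exact h.E_le_of_sing hN hI hR hB hv (fun hh => h.od.not_inD hij hi hj ⟨l, hh⟩) h1 h2
  push Not at hs
  have key : ∀ l, h.od.pr l v ≠ 0 → ∀ a, ∃ y ∈ D l, Q y = a ∧ Q (y - h.od.pr l v) = 0 := by
    intro l hl a
    have := hA l
    simp only [Aniso, not_forall] at this
    obtain ⟨x, hx, hxs, hx0⟩ := this
    have h1 := (h.pl l).polar_ne hx hx0 hxs (h.od.pr_mem l v) (hs l hl)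
    refine ⟨_, (D l).add_mem (h.od.pr_mem l v) ((D l).smul_mem
      ((a - Q (h.od.pr l v)) / polar Q x (h.od.pr l v)) hx), ?_, by simp [Q_smul, hxs]⟩
    rw [Q_add, Q_smul, hxs, polar_smul_right, polar_comm Q _ x]
    simp [h1]
  obtain ⟨y, hy, y1, y2⟩ := key j hj (Q (h.od.pr i v))
  have y3 : y ≠ h.od.pr j v := fun e => hne (by rw [← y1, e])
  by_cases hz : ∃ m, h.od.pr m v = 0
  · obtain ⟨m, hm⟩ := hz
    refine h.E_le_swap hN hI hR hij hki hkj hv hk hy (hs i hi) y1 y3 (by simp [y2]) fun σ hσ =>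
      h.rc_adjust hN hv (h.swap_pd hσ) (m := m) ?_
    simpa using Submodule.add_mem _ (h.od.pr_eq_zero.1 hm) (h.sup_le_perp
      (show m ≠ i from fun e => hi (e ▸ hm)) (show m ≠ j from fun e => hj (e ▸ hm)) (h.swap_facts hij hσ v).1)
  push Not at hz
  obtain ⟨l, hl⟩ := h.exists_out [i, j, k] (by simp)
  obtain ⟨m, hm⟩ := h.exists_out [i, j, k, l] (by simp)
  obtain ⟨y', hy', y1', y2'⟩ := key m (hz m) (Q (h.od.pr l v))
  obtain ⟨w, w1, w2, μ, μ0, w3, -⟩ := h.exists_double hN hI hd hC hij hki hkj hl hm hv hk hy hy'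
    (hs i hi) (hs l (hz l)) y1 y1' (by simp [y2, y2'])
  exact h.E_le_of_sing hN hI hR hB w1 (fun hh => w2 (h.od.pr_of_ne hkj hh))
    (w3 ▸ smul_ne_zero μ0 (sub_ne_zero.2 y3)) (by rw [w3, Q_smul, y2, mul_zero])

theorem E_le_hyp (h2 : (2 : F) ≠ 0) (h7 : 7 ≤ Nat.card F) (hA : ∀ i, ¬ Aniso Q (D i)) {i j k : ι}
    (hij : i ≠ j) (hki : k ≠ i) (hkj : k ≠ j) {v : V} (hv : RC N v) (hi : h.od.pr i v ≠ 0)
    (hj : h.od.pr j v ≠ 0) (hk : h.od.pr k v ≠ 0) (i0 : Q (h.od.pr i v) ≠ 0) : E Q ≤ N := by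
  have hB : BigS F := big_of_card (by omega)
  by_cases e1 : Q (h.od.pr i v) = Q (h.od.pr j v)
  swap
  · exact h.E_le_ne hN hI hR hd hC hB hA hij hki hkj hv hi hj hk e1
  by_cases e2 : Q (h.od.pr i v) = Q (h.od.pr k v)
  swap
  · exact h.E_le_ne hN hI hR hd hC hB hA hki.symm hij.symm hkj.symm hv hi hk hj e2
  obtain ⟨l, l0, l1, l2, l3, l4⟩ := exists_good_torus h2 h7 (m := Q v / Q (h.od.pr i v))
  have s0 : 2 - (l + l⁻¹) ≠ 0 := fun h0 => l1 (by
    field_simp at h0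
    exact sub_eq_zero.1 (pow_eq_zero_iff two_ne_zero |>.1 (by linear_combination -h0)))
  have key : ∀ m, Q (h.od.pr m v) = Q (h.od.pr i v) → ∃ y ∈ D m, Q y = Q (h.od.pr m v) ∧
      polar Q (h.od.pr m v) y = Q (h.od.pr i v) * (l + l⁻¹) ∧
      ∀ κ : F, κ ≠ 0 → h.od.pr m v - κ • y ≠ 0 := by
    intro m hm
    obtain ⟨e, he, f, hf, e1, f1, ef, e2⟩ := (h.pl m).exists_split (hA m) (h.od.pr_mem m v) (hm ▸ i0)
    rw [hm] at ef
    refine ⟨l • e + l⁻¹ • f, (D m).add_mem ((D m).smul_mem _ he) ((D m).smul_mem _ hf),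
      by simp [Q_add, Q_smul, e1, f1, ef, l0, hm],
      by rw [e2]; simp [e1, f1, ef, polar_comm Q f e]; ring, fun κ κ0 h0 => ?_⟩
    have a1 := congrArg (polar Q e) h0
    have a2 := congrArg (polar Q f) h0
    rw [e2] at a1 a2
    simp only [polar_sub_right, polar_add_right, polar_smul_right, pself e1, pself f1, ef,
      polar_comm Q f e, smul_eq_mul, polar_zero_right] at a1 a2
    have a3 : κ * l⁻¹ = 1 := mul_right_cancel₀ i0 (by linear_combination -a1)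
    have a4 : κ * l = 1 := mul_right_cancel₀ i0 (by linear_combination -a2)
    have a5 : l * l = 1 := by
      field_simp at a3
      rwa [a3] at a4
    exact (mul_self_eq_one_iff.1 a5).elim l1 l2
  obtain ⟨y, hy, y1, y2, y3⟩ := key i rfl
  obtain ⟨y', hy', y1', y2', y3'⟩ := key j e1.symm
  have q1 : Q (h.od.pr i v - y) = Q (h.od.pr i v) * (2 - (l + l⁻¹)) := by rw [Q_sub, y1, y2]; ring
  have q2 : Q (h.od.pr j v - y') = Q (h.od.pr i v) * (2 - (l + l⁻¹)) := by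
    rw [Q_sub, y1', y2', ← e1]; ring
  have q0 := mul_ne_zero i0 s0
  have hp := h.od.pr_mem i v
  have hp' := h.od.pr_mem j v
  have h1 := hv.conj (h.refl_two_mem hN ⟨i, (D i).sub_mem hp hy⟩ ⟨j, (D j).sub_mem hp' hy'⟩
    (q1 ▸ q0) (q2.trans q1.symm))
  have h3 := O_map (refl Q (h.od.pr i v - y) * refl Q (h.od.pr j v - y')) v
  rw [h.refl_two_facts hij hy hy' y1 y1' (q1 ▸ q0) (q2 ▸ q0)] at h1 h3
  have h4 := h1.rf hv
  have h5 : (Q (v + (y - h.od.pr i v) + (y' - h.od.pr j v)))⁻¹ *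
      polar Q (v + (y - h.od.pr i v) + (y' - h.od.pr j v)) v =
        2 - 2 * (2 - (l + l⁻¹)) * Q (h.od.pr i v) / Q v := by
    rw [h3]
    simp only [polar_add_left, polar_sub_left, ← h.od.polar_pr hy v, ← h.od.polar_pr hy' v,
      ← h.od.polar_pr hp v, ← h.od.polar_pr hp' v, polar_self', polar_comm Q y, polar_comm Q y',
      y2, y2', ← e1]
    field_simp [hv.1]
    ring
  rw [h5] at h4
  have κ0 : 2 - 2 * (2 - (l + l⁻¹)) * Q (h.od.pr i v) / Q v ≠ 0 := fun h0 => l3 (by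
    have := hv.1
    generalize 2 - (l + l⁻¹) = s at h0
    field_simp at h0 ⊢
    exact mul_left_cancel₀ h2 (by linear_combination -h0))
  have κ1 : 1 - (2 - 2 * (2 - (l + l⁻¹)) * Q (h.od.pr i v) / Q v) ≠ 0 := fun h0 => l4 (by
    have := hv.1
    generalize 2 - (l + l⁻¹) = s at h0
    field_simp at h0 ⊢
    linear_combination h0)
  generalize 2 - 2 * (2 - (l + l⁻¹)) * Q (h.od.pr i v) / Q v = κ at h4 κ0 κ1
  have p1 : h.od.pr i (v - κ • (v + (y - h.od.pr i v) + (y' - h.od.pr j v))) =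
      h.od.pr i v - κ • y := by
    simp [h.od.pr_of_mem hy, h.od.pr_of_mem hp, h.od.pr_of_ne hij hy', h.od.pr_of_ne hij hp',
      smul_sub]
  have p2 : h.od.pr j (v - κ • (v + (y - h.od.pr i v) + (y' - h.od.pr j v))) =
      h.od.pr j v - κ • y' := by
    simp [h.od.pr_of_mem hy', h.od.pr_of_mem hp', h.od.pr_of_ne hij.symm hy,
      h.od.pr_of_ne hij.symm hp, smul_sub]
  have p3 : h.od.pr k (v - κ • (v + (y - h.od.pr i v) + (y' - h.od.pr j v))) =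
      (1 - κ) • h.od.pr k v := by
    simp [h.od.pr_of_ne hki hy, h.od.pr_of_ne hki hp, h.od.pr_of_ne hkj hy', h.od.pr_of_ne hkj hp',
      sub_smul]
  refine h.E_le_ne hN hI hR hd hC hB hA hki.symm hij.symm hkj.symm h4 (p1 ▸ y3 κ κ0)
    (p3 ▸ smul_ne_zero κ1 hk) (p2 ▸ y3' κ κ0) fun e => mul_ne_zero κ0 q0 ?_
  rw [p1, p3, Q_sub, Q_smul, Q_smul, polar_smul_right, y1, y2, ← e2, smul_eq_mul] at e
  linear_combination e

theorem E_le_root (hc : (∀ i, Aniso Q (D i)) ∨ ((∀ i, ¬ Aniso Q (D i)) ∧ 7 ≤ Nat.card F)) {v : V}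
    (hv : RC N v) (hn : ¬ InD D v) : E Q ≤ N := by
  have sing : ∀ {w}, RC N w → ¬ InD D w → E Q ≤ N ∨ ∀ l, h.od.pr l w ≠ 0 → Q (h.od.pr l w) ≠ 0 := by
    intro w hw hn
    refine or_iff_not_imp_right.2 fun hs => ?_
    push Not at hs
    obtain ⟨l, h1, h2⟩ := hs
    rcases hc with hc | hc
    · exact absurd (hc l _ (h.od.pr_mem l w) h2) h1
    · exact h.E_le_of_sing hN hI hR (big_of_card (by omega)) hw (fun hh => hn ⟨l, hh⟩) h1 h2
  refine (sing hv hn).elim id fun hs => ?_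
  obtain ⟨w, hw, i, j, k, hij, hki, hkj, hi, hj, hk⟩ := h.exists_three hN hI hv hn hs
  refine (sing hw (h.od.not_inD hij hi hj)).elim id fun hs => ?_
  by_cases h2 : (2 : F) = 0
  · exact h.E_le_two hN hI hR hd hC h2 hij hki hkj hw hk (hs i hi)
  rcases hc with hc | hc
  · exact h.E_le_aniso hN hI hR hd hC h2 hc hij hki hkj hw hi hj hk
  · exact h.E_le_hyp hN hI hR hd hC h2 hc.2 hc.1 hij hki hkj hw hi hj hk (hs i hi)

end PlD

open Cfsg.Geo in
/-- Stabilisers of orthogonal decompositions into at least five isometric planes. -/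
theorem omega_dec_two [Finite F] {ι : Type} [Fintype ι] [DecidableEq ι]
    (Q : QuadraticForm F (ι → F)) (hQ : Nondeg Q) (hn : 9 ≤ Fintype.card ι) {t : ℕ}
    {D : Fin t → Submodule F (ι → F)} (hD : IsOrthogonalMDecomposition (⇑Q) 2 D)
    (h3 : Nat.card F ≠ 3) (h7 : (∀ i, IsPlusTypeOn (⇑Q) (D i)) → 7 ≤ Nat.card F) :
    IsMaximalIn (omegaGL (⇑Q)) (decompositionStabilizer D ⊓ omegaGL (⇑Q)) := by
  have h := od_of hQ hD.decomp
  have hd := hD.decomp.decomp.finrank_eq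
  have hp : ∀ i, Pl Q (D i) := fun i => ⟨h.nd i, hd i⟩
  have hc : (∀ i, Aniso Q (D i)) ∨ ((∀ i, ¬ Aniso Q (D i)) ∧ 7 ≤ Nat.card F) := by
    refine or_iff_not_imp_left.2 fun hA => ?_
    simp only [Aniso, not_forall] at hA
    obtain ⟨i, x, hx, hxs, hx0⟩ := hA
    have key : ∀ j, ∃ y ∈ D j, Q y = 0 ∧ y ≠ 0 := fun j => by
      obtain ⟨e, he⟩ := hD.isometric i j
      exact ⟨_, (e ⟨x, hx⟩).2, (he _).trans hxs, fun h0 => hx0 (by simpa using h0)⟩
    refine ⟨fun j hA => ?_, h7 fun j => ?_⟩ <;> obtain ⟨y, hy, y1, y2⟩ := key j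
    · exact y2 (hA y hy y1)
    · refine ⟨_, (Submodule.span_singleton_le_iff_mem _ _).2 hy, fun w hw => ?_, by
        rw [finrank_span_singleton y2, hd]⟩
      obtain ⟨c, rfl⟩ := Submodule.mem_span_singleton.1 hw
      simp [Q_smul, y1]
  have hP : PlD Q D := ⟨h, hd, fun i => (hp i).rich (hc.elim (fun hc => Or.inr ⟨hc i, h3⟩)
    fun hc => Or.inl hc.2), by
      have := Asch.card_eq_of_decomp hD.decomp.decomp
      rw [Nat.card_fin]; omega⟩
  have hR : ∀ i, RIrr Q (D i) := fun i => hc.elim (fun hc => (hp i).rirr_aniso (hc i) (hP.rich i))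
    fun hc => (hp i).rirr_hyp (hc.1 i) (by omega)
  refine isMaximalIn_omega_dec (by omega) h ?_ fun X hX hH g hg hn' => ?_
  · obtain ⟨i, -⟩ := hP.exists_out [] (by simp)
    obtain ⟨j, hj⟩ := hP.exists_out [i] (by simp)
    obtain ⟨k, hk⟩ := hP.exists_out [i, j] (by simp)
    simp only [List.mem_cons, List.not_mem_nil, or_false, not_or] at hj hk
    obtain ⟨x, hx, hx0, hxs⟩ := quad_exists_sing Q (Z := D i ⊔ D j) (by
      rw [hP.finrank_sup (Ne.symm hj)]; omega)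
    obtain ⟨a, ha, a0⟩ := (D k).ne_bot_iff.1 (h.ne k)
    obtain ⟨c, hc, c1⟩ := exists_polar_eq (h.nd k) ha a0 1
    have h1 := hP.sup_le_perp hk.1 hk.2 hx
    refine ⟨x, a, hxs, pc (h1 a ha), fun hh => ?_⟩
    have h2 := hh.inD ⟨k, hc⟩
    rw [eich_ap hxs (pc (h1 a ha)), c1, pc (h1 c hc)] at h2
    obtain ⟨l, hl, l0⟩ := h.exists_pr_ne fun hh => hx0 (Submodule.disjoint_def.1 (h.nd k) x hh h1)
    refine h.not_inD hl ?_ ?_ h2
    · simpa [h.pr_of_ne hl hc] using l0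
    · simpa [h.pr_of_mem hc, h.pr_eq_zero.2 h1] using (show c ≠ 0 by rintro rfl; simp at c1)
  by_contra hE
  refine hn' (hP.rigid hH (fun u v hu hu0 hv huv => ?_) hg)
  by_contra hv'
  exact hE (h.E_le_of_rigid hP.five_le hX hH hu hu0 hv huv fun N hN h0 h1 =>
    hP.E_le_root hN hD.isometric hR hu0
      (fun k c hc e => h0.of_mul (e ▸ hu0) (hP.refl_two_mem hN hu ⟨k, hc⟩ hu0 e)) hc h1 hv')

end CfsgLib.OMax
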