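import Mathlib
import Cfsg.Agent.Lib.OMax.Basic

/-!
Subfield subgroups of prime index are maximal in `Ω_n(F)` for `n ≥ 7`.
-/

set_option autoImplicit false

namespace CfsgLib.OMax

open CfsgLib.Forms CfsgLib.ClMax CfsgLib.RootMax CfsgLib.OrthE Module QuadraticMap

variable {F V : Type*} [Field F] [AddCommGroup V] [Module F V] {Q : QuadraticForm F V}
  {K V₀ : Type*} [Field K] [Algebra K F] [AddCommGroup V₀] [Module K V₀] {Q₀ : QuadraticForm K V₀}

/-- A `K`-rational structure on the quadratic space `V`. -/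
structure ORat (Q : QuadraticForm F V) (Q₀ : QuadraticForm K V₀)
    (j : V₀ →ₛₗ[algebraMap K F] V) : Prop where
  hQ : Nondeg Q
  hj : ∀ v, Q (j v) = algebraMap K F (Q₀ v)
  span : Submodule.span F (Set.range j) = ⊤
  inj : Function.Injective j

namespace ORat

variable {j : V₀ →ₛₗ[algebraMap K F] V} (h : ORat Q Q₀ j) {X : Subgroup (O Q)}
include h

theorem pol (u v : V₀) : polar Q (j u) (j v) = algebraMap K F (polar Q₀ u v) := by
  simp only [polar, ← map_add, h.hj, map_sub]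

theorem orth {u v : V₀} (huv : polar Q₀ u v = 0) : polar Q (j u) (j v) = 0 := by
  rw [h.pol, huv, map_zero]

theorem sing {u : V₀} (hu : Q₀ u = 0) : Q (j u) = 0 := by rw [h.hj, hu, map_zero]

theorem induct {p : V → Prop} (h1 : ∀ v, p (j v)) (h2 : ∀ a b, p a → p b → p (a + b))
    (h3 : ∀ (c : F) a, p a → p (c • a)) (v : V) : p v := by
  have hv : v ∈ Submodule.span F (Set.range j) := h.span ▸ Submodule.mem_top
  induction hv using Submodule.span_induction with
  | mem _ hu => obtain ⟨e, rfl⟩ := hu; exact h1 e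
  | zero => simpa using h1 0
  | add a b _ _ ha hb => exact h2 a b ha hb
  | smul c a _ ha => exact h3 c a ha

theorem eq_zero {w : V} (hw : ∀ v, polar Q (j v) w = 0) : w = 0 :=
  h.hQ w fun v => pc (h.induct (p := fun v => polar Q v w = 0) hw
    (fun a b ha hb => by simp [ha, hb]) (fun c a ha => by simp [ha]) v)

theorem hQ₀ : Nondeg Q₀ := fun x hx => h.inj (by
  rw [map_zero]; exact h.eq_zero fun v => h.orth (pc (hx v)))

theorem ne_zero {x : V₀} (hx : x ≠ 0) : j x ≠ 0 := fun h0 => hx (h.inj (by rwa [map_zero]))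

variable [FiniteDimensional K V₀]

/-- A vector orthogonal to the rational perp of `x` is a multiple of `x`. -/
theorem mem_span {x : V₀} (hx0 : x ≠ 0) {w : V}
    (hw : ∀ a, polar Q₀ x a = 0 → polar Q (j a) w = 0) : ∃ c : F, w = c • j x := by
  obtain ⟨y, hy⟩ := h.hQ₀.exists_eq hx0 1
  refine ⟨polar Q (j y) w, sub_eq_zero.1 (h.eq_zero fun v => ?_)⟩
  have := hw (v - polar Q₀ x v • y) (by simp [polar_comm Q₀ x y, hy])
  rw [map_sub, map_smulₛₗ, polar_sub_left, polar_smul_left] at this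
  rw [polar_sub_right, polar_smul_right, h.pol, polar_comm Q₀ v x]
  simpa [mul_comm] using this

variable [Finite K] (h7 : 7 ≤ finrank K V₀)
  (hR : ∀ x a, Q₀ x = 0 → polar Q₀ x a = 0 → EA X (j x) (j a))
include h7 hR

theorem all_of_one {β : F} {x b : V₀} (hx : Q₀ x = 0) (hx0 : x ≠ 0) (hxb : polar Q₀ x b = 0)
    (hb : b ∉ Submodule.span K {x}) (h1 : EA X (j x) (β • j b)) (a : V₀) (ha : polar Q₀ x a = 0) :
    EA X (j x) (β • j a) := by
  obtain ⟨y, -, hy, hxy⟩ := exists_partner (nd_top h.hQ₀) trivial hx0 hx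
  have h2 := finrank_perp_pair h.hQ₀ x y
  have h3 := irr_of_roots h.hQ₀ (nd_perp h.hQ₀ (nd_pair hx hy hxy)) (by omega)
    (p := fun a => EA X (j x) (β • j a)) (fun u v hu hv => by
      rw [map_sub, smul_sub]; exact hu.sub hv)
    (fun z hz hzs c hc hzc w hw => (hw.move (hR z c hzs hzc)
      (h.orth (pc (mem_perp_pair.1 hz).1)) (h.orth (pc (mem_perp_pair.1 hc).1))).congr (by
        simp only [polar_smul_right, h.pol, h.hj, map_sub, map_smulₛₗ, map_mul, smul_eq_mul]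
        module)) h1
    (fun hb' => hb (by
      rw [perp_perp h.hQ₀] at hb'
      obtain ⟨s, t, rfl⟩ := Submodule.mem_span_pair.1 hb'
      have : t = 0 := by simpa [pself hx, hxy] using hxb
      simpa [this] using Submodule.smul_mem _ s (Submodule.mem_span_singleton_self x)))
    (a - polar Q₀ y a • x) (mem_perp_pair.2 ⟨by simp [ha, pself hx], by
      simp [polar_comm Q₀ y x, hxy]⟩)
  exact (h3.add_self (β * algebraMap K F (polar Q₀ y a))).congr (by
    rw [map_sub, map_smulₛₗ]; module)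

/-- The scalars `β` with `β a ∈ A(x)` for all rational data. -/
def dirs : Subalgebra K F where
  carrier := {β | ∀ x a, Q₀ x = 0 → polar Q₀ x a = 0 → EA X (j x) (β • j a)}
  add_mem' := fun hα hβ x a hx ha => by rw [add_smul]; exact (hα x a hx ha).add (hβ x a hx ha)
  algebraMap_mem' := fun k x a hx ha => by
    rw [← map_smulₛₗ]; exact hR x _ hx (by simp [ha])
  mul_mem' := fun {α β} hα hβ x a hx ha => by
    by_cases hx0 : x = 0
    · subst hx0
      rw [map_zero]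
      exact ⟨by simp, by simp, by rw [eich_zero_left]; exact X.one_mem⟩
    obtain ⟨c, hc, h1, -, h2⟩ := exists_sing_out_pair h.hQ₀ h7 x x
    obtain ⟨z, hz, h3, h4, h5⟩ := exists_sing_out_pair h.hQ₀ h7 x c
    obtain ⟨b, h6, h8, h9⟩ := exists_dual_pair h.hQ₀ h5
    refine h.all_of_one h7 hR hx hx0 h1 (not_mem_left h2) (EA.of_neg ?_) a ha
    refine ((hα x b hx h8).move (hβ z c hz (pc h4)) (h.orth (pc h3))
      (by simp [h.orth (pc h1)])).congr ?_
    simp only [polar_smul_right, polar_smul_left, h.pol, h6, h9, Q_smul, h.sing hc, map_one,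
      map_zero, smul_eq_mul]
    module

theorem mem_dirs {β : F} {x b : V₀} (hx : Q₀ x = 0) (hx0 : x ≠ 0) (hxb : polar Q₀ x b = 0)
    (hb : b ∉ Submodule.span K {x}) (h1 : EA X (j x) (β • j b)) : β ∈ h.dirs h7 hR := by
  have key : ∀ x z, Q₀ x = 0 → x ≠ 0 → (∀ a, polar Q₀ x a = 0 → EA X (j x) (β • j a)) →
      Q₀ z = 0 → z ≠ 0 → polar Q₀ x z = 0 → x ∉ Submodule.span K {z} →
      ∀ a, polar Q₀ z a = 0 → EA X (j z) (β • j a) := fun x z hx hx0 h2 hz hz0 hxz h3 =>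
    h.all_of_one h7 hR hz hz0 (pc hxz) h3 ((h2 z hxz).swap_smul (h.sing hz) (h.orth hxz))
  intro y a hy ha
  by_cases hy0 : y = 0
  · subst hy0
    rw [map_zero]
    exact ⟨by simp, by simp, by rw [eich_zero_left]; exact X.one_mem⟩
  obtain ⟨z, hz, h2, h3, h4⟩ := exists_sing_out_pair h.hQ₀ h7 x y
  have hz0 : z ≠ 0 := fun h0 => h4 (h0 ▸ Submodule.zero_mem _)
  exact key z y hz hz0 (key x z hx hx0 (h.all_of_one h7 hR hx hx0 hxb hb h1) hz hz0 h2
    (not_mem_span_symm hx0 (not_mem_left h4))) hy hy0 (pc h3) (not_mem_right h4) a ha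

theorem E_le_of_dirs [FiniteDimensional F V] (h3 : 3 ≤ finrank F V) (hS : h.dirs h7 hR = ⊤) :
    E Q ≤ X := by
  have key : ∀ x y, Q₀ x = 0 → polar Q₀ x y = 1 → EFull X (j x) := by
    intro x y hx hxy a ha
    have := h.induct (p := fun a => ∀ t : F, EA X (j x) (t • (a - polar Q (j x) a • j y)))
      (fun v t => by
        rw [h.pol, ← map_smulₛₗ, ← map_sub]
        exact (hS ▸ Algebra.mem_top : t ∈ h.dirs h7 hR) x _ hx (by simp [hxy]))
      (fun a b ha hb t => ((ha t).add (hb t)).congr (by rw [polar_add_right]; module))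
      (fun c a ha t => (ha (t * c)).congr (by rw [polar_smul_right, smul_eq_mul]; module)) a 1
    simpa [ha] using this
  obtain ⟨x, -, hx0, hx⟩ := quad_exists_sing Q₀ (Z := ⊤) (by rw [finrank_top]; omega)
  obtain ⟨y, -, hy, hxy⟩ := exists_partner (nd_top h.hQ₀) trivial hx0 hx
  exact E_le_of_two h.hQ h3 (h.sing hx) (h.sing hy) (key x y hx hxy)
    (key y x hy (by rwa [polar_comm])) (by simp [h.pol, hxy])

variable (hS : h.dirs h7 hR = ⊥)
include hS

/-- Without irrational scalars every direction at a rational point is rational. -/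
theorem rat_dir {x : V₀} (hx : Q₀ x = 0) (hx0 : x ≠ 0) {w : V} (hw : EA X (j x) w) :
    ∃ u, ∃ c : F, w = j u + c • j x := by
  have h1 : ∀ y, Q₀ y = 0 → polar Q₀ x y = 0 → ∃ k, algebraMap K F k = polar Q (j y) w := by
    intro y hy hxy
    by_cases hyx : y ∈ Submodule.span K {x}
    · obtain ⟨c, rfl⟩ := Submodule.mem_span_singleton.1 hyx
      exact ⟨0, by simp [map_smulₛₗ, hw.orth]⟩
    obtain ⟨b, -, h2, h3, h4⟩ := exists_sing_out_pair h.hQ₀ h7 x y
    obtain ⟨b', h5, h6, h8⟩ := exists_dual_pair h.hQ₀ h4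
    have f : ∀ b, polar Q₀ x b = 0 → polar Q₀ y b = 0 → _ := fun b h1 h2 =>
      hw.move (hR y b hy h2) (h.orth (pc hxy)) (h.orth (pc h1))
    have := h.mem_dirs h7 hR (β := polar Q (j y) w) hx hx0 hxy hyx
      ((((f b h2 h3).add (f b' h6 h8)).sub (f (b + b') (by simp [h2, h6])
        (by simp [h3, h8]))).congr (by
          rw [map_add, Q_add, polar_add_left, h.pol b b', h5, map_one]; module))
    rw [hS, Algebra.mem_bot] at this
    exact this
  have h2 : ∀ a, polar Q₀ x a = 0 → ∃ k, algebraMap K F k = polar Q (j a) w := by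
    intro a ha
    obtain ⟨u, v, hu, hv, h2, h3, rfl⟩ := sing_add_sing_orth h.hQ₀ (by omega) hx hx0 ha
    obtain ⟨k, hk⟩ := h1 u hu h2
    obtain ⟨l, hl⟩ := h1 v hv h3
    exact ⟨k + l, by rw [map_add, map_add, polar_add_left, hk, hl]⟩
  obtain ⟨y, hy⟩ := h.hQ₀.exists_eq hx0 1
  choose φ hφ using fun v => h2 (v - polar Q₀ x v • y) (by simp [polar_comm Q₀ x y, hy])
  have inj := (algebraMap K F).injective
  let ψ : V₀ →ₗ[K] K :=
    { toFun := φ
      map_add' := fun u v => inj (by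
        rw [map_add, hφ, hφ, hφ, ← polar_add_left, ← map_add]; congr 2
        rw [polar_add_right]; module)
      map_smul' := fun k v => inj (by
        rw [smul_eq_mul, map_mul, hφ, hφ, RingHom.id_apply, ← smul_eq_mul, ← polar_smul_left,
          ← map_smulₛₗ]
        congr 2; rw [polar_smul_right, smul_eq_mul]; module) }
  obtain ⟨u, hu⟩ := (ofQuad Q₀).exists_B_eq h.hQ₀ ψ
  have hu' : ∀ v, polar Q₀ u v = φ v := fun v => congrArg (fun f : V₀ →ₗ[K] K => f v) hu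
  obtain ⟨c, hc⟩ := h.mem_span hx0 (w := w - j u) fun a ha => by
    have := hφ a
    rw [ha, zero_smul, sub_zero] at this
    rw [polar_sub_right, h.pol, polar_comm Q₀ a u, hu', this, sub_self]
  exact ⟨u, c, by rw [← hc]; abel⟩

variable [Finite F]

theorem rat_line {z b : V} (hzb : EA X z b) (hb : Q b = 0) {x : V₀} (hx : Q₀ x = 0)
    (hxz : polar Q (j x) z ≠ 0) (hxb : polar Q (j x) b = 0) :
    ∃ u, ∃ c d : F, b = c • j u + d • j x := by
  have hx0 : x ≠ 0 := by rintro rfl; simp at hxz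
  by_cases h1 : ∀ a, polar Q₀ x a = 0 → polar Q (j a) b = 0
  · obtain ⟨c, hc⟩ := h.mem_span hx0 h1
    exact ⟨0, 0, c, by simpa using hc⟩
  push Not at h1
  obtain ⟨a, ha, hab, hQa⟩ : ∃ a, polar Q₀ x a = 0 ∧ polar Q (j a) b ≠ 0 ∧ Q₀ a ≠ 0 := by
    obtain ⟨a, ha, hab⟩ := h1
    by_cases h2 : Q₀ a = 0
    swap
    · exact ⟨a, ha, hab, h2⟩
    have h3 := finrank_perp_pair h.hQ₀ x a
    obtain ⟨w, hw, hw'⟩ := exists_nonsing h.hQ₀ (S := perp Q₀ (Submodule.span K {x, a})) (by omega)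
    obtain ⟨h4, h5⟩ := mem_perp_pair.1 hw
    by_cases h6 : polar Q (j w) b = 0
    · exact ⟨a + w, by simp [ha, h4], by simpa [h6] using hab, by simpa [Q_add, h2, h5] using hw'⟩
    · exact ⟨w, h4, h6, hw'⟩
  obtain ⟨u, c, hc⟩ := h.rat_dir h7 hR hS hx hx0 ((hR x a hx ha).power hzb hb hxb hxz hab)
  have h2 : Q (j a) / polar Q (j a) b ≠ 0 := div_ne_zero (by simpa [h.hj] using hQa) hab
  generalize Q (j a) / polar Q (j a) b = t at hc h2
  exact ⟨u, t⁻¹, t⁻¹ * c, by rw [mul_smul, ← smul_add, ← hc, smul_smul, inv_mul_cancel₀ h2,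
    one_smul]⟩

/-- The point of a long root line orthogonal to a rational point is rational. -/
theorem rat_point {z b : V} (hzb : EA X z b) (hb : Q b = 0) {x : V₀} (hx : Q₀ x = 0)
    (hxz : polar Q (j x) z ≠ 0) (hxb : polar Q (j x) b = 0) : ∃ u, ∃ c : F, b = c • j u := by
  have hx0 : x ≠ 0 := by rintro rfl; simp at hxz
  obtain ⟨u, c, d, e⟩ := h.rat_line h7 hR hS hzb hb hx hxz hxb
  by_cases hu : u ∈ Submodule.span K {x}
  · obtain ⟨t, rfl⟩ := Submodule.mem_span_singleton.1 hu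
    exact ⟨x, c * algebraMap K F t + d, by rw [e, map_smulₛₗ]; module⟩
  by_cases hc : c = 0
  · exact ⟨x, d, by simpa [hc] using e⟩
  obtain ⟨y, hy, h1, h2, h3⟩ := exists_sing_out_pair h.hQ₀ h7 x u
  obtain ⟨s, hs⟩ : ∃ s : K, polar Q (j (y + s • x)) z ≠ 0 := by
    by_cases h4 : polar Q (j y) z = 0
    · exact ⟨1, by simpa [h4] using hxz⟩
    · exact ⟨0, by simpa using h4⟩
  obtain ⟨u', c', d', e'⟩ := h.rat_line h7 hR hS hzb hb (x := y + s • x)
    (by simp [Q_add, Q_smul, hy, hx, pc h1]) hs (by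
      rw [map_add, map_smulₛₗ, polar_add_left, polar_smul_left, hxb, e]
      simp [h.orth (pc h1), h.orth (pc h2)])
  have h5 : ∀ f, polar Q₀ (y + s • x) f = 0 → c * algebraMap K F (polar Q₀ u f) +
      d * algebraMap K F (polar Q₀ x f) = c' * algebraMap K F (polar Q₀ u' f) := fun f hf => by
    have := congrArg (fun v => polar Q v (j f)) (e.symm.trans e')
    simpa only [polar_add_left, polar_smul_left, h.pol, hf, smul_eq_mul, map_zero, mul_zero,
      add_zero] using this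
  obtain ⟨f, f1, f2, f3⟩ := exists_dual_pair h.hQ₀ (z := u) (x := x) (a := y + s • x) fun hh => by
    obtain ⟨p, q, rfl⟩ := Submodule.mem_span_pair.1 hh
    by_cases hq : q = 0
    · exact hu (by simpa [hq] using Submodule.smul_mem _ p (Submodule.mem_span_singleton_self x))
    · exact h3 (Submodule.mem_span_pair.2 ⟨-s - q⁻¹ * p, q⁻¹, by
        match_scalars <;> field_simp <;> ring⟩)
  obtain ⟨f', f4, f5, f6⟩ := exists_dual_pair h.hQ₀ (z := x) (x := u) (a := y + s • x) fun hh => by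
    obtain ⟨p, q, hpq⟩ := Submodule.mem_span_pair.1 hh
    by_cases hq : q = 0
    · exact not_mem_span_symm hx0 hu (Submodule.mem_span_singleton.2 ⟨p, by simpa [hq] using hpq⟩)
    · refine h3 (Submodule.mem_span_pair.2 ⟨q⁻¹ - s, -(q⁻¹ * p), ?_⟩)
      linear_combination (norm := skip) (-q⁻¹) • hpq
      match_scalars <;> field_simp <;> ring
  have h6 := h5 f f3
  have h8 := h5 f' f6
  rw [f1, f2] at h6
  rw [f4, f5] at h8
  refine ⟨polar Q₀ u' f • u + polar Q₀ u' f' • x, c', ?_⟩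
  rw [e, map_add, map_smulₛₗ, map_smulₛₗ]
  simp only [map_one, map_zero, mul_one, mul_zero, add_zero, zero_add] at h6 h8
  rw [h6, h8]; module

theorem rat_image {g : O Q} (hg : g ∈ X) {z : V₀} (hz : Q₀ z = 0) :
    ∃ u, ∃ c : F, g.1 (j z) = c • j u := by
  by_cases hz0 : z = 0
  · exact ⟨0, 0, by simp [hz0]⟩
  obtain ⟨b, hb, h1, -, h2⟩ := exists_sing_out_pair h.hQ₀ h7 z z
  obtain ⟨a, h3, h4⟩ := exists_dual_one h.hQ₀ (not_mem_left h2)
  have hh := hyp_of_polar hb (y := a) (by rwa [polar_comm])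
  have h5 : polar Q₀ z (a - Q₀ a • b) = 0 := by simp [h4, h1]
  obtain ⟨x, hx, hxz⟩ : ∃ x, Q₀ x = 0 ∧ polar Q (j x) (g.1 (j z)) ≠ 0 := by
    by_contra hc
    push Not at hc
    refine O_apply_ne_zero g (h.ne_zero hz0) (h.eq_zero fun v => ?_)
    obtain ⟨s, -, t, -, hs, ht, rfl⟩ := sing_add_sing (nd_top h.hQ₀) (by rw [finrank_top]; omega)
      (a := v) trivial
    rw [map_add, polar_add_left, hc s hs, hc t ht, add_zero]
  have k1 := (hR z b hz h1).conj hg
  have k2 := (hR z _ hz h5).conj hg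
  have k3 : Q (g.1 (j b)) = 0 := by rw [O_map, h.sing hb]
  have k4 : Q (g.1 (j (a - Q₀ a • b))) = 0 := by rw [O_map, h.sing hh.hf]
  set t := polar Q (j x) (g.1 (j b)) / polar Q (j x) (g.1 (j z))
  obtain ⟨u, c, e⟩ := h.rat_point h7 hR hS (k1.sub_self t)
    (by simp [Q_sub, Q_smul, k3, k1.sing, pc k1.orth]) hx hxz (by simp [t, hxz])
  have e1 : polar Q (c • j u) (g.1 (j (a - Q₀ a • b))) = 1 := by
    rw [← e, polar_sub_left, polar_smul_left, k2.orth, O_polar, h.pol, hh.hef]; simp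
  have e2 : polar Q (c • j u) (g.1 (j z)) = 0 := by
    rw [← e]; simp [pc k1.orth, pself k1.sing]
  have e3 : Q (c • j u) = 0 := by rw [← e]; simp [Q_sub, Q_smul, k3, k1.sing, pc k1.orth]
  have hc : c ≠ 0 := by rintro rfl; simp at e1
  refine h.rat_point h7 hR hS (k2.swap k4) k1.sing (x := u) ?_ (fun h0 => ?_) (by simpa [hc] using e2)
  · simpa [Q_smul, hc, h.hj] using e3
  · rw [polar_smul_left, h0] at e1; simp at e1

theorem rat_all {g : O Q} (hg : g ∈ X) : ∃ c : F, c ≠ 0 ∧ ∀ v, ∃ w, g.1 (j v) = c • j w := by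
  have ind : ∀ {y y' u u' : V₀} {c c' : F}, g.1 (j y) = c • j u → g.1 (j y') = c' • j u' →
      y' ≠ 0 → y ∉ Submodule.span K {y'} → u ∉ Submodule.span K {u'} := by
    intro y y' u u' c c' e e' hy' hy hu
    obtain ⟨k, rfl⟩ := Submodule.mem_span_singleton.1 hu
    obtain ⟨f, f1, f2⟩ := exists_dual_one h.hQ₀ hy
    have hc' : c' ≠ 0 := by rintro rfl; exact O_apply_ne_zero g (h.ne_zero hy') (by simpa using e')
    have : j y = (c * algebraMap K F k / c') • j y' := g.1.injective (by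
      rw [map_smul, e, e', map_smulₛₗ]; match_scalars; field_simp)
    have h1 := congrArg (fun v => polar Q v (j f)) this
    simp [h.pol, f1, f2] at h1
  have step : ∀ c : F, ∀ y₀ y, y₀ ≠ 0 → Q₀ y₀ = 0 → Q₀ y = 0 → polar Q₀ y₀ y = 0 →
      (∃ w, g.1 (j y₀) = c • j w) → ∃ w, g.1 (j y) = c • j w := by
    rintro c y₀ y h0 h1 h2 h3 ⟨u₀, e₀⟩
    by_cases hy : y ∈ Submodule.span K {y₀}
    · obtain ⟨k, rfl⟩ := Submodule.mem_span_singleton.1 hy
      exact ⟨k • u₀, by rw [map_smulₛₗ, map_smul, e₀, map_smulₛₗ, smul_comm]⟩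
    have hy0 : y ≠ 0 := by rintro rfl; exact hy (Submodule.zero_mem _)
    obtain ⟨u₁, c₁, e₁⟩ := h.rat_image h7 hR hS hg h2
    obtain ⟨u₂, c₂, e₂⟩ := h.rat_image h7 hR hS hg (z := y + y₀) (by simp [Q_add, h1, h2, pc h3])
    rw [map_add, map_add, e₀, e₁] at e₂
    obtain ⟨f, f1, f2⟩ := exists_dual_one h.hQ₀ (ind e₁ e₀ h0 hy)
    obtain ⟨f', f3, f4⟩ := exists_dual_one h.hQ₀ (ind e₀ e₁ hy0 (not_mem_span_symm h0 hy))
    have k1 := congrArg (fun v => polar Q v (j f)) e₂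
    have k2 := congrArg (fun v => polar Q v (j f')) e₂
    simp only [polar_add_left, polar_smul_left, h.pol, f1, f2, f3, f4, map_one, map_zero,
      smul_eq_mul, mul_one, mul_zero, add_zero, zero_add] at k1 k2
    have hc : c ≠ 0 := by rintro rfl; exact O_apply_ne_zero g (h.ne_zero h0) (by simpa using e₀)
    have k3 : algebraMap K F (polar Q₀ u₂ f') ≠ 0 := fun h0 => hc (by rw [k2, h0, mul_zero])
    refine ⟨(polar Q₀ u₂ f / polar Q₀ u₂ f') • u₁, ?_⟩
    rw [e₁, map_smulₛₗ, map_div₀, k1, k2]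
    match_scalars
    field_simp
  obtain ⟨x, -, hx0, hx⟩ := quad_exists_sing Q₀ (Z := ⊤) (by rw [finrank_top]; omega)
  obtain ⟨u, c, e⟩ := h.rat_image h7 hR hS hg hx
  have hs : ∀ y, Q₀ y = 0 → ∃ w, g.1 (j y) = c • j w := fun y hy => by
    obtain ⟨z, hz, h1, h2, h3⟩ := exists_sing_out_pair h.hQ₀ h7 x y
    exact step c z y (fun h0 => h3 (h0 ▸ Submodule.zero_mem _)) hz hy (pc h2)
      (step c x z hx0 hx hz h1 ⟨u, e⟩)
  refine ⟨c, by rintro rfl; exact O_apply_ne_zero g (h.ne_zero hx0) (by simpa using e), fun v => ?_⟩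
  obtain ⟨s, -, t, -, h1, h2, rfl⟩ := sing_add_sing (nd_top h.hQ₀) (by rw [finrank_top]; omega)
    (a := v) trivial
  obtain ⟨w, hw⟩ := hs s h1
  obtain ⟨w', hw'⟩ := hs t h2
  exact ⟨w + w', by rw [map_add, map_add, hw, hw', map_add, smul_add]⟩

omit hS hR [Finite F] in
theorem exists_irr {l : F} (hl : ∀ k, algebraMap K F k ≠ l) : ∃ x a, Q x = 0 ∧ polar Q x a = 0 ∧
    ¬ ∃ c : F, c ≠ 0 ∧ ∀ v, ∃ w, (eich Q x a).1 (j v) = c • j w := by
  obtain ⟨e, -, he0, he⟩ := quad_exists_sing Q₀ (Z := ⊤) (by rw [finrank_top]; omega)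
  obtain ⟨b, hb, h1, -, h2⟩ := exists_sing_out_pair h.hQ₀ h7 e e
  obtain ⟨f, h3, h4⟩ := exists_dual_one h.hQ₀ (not_mem_span_symm he0 (not_mem_left h2))
  obtain ⟨f', h5, h6⟩ := exists_dual_one h.hQ₀ (z := b) (x := f) fun hh => by
    obtain ⟨k, rfl⟩ := Submodule.mem_span_singleton.1 hh
    have : k = 0 := by simpa [h3] using h1
    exact h2 (by simp [this])
  have h8 : polar Q (j e) (l • j b) = 0 := by simp [h.orth h1]
  refine ⟨j e, l • j b, h.sing he, h8, fun ⟨c, hc, hh⟩ => ?_⟩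
  obtain ⟨w, hw⟩ := hh e
  obtain ⟨w', hw'⟩ := hh f
  rw [eich_apply_self] at hw
  rw [eich_ap (h.sing he) h8] at hw'
  have k1 := congrArg (fun v => polar Q v (j f)) hw
  have k2 := congrArg (fun v => polar Q v (j f')) hw'
  simp only [polar_add_left, polar_sub_left, polar_smul_left, h.pol, h3, h4, h5, h6, Q_smul,
    h.sing hb, map_one, map_zero, smul_eq_mul] at k1 k2
  have k3 : algebraMap K F (polar Q₀ w f) ≠ 0 := fun h0 => by simp [h0] at k1
  refine hl (-(polar Q₀ w' f' / polar Q₀ w f)) ?_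
  rw [map_neg, map_div₀, neg_eq_iff_eq_neg, div_eq_iff k3]
  linear_combination algebraMap K F (polar Q₀ w' f') * k1 - algebraMap K F (polar Q₀ w f) * k2

end ORat

theorem omegaGL_smul {ι : Type} [Fintype ι] [DecidableEq ι] (Q : (ι → F) → F) {ζ : F}
    (hζ : ζ ≠ 0) : Cfsg.Geo.omegaGL (fun v => ζ * Q v) = Cfsg.Geo.omegaGL Q := by
  have : Cfsg.isometryGroup F (fun v => ζ * Q v) = Cfsg.isometryGroup F Q := by
    rw [isometryGroup_eq, isometryGroup_eq]
    congr 1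
    ext g
    simp [mem_isoV, hζ]
  rw [omegaGL_eq_commutator, omegaGL_eq_commutator, this]

theorem nondeg_smul (hQ : Nondeg Q) {ζ : F} (hζ : ζ ≠ 0) : Nondeg (ζ • Q) := fun x hx =>
  hQ x fun y => by simpa [polar, ← mul_sub, hζ] using hx y

/-- Subfield subgroups of prime index in `Ω`, dimension at least seven. -/
theorem omega_subfield [Fintype F] {ι : Type} [Fintype ι] [DecidableEq ι]
    (Q : QuadraticForm F (ι → F)) (hQ : Nondeg Q) (h7 : 7 ≤ Fintype.card ι) (F₀ : Subfield F)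
    (r : ℕ) (hr : r.Prime) (hcard : Fintype.card F = Nat.card F₀ ^ r) (P : GL ι F)
    (hP : Cfsg.Geo.IsQuadFormRationalStructure (⇑Q) F₀ P) :
    Cfsg.Geo.IsMaximalIn (Cfsg.Geo.omegaGL (⇑Q))
      (Cfsg.Geo.subfieldSubgroup F₀ P ⊓ Cfsg.Geo.omegaGL (⇑Q)) := by
  have hr' := finrank_eq_of_card_eq_pow F₀ hcard
  have hm : ∀ v, Q (ratEmb F₀ P v) ∈ F₀ := fun v => hP _ fun i => (v i).2
  have inj : Function.Injective (algebraMap F₀ F) := (algebraMap F₀ F).injective
  let q : (ι → F₀) → F₀ := fun v => ⟨_, hm v⟩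
  have hq : ∀ v, algebraMap F₀ F (q v) = Q (ratEmb F₀ P v) := fun _ => rfl
  have hq' : ∀ u v, algebraMap F₀ F (polar q u v) = polar Q (ratEmb F₀ P u) (ratEmb F₀ P v) :=
    fun u v => by simp only [polar, map_sub, hq, map_add]
  let Q₀ : QuadraticForm F₀ (ι → F₀) := QuadraticMap.ofPolar q
    (fun a x => inj (by rw [smul_eq_mul, map_mul, hq, hq, map_smulₛₗ, Q_smul, map_mul]))
    (fun x x' y => inj (by rw [map_add, hq', hq', hq', map_add, polar_add_left]))
    (fun a x y => inj (by rw [smul_eq_mul, map_mul, hq', hq', map_smulₛₗ, polar_smul_left,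
      smul_eq_mul]))
  have h : ORat Q Q₀ (ratEmb F₀ P) := ⟨hQ, fun _ => rfl, ratEmb_span F₀ P, ratEmb_injective F₀ P⟩
  have h7' : 7 ≤ finrank F₀ (ι → F₀) := by rwa [finrank_fintype_fun_eq_card]
  have h5 : 5 ≤ finrank F (ι → F) := by rw [finrank_fintype_fun_eq_card]; omega
  have hs := Subalgebra.isSimpleOrder_of_finrank_prime F₀ F (hr' ▸ hr)
  refine isMaximalIn_omega hQ (by omega) _
    (fun g => ∃ c : F, c ≠ 0 ∧ ∀ v, ∃ w, g.1 (ratEmb F₀ P v) = c • ratEmb F₀ P w)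
    (fun g k e => by rw [mem_subfieldSubgroup, ← e]; rfl) ?_ fun X _ hY g hg hgY => ?_
  · obtain ⟨l, -, hl⟩ := SetLike.exists_of_lt (bot_lt_top : (⊥ : Subalgebra F₀ F) < ⊤)
    exact h.exists_irr h7' fun k hk => hl (Algebra.mem_bot.2 ⟨k, hk⟩)
  have hR : ∀ x a, Q₀ x = 0 → polar Q₀ x a = 0 → EA X (ratEmb F₀ P x) (ratEmb F₀ P a) :=
    fun x a hx ha => ⟨h.sing hx, h.orth ha, hY _ (eich_mem hQ h5 _ _) ⟨1, one_ne_zero, fun v =>
      ⟨(eich Q₀ x a).1 v, by
        rw [eich_ap (h.sing hx) (h.orth ha), eich_ap hx ha, one_smul]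
        simp only [map_sub, map_add, map_smulₛₗ, map_mul, h.pol, h.hj]⟩⟩⟩
  rcases hs.eq_bot_or_eq_top (h.dirs h7' hR) with hS | hS
  · exact absurd (h.rat_all h7' hR hS hg) hgY
  · exact h.E_le_of_dirs h7' hR (by omega) hS

/-- The version with a scalar, for a form given as a function. -/
theorem omega_subfield' [Fintype F] {ι : Type} [Fintype ι] [DecidableEq ι] {Q : (ι → F) → F}
    (hQ : Cfsg.Geo.IsNondegenerateQuadraticForm Q) (h7 : 7 ≤ Fintype.card ι) (F₀ : Subfield F)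
    (r : ℕ) (hr : r.Prime) (hcard : Fintype.card F = Nat.card F₀ ^ r) (P : GL ι F) {ζ : F}
    (hζ : ζ ≠ 0) (hP : Cfsg.Geo.IsQuadFormRationalStructure (fun v => ζ * Q v) F₀ P) :
    Cfsg.Geo.IsMaximalIn (Cfsg.Geo.omegaGL Q)
      (Cfsg.Geo.subfieldSubgroup F₀ P ⊓ Cfsg.Geo.omegaGL Q) := by
  rw [← omegaGL_smul Q hζ]
  exact omega_subfield (ζ • toQF hQ) (nondeg_smul (toQF_nondeg hQ) hζ) h7 F₀ r hr hcard P hP

theorem omegaOdd_subfield [Fintype F] (hodd : Odd (Fintype.card F)) {m : ℕ} (hm : 3 ≤ m)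
    (F₀ : Subfield F) (r : ℕ) (hr : r.Prime) (hcard : Fintype.card F = Nat.card F₀ ^ r)
    (P : GL (Unit ⊕ (Fin m ⊕ Fin m)) F)
    (hP : Cfsg.Geo.IsQuadFormRationalStructure (Cfsg.quadFormOdd m F) F₀ P) :
    Cfsg.Geo.IsMaximalIn (Cfsg.Geo.omegaGL (Cfsg.quadFormOdd m F))
      (Cfsg.Geo.subfieldSubgroup F₀ P ⊓ Cfsg.Geo.omegaGL (Cfsg.quadFormOdd m F)) := by
  rw [quadFormOdd_eq] at hP ⊢
  exact omega_subfield _ (nondeg_qOdd (two_ne_zero_of_odd hodd) m) (by simp; omega) F₀ r hr hcard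
    P hP

end CfsgLib.OMax
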