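import Mathlib
import Cfsg.Agent.Lib.OMax.Basic

/-!
The stabiliser of a pair of complementary totally singular subspaces of even dimension `k ≥ 5`
is maximal in `Ω`.
-/

set_option autoImplicit false

namespace CfsgLib.OMax

open CfsgLib.Forms CfsgLib.ClMax CfsgLib.RootMax CfsgLib.OrthE Module QuadraticMap

variable {F V : Type*} [Field F] [AddCommGroup V] [Module F V] {Q : QuadraticForm F V}

theorem polar_of_ts {W : Submodule F V} (h : ∀ w ∈ W, Q w = 0) {x y : V} (hx : x ∈ W)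
    (hy : y ∈ W) : polar Q x y = 0 := by
  rw [polar, h _ (W.add_mem hx hy), h x hx, h y hy]; simp

theorem le_or_le_of_forall {W U U' : Submodule F V} (f : V →ₗ[F] V)
    (h : ∀ v ∈ W, f v ∈ U ∨ f v ∈ U') : (∀ v ∈ W, f v ∈ U) ∨ ∀ v ∈ W, f v ∈ U' := by
  by_contra hc
  push Not at hc
  obtain ⟨⟨a, ha, ha'⟩, b, hb, hb'⟩ := hc
  rcases h _ (W.add_mem ha hb) with h1 | h1 <;> rw [map_add] at h1
  · exact ha' (by simpa using U.sub_mem h1 ((h b hb).resolve_right hb'))
  · exact hb' (by simpa using U'.sub_mem h1 ((h a ha).resolve_left ha'))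

/-- A product of an even number of reflections in vectors of the same norm lies in `Ω`. -/
theorem prod_refl_mem [FiniteDimensional F V] (hQ : Nondeg Q) {c : F} (hc : c ≠ 0) (l : List V)
    (hl : ∀ v ∈ l, Q v = c) (he : Even l.length) : (l.map (refl Q)).prod ∈ commutator (O Q) := by
  induction l using List.twoStepInduction with
  | nil => exact one_mem _
  | singleton a => simp at he
  | cons_cons a b l ih _ =>
    rw [List.map_cons, List.map_cons, List.prod_cons, List.prod_cons, ← mul_assoc]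
    refine mul_mem (refl_mul_refl_mem' hQ (by rwa [hl a (by simp)])
      (by rw [hl a (by simp), hl b (by simp)])) (ih (fun v hv => hl v (by simp [hv])) ?_)
    simpa [parity_simps] using he

/-- Two complementary totally singular subspaces of dimension `k`. -/
structure TPair (Q : QuadraticForm F V) (U U' : Submodule F V) (k : ℕ) : Prop where
  hQ : Nondeg Q
  tsL : ∀ u ∈ U, Q u = 0
  tsR : ∀ u ∈ U', Q u = 0
  top : ∀ v, ∃ a ∈ U, ∃ b ∈ U', a + b = v
  dimL : finrank F U = k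
  dimR : finrank F U' = k

namespace TPair

variable {U U' : Submodule F V} {k : ℕ} (h : TPair Q U U' k) {X : Subgroup (O Q)}
include h

theorem symm : TPair Q U' U k := ⟨h.hQ, h.tsR, h.tsL, fun v =>
  let ⟨a, ha, b, hb, e⟩ := h.top v; ⟨b, hb, a, ha, by rw [add_comm, e]⟩, h.dimR, h.dimL⟩

theorem eq_zero {v : V} (h1 : v ∈ U) (h2 : v ∈ U') : v = 0 := h.hQ v fun y => by
  obtain ⟨a, ha, b, hb, rfl⟩ := h.top y
  rw [polar_add_right, polar_of_ts h.tsL h1 ha, polar_of_ts h.tsR h2 hb, add_zero]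

variable [FiniteDimensional F V]

theorem dual {H : Submodule F V} (hH : H ≤ U) {u : V} (hu : u ∈ U) (huH : u ∉ H) :
    ∃ a ∈ U', polar Q a u = 1 ∧ ∀ w ∈ H, polar Q a w = 0 := by
  obtain ⟨a, h1, h2⟩ := exists_dual h.hQ H huH
  obtain ⟨c, hc, b, hb, rfl⟩ := h.top a
  refine ⟨b, hb, ?_, fun w hw => ?_⟩
  · rwa [polar_add_left, polar_of_ts h.tsL hc hu, zero_add] at h1
  · have := h2 w hw
    rwa [polar_add_left, polar_of_ts h.tsL hc (hH hw), zero_add] at this

theorem dual_pair {x y u : V} (hx : x ∈ U) (hy : y ∈ U) (hu : u ∈ U)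
    (huH : u ∉ Submodule.span F {x, y}) :
    ∃ a ∈ U', polar Q a u = 1 ∧ polar Q a x = 0 ∧ polar Q a y = 0 := by
  obtain ⟨a, h1, h2, h3⟩ := h.dual (Submodule.span_le.2 (by rintro _ (rfl | rfl) <;> assumption))
    hu huH
  exact ⟨a, h1, h2, h3 x (Submodule.subset_span (by simp)), h3 y (Submodule.subset_span (by simp))⟩

theorem exists_swap (he : Even k) : ∃ s ∈ commutator (O Q), (∀ v ∈ U, s.1 v ∈ U') ∧
    ∀ v ∈ U', s.1 v ∈ U := by
  classical
  let b := Module.finBasis F U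
  let e : Fin (finrank F U) → V := fun i => b i
  have hli : LinearIndependent F e := b.linearIndependent.map' U.subtype (Submodule.ker_subtype U)
  choose f hf h1 h2 using fun i => h.dual (H := Submodule.span F (e '' {i}ᶜ))
    (Submodule.span_le.2 (by rintro _ ⟨j, -, rfl⟩; exact (b j).2)) (b i).2
    (hli.notMem_span_image (by simp))
  have hfe : ∀ i j, polar Q (f i) (e j) = if j = i then 1 else 0 := fun i j => by
    split_ifs with hij
    · exact hij ▸ h1 j
    · exact h2 i _ (Submodule.subset_span ⟨j, hij, rfl⟩)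
  have hee : ∀ i j, polar Q (e i) (e j) = 0 := fun i j => polar_of_ts h.tsL (b i).2 (b j).2
  have hff : ∀ i j, polar Q (f i) (f j) = 0 := fun i j => polar_of_ts h.tsR (hf i) (hf j)
  have hN : ∀ i, Q (e i - f i) = -1 := fun i => by
    rw [Q_sub, h.tsL _ (b i).2, h.tsR _ (hf i), polar_comm, hfe]; simp
  have key : ∀ l : List (Fin (finrank F U)), l.Nodup → ∀ j,
      ((l.map fun i => e i - f i).map (refl Q)).prod.1 (e j) = (if j ∈ l then f j else e j) ∧
      ((l.map fun i => e i - f i).map (refl Q)).prod.1 (f j) = (if j ∈ l then e j else f j) := by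
    intro l hl j
    induction l with
    | nil => simp [O_one_apply]
    | cons i l ih =>
      obtain ⟨k1, k2⟩ := ih (List.nodup_cons.1 hl).2
      rw [List.map_cons, List.map_cons, List.prod_cons, O_mul_apply, O_mul_apply, k1, k2]
      by_cases hij : j = i
      · subst hij
        simp [(List.nodup_cons.1 hl).1, refl_ap, hN, hee, hff, hfe, polar_comm Q (e j) (f j)]
      · by_cases hj : j ∈ l <;>
          simp [hj, hij, Ne.symm hij, refl_ap, hee, hff, hfe, polar_comm Q (e i) (f j)]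
  have hb : ∀ v (hv : v ∈ U), v = ∑ i, b.repr ⟨v, hv⟩ i • e i := fun v hv => by
    have := congrArg U.subtype (b.sum_repr ⟨v, hv⟩).symm
    simp only [map_sum, map_smul] at this
    exact this
  have hs := fun j => key (List.finRange _) (List.nodup_finRange _) j
  simp only [List.mem_finRange, if_true] at hs
  refine ⟨_, prod_refl_mem h.hQ (c := -1) (by simp) ((List.finRange _).map fun i => e i - f i)
    (by simpa using hN) (by simpa [h.dimL] using he), fun v hv => ?_, fun v hv => ?_⟩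
  · rw [hb v hv, map_sum]
    exact U'.sum_mem fun i _ => by rw [map_smul, (hs i).1]; exact U'.smul_mem _ (hf i)
  · have : v = ∑ i, polar Q v (e i) • f i := by
      rw [← sub_eq_zero]
      have hm := U'.sub_mem hv (U'.sum_mem (t := Finset.univ)
        fun i _ => U'.smul_mem (polar Q v (e i)) (hf i))
      refine h.hQ _ fun y => ?_
      obtain ⟨a, ha, c, hc, rfl⟩ := h.top y
      rw [polar_add_right, polar_of_ts h.tsR hm hc, add_zero, hb a ha,
        ← polarBilin_apply_apply, map_sum]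
      refine Finset.sum_eq_zero fun j _ => ?_
      rw [map_smul, map_sub, map_sum]
      simp [hfe]
    rw [this, map_sum]
    exact U.sum_mem fun i _ => by rw [map_smul, (hs i).2]; exact U.smul_mem _ (b i).2

variable (hk : 5 ≤ k) (hR : ∀ x ∈ U, ∀ a ∈ U', polar Q x a = 0 → EA X x a)
include hk hR

theorem full_of {x u : V} (hx : x ∈ U) (hu : u ∈ U) (hux : u ∉ Submodule.span F {x})
    (h1 : EA X x u) : EFull X x := by
  have step : ∀ u ∈ U, ∀ u' ∈ U, EA X x u → u ∉ Submodule.span F {x, u'} → EA X x u' := by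
    intro u hu u' hu' h1 h2
    obtain ⟨a, ha, h3, h4, h5⟩ := h.dual_pair hx hu' hu h2
    simpa [h3, polar_of_ts h.tsL hu' hu] using
      h1.move (hR u' hu' a ha (pc h5)) (polar_of_ts h.tsL hu' hx) h4
  have all : ∀ u' ∈ U, EA X x u' := by
    intro u' hu'
    by_cases h2 : u ∈ Submodule.span F {x, u'}
    swap
    · exact step u hu u' hu' h1 h2
    obtain ⟨w, hw, h3, -⟩ := exists_orth_not_mem h.hQ U (Submodule.span F {x, u'}) [] (by
      have := RootMax.finrank_span_pair_le (F := F) x u'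
      rw [h.dimL]; simp; omega)
    refine step w hw u' hu' (step u hu w hw h1 fun h4 => ?_) h3
    obtain ⟨s, t, rfl⟩ := Submodule.mem_span_pair.1 h4
    have h5 := Submodule.sub_mem _ h2 (Submodule.smul_mem _ s
      (Submodule.subset_span (show x ∈ ({x, u'} : Set V) by simp)))
    rw [add_sub_cancel_left] at h5
    by_cases ht : t = 0
    · exact hux (by simpa [ht] using Submodule.smul_mem _ s (Submodule.mem_span_singleton_self x))
    · exact h3 ((Submodule.smul_mem_iff _ ht).1 h5)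
  intro a ha
  obtain ⟨b, hb, c, hc, rfl⟩ := h.top a
  exact (all b hb).add (hR x hx c hc (by simpa [polar_of_ts h.tsL hx hb] using ha))

theorem E_le_of_full (he : Even k) (hs : ∀ s ∈ commutator (O Q), (∀ v ∈ U, s.1 v ∈ U') →
    (∀ v ∈ U', s.1 v ∈ U) → s ∈ X) {x : V} (hx : x ∈ U) (hx0 : x ≠ 0) (h1 : EFull X x) :
    E Q ≤ X := by
  obtain ⟨s, h2, h3, h4⟩ := h.exists_swap he
  obtain ⟨y, hy, h5, -⟩ := h.symm.dual (H := ⊥) bot_le (h3 x hx) (by simpa using hx0)
  have h6 : EFull X y := by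
    by_cases h7 : x ∈ Submodule.span F {y}
    · obtain ⟨c, rfl⟩ := Submodule.mem_span_singleton.1 h7
      simpa [left_ne_zero_of_smul hx0] using h1.smul (inv_ne_zero (left_ne_zero_of_smul hx0))
    · exact h.full_of hk hR hy hx h7 ((h1 y (polar_of_ts h.tsL hx hy)).swap (h.tsL y hy))
  have := Submodule.finrank_le U
  exact E_le_of_two h.hQ (by rw [h.dimL] at this; omega) (h.tsL y hy) (h.tsR _ (h3 x hx)) h6
    (h1.conj (hs s h2 h3 h4)) (by simp [h5])

theorem mem_span_of_not_full (hn : ∀ x ∈ U, x ≠ 0 → ¬ EFull X x) {z₁ z₂ b₁ b₂ : V} (h1 : z₁ ∈ U)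
    (h2 : z₂ ∈ U') (h3 : b₁ ∈ U) (h4 : b₂ ∈ U') (h5 : EA X (z₁ + z₂) (b₁ + b₂))
    (h6 : Q (b₁ + b₂) = 0) (h0 : z₁ ≠ 0) : b₁ ∈ Submodule.span F {z₁} := by
  by_contra h7
  obtain ⟨x, hx, h8, h9⟩ := exists_orth_not_mem h.hQ U (Submodule.span F {z₁, b₁})
    [z₁ + z₂, b₁ + b₂] (by
      have := RootMax.finrank_span_pair_le (F := F) z₁ b₁
      rw [h.dimL]; simp; omega)
  obtain ⟨a, ha, k1, k2, k3⟩ := h.dual_pair hx h1 h3 fun hh => by
    obtain ⟨s, t, rfl⟩ := Submodule.mem_span_pair.1 hh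
    by_cases hs : s = 0
    · exact h7 (by simpa [hs] using Submodule.smul_mem _ t (Submodule.mem_span_singleton_self z₁))
    · exact h8 (Submodule.mem_span_pair.2 ⟨-(s⁻¹ * t), s⁻¹, by match_scalars <;> field_simp; ring⟩)
  have k4 := (hR x hx a ha (pc k2)).move h5 (h9 _ (by simp)) (h9 _ (by simp))
  simp only [h6, polar_add_left, pc k3, polar_comm Q b₁ a, k1, polar_of_ts h.tsR h2 ha,
    polar_of_ts h.tsR h4 ha, add_zero, mul_zero, sub_zero, one_smul, zero_smul] at k4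
  have k5 : polar Q x z₂ = 0 := by simpa [polar_of_ts h.tsL hx h1] using k4.orth
  have hx0 : x ≠ 0 := by rintro rfl; exact h8 (Submodule.zero_mem _)
  exact hn x hx hx0 (h.full_of hk hR hx h1 (not_mem_span_symm h0 (not_mem_left h8))
    (by simpa using k4.sub (hR x hx z₂ h2 k5)))

theorem mem_or_mem (hR' : ∀ x ∈ U', ∀ a ∈ U, polar Q x a = 0 → EA X x a)
    (hn : ∀ x ∈ U, x ≠ 0 → ¬ EFull X x) (hn' : ∀ x ∈ U', x ≠ 0 → ¬ EFull X x) {g : O Q}
    (hg : g ∈ X) (x : V) (hx : x ∈ U) : g.1 x ∈ U ∨ g.1 x ∈ U' := by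
  obtain ⟨z₁, h1, z₂, h2, e⟩ := h.top (g.1 x)
  by_contra hc
  push Not at hc
  have k1 : z₁ ≠ 0 := by rintro rfl; exact hc.2 (by simpa [← e] using h2)
  have k2 : z₂ ≠ 0 := by rintro rfl; exact hc.1 (by simpa [← e] using h1)
  obtain ⟨a, ha, h3, h4⟩ := exists_orth_not_mem h.hQ U'
    ((Submodule.span F {z₁, z₂}).map (g.1.symm : V →ₗ[F] V)) [x] (by
      have := RootMax.finrank_span_pair_le (F := F) z₁ z₂
      rw [h.dimR, LinearEquiv.finrank_map_eq]; simp; omega)
  obtain ⟨b₁, h5, b₂, h6, e'⟩ := h.top (g.1 a)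
  have h7 := (hR x hx a ha (h4 x (by simp))).conj hg
  have h8 : Q (g.1 a) = 0 := by rw [O_map, h.tsR a ha]
  refine h3 ⟨g.1 a, ?_, by simp⟩
  rw [← e, ← e'] at h7
  rw [← e'] at h8 ⊢
  refine Submodule.add_mem _ (Submodule.span_mono (by simp)
    (h.mem_span_of_not_full hk hR hn h1 h2 h5 h6 h7 h8 k1)) (Submodule.span_mono (by simp)
    (h.symm.mem_span_of_not_full hk hR' hn' h2 h1 h6 h5 ?_ ?_ k2))
  · rwa [add_comm z₂, add_comm b₂]
  · rwa [add_comm b₂]

end TPair

/-- The stabiliser of two complementary totally singular subspaces of even dimension. -/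
theorem omega_tot [Finite F] {ι : Type} [Fintype ι] [DecidableEq ι] (Q : QuadraticForm F (ι → F))
    (hQ : Nondeg Q) {k : ℕ} (hk : 5 ≤ k) (he : Even k) (D : Fin 2 → Submodule F (ι → F))
    (hD : Cfsg.Geo.IsMDecomposition k D) (hts : ∀ i, Cfsg.Geo.IsTotallySingularQuad (⇑Q) (D i)) :
    Cfsg.Geo.IsMaximalIn (Cfsg.Geo.omegaGL (⇑Q))
      (Cfsg.Geo.decompositionStabilizer D ⊓ Cfsg.Geo.omegaGL (⇑Q)) := by
  have h : TPair Q (D 0) (D 1) k := ⟨hQ, hts 0, hts 1, fun v => by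
      have : D 0 ⊔ D 1 = ⊤ := by
        rw [← hD.iSup_eq_top]
        refine le_antisymm (sup_le (le_iSup D 0) (le_iSup D 1)) (iSup_le fun i => ?_)
        fin_cases i
        · exact le_sup_left
        · exact le_sup_right
      exact Submodule.mem_sup.1 (this ▸ Submodule.mem_top), hD.finrank_eq 0, hD.finrank_eq 1⟩
  have hd : ∀ i j, finrank F (D i) = finrank F (D j) := fun i j => by
    rw [hD.finrank_eq, hD.finrank_eq]
  have h5 : 5 ≤ finrank F (ι → F) := hk.trans (h.dimL ▸ Submodule.finrank_le _)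
  refine isMaximalIn_omega hQ (by rwa [finrank_fintype_fun_eq_card] at h5) _
    (fun g => (∀ v ∈ D 0, g.1 v ∈ D 0) ∧ (∀ v ∈ D 1, g.1 v ∈ D 1) ∨
      (∀ v ∈ D 0, g.1 v ∈ D 1) ∧ (∀ v ∈ D 1, g.1 v ∈ D 0)) (fun g s e => ⟨?_, ?_⟩) ?_
    fun X _ hY g hg hgY => ?_
  · rintro ⟨τ, hτ⟩
    have h1 : ∀ i, ∀ v ∈ D i, s.1 v ∈ D (τ i) := fun i v hv => e ▸ hτ i ▸ ⟨v, hv, rfl⟩
    have h0 := h1 0
    have h1 := h1 1
    have hne : τ 0 ≠ τ 1 := τ.injective.ne (by decide)
    generalize τ 0 = i, τ 1 = j at h0 h1 hne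
    fin_cases i <;> fin_cases j
    · exact absurd rfl hne
    · exact Or.inl ⟨h0, h1⟩
    · exact Or.inr ⟨h0, h1⟩
    · exact absurd rfl hne
  · rintro (⟨h0, h1⟩ | ⟨h0, h1⟩)
    · refine ⟨1, fun i => ?_⟩
      rw [← toEquiv_coe, e]
      fin_cases i
      · exact SUMax.map_eq_of_mem _ rfl h0
      · exact SUMax.map_eq_of_mem _ rfl h1
    · refine ⟨Equiv.swap 0 1, fun i => ?_⟩
      rw [← toEquiv_coe, e]
      fin_cases i
      · exact SUMax.map_eq_of_mem _ (hd _ _) h0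
      · exact SUMax.map_eq_of_mem _ (hd _ _) h1
  · obtain ⟨x, hx, hx0, -⟩ := exists_orth_not_mem hQ (D 0) ⊥ [] (by simp [h.dimL]; omega)
    obtain ⟨u, hu, hux, -⟩ := exists_orth_not_mem hQ (D 0) (Submodule.span F {x}) [] (by
      have := SUMax.finrank_span_one_le (F := F) x
      rw [h.dimL]; simp; omega)
    have h1 := polar_of_ts h.tsL hx hu
    obtain ⟨a, ha, h2, h3⟩ := h.dual ((Submodule.span_singleton_le_iff_mem _ _).2 hu) hx
      (not_mem_span_symm (by simpa using hx0) hux)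
    refine ⟨x, u, h.tsL x hx, h1, ?_⟩
    rintro (⟨-, h4⟩ | ⟨h4, -⟩)
    · have h6 := h4 a ha
      rw [eich_ap (h.tsL x hx) h1, pc (h3 u (Submodule.mem_span_singleton_self u)), h.tsL u hu,
        polar_comm, h2] at h6
      refine hux ?_
      rw [h.eq_zero hu (by simpa using (D 1).sub_mem ha h6)]
      exact Submodule.zero_mem _
    · exact hx0 (h.eq_zero hx (by simpa [eich_apply_self] using h4 x hx))
  have r : ∀ {U U' : Submodule F (ι → F)}, TPair Q U U' k → ∀ x ∈ U, ∀ a ∈ U', polar Q x a = 0 →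
      (∀ v ∈ U, (eich Q x a).1 v ∈ U) ∧ ∀ v ∈ U', (eich Q x a).1 v ∈ U' := by
    intro U U' h x hx a ha hxa
    refine ⟨fun v hv => ?_, fun v hv => ?_⟩ <;> rw [eich_ap (h.tsL x hx) hxa]
    · simpa [polar_of_ts h.tsL hx hv] using U.add_mem hv (U.smul_mem _ hx)
    · simpa [polar_of_ts h.tsR ha hv, h.tsR a ha] using U'.sub_mem hv (U'.smul_mem _ ha)
  have hR : ∀ x ∈ D 0, ∀ a ∈ D 1, polar Q x a = 0 → EA X x a := fun x hx a ha hxa =>
    ⟨h.tsL x hx, hxa, hY _ (eich_mem hQ h5 _ _) (Or.inl (r h x hx a ha hxa))⟩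
  have hR' : ∀ x ∈ D 1, ∀ a ∈ D 0, polar Q x a = 0 → EA X x a := fun x hx a ha hxa =>
    ⟨h.tsR x hx, hxa, hY _ (eich_mem hQ h5 _ _) (Or.inl (r h.symm x hx a ha hxa).symm)⟩
  by_contra hc
  have hn : ∀ x ∈ D 0, x ≠ 0 → ¬ EFull X x := fun x hx hx0 hf => hc (h.E_le_of_full hk hR he
    (fun s hs h1 h2 => hY s hs (Or.inr ⟨h1, h2⟩)) hx hx0 hf)
  have hn' : ∀ x ∈ D 1, x ≠ 0 → ¬ EFull X x := fun x hx hx0 hf => hc (h.symm.E_le_of_full hk hR' he
    (fun s hs h1 h2 => hY s hs (Or.inr ⟨h2, h1⟩)) hx hx0 hf)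
  have k0 := le_or_le_of_forall (g.1 : (ι → F) →ₗ[F] (ι → F)) (h.mem_or_mem hk hR hR' hn hn' hg)
  have k1 := le_or_le_of_forall (g.1 : (ι → F) →ₗ[F] (ι → F))
    (h.symm.mem_or_mem hk hR' hR hn' hn hg)
  have bad : ∀ {U U' : Submodule F (ι → F)}, TPair Q U U' k → (∀ v ∈ D 0, g.1 v ∈ U) →
      (∀ v ∈ D 1, g.1 v ∈ U) → False := by
    intro U U' h' h1 h2
    obtain ⟨x, hx, hx0, -⟩ := exists_orth_not_mem hQ U' ⊥ [] (by simp [h'.dimR]; omega)
    obtain ⟨a, ha, b, hb, e⟩ := h.top (g.1.symm x)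
    refine hx0 (h'.eq_zero ?_ hx)
    have := U.add_mem (h1 a ha) (h2 b hb)
    rwa [← map_add, e, LinearEquiv.apply_symm_apply] at this
  rcases k0 with k0 | k0 <;> rcases k1 with k1 | k1
  · exact hgY (Or.inl ⟨k0, k1⟩)
  · exact bad h k0 k1
  · exact bad h.symm k0 k1
  · exact hgY (Or.inr ⟨k0, k1⟩)

end CfsgLib.OMax
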