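import Mathlib
import Cfsg.Agent.Lib.OMax.Basic
import Cfsg.Agent.Lib.ClMax.ExtBasic

/-!
The normaliser of a quadratic extension field carrying a unitary structure is maximal in `Ω_n`,
`n ≥ 10`.
-/

set_option autoImplicit false

namespace CfsgLib.OMax

open CfsgLib.Forms CfsgLib.ClMax CfsgLib.RootMax CfsgLib.OrthE Module QuadraticMap Matrix

variable {F V : Type*} [Field F] [AddCommGroup V] [Module F V] {Q : QuadraticForm F V}

theorem exists_nd_compl [FiniteDimensional F V] (hQ : Nondeg Q) {T : Submodule F V}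
    (hT : T ≤ perp Q T) : ∃ W ≤ perp Q T, ND Q W ∧ finrank F W + 2 * finrank F T = finrank F V ∧
      ∀ v ∈ perp Q T, ∃ w ∈ W, ∃ t ∈ T, v = w + t := by
  obtain ⟨W, hW⟩ := T.exists_isCompl
  have hd : ∀ v ∈ perp Q T, ∃ w ∈ W ⊓ perp Q T, ∃ t ∈ T, v = w + t := fun v hv => by
    obtain ⟨t, ht, w, hw, rfl⟩ := Submodule.mem_sup.1 (hW.sup_eq_top ▸ Submodule.mem_top (x := v))
    exact ⟨w, ⟨hw, by simpa using Submodule.sub_mem _ hv (hT ht)⟩, t, ht, add_comm _ _⟩
  refine ⟨W ⊓ perp Q T, inf_le_right, nd_iff.2 fun x hx h => ?_, ?_, hd⟩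
  · refine Submodule.disjoint_def.1 hW.disjoint x ?_ hx.1
    rw [← perp_perp hQ T]
    intro v hv
    obtain ⟨w, hw, t, ht, rfl⟩ := hd v hv
    rw [ofQuad_B, polar_add_left, pc (h w hw), mem_perp.1 hx.2 t ht, add_zero]
  · have h1 := Submodule.finrank_sup_add_finrank_inf_eq (W ⊓ perp Q T) T
    have h2 : W ⊓ perp Q T ⊔ T = perp Q T := le_antisymm (sup_le inf_le_right hT) fun v hv => by
      obtain ⟨w, hw, t, ht, rfl⟩ := hd v hv
      exact Submodule.add_mem_sup hw ht
    have h3 : W ⊓ perp Q T ⊓ T = ⊥ := (hW.disjoint.symm.mono_left inf_le_left).eq_bot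
    have h4 := finrank_perp hQ T
    rw [h2, h3, finrank_bot] at h1
    omega

/-- A unitary structure: `J` generates a quadratic field extension, with adjoint `T - J`. -/
structure UData (Q : QuadraticForm F V) (J : V →ₗ[F] V) (T N : F) : Prop where
  hQ : Nondeg Q
  JJ : ∀ v, J (J v) = T • J v - N • v
  adj : ∀ u v, polar Q u (J v) = T * polar Q u v - polar Q (J u) v
  QJ : ∀ v, Q (J v) = N * Q v
  BJ : ∀ v, polar Q (J v) v = T * Q v
  aniso : ∀ p p', p ^ 2 * N - p * p' * T + p' ^ 2 = 0 → p = 0 ∧ p' = 0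

/-- Orthogonality for the Hermitian form. -/
def KO (Q : QuadraticForm F V) (J : V →ₗ[F] V) (x a : V) : Prop :=
  polar Q x a = 0 ∧ polar Q (J x) a = 0

namespace UData

variable {J : V →ₗ[F] V} {T N : F} (h : UData Q J T N) {X : Subgroup (O Q)}
include h

theorem pJJ (u v : V) : polar Q (J (J u)) v = T * polar Q (J u) v - N * polar Q u v := by
  simp [h.JJ]

theorem ko_symm {x a : V} (hx : KO Q J x a) : KO Q J a x :=
  ⟨pc hx.1, pc (by rw [h.adj, hx.1, hx.2]; simp)⟩

theorem ko_J {x a : V} (hx : KO Q J x a) : KO Q J x (J a) :=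
  ⟨by rw [h.adj, hx.1, hx.2]; simp, by rw [h.adj, h.pJJ, hx.1, hx.2]; simp⟩

theorem ko_self {x : V} (hx : Q x = 0) : KO Q J x x := ⟨pself hx, by rw [h.BJ, hx, mul_zero]⟩

theorem sing_J {x : V} (hx : Q x = 0) : Q (J x) = 0 := by rw [h.QJ, hx, mul_zero]

theorem kinv (p p' : F) (v : V) : (p * T - p') • (p • J v - p' • v) - p • J (p • J v - p' • v) =
    (p ^ 2 * N - p * p' * T + p' ^ 2) • v := by
  simp only [map_sub, map_smul, h.JJ]; module

theorem eq_zero {p p' : F} {v : V} (hv : v ≠ 0) (e : p • J v = p' • v) : p = 0 ∧ p' = 0 := by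
  have := h.kinv p p' v
  rw [e, sub_self, map_zero, smul_zero, smul_zero, sub_self, eq_comm, smul_eq_zero] at this
  exact h.aniso p p' (this.resolve_right hv)

theorem K_J {x y : V} (hy : y ∈ Submodule.span F {x, J x}) : J y ∈ Submodule.span F {x, J x} := by
  obtain ⟨s, t, rfl⟩ := Submodule.mem_span_pair.1 hy
  exact Submodule.mem_span_pair.2 ⟨-(t * N), s + t * T, by
    simp only [map_add, map_smul, h.JJ]; module⟩

theorem K_symm {x y : V} (hy : y ∈ Submodule.span F {x, J x}) (hy0 : y ≠ 0) :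
    x ∈ Submodule.span F {y, J y} := by
  obtain ⟨s, t, rfl⟩ := Submodule.mem_span_pair.1 hy
  have h1 : t ^ 2 * N - t * -s * T + (-s) ^ 2 ≠ 0 := fun h0 => by
    obtain ⟨h1, h2⟩ := h.aniso _ _ h0
    exact hy0 (by simp [h1, neg_eq_zero.1 h2])
  rw [← Submodule.smul_mem_iff _ h1, ← h.kinv]
  exact Submodule.mem_span_pair.2 ⟨t * T - -s, -t, by simp only [map_add, map_sub, map_smul]; module⟩

theorem indep {x y : V} (hx : x ≠ 0) (hy : y ∉ Submodule.span F {x, J x}) {a b c d : F}
    (e : a • x + b • J x + c • y + d • J y = 0) : a = 0 ∧ b = 0 ∧ c = 0 ∧ d = 0 := by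
  have h1 : c • y + d • J y = 0 := by
    by_contra h1
    have h2 : c • y + d • J y ∈ Submodule.span F {x, J x} :=
      Submodule.mem_span_pair.2 ⟨-a, -b, by linear_combination (norm := module) -e⟩
    exact hy (Submodule.span_le.2 (by rintro _ (rfl | rfl); exacts [h2, h.K_J h2])
      (h.K_symm (Submodule.mem_span_pair.2 ⟨c, d, rfl⟩) h1))
  have h2 := h.eq_zero (p := d) (p' := -c) (v := y) (fun h0 => hy (h0 ▸ Submodule.zero_mem _))
    (by linear_combination (norm := module) h1)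
  have h3 := h.eq_zero (p := b) (p' := -a) hx (by linear_combination (norm := module) e - h1)
  exact ⟨neg_eq_zero.1 h3.2, h3.1, neg_eq_zero.1 h2.2, h2.1⟩

theorem not_mem_K {u w z : V} (h1 : KO Q J u w) (hw : w ≠ 0) (h2 : ¬ KO Q J u z) :
    w ∉ Submodule.span F {z, J z} := fun hh => by
  obtain ⟨s, t, rfl⟩ := Submodule.mem_span_pair.1 (h.K_symm hh hw)
  exact h2 ⟨by simp [h1.1, (h.ko_J h1).1], by simp [h1.2, (h.ko_J h1).2]⟩

omit h in
theorem ko_of_mem {x a : V} (ha : a ∈ perp Q (Submodule.span F {x, J x})) : KO Q J x a :=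
  mem_perp_pair.1 ha

theorem K_le {x : V} (hx : Q x = 0) :
    Submodule.span F {x, J x} ≤ perp Q (Submodule.span F {x, J x}) := by
  refine Submodule.span_le.2 ?_
  rintro _ (rfl | rfl)
  exacts [mem_perp_pair.2 (h.ko_self hx), mem_perp_pair.2 (h.ko_J (h.ko_self hx))]

theorem rho_apply {x a : V} (hx : Q x = 0) (ha : KO Q J x a) (v : V) :
    (eich Q x (-J a) * eich Q (J x) a).1 v = v + (polar Q a v - Q a * polar Q (J x) v) • J x -
      polar Q (J x) v • a + (-polar Q (J a) v + T * Q a * polar Q (J x) v -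
        N * Q a * polar Q x v) • x + polar Q x v • J a := by
  have h1 := h.ko_J ha
  have h2 := h.ko_J (h.ko_symm h1)
  rw [O_mul_apply, eich_ap hx (by simp [h1.1]), eich_ap (h.sing_J hx) ha.2]
  simp only [polar_add_right, polar_sub_right, polar_smul_right, polar_neg_left, Q_neg, h.QJ, h.BJ,
    ha.1, h2.1, (h.ko_J (h.ko_self hx)).1, smul_eq_mul]
  module

variable [FiniteDimensional F V] [Finite F] (h10 : 10 ≤ finrank F V)
  (hY : ∀ g ∈ commutator (O Q), (∀ v, g.1 (J v) = J (g.1 v)) → g ∈ X)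
include h10 hY

theorem central {x : V} (hx : Q x = 0) (c : F) : EA X x (c • J x) := by
  have h1 : polar Q x (c • J x) = 0 := by simp [(h.ko_J (h.ko_self hx)).1]
  refine ⟨hx, h1, hY _ (eich_mem h.hQ (by omega) _ _) fun v => ?_⟩
  simp only [eich_ap hx h1, Q_smul, h.sing_J hx, polar_smul_left, polar_sub_left, h.adj, map_add,
    map_sub, map_smul, h.JJ, smul_eq_mul]
  module

theorem rho {x a : V} (hx : Q x = 0) (ha : KO Q J x a) :
    eich Q x (-J a) * eich Q (J x) a ∈ X := by
  refine hY _ (mul_mem (eich_mem h.hQ (by omega) _ _) (eich_mem h.hQ (by omega) _ _)) fun v => ?_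
  simp only [h.rho_apply hx ha, h.adj, polar_smul_left, polar_sub_left, map_add, map_sub, map_smul,
    h.JJ, smul_eq_mul]
  module

theorem key {x y w : V} (hw : EA X x w) (hy : Q y = 0) (hxy : KO Q J x y) (hyw : polar Q y w ≠ 0) :
    (∀ s t : F, EA X x (s • y + t • J y)) ∧ ∀ a, KO Q J x a → KO Q J y a → EA X x a := by
  have hyx := h.ko_symm hxy
  have f : ∀ a, KO Q J x a → KO Q J y a → EA X x ((polar Q a w - Q a * polar Q (J y) w) • J y -
      polar Q (J y) w • a + (-polar Q (J a) w + T * Q a * polar Q (J y) w -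
        N * Q a * polar Q y w) • y + polar Q y w • J a) := fun a h1 h2 =>
    (hw.conj_sub (h.rho h10 hY hy h2) (by
      rw [h.rho_apply hy h2]
      simp [hyx.1, hyx.2, (h.ko_symm h1).1, (h.ko_symm h1).2])).congr (by
        rw [h.rho_apply hy h2]; module)
  set p := polar Q y w with hp
  set p' := polar Q (J y) w with hp'
  have hN : p ^ 2 * N - p * p' * T + p' ^ 2 ≠ 0 := fun h0 => hyw (h.aniso _ _ h0).1
  have k1 : ∀ c : F, EA X x (c • (p • J y - p' • y)) := fun c =>
    (hw.move (h.central h10 hY hy (-c)) hyx.1 (by simp [hyx.2])).congr (by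
      simp only [Q_smul, h.sing_J hy, polar_smul_left, smul_eq_mul, ← hp, ← hp']; module)
  have k2 : ∀ c : F, EA X x (c • (p' • J y - (T * p' - N * p) • y)) := fun c => by
    classical
    obtain ⟨a, -, h1, h2⟩ := exists_orth_not_mem h.hQ ⊤
      (Submodule.span F (([x, J x, y, J y].toFinset : Finset V) : Set V)) [x, J x, y, J y] (by
        have := (finrank_span_finset_le_card (R := F) [x, J x, y, J y].toFinset).trans
          (List.toFinset_card_le _)
        rw [finrank_top]; simp only [List.length_cons, List.length_nil, Set.finrank] at this ⊢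
        omega)
    obtain ⟨b, h3, h4⟩ := exists_dual h.hQ _ h1
    have h5 : ∀ u ∈ [x, J x, y, J y], polar Q u (c • b) = 0 := fun u hu => by
      simp [pc (h4 u (Submodule.subset_span (by simpa using hu)))]
    simp only [List.mem_cons, List.not_mem_nil, or_false, forall_eq_or_imp, forall_eq] at h2 h5
    refine (((f a ⟨h2.1, h2.2.1⟩ h2.2.2).add (f _ ⟨h5.1, h5.2.1⟩ h5.2.2)).sub (f (a + c • b)
      ⟨by simp [h2, h5, -polar_smul_right], by simp [h2, h5, -polar_smul_right]⟩
      ⟨by simp [h2, h5, -polar_smul_right], by simp [h2, h5, -polar_smul_right]⟩)).congr ?_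
    rw [Q_add, polar_smul_right, polar_comm Q a b, h3]
    simp only [map_add, polar_add_left, smul_eq_mul]
    module
  have hD := mul_inv_cancel₀ hN
  have k3 : ∀ s t : F, EA X x (s • y + t • J y) := fun s t =>
    ((k1 (-(s * p' + t * (T * p' - N * p)) * (p ^ 2 * N - p * p' * T + p' ^ 2)⁻¹)).add
      (k2 ((s * p + t * p') * (p ^ 2 * N - p * p' * T + p' ^ 2)⁻¹))).congr (by
        generalize (p ^ 2 * N - p * p' * T + p' ^ 2)⁻¹ = D at hD
        match_scalars
        · linear_combination t * hD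
        · linear_combination s * hD)
  refine ⟨k3, fun a h1 h2 => ?_⟩
  have e := h.kinv p p' a
  set b := (p ^ 2 * N - p * p' * T + p' ^ 2)⁻¹ • ((p * T - p') • a - p • J a) with hb
  have hb' : ∀ u, KO Q J u a → KO Q J u b := fun u hu =>
    ⟨by simp [hb, hu.1, (h.ko_J hu).1], by simp [hb, hu.2, (h.ko_J hu).2]⟩
  have h3 := f b (hb' x h1) (hb' y h2)
  generalize polar Q b w - _ = s at h3
  generalize -polar Q (J b) w + _ - _ = t at h3
  refine (h3.sub (k3 t s)).congr ?_
  have : p • J b - p' • b = a := by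
    simp only [hb, map_smul, map_sub, h.JJ]
    generalize (p ^ 2 * N - p * p' * T + p' ^ 2)⁻¹ = D at hD
    match_scalars
    · ring
    · linear_combination hD
  linear_combination (norm := module) this

theorem nfull_of {x d : V} (hd : EA X x d) (h1 : KO Q J x d) (h2 : d ∉ Submodule.span F {x, J x})
    (a : V) (ha : KO Q J x a) : EA X x a := by
  obtain ⟨W, hW, h3, h4, h5⟩ := exists_nd_compl h.hQ (h.K_le hd.sing)
  have h6 := RootMax.finrank_span_pair_le (F := F) x (J x)
  obtain ⟨e, he, he0, hes⟩ := quad_exists_sing Q (Z := W) (by omega)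
  obtain ⟨y, hy, hys, hyd⟩ := exists_sing_not_orth h3 he he0 hes (w := d) fun hh => h2 (by
    rw [← perp_perp h.hQ (Submodule.span F {x, J x})]
    intro v hv
    obtain ⟨w, hw, t, ht, rfl⟩ := h5 v hv
    rw [ofQuad_B, polar_add_left, mem_perp.1 hh w hw, mem_perp.1 (mem_perp_pair.2 h1) t ht,
      add_zero])
  obtain ⟨k1, k2⟩ := h.key h10 hY hd hys (ko_of_mem (hW hy)) hyd
  have k3 : ∀ u ∈ W, Q u = 0 → EA X x u := fun u hu hus => by
    have h7 := ko_of_mem (hW hu)
    by_cases h8 : polar Q u y = 0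
    · by_cases h9 : polar Q u (J y) = 0
      · exact k2 u h7 ⟨pc h8, pc h9⟩
      · simpa using (h.key h10 hY (by simpa using k1 0 1) hus h7 h9).1 1 0
    · simpa using (h.key h10 hY (by simpa using k1 1 0) hus h7 h8).1 1 0
  obtain ⟨w, hw, t, ht, rfl⟩ := h5 a (mem_perp_pair.2 ha)
  obtain ⟨u, hu, v, hv, h7, h8, rfl⟩ := sing_add_sing h3 (by omega) hw
  obtain ⟨s, s', rfl⟩ := Submodule.mem_span_pair.1 ht
  exact ((k3 u hu h7).add (k3 v hv h8)).add ((EA.self hd.sing s).add (h.central h10 hY hd.sing s'))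

theorem nfull_all {x : V} (hx : Q x = 0) (hx0 : x ≠ 0) (h1 : ∀ a, KO Q J x a → EA X x a) {y : V}
    (hy : Q y = 0) (hy0 : y ≠ 0) : ∀ a, KO Q J y a → EA X y a := by
  have step : ∀ x y, x ≠ 0 → (∀ a, KO Q J x a → EA X x a) → Q y = 0 → KO Q J x y →
      y ∉ Submodule.span F {x, J x} → ∀ a, KO Q J y a → EA X y a := fun x y hx0 h1 hy h2 h3 =>
    h.nfull_of h10 hY ((h1 y h2).swap hy) (h.ko_symm h2) fun hh => h3 (h.K_symm hh hx0)
  by_cases h2 : KO Q J x y
  · by_cases h3 : y ∈ Submodule.span F {x, J x}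
    swap
    · exact step x y hx0 h1 hy h2 h3
    have h6 := RootMax.finrank_span_pair_le (F := F) x (J x)
    obtain ⟨z, h4, h5, hz⟩ := exists_sing_out h.hQ (Submodule.span F {x, J x}) (by omega)
    have hz0 : z ≠ 0 := fun h0 => h5 (h0 ▸ Submodule.zero_mem _)
    refine step z y hz0 (step x z hx0 h1 hz (ko_of_mem h4) h5) hy
      (h.ko_symm ⟨mem_perp.1 h4 y h3, mem_perp.1 h4 _ (h.K_J h3)⟩) fun hh => h5 ?_
    exact Submodule.span_le.2 (by rintro _ (rfl | rfl); exacts [h3, h.K_J h3]) (h.K_symm hh hy0)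
  · obtain ⟨z, -, hz0, hz, h3⟩ := exists_sing_orth h.hQ ⊤ [x, J x, y, J y]
      (by rw [finrank_top]; simp; omega)
    simp only [List.mem_cons, List.not_mem_nil, or_false, forall_eq_or_imp, forall_eq] at h3
    exact step z y hz0 (step x z hx0 h1 hz ⟨h3.1, h3.2.1⟩
      (h.not_mem_K h3.2.2 hz0 fun hh => h2 (h.ko_symm hh))) hy (h.ko_symm h3.2.2)
      fun hh => h.not_mem_K ⟨h3.1, h3.2.1⟩ hz0 h2 (h.K_symm hh hy0)

theorem E_le_of {x d : V} (hx0 : x ≠ 0) (hd : EA X x d) (h1 : KO Q J x d)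
    (h2 : d ∉ Submodule.span F {x, J x}) : E Q ≤ X := by
  have all := fun y hy hy0 => h.nfull_all h10 hY hd.sing hx0 (h.nfull_of h10 hY hd h1 h2)
    (y := y) hy hy0
  have full : ∀ y, Q y = 0 → y ≠ 0 → EFull X y := by
    intro y hy hy0 a ha
    obtain ⟨u, h3, h4⟩ := exists_dual_one h.hQ (z := J y) (x := y) fun hh => by
      obtain ⟨c, hc⟩ := Submodule.mem_span_singleton.1 hh
      exact one_ne_zero (h.eq_zero (p := 1) hy0 (by rw [one_smul, hc])).1
    have h5 := hyp_of_polar (h.sing_J hy) (y := u) (by rwa [polar_comm])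
    set z := u - Q u • J y
    have h6 : polar Q y z = 0 := by simp [z, h4, (h.ko_J (h.ko_self hy)).1]
    obtain ⟨b, -, h7, h8⟩ := exists_orth_not_mem h.hQ ⊤ (Submodule.span F {y, J y} ⊔
      Submodule.span F {z}) [y, z, J z] (by
        have := Submodule.finrank_add_le_finrank_add_finrank (Submodule.span F {y, J y})
          (Submodule.span F {z})
        have := RootMax.finrank_span_pair_le (F := F) y (J y)
        have := SUMax.finrank_span_one_le (F := F) z
        rw [finrank_top]; simp; omega)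
    simp only [List.mem_cons, List.not_mem_nil, or_false, forall_eq_or_imp, forall_eq] at h8
    obtain ⟨c, h9, h11⟩ := exists_dual h.hQ _ h7
    have k1 : KO Q J y c := ko_of_mem (mem_perp'.2 fun w hw => h11 w (Submodule.mem_sup_left hw))
    have k2 := h11 z (Submodule.mem_sup_right (Submodule.mem_span_singleton_self z))
    have k3 := (all y hy hy0 (polar Q (J y) a • c) ⟨by simp [k1.1], by simp [k1.2]⟩).move
      (all z h5.hf h5.f_ne b h8.2) (pc h6) (pc h8.1)
    refine ((all y hy hy0 (a - polar Q (J y) a • z) ⟨by simp [ha, h6], by simp [h5.hef]⟩).add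
      k3).congr ?_
    simp [pc k2, polar_comm Q b c, h9]
  obtain ⟨y, -, hy, hxy⟩ := exists_partner (nd_top h.hQ) trivial hx0 hd.sing
  exact E_le_of_two h.hQ (by omega) hd.sing hy (full x hd.sing hx0)
    (full y hy (ne_zero_of_polar (Q := Q) (y := x) (by simp [polar_comm Q y x, hxy]))) (by simp [hxy])

theorem line_of_not_le (hn : ¬ E Q ≤ X) {z b : V} (hz0 : z ≠ 0) (hzb : EA X z b) (hb : Q b = 0) :
    b ∈ Submodule.span F {z, J z} := by
  by_contra h1
  by_cases h2 : polar Q (J z) b = 0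
  · exact hn (h.E_le_of h10 hY hz0 hzb ⟨hzb.orth, h2⟩ h1)
  obtain ⟨x, -, hx0, hx, h3⟩ := exists_sing_orth h.hQ ⊤ [z, J z, b, J b]
    (by rw [finrank_top]; simp; omega)
  simp only [List.mem_cons, List.not_mem_nil, or_false, forall_eq_or_imp, forall_eq] at h3
  have h4 : KO Q J x b := h.ko_symm h3.2.2
  have h5 : KO Q J x z := h.ko_symm ⟨h3.1, h3.2.1⟩
  have h6 := h.rho h10 hY hx h4
  have h7 := X.mul_mem (X.mul_mem (X.mul_mem hzb.mem h6) (X.inv_mem hzb.mem)) (X.inv_mem h6)
  have e1 : (eich Q z b).1 (-J b) = -J b + (-polar Q (J z) b) • b := by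
    rw [eich_ap hzb.sing hzb.orth]
    simp [h.adj, hb, hzb.orth, pself hb, h.BJ, sub_eq_add_neg]
  rw [← conj_mul, conj_eich, conj_eich, eich_apply_of_orth h5.1 h4.1,
    eich_apply_of_orth h5.2 h4.2, eich_apply_of_orth (pc hzb.orth) (pself hb), e1, _root_.mul_inv_rev,
    ← mul_assoc, mul_inv_cancel_right, ← eich_neg,
    eich_mul hx (by simp [h4.1, (h.ko_J h4).1]) (by simp [(h.ko_J h4).1])] at h7
  refine hn (h.E_le_of h10 hY hx0 (d := (-polar Q (J z) b) • b) ⟨hx, by simp [h4.1], ?_⟩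
    ⟨by simp [h4.1], by simp [h4.2]⟩ fun hh => ?_)
  · convert h7 using 2; module
  · rw [Submodule.smul_mem_iff _ (neg_ne_zero.2 h2)] at hh
    obtain ⟨s, t, rfl⟩ := Submodule.mem_span_pair.1 hh
    exact h2 (by simp [h3.2.1, (h.ko_J ⟨h3.1, h3.2.1⟩).2])

theorem semi_of_not_le (hn : ¬ E Q ≤ X) {g : O Q} (hg : g ∈ X) :
    ∃ s t : F, ∀ v, g.1 (J v) = s • g.1 v + t • J (g.1 v) := by
  have h1 : ∀ z, Q z = 0 → z ≠ 0 → ∃ s t : F, g.1 (J (g.1.symm z)) = s • z + t • J z := by
    intro z hz hz0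
    obtain ⟨x, rfl⟩ := g.1.surjective z
    have hx : Q x = 0 := (O_map g x).symm.trans hz
    obtain ⟨s, t, e⟩ := Submodule.mem_span_pair.1 (h.line_of_not_le h10 hY hn hz0
      ((h.central h10 hY hx 1).conj hg) (by simp [O_map, h.sing_J hx]))
    exact ⟨s, t, by simpa using e.symm⟩
  have step : ∀ (s t : F) z w, Q z = 0 → z ≠ 0 → Q w = 0 → polar Q z w = 0 →
      w ∉ Submodule.span F {z, J z} → g.1 (J (g.1.symm z)) = s • z + t • J z →
      g.1 (J (g.1.symm w)) = s • w + t • J w := by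
    intro s t z w hz hz0 hw hzw h2 e
    obtain ⟨s', t', e'⟩ := h1 w hw fun h0 => h2 (h0 ▸ Submodule.zero_mem _)
    obtain ⟨s'', t'', e''⟩ := h1 (z + w) (by simp [Q_add, hz, hw, hzw]) fun h0 => h2 (by
      rw [eq_neg_of_add_eq_zero_right h0]
      exact Submodule.neg_mem _ (Submodule.subset_span (by simp)))
    simp only [map_add, e, e'] at e''
    obtain ⟨k1, k2, k3, k4⟩ := h.indep hz0 h2 (a := s - s'') (b := t - t'') (c := s' - s'')
      (d := t' - t'') (by linear_combination (norm := module) e'')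
    rw [e', sub_eq_zero.1 k1, sub_eq_zero.1 k2, sub_eq_zero.1 k3, sub_eq_zero.1 k4]
  obtain ⟨x, -, hx0, hx⟩ := quad_exists_sing Q (Z := ⊤) (by rw [finrank_top]; omega)
  obtain ⟨s, t, e⟩ := h1 x hx hx0
  have all : ∀ y, Q y = 0 → g.1 (J (g.1.symm y)) = s • y + t • J y := by
    intro y hy
    by_cases hy0 : y = 0
    · simp [hy0]
    obtain ⟨u, hu⟩ := h.hQ.exists_eq hx0 1
    obtain ⟨u', hu'⟩ := h.hQ.exists_eq hy0 1
    obtain ⟨w, -, hw0, hw, h3⟩ := exists_sing_orth h.hQ ⊤ [x, y, u, J u, u', J u']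
      (by rw [finrank_top]; simp; omega)
    simp only [List.mem_cons, List.not_mem_nil, or_false, forall_eq_or_imp, forall_eq] at h3
    exact step s t w y hw hw0 hy (pc h3.2.1) (fun hh => h.not_mem_K h3.2.2.2.2 hw0
      (fun h0 => by simpa [hu'] using h0.1) (h.K_symm hh hy0))
      (step s t x w hx hx0 hw h3.1 (h.not_mem_K ⟨h3.2.2.1, h3.2.2.2.1⟩ hw0
        fun h0 => by simpa [hu] using h0.1) e)
  refine ⟨s, t, fun v => ?_⟩
  obtain ⟨a, -, b, -, ha, hb, rfl⟩ := sing_add_sing (nd_top h.hQ) (by rw [finrank_top]; omega)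
    (a := v) trivial
  have k1 := all (g.1 a) (by rwa [O_map])
  have k2 := all (g.1 b) (by rwa [O_map])
  simp only [LinearEquiv.symm_apply_apply] at k1 k2
  simp only [map_add, k1, k2]
  module

omit hY in
theorem exists_not_semi : ∃ x a, Q x = 0 ∧ polar Q x a = 0 ∧
    ¬ ∃ s t : F, ∀ v, (eich Q x a).1 (J v) = s • (eich Q x a).1 v + t • J ((eich Q x a).1 v) := by
  obtain ⟨x, -, hx0, hx⟩ := quad_exists_sing Q (Z := ⊤) (by rw [finrank_top]; omega)
  have h6 := RootMax.finrank_span_pair_le (F := F) x (J x)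
  obtain ⟨a, h1, h2, -⟩ := exists_sing_out h.hQ (Submodule.span F {x, J x}) (by omega)
  have h3 := ko_of_mem h1
  obtain ⟨v, h4, h5⟩ := exists_dual_pair h.hQ h2
  refine ⟨x, a, hx, h3.1, fun ⟨s, t, e⟩ => ?_⟩
  have e1 := e x
  have e2 := e v
  rw [eich_apply_self, eich_apply_of_orth (h.ko_self hx).2 h3.2] at e1
  obtain ⟨k1, k2⟩ := h.eq_zero (p := 1 - t) (p' := s) hx0 (by linear_combination (norm := module) e1)
  rw [k2, ← sub_eq_zero.1 k1] at e2
  simp only [eich_ap hx h3.1, h5.1, (h.ko_J h5).1, h4, map_add, map_sub, map_smul] at e2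
  exact one_ne_zero (h.eq_zero (p := 1) (p' := polar Q a (J v)) hx0
    (by linear_combination (norm := module) -e2)).1

end UData

/-- The unitary group over a quadratic extension field is maximal in `Ω`. -/
theorem omega_unitary [Finite F] {ι : Type} [Fintype ι] [DecidableEq ι]
    (Q : QuadraticForm F (ι → F)) (hQ : Nondeg Q) (h10 : 10 ≤ Fintype.card ι)
    (K : Subalgebra F (Matrix ι ι F)) (hK : Cfsg.Geo.IsFieldSubalgebra 2 K)
    (hac : Cfsg.Geo.IsAdjointClosedFor (polar Q) K) (hnsa : ¬ Cfsg.Geo.IsSelfAdjointFor (polar Q) K)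
    (hsc : ∀ k ∈ K, ∃ c : F, ∀ v, Q (k *ᵥ v) = c * Q v) :
    Cfsg.Geo.IsMaximalIn (Cfsg.Geo.omegaGL (⇑Q))
      (Cfsg.Geo.subalgebraNormalizer K ⊓ Cfsg.Geo.omegaGL (⇑Q)) := by
  have : Nonempty ι := Fintype.card_pos_iff.1 (by omega)
  have h10' : 10 ≤ finrank F (ι → F) := by rwa [finrank_fintype_fun_eq_card]
  obtain ⟨J, hJ, hJ'⟩ : ∃ J ∈ K, ¬ ∀ u v, polar Q (J *ᵥ u) v = polar Q u (J *ᵥ v) := by
    by_contra hc
    push Not at hc
    exact hnsa hc
  have ind : ∀ s t : F, s • (1 : Matrix ι ι F) + t • J = 0 → s = 0 ∧ t = 0 := by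
    intro s t e
    have ht : t = 0 := by
      by_contra ht
      have : J = (-(s / t)) • (1 : Matrix ι ι F) := by
        rw [← inv_smul_smul₀ ht J, eq_neg_of_add_eq_zero_right e]
        match_scalars; field_simp
      exact hJ' fun u v => by simp [this, smul_mulVec, neg_mulVec]
    simpa [ht] using e
  have sp : ∀ k ∈ K, ∃ s t : F, k = s • (1 : Matrix ι ι F) + t • J := by
    intro k hk
    have h1 : LinearIndependent F ![(1 : K), ⟨J, hJ⟩] := LinearIndependent.pair_iff.2 fun s t e =>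
      ind s t (congrArg Subtype.val e)
    have h2 := h1.span_eq_top_of_card_eq_finrank' (by simp [hK.finrank_eq])
    have h3 : (⟨k, hk⟩ : K) ∈ Submodule.span F {(1 : K), ⟨J, hJ⟩} := by
      rw [← Matrix.range_cons_cons_empty, h2]; trivial
    obtain ⟨s, t, e⟩ := Submodule.mem_span_pair.1 h3
    exact ⟨s, t, (congrArg Subtype.val e).symm⟩
  obtain ⟨N', T, hJJ⟩ := sp _ (K.mul_mem hJ hJ)
  obtain ⟨J', hJ'K, hadj⟩ := hac J hJ
  obtain ⟨a, b, rfl⟩ := sp J' hJ'K
  have ext : ∀ s t : F, (∀ u v, s * polar Q u v + t * polar Q u (J *ᵥ v) = 0) → s = 0 ∧ t = 0 :=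
    fun s t e => ind s t (Asch.eq_zero_of_forall_mulVec fun v => hQ _ fun u => by
      rw [polar_comm]; simpa [add_mulVec, smul_mulVec] using e u v)
  have hJJ' : ∀ v, J *ᵥ (J *ᵥ v) = N' • v + T • J *ᵥ v := fun v => by
    rw [mulVec_mulVec, hJJ]; simp [add_mulVec, smul_mulVec]
  have hadj' : ∀ u v, polar Q (J *ᵥ u) v = a * polar Q u v + b * polar Q u (J *ᵥ v) :=
    fun u v => by rw [hadj]; simp [add_mulVec, smul_mulVec]
  have pol : ∀ (k : Matrix ι ι F) (c : F), (∀ v, Q (k *ᵥ v) = c * Q v) → ∀ u v,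
      polar Q (k *ᵥ u) (k *ᵥ v) = c * polar Q u v := fun k c hc u v => by
    simp only [polar, ← mulVec_add, hc]; ring
  obtain ⟨N, hN⟩ := hsc J hJ
  obtain ⟨e1, e2⟩ := ext (b * N' - N) (a + b * T) fun u v => by
    have := pol J N hN u v
    rw [hadj', hJJ', polar_add_right, polar_smul_right, polar_smul_right] at this
    simp only [smul_eq_mul] at this
    linear_combination this
  obtain ⟨e3, e4⟩ := ext (a + a * b) (b * b - 1) fun u v => by
    have h1 := hadj' u v
    have h2 := hadj' v u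
    rw [polar_comm Q (J *ᵥ v), polar_comm Q v u, polar_comm Q v] at h2
    linear_combination -h2 - b * h1
  have hb : b = -1 := by
    by_contra hb
    have h1 : b = 1 := by
      have : (b + 1) * (b - 1) = 0 := by linear_combination e4
      exact sub_eq_zero.1 ((mul_eq_zero.1 this).resolve_left fun h => hb (eq_neg_of_add_eq_zero_left h))
    have h2 : a = 0 := by
      have : (b + 1) * a = 0 := by linear_combination e3
      exact (mul_eq_zero.1 this).resolve_left fun h => hb (eq_neg_of_add_eq_zero_left h)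
    exact hJ' fun u v => by rw [hadj', h1, h2]; simp
  subst hb
  have ha : a = T := by linear_combination e2
  have hN' : N' = -N := by linear_combination -e1
  subst ha hN'
  obtain ⟨c, hc⟩ := hsc (1 + J) (K.add_mem K.one_mem hJ)
  obtain ⟨e5, -⟩ := ext (1 + a + N - c) 0 fun u v => by
    have := pol _ c hc u v
    simp only [add_mulVec, one_mulVec, polar_add_left, polar_add_right, pol J N hN, hadj'] at this
    linear_combination this
  have h : UData Q (Matrix.toLin' J) a N := ⟨hQ, fun v => by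
      simp only [toLin'_apply, hJJ']; module, fun u v => by
      simp only [toLin'_apply, hadj']; ring, hN, fun v => by
      have := hc v
      rw [add_mulVec, one_mulVec, Q_add, hN, polar_comm] at this
      rw [toLin'_apply]
      linear_combination this - Q v * e5, fun p p' e => by
      by_contra hp
      have h1 : (-p') • (1 : Matrix ι ι F) + p • J ≠ 0 := fun h0 =>
        hp ⟨(ind _ _ h0).2, neg_eq_zero.1 (ind _ _ h0).1⟩
      obtain ⟨y, hy, hy'⟩ := hK.inv _ (K.add_mem (K.smul_mem K.one_mem _) (K.smul_mem hJ _)) h1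
      have h2 : ((p * a - p') • (1 : Matrix ι ι F) + (-p) • J) * ((-p') • 1 + p • J) = 0 := by
        simp only [add_mul, mul_add, smul_mul_smul_comm, one_mul, mul_one, hJJ]
        linear_combination (norm := module) e • (1 : Matrix ι ι F)
      have h3 := congrArg (· * y) h2
      simp only [mul_assoc, hy', mul_one, zero_mul] at h3
      obtain ⟨h4, h5⟩ := ind _ _ h3
      exact hp ⟨neg_eq_zero.1 h5, by linear_combination -h4 - a * h5⟩⟩
  refine isMaximalIn_omega hQ (by omega) _ (fun g => ∃ s t : F, ∀ v,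
    g.1 (Matrix.toLin' J v) = s • g.1 v + t • Matrix.toLin' J (g.1 v)) (fun g k e => ?_)
    (h.exists_not_semi h10') fun X _ hY g hg hgY => ?_
  · refine with_ext_field hK fun L _ _ _ _ _ _ _ h1 h2 h3 => ?_
    rw [h3 g k.1 (fun v => by rw [← e, toEquiv_apply])]
    constructor
    · intro hs
      obtain ⟨l, hl⟩ := h2 J hJ
      obtain ⟨l', hl'⟩ := hs l
      obtain ⟨m, hm, hm'⟩ := h1 l'
      obtain ⟨s, t, rfl⟩ := sp m hm
      exact ⟨s, t, fun v => by
        rw [toLin'_apply, ← hl, hl', hm']; simp [add_mulVec, smul_mulVec]⟩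
    · rintro ⟨s, t, hst⟩ l
      obtain ⟨m, hm, hm'⟩ := h1 l
      obtain ⟨s', t', rfl⟩ := sp m hm
      obtain ⟨l', hl'⟩ := h2 ((s' + t' * s) • 1 + (t' * t) • J)
        (K.add_mem (K.smul_mem K.one_mem _) (K.smul_mem hJ _))
      refine ⟨l', fun v => ?_⟩
      simp only [toLin'_apply] at hst
      simp only [hm', hl', add_mulVec, smul_mulVec, one_mulVec, map_add, map_smul, hst]
      module
  · by_contra hn
    exact hgY (h.semi_of_not_le h10' (fun g hg e => hY g hg ⟨0, 1, fun v => by simp only [e]; simp⟩)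
      hn hg)

end CfsgLib.OMax
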